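import Mathlib
import Cfsg.Prelude.Def_ChevStructure
import Cfsg.Agent.Helper18.AltPres

set_option autoImplicit false
set_option linter.unusedSectionVars false
set_option linter.unusedVariables false
set_option linter.unusedSimpArgs false

namespace Cfsg.Agent.Helper18.CoxGen

open Cfsg.Agent.Helper18.AltPres

section Words

variable {G : Type*} [Group G]

theorem chain_step (A B a b : G) (ha : a * a = 1) (hb : b * b = 1)
    (hab : a * b * a = b * a * b) (hB : Commute B a) (hA : Commute A b) :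
    (A * a * b * B) * a * (A * a * b * B)⁻¹ = b := by
  have hai : a⁻¹ = a := inv_of_sq a ha
  have hbi : b⁻¹ = b := inv_of_sq b hb
  calc (A * a * b * B) * a * (A * a * b * B)⁻¹
      = A * a * b * (B * a) * B⁻¹ * b⁻¹ * a⁻¹ * A⁻¹ := by group
    _ = A * a * b * (a * B) * B⁻¹ * b⁻¹ * a⁻¹ * A⁻¹ := by rw [hB.eq]
    _ = A * a * b * (a * B) * B⁻¹ * b * a * A⁻¹ := by rw [hbi, hai]
    _ = A * ((a * b * a) * b * a) * A⁻¹ := by simp only [mul_assoc, mul_inv_cancel_left]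
    _ = A * ((b * a * b) * b * a) * A⁻¹ := by rw [hab]
    _ = A * b * (a * (b * b) * a) * A⁻¹ := by group
    _ = (A * b) * (a * a) * A⁻¹ := by rw [hb, mul_one]
    _ = b := by rw [ha, mul_one, hA.eq, mul_inv_cancel_right]

theorem cube_mid (a b c : G) (hb : b * b = 1) (hba : Commute b a) (hbc : Commute b c)
    (h : (a * c) ^ 3 = 1) : (a * b * c) ^ 3 = b := by
  have e : a * b * c = b * (a * c) := by rw [← hba.eq, mul_assoc]
  have hc : Commute b (a * c) := hba.mul_right hbc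
  rw [e, hc.mul_pow, h, mul_one, pow_succ, pow_two, hb, one_mul]

theorem branch_step (a b c : G) (ha : a * a = 1) (hb : b * b = 1) (hc : c * c = 1)
    (hac : Commute a c) (hbc : b * c * b = c * b * c) :
    c * (a * b)⁻¹ * c * (a * b) * c = b := by
  have hai := inv_of_sq a ha
  have hbi := inv_of_sq b hb
  calc c * (a * b)⁻¹ * c * (a * b) * c = c * b⁻¹ * a⁻¹ * c * a * b * c := by group
    _ = c * b * a * c * a * b * c := by rw [hbi, hai]
    _ = c * b * (a * c) * a * b * c := by group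
    _ = c * b * (c * a) * a * b * c := by rw [hac.eq]
    _ = c * b * c * (a * a) * b * c := by group
    _ = c * (b * c * b) * c := by rw [ha, mul_one]; group
    _ = c * (c * b * c) * c := by rw [hbc]
    _ = (c * c) * b * (c * c) := by group
    _ = b := by rw [hc, one_mul, mul_one]

theorem e_core (s0 s1 s2 s3 R : G) (H : Subgroup G)
    (q0 : s0 * s0 = 1) (q1 : s1 * s1 = 1) (q2 : s2 * s2 = 1) (q3 : s3 * s3 = 1)
    (c10 : Commute s1 s0) (c12 : Commute s1 s2) (c03 : Commute s0 s3)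
    (b02 : (s0 * s2) ^ 3 = 1) (b23 : s2 * s3 * s2 = s3 * s2 * s3)
    (hw : s0 * s1 * s2 * (s3 * R) ∈ H) (h3 : s3 ∈ H) (hR : R ∈ H) :
    s0 ∈ H ∧ s1 ∈ H ∧ s2 ∈ H := by
  have hy : s0 * s1 * s2 ∈ H := by
    have e : s0 * s1 * s2 = (s0 * s1 * s2 * (s3 * R)) * (s3 * R)⁻¹ := by group
    rw [e]
    exact H.mul_mem hw (H.inv_mem (H.mul_mem h3 hR))
  have h1 : s1 ∈ H := by
    rw [← cube_mid s0 s1 s2 q1 c10 c12 b02]
    exact H.pow_mem hy 3
  have hz : s0 * s2 ∈ H := by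
    have e : s0 * s2 = s1 * (s0 * s1 * s2) := by
      calc s0 * s2 = s0 * (s1 * s1) * s2 := by rw [q1, mul_one]
        _ = (s0 * s1) * s1 * s2 := by group
        _ = (s1 * s0) * s1 * s2 := by rw [c10.eq]
        _ = s1 * (s0 * s1 * s2) := by group
    rw [e]
    exact H.mul_mem h1 hy
  have h2 : s2 ∈ H := by
    rw [← branch_step s0 s2 s3 q0 q2 q3 c03 b23]
    exact H.mul_mem (H.mul_mem (H.mul_mem (H.mul_mem h3 (H.inv_mem hz)) h3) hz) h3
  have h0 : s0 ∈ H := by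
    have e : s0 = (s0 * s2) * s2⁻¹ := by group
    rw [e]
    exact H.mul_mem hz (H.inv_mem h2)
  exact ⟨h0, h1, h2⟩

theorem gen2_core (s0 s1 : G) (H : Subgroup G) (hw : s0 * s1 ∈ H) (h0 : s0 ∈ H) : s1 ∈ H := by
  have e : s1 = s0⁻¹ * (s0 * s1) := by group
  rw [e]
  exact H.mul_mem (H.inv_mem h0) hw

theorem gen4_core (s0 s1 s2 s3 : G) (H : Subgroup G) (q0 : s0 * s0 = 1) (q1 : s1 * s1 = 1)
    (b01 : s0 * s1 * s0 = s1 * s0 * s1) (c20 : Commute s2 s0) (c30 : Commute s3 s0)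
    (hw : s0 * s1 * s2 * s3 ∈ H) (h0 : s0 ∈ H) (h2 : s2 ∈ H) : s1 ∈ H ∧ s3 ∈ H := by
  have h1 : s1 ∈ H := by
    have e := chain_step (1 : G) (s2 * s3) s0 s1 q0 q1 b01 (c20.mul_left c30)
      (Commute.one_left _)
    have e' : 1 * s0 * s1 * (s2 * s3) = s0 * s1 * s2 * s3 := by
      simp only [one_mul, mul_assoc]
    rw [e'] at e
    rw [← e]
    exact H.mul_mem (H.mul_mem hw h0) (H.inv_mem hw)
  refine ⟨h1, ?_⟩
  have e : s3 = s2⁻¹ * s1⁻¹ * s0⁻¹ * (s0 * s1 * s2 * s3) := by group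
  rw [e]
  exact H.mul_mem (H.mul_mem (H.mul_mem (H.inv_mem h2) (H.inv_mem h1)) (H.inv_mem h0)) hw

end Words

section Cox

variable {n : ℕ} (M : CoxeterMatrix (Fin n))

theorem sq (i : Fin n) : M.simple i * M.simple i = 1 := by
  have h := M.toCoxeterSystem.simple_mul_simple_self i
  rw [CoxeterMatrix.toCoxeterSystem_simple] at h
  exact h

theorem pw (i j : Fin n) : (M.simple i * M.simple j) ^ M i j = 1 := by
  have h1 := M.toCoxeterSystem.simple_mul_simple_pow i j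
  rw [CoxeterMatrix.toCoxeterSystem_simple] at h1
  exact h1

theorem cm (i j : Fin n) (h : M i j = 2) : Commute (M.simple i) (M.simple j) := by
  have h1 := pw M i j
  rw [h] at h1
  exact comm_of_sq _ _ (sq M i) (sq M j) h1

theorem br (i j : Fin n) (h : M i j = 3) :
    M.simple i * M.simple j * M.simple i = M.simple j * M.simple i * M.simple j := by
  have h1 := pw M i j
  rw [h] at h1
  exact braid_of_cube _ _ (sq M i) (sq M j) h1

theorem gen_top (S : Set M.Group) (h : ∀ i, M.simple i ∈ Subgroup.closure S) :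
    Subgroup.closure S = ⊤ := by
  rw [eq_top_iff, ← M.toCoxeterSystem.subgroup_closure_range_simple, Subgroup.closure_le]
  rintro _ ⟨i, rfl⟩
  rw [CoxeterMatrix.toCoxeterSystem_simple]
  exact h i

end Cox

theorem gen2 (M : CoxeterMatrix (Fin 2)) : ∃ T : Finset M.Group, T.card = 1 ∧
    (∀ t ∈ T, ∃ (g : M.Group) (i : Fin 2), t = g * M.simple i * g⁻¹) ∧
    Subgroup.closure (({((List.finRange 2).map M.simple).prod} : Set M.Group) ∪ ↑T) = ⊤ := by
  refine ⟨{M.simple 0}, Finset.card_singleton _, ?_, ?_⟩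
  · intro t ht
    rw [Finset.mem_singleton] at ht
    exact ⟨1, 0, by rw [ht]; group⟩
  · have hw : ((List.finRange 2).map M.simple).prod = M.simple 0 * M.simple 1 := by
      have e : List.finRange 2 = [0, 1] := rfl
      rw [e]
      simp only [List.map_cons, List.map_nil, List.prod_cons, List.prod_nil, mul_one]
    rw [hw]
    apply gen_top
    have h0 : M.simple 0 ∈ Subgroup.closure (({M.simple 0 * M.simple 1} : Set M.Group) ∪
        ↑({M.simple 0} : Finset M.Group)) := Subgroup.subset_closure (Or.inr (by simp))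
    have hwm : M.simple 0 * M.simple 1 ∈ Subgroup.closure
        (({M.simple 0 * M.simple 1} : Set M.Group) ∪ ↑({M.simple 0} : Finset M.Group)) :=
      Subgroup.subset_closure (Or.inl rfl)
    have h1 : M.simple 1 ∈ Subgroup.closure (({M.simple 0 * M.simple 1} : Set M.Group) ∪
        ↑({M.simple 0} : Finset M.Group)) := gen2_core _ _ _ hwm h0
    intro i
    fin_cases i
    · exact h0
    · exact h1

theorem gen4 (M : CoxeterMatrix (Fin 4)) (h01 : M 0 1 = 3) (h20 : M 2 0 = 2) (h30 : M 3 0 = 2)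
    (hne : M.simple 0 ≠ M.simple 2) : ∃ T : Finset M.Group, T.card = 2 ∧
    (∀ t ∈ T, ∃ (g : M.Group) (i : Fin 4), t = g * M.simple i * g⁻¹) ∧
    Subgroup.closure (({((List.finRange 4).map M.simple).prod} : Set M.Group) ∪ ↑T) = ⊤ := by
  classical
  refine ⟨{M.simple 0, M.simple 2}, Finset.card_pair hne, ?_, ?_⟩
  · intro t ht
    rw [Finset.mem_insert, Finset.mem_singleton] at ht
    rcases ht with rfl | rfl
    · exact ⟨1, 0, by group⟩
    · exact ⟨1, 2, by group⟩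
  · have hw : ((List.finRange 4).map M.simple).prod =
        M.simple 0 * M.simple 1 * M.simple 2 * M.simple 3 := by
      have e : List.finRange 4 = [0, 1, 2, 3] := rfl
      rw [e]
      simp only [List.map_cons, List.map_nil, List.prod_cons, List.prod_nil, mul_one, mul_assoc]
    rw [hw]
    apply gen_top
    have hwm : M.simple 0 * M.simple 1 * M.simple 2 * M.simple 3 ∈ Subgroup.closure
        (({M.simple 0 * M.simple 1 * M.simple 2 * M.simple 3} : Set M.Group) ∪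
          ↑({M.simple 0, M.simple 2} : Finset M.Group)) :=
      Subgroup.subset_closure (Or.inl rfl)
    have h0 : M.simple 0 ∈ Subgroup.closure
        (({M.simple 0 * M.simple 1 * M.simple 2 * M.simple 3} : Set M.Group) ∪
          ↑({M.simple 0, M.simple 2} : Finset M.Group)) :=
      Subgroup.subset_closure (Or.inr (by simp))
    have h2 : M.simple 2 ∈ Subgroup.closure
        (({M.simple 0 * M.simple 1 * M.simple 2 * M.simple 3} : Set M.Group) ∪
          ↑({M.simple 0, M.simple 2} : Finset M.Group)) :=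
      Subgroup.subset_closure (Or.inr (by simp))
    obtain ⟨h1, h3⟩ := gen4_core (M.simple 0) (M.simple 1) (M.simple 2) (M.simple 3) _
      (sq M 0) (sq M 1) (br M 0 1 h01) (cm M 2 0 h20) (cm M 3 0 h30) hwm h0 h2
    intro i
    fin_cases i
    · exact h0
    · exact h1
    · exact h2
    · exact h3

theorem d4_ne : Cfsg.Lie.coxeterD4.simple 0 ≠ Cfsg.Lie.coxeterD4.simple 2 := by
  let f : Fin 4 → Equiv.Perm (Fin 4) :=
    ![Equiv.swap 0 1, Equiv.swap 1 2, Equiv.swap 2 3, Equiv.swap 2 3]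
  have hf : Cfsg.Lie.coxeterD4.IsLiftable f := by
    unfold CoxeterMatrix.IsLiftable
    decide
  intro h
  have h1 := congrArg (Cfsg.Lie.coxeterD4.toCoxeterSystem.lift ⟨f, hf⟩) h
  rw [← CoxeterMatrix.toCoxeterSystem_simple, CoxeterSystem.lift_apply_simple,
    CoxeterSystem.lift_apply_simple] at h1
  revert h1
  decide

theorem f4_ne : CoxeterMatrix.F₄.simple 0 ≠ CoxeterMatrix.F₄.simple 2 := by
  let f : Fin 4 → ℤˣ := ![1, 1, -1, -1]
  have hf : CoxeterMatrix.F₄.IsLiftable f := by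
    unfold CoxeterMatrix.IsLiftable
    decide
  intro h
  have h1 := congrArg (CoxeterMatrix.F₄.toCoxeterSystem.lift ⟨f, hf⟩) h
  rw [← CoxeterMatrix.toCoxeterSystem_simple, CoxeterSystem.lift_apply_simple,
    CoxeterSystem.lift_apply_simple] at h1
  revert h1
  decide

theorem genE6 : ∃ T : Finset CoxeterMatrix.E₆.Group, T.card = 1 ∧
    (∀ t ∈ T, ∃ (g : CoxeterMatrix.E₆.Group) (i : Fin 6), t = g * CoxeterMatrix.E₆.simple i * g⁻¹) ∧
    Subgroup.closure (({((List.finRange 6).map CoxeterMatrix.E₆.simple).prod} : Set CoxeterMatrix.E₆.Group) ∪ ↑T) = ⊤ := by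
  refine ⟨{CoxeterMatrix.E₆.simple 3}, Finset.card_singleton _, ?_, ?_⟩
  · intro t ht
    rw [Finset.mem_singleton] at ht
    exact ⟨1, 3, by rw [ht]; group⟩
  · have hw : ((List.finRange 6).map CoxeterMatrix.E₆.simple).prod =
        CoxeterMatrix.E₆.simple 0 * CoxeterMatrix.E₆.simple 1 * CoxeterMatrix.E₆.simple 2 * CoxeterMatrix.E₆.simple 3 * CoxeterMatrix.E₆.simple 4 * CoxeterMatrix.E₆.simple 5 := by
      have e : List.finRange 6 = [0, 1, 2, 3, 4, 5] := rfl
      rw [e]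
      simp only [List.map_cons, List.map_nil, List.prod_cons, List.prod_nil, mul_one, mul_assoc]
    rw [hw]
    apply gen_top
    have key : ∀ H : Subgroup CoxeterMatrix.E₆.Group,
        CoxeterMatrix.E₆.simple 0 * CoxeterMatrix.E₆.simple 1 * CoxeterMatrix.E₆.simple 2 * CoxeterMatrix.E₆.simple 3 * CoxeterMatrix.E₆.simple 4 * CoxeterMatrix.E₆.simple 5 ∈ H →
        CoxeterMatrix.E₆.simple 3 ∈ H → ∀ i, CoxeterMatrix.E₆.simple i ∈ H := by
      intro H hw h3
      have h4 : CoxeterMatrix.E₆.simple 4 ∈ H := by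
        have e := chain_step (CoxeterMatrix.E₆.simple 0 * CoxeterMatrix.E₆.simple 1 * CoxeterMatrix.E₆.simple 2) (CoxeterMatrix.E₆.simple 5)
          (CoxeterMatrix.E₆.simple 3) (CoxeterMatrix.E₆.simple 4) (sq CoxeterMatrix.E₆ 3) (sq CoxeterMatrix.E₆ 4)
          (br CoxeterMatrix.E₆ 3 4 (by decide))
          (cm CoxeterMatrix.E₆ 5 3 (by decide))
          (((cm CoxeterMatrix.E₆ 0 4 (by decide)).mul_left (cm CoxeterMatrix.E₆ 1 4 (by decide))).mul_left (cm CoxeterMatrix.E₆ 2 4 (by decide)))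
        have e' : CoxeterMatrix.E₆.simple 0 * CoxeterMatrix.E₆.simple 1 * CoxeterMatrix.E₆.simple 2 * CoxeterMatrix.E₆.simple 3 * CoxeterMatrix.E₆.simple 4 * (CoxeterMatrix.E₆.simple 5) =
            CoxeterMatrix.E₆.simple 0 * CoxeterMatrix.E₆.simple 1 * CoxeterMatrix.E₆.simple 2 * CoxeterMatrix.E₆.simple 3 * CoxeterMatrix.E₆.simple 4 * CoxeterMatrix.E₆.simple 5 := by
          simp only [mul_one, mul_assoc]
        rw [e'] at e
        rw [← e]
        exact H.mul_mem (H.mul_mem hw h3) (H.inv_mem hw)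
      have h5 : CoxeterMatrix.E₆.simple 5 ∈ H := by
        have e := chain_step (CoxeterMatrix.E₆.simple 0 * CoxeterMatrix.E₆.simple 1 * CoxeterMatrix.E₆.simple 2 * CoxeterMatrix.E₆.simple 3) ((1 : CoxeterMatrix.E₆.Group))
          (CoxeterMatrix.E₆.simple 4) (CoxeterMatrix.E₆.simple 5) (sq CoxeterMatrix.E₆ 4) (sq CoxeterMatrix.E₆ 5)
          (br CoxeterMatrix.E₆ 4 5 (by decide))
          (Commute.one_left _)
          ((((cm CoxeterMatrix.E₆ 0 5 (by decide)).mul_left (cm CoxeterMatrix.E₆ 1 5 (by decide))).mul_left (cm CoxeterMatrix.E₆ 2 5 (by decide))).mul_left (cm CoxeterMatrix.E₆ 3 5 (by decide)))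
        have e' : CoxeterMatrix.E₆.simple 0 * CoxeterMatrix.E₆.simple 1 * CoxeterMatrix.E₆.simple 2 * CoxeterMatrix.E₆.simple 3 * CoxeterMatrix.E₆.simple 4 * CoxeterMatrix.E₆.simple 5 * ((1 : CoxeterMatrix.E₆.Group)) =
            CoxeterMatrix.E₆.simple 0 * CoxeterMatrix.E₆.simple 1 * CoxeterMatrix.E₆.simple 2 * CoxeterMatrix.E₆.simple 3 * CoxeterMatrix.E₆.simple 4 * CoxeterMatrix.E₆.simple 5 := by
          simp only [mul_one, mul_assoc]
        rw [e'] at e
        rw [← e]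
        exact H.mul_mem (H.mul_mem hw h4) (H.inv_mem hw)
      have hR : CoxeterMatrix.E₆.simple 4 * CoxeterMatrix.E₆.simple 5 ∈ H := (H.mul_mem h4 h5)
      have hw' : CoxeterMatrix.E₆.simple 0 * CoxeterMatrix.E₆.simple 1 * CoxeterMatrix.E₆.simple 2 * (CoxeterMatrix.E₆.simple 3 * (CoxeterMatrix.E₆.simple 4 * CoxeterMatrix.E₆.simple 5)) ∈ H := by
        have e : CoxeterMatrix.E₆.simple 0 * CoxeterMatrix.E₆.simple 1 * CoxeterMatrix.E₆.simple 2 * (CoxeterMatrix.E₆.simple 3 * (CoxeterMatrix.E₆.simple 4 * CoxeterMatrix.E₆.simple 5)) =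
            CoxeterMatrix.E₆.simple 0 * CoxeterMatrix.E₆.simple 1 * CoxeterMatrix.E₆.simple 2 * CoxeterMatrix.E₆.simple 3 * CoxeterMatrix.E₆.simple 4 * CoxeterMatrix.E₆.simple 5 := by
          simp only [mul_assoc]
        rw [e]
        exact hw
      obtain ⟨h0, h1, h2⟩ := e_core (CoxeterMatrix.E₆.simple 0) (CoxeterMatrix.E₆.simple 1) (CoxeterMatrix.E₆.simple 2) (CoxeterMatrix.E₆.simple 3) (CoxeterMatrix.E₆.simple 4 * CoxeterMatrix.E₆.simple 5) H
        (sq CoxeterMatrix.E₆ 0) (sq CoxeterMatrix.E₆ 1) (sq CoxeterMatrix.E₆ 2) (sq CoxeterMatrix.E₆ 3) (cm CoxeterMatrix.E₆ 1 0 (by decide)) (cm CoxeterMatrix.E₆ 1 2 (by decide))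
        (cm CoxeterMatrix.E₆ 0 3 (by decide)) (pw CoxeterMatrix.E₆ 0 2) (br CoxeterMatrix.E₆ 2 3 (by decide)) hw' h3 hR
      intro i
      fin_cases i
      · exact h0
      · exact h1
      · exact h2
      · exact h3
      · exact h4
      · exact h5
    exact key _ (Subgroup.subset_closure (Or.inl rfl)) (Subgroup.subset_closure (Or.inr (by simp)))

theorem genE7 : ∃ T : Finset CoxeterMatrix.E₇.Group, T.card = 1 ∧
    (∀ t ∈ T, ∃ (g : CoxeterMatrix.E₇.Group) (i : Fin 7), t = g * CoxeterMatrix.E₇.simple i * g⁻¹) ∧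
    Subgroup.closure (({((List.finRange 7).map CoxeterMatrix.E₇.simple).prod} : Set CoxeterMatrix.E₇.Group) ∪ ↑T) = ⊤ := by
  refine ⟨{CoxeterMatrix.E₇.simple 3}, Finset.card_singleton _, ?_, ?_⟩
  · intro t ht
    rw [Finset.mem_singleton] at ht
    exact ⟨1, 3, by rw [ht]; group⟩
  · have hw : ((List.finRange 7).map CoxeterMatrix.E₇.simple).prod =
        CoxeterMatrix.E₇.simple 0 * CoxeterMatrix.E₇.simple 1 * CoxeterMatrix.E₇.simple 2 * CoxeterMatrix.E₇.simple 3 * CoxeterMatrix.E₇.simple 4 * CoxeterMatrix.E₇.simple 5 * CoxeterMatrix.E₇.simple 6 := by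
      have e : List.finRange 7 = [0, 1, 2, 3, 4, 5, 6] := rfl
      rw [e]
      simp only [List.map_cons, List.map_nil, List.prod_cons, List.prod_nil, mul_one, mul_assoc]
    rw [hw]
    apply gen_top
    have key : ∀ H : Subgroup CoxeterMatrix.E₇.Group,
        CoxeterMatrix.E₇.simple 0 * CoxeterMatrix.E₇.simple 1 * CoxeterMatrix.E₇.simple 2 * CoxeterMatrix.E₇.simple 3 * CoxeterMatrix.E₇.simple 4 * CoxeterMatrix.E₇.simple 5 * CoxeterMatrix.E₇.simple 6 ∈ H →
        CoxeterMatrix.E₇.simple 3 ∈ H → ∀ i, CoxeterMatrix.E₇.simple i ∈ H := by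
      intro H hw h3
      have h4 : CoxeterMatrix.E₇.simple 4 ∈ H := by
        have e := chain_step (CoxeterMatrix.E₇.simple 0 * CoxeterMatrix.E₇.simple 1 * CoxeterMatrix.E₇.simple 2) (CoxeterMatrix.E₇.simple 5 * CoxeterMatrix.E₇.simple 6)
          (CoxeterMatrix.E₇.simple 3) (CoxeterMatrix.E₇.simple 4) (sq CoxeterMatrix.E₇ 3) (sq CoxeterMatrix.E₇ 4)
          (br CoxeterMatrix.E₇ 3 4 (by decide))
          ((cm CoxeterMatrix.E₇ 5 3 (by decide)).mul_left (cm CoxeterMatrix.E₇ 6 3 (by decide)))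
          (((cm CoxeterMatrix.E₇ 0 4 (by decide)).mul_left (cm CoxeterMatrix.E₇ 1 4 (by decide))).mul_left (cm CoxeterMatrix.E₇ 2 4 (by decide)))
        have e' : CoxeterMatrix.E₇.simple 0 * CoxeterMatrix.E₇.simple 1 * CoxeterMatrix.E₇.simple 2 * CoxeterMatrix.E₇.simple 3 * CoxeterMatrix.E₇.simple 4 * (CoxeterMatrix.E₇.simple 5 * CoxeterMatrix.E₇.simple 6) =
            CoxeterMatrix.E₇.simple 0 * CoxeterMatrix.E₇.simple 1 * CoxeterMatrix.E₇.simple 2 * CoxeterMatrix.E₇.simple 3 * CoxeterMatrix.E₇.simple 4 * CoxeterMatrix.E₇.simple 5 * CoxeterMatrix.E₇.simple 6 := by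
          simp only [mul_one, mul_assoc]
        rw [e'] at e
        rw [← e]
        exact H.mul_mem (H.mul_mem hw h3) (H.inv_mem hw)
      have h5 : CoxeterMatrix.E₇.simple 5 ∈ H := by
        have e := chain_step (CoxeterMatrix.E₇.simple 0 * CoxeterMatrix.E₇.simple 1 * CoxeterMatrix.E₇.simple 2 * CoxeterMatrix.E₇.simple 3) (CoxeterMatrix.E₇.simple 6)
          (CoxeterMatrix.E₇.simple 4) (CoxeterMatrix.E₇.simple 5) (sq CoxeterMatrix.E₇ 4) (sq CoxeterMatrix.E₇ 5)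
          (br CoxeterMatrix.E₇ 4 5 (by decide))
          (cm CoxeterMatrix.E₇ 6 4 (by decide))
          ((((cm CoxeterMatrix.E₇ 0 5 (by decide)).mul_left (cm CoxeterMatrix.E₇ 1 5 (by decide))).mul_left (cm CoxeterMatrix.E₇ 2 5 (by decide))).mul_left (cm CoxeterMatrix.E₇ 3 5 (by decide)))
        have e' : CoxeterMatrix.E₇.simple 0 * CoxeterMatrix.E₇.simple 1 * CoxeterMatrix.E₇.simple 2 * CoxeterMatrix.E₇.simple 3 * CoxeterMatrix.E₇.simple 4 * CoxeterMatrix.E₇.simple 5 * (CoxeterMatrix.E₇.simple 6) =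
            CoxeterMatrix.E₇.simple 0 * CoxeterMatrix.E₇.simple 1 * CoxeterMatrix.E₇.simple 2 * CoxeterMatrix.E₇.simple 3 * CoxeterMatrix.E₇.simple 4 * CoxeterMatrix.E₇.simple 5 * CoxeterMatrix.E₇.simple 6 := by
          simp only [mul_one, mul_assoc]
        rw [e'] at e
        rw [← e]
        exact H.mul_mem (H.mul_mem hw h4) (H.inv_mem hw)
      have h6 : CoxeterMatrix.E₇.simple 6 ∈ H := by
        have e := chain_step (CoxeterMatrix.E₇.simple 0 * CoxeterMatrix.E₇.simple 1 * CoxeterMatrix.E₇.simple 2 * CoxeterMatrix.E₇.simple 3 * CoxeterMatrix.E₇.simple 4) ((1 : CoxeterMatrix.E₇.Group))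
          (CoxeterMatrix.E₇.simple 5) (CoxeterMatrix.E₇.simple 6) (sq CoxeterMatrix.E₇ 5) (sq CoxeterMatrix.E₇ 6)
          (br CoxeterMatrix.E₇ 5 6 (by decide))
          (Commute.one_left _)
          (((((cm CoxeterMatrix.E₇ 0 6 (by decide)).mul_left (cm CoxeterMatrix.E₇ 1 6 (by decide))).mul_left (cm CoxeterMatrix.E₇ 2 6 (by decide))).mul_left (cm CoxeterMatrix.E₇ 3 6 (by decide))).mul_left (cm CoxeterMatrix.E₇ 4 6 (by decide)))
        have e' : CoxeterMatrix.E₇.simple 0 * CoxeterMatrix.E₇.simple 1 * CoxeterMatrix.E₇.simple 2 * CoxeterMatrix.E₇.simple 3 * CoxeterMatrix.E₇.simple 4 * CoxeterMatrix.E₇.simple 5 * CoxeterMatrix.E₇.simple 6 * ((1 : CoxeterMatrix.E₇.Group)) =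
            CoxeterMatrix.E₇.simple 0 * CoxeterMatrix.E₇.simple 1 * CoxeterMatrix.E₇.simple 2 * CoxeterMatrix.E₇.simple 3 * CoxeterMatrix.E₇.simple 4 * CoxeterMatrix.E₇.simple 5 * CoxeterMatrix.E₇.simple 6 := by
          simp only [mul_one, mul_assoc]
        rw [e'] at e
        rw [← e]
        exact H.mul_mem (H.mul_mem hw h5) (H.inv_mem hw)
      have hR : CoxeterMatrix.E₇.simple 4 * CoxeterMatrix.E₇.simple 5 * CoxeterMatrix.E₇.simple 6 ∈ H := (H.mul_mem (H.mul_mem h4 h5) h6)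
      have hw' : CoxeterMatrix.E₇.simple 0 * CoxeterMatrix.E₇.simple 1 * CoxeterMatrix.E₇.simple 2 * (CoxeterMatrix.E₇.simple 3 * (CoxeterMatrix.E₇.simple 4 * CoxeterMatrix.E₇.simple 5 * CoxeterMatrix.E₇.simple 6)) ∈ H := by
        have e : CoxeterMatrix.E₇.simple 0 * CoxeterMatrix.E₇.simple 1 * CoxeterMatrix.E₇.simple 2 * (CoxeterMatrix.E₇.simple 3 * (CoxeterMatrix.E₇.simple 4 * CoxeterMatrix.E₇.simple 5 * CoxeterMatrix.E₇.simple 6)) =
            CoxeterMatrix.E₇.simple 0 * CoxeterMatrix.E₇.simple 1 * CoxeterMatrix.E₇.simple 2 * CoxeterMatrix.E₇.simple 3 * CoxeterMatrix.E₇.simple 4 * CoxeterMatrix.E₇.simple 5 * CoxeterMatrix.E₇.simple 6 := by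
          simp only [mul_assoc]
        rw [e]
        exact hw
      obtain ⟨h0, h1, h2⟩ := e_core (CoxeterMatrix.E₇.simple 0) (CoxeterMatrix.E₇.simple 1) (CoxeterMatrix.E₇.simple 2) (CoxeterMatrix.E₇.simple 3) (CoxeterMatrix.E₇.simple 4 * CoxeterMatrix.E₇.simple 5 * CoxeterMatrix.E₇.simple 6) H
        (sq CoxeterMatrix.E₇ 0) (sq CoxeterMatrix.E₇ 1) (sq CoxeterMatrix.E₇ 2) (sq CoxeterMatrix.E₇ 3) (cm CoxeterMatrix.E₇ 1 0 (by decide)) (cm CoxeterMatrix.E₇ 1 2 (by decide))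
        (cm CoxeterMatrix.E₇ 0 3 (by decide)) (pw CoxeterMatrix.E₇ 0 2) (br CoxeterMatrix.E₇ 2 3 (by decide)) hw' h3 hR
      intro i
      fin_cases i
      · exact h0
      · exact h1
      · exact h2
      · exact h3
      · exact h4
      · exact h5
      · exact h6
    exact key _ (Subgroup.subset_closure (Or.inl rfl)) (Subgroup.subset_closure (Or.inr (by simp)))

theorem genE8 : ∃ T : Finset CoxeterMatrix.E₈.Group, T.card = 1 ∧
    (∀ t ∈ T, ∃ (g : CoxeterMatrix.E₈.Group) (i : Fin 8), t = g * CoxeterMatrix.E₈.simple i * g⁻¹) ∧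
    Subgroup.closure (({((List.finRange 8).map CoxeterMatrix.E₈.simple).prod} : Set CoxeterMatrix.E₈.Group) ∪ ↑T) = ⊤ := by
  refine ⟨{CoxeterMatrix.E₈.simple 3}, Finset.card_singleton _, ?_, ?_⟩
  · intro t ht
    rw [Finset.mem_singleton] at ht
    exact ⟨1, 3, by rw [ht]; group⟩
  · have hw : ((List.finRange 8).map CoxeterMatrix.E₈.simple).prod =
        CoxeterMatrix.E₈.simple 0 * CoxeterMatrix.E₈.simple 1 * CoxeterMatrix.E₈.simple 2 * CoxeterMatrix.E₈.simple 3 * CoxeterMatrix.E₈.simple 4 * CoxeterMatrix.E₈.simple 5 * CoxeterMatrix.E₈.simple 6 * CoxeterMatrix.E₈.simple 7 := by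
      have e : List.finRange 8 = [0, 1, 2, 3, 4, 5, 6, 7] := rfl
      rw [e]
      simp only [List.map_cons, List.map_nil, List.prod_cons, List.prod_nil, mul_one, mul_assoc]
    rw [hw]
    apply gen_top
    have key : ∀ H : Subgroup CoxeterMatrix.E₈.Group,
        CoxeterMatrix.E₈.simple 0 * CoxeterMatrix.E₈.simple 1 * CoxeterMatrix.E₈.simple 2 * CoxeterMatrix.E₈.simple 3 * CoxeterMatrix.E₈.simple 4 * CoxeterMatrix.E₈.simple 5 * CoxeterMatrix.E₈.simple 6 * CoxeterMatrix.E₈.simple 7 ∈ H →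
        CoxeterMatrix.E₈.simple 3 ∈ H → ∀ i, CoxeterMatrix.E₈.simple i ∈ H := by
      intro H hw h3
      have h4 : CoxeterMatrix.E₈.simple 4 ∈ H := by
        have e := chain_step (CoxeterMatrix.E₈.simple 0 * CoxeterMatrix.E₈.simple 1 * CoxeterMatrix.E₈.simple 2) (CoxeterMatrix.E₈.simple 5 * CoxeterMatrix.E₈.simple 6 * CoxeterMatrix.E₈.simple 7)
          (CoxeterMatrix.E₈.simple 3) (CoxeterMatrix.E₈.simple 4) (sq CoxeterMatrix.E₈ 3) (sq CoxeterMatrix.E₈ 4)
          (br CoxeterMatrix.E₈ 3 4 (by decide))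
          (((cm CoxeterMatrix.E₈ 5 3 (by decide)).mul_left (cm CoxeterMatrix.E₈ 6 3 (by decide))).mul_left (cm CoxeterMatrix.E₈ 7 3 (by decide)))
          (((cm CoxeterMatrix.E₈ 0 4 (by decide)).mul_left (cm CoxeterMatrix.E₈ 1 4 (by decide))).mul_left (cm CoxeterMatrix.E₈ 2 4 (by decide)))
        have e' : CoxeterMatrix.E₈.simple 0 * CoxeterMatrix.E₈.simple 1 * CoxeterMatrix.E₈.simple 2 * CoxeterMatrix.E₈.simple 3 * CoxeterMatrix.E₈.simple 4 * (CoxeterMatrix.E₈.simple 5 * CoxeterMatrix.E₈.simple 6 * CoxeterMatrix.E₈.simple 7) =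
            CoxeterMatrix.E₈.simple 0 * CoxeterMatrix.E₈.simple 1 * CoxeterMatrix.E₈.simple 2 * CoxeterMatrix.E₈.simple 3 * CoxeterMatrix.E₈.simple 4 * CoxeterMatrix.E₈.simple 5 * CoxeterMatrix.E₈.simple 6 * CoxeterMatrix.E₈.simple 7 := by
          simp only [mul_one, mul_assoc]
        rw [e'] at e
        rw [← e]
        exact H.mul_mem (H.mul_mem hw h3) (H.inv_mem hw)
      have h5 : CoxeterMatrix.E₈.simple 5 ∈ H := by
        have e := chain_step (CoxeterMatrix.E₈.simple 0 * CoxeterMatrix.E₈.simple 1 * CoxeterMatrix.E₈.simple 2 * CoxeterMatrix.E₈.simple 3) (CoxeterMatrix.E₈.simple 6 * CoxeterMatrix.E₈.simple 7)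
          (CoxeterMatrix.E₈.simple 4) (CoxeterMatrix.E₈.simple 5) (sq CoxeterMatrix.E₈ 4) (sq CoxeterMatrix.E₈ 5)
          (br CoxeterMatrix.E₈ 4 5 (by decide))
          ((cm CoxeterMatrix.E₈ 6 4 (by decide)).mul_left (cm CoxeterMatrix.E₈ 7 4 (by decide)))
          ((((cm CoxeterMatrix.E₈ 0 5 (by decide)).mul_left (cm CoxeterMatrix.E₈ 1 5 (by decide))).mul_left (cm CoxeterMatrix.E₈ 2 5 (by decide))).mul_left (cm CoxeterMatrix.E₈ 3 5 (by decide)))
        have e' : CoxeterMatrix.E₈.simple 0 * CoxeterMatrix.E₈.simple 1 * CoxeterMatrix.E₈.simple 2 * CoxeterMatrix.E₈.simple 3 * CoxeterMatrix.E₈.simple 4 * CoxeterMatrix.E₈.simple 5 * (CoxeterMatrix.E₈.simple 6 * CoxeterMatrix.E₈.simple 7) =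
            CoxeterMatrix.E₈.simple 0 * CoxeterMatrix.E₈.simple 1 * CoxeterMatrix.E₈.simple 2 * CoxeterMatrix.E₈.simple 3 * CoxeterMatrix.E₈.simple 4 * CoxeterMatrix.E₈.simple 5 * CoxeterMatrix.E₈.simple 6 * CoxeterMatrix.E₈.simple 7 := by
          simp only [mul_one, mul_assoc]
        rw [e'] at e
        rw [← e]
        exact H.mul_mem (H.mul_mem hw h4) (H.inv_mem hw)
      have h6 : CoxeterMatrix.E₈.simple 6 ∈ H := by
        have e := chain_step (CoxeterMatrix.E₈.simple 0 * CoxeterMatrix.E₈.simple 1 * CoxeterMatrix.E₈.simple 2 * CoxeterMatrix.E₈.simple 3 * CoxeterMatrix.E₈.simple 4) (CoxeterMatrix.E₈.simple 7)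
          (CoxeterMatrix.E₈.simple 5) (CoxeterMatrix.E₈.simple 6) (sq CoxeterMatrix.E₈ 5) (sq CoxeterMatrix.E₈ 6)
          (br CoxeterMatrix.E₈ 5 6 (by decide))
          (cm CoxeterMatrix.E₈ 7 5 (by decide))
          (((((cm CoxeterMatrix.E₈ 0 6 (by decide)).mul_left (cm CoxeterMatrix.E₈ 1 6 (by decide))).mul_left (cm CoxeterMatrix.E₈ 2 6 (by decide))).mul_left (cm CoxeterMatrix.E₈ 3 6 (by decide))).mul_left (cm CoxeterMatrix.E₈ 4 6 (by decide)))
        have e' : CoxeterMatrix.E₈.simple 0 * CoxeterMatrix.E₈.simple 1 * CoxeterMatrix.E₈.simple 2 * CoxeterMatrix.E₈.simple 3 * CoxeterMatrix.E₈.simple 4 * CoxeterMatrix.E₈.simple 5 * CoxeterMatrix.E₈.simple 6 * (CoxeterMatrix.E₈.simple 7) =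
            CoxeterMatrix.E₈.simple 0 * CoxeterMatrix.E₈.simple 1 * CoxeterMatrix.E₈.simple 2 * CoxeterMatrix.E₈.simple 3 * CoxeterMatrix.E₈.simple 4 * CoxeterMatrix.E₈.simple 5 * CoxeterMatrix.E₈.simple 6 * CoxeterMatrix.E₈.simple 7 := by
          simp only [mul_one, mul_assoc]
        rw [e'] at e
        rw [← e]
        exact H.mul_mem (H.mul_mem hw h5) (H.inv_mem hw)
      have h7 : CoxeterMatrix.E₈.simple 7 ∈ H := by
        have e := chain_step (CoxeterMatrix.E₈.simple 0 * CoxeterMatrix.E₈.simple 1 * CoxeterMatrix.E₈.simple 2 * CoxeterMatrix.E₈.simple 3 * CoxeterMatrix.E₈.simple 4 * CoxeterMatrix.E₈.simple 5) ((1 : CoxeterMatrix.E₈.Group))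
          (CoxeterMatrix.E₈.simple 6) (CoxeterMatrix.E₈.simple 7) (sq CoxeterMatrix.E₈ 6) (sq CoxeterMatrix.E₈ 7)
          (br CoxeterMatrix.E₈ 6 7 (by decide))
          (Commute.one_left _)
          ((((((cm CoxeterMatrix.E₈ 0 7 (by decide)).mul_left (cm CoxeterMatrix.E₈ 1 7 (by decide))).mul_left (cm CoxeterMatrix.E₈ 2 7 (by decide))).mul_left (cm CoxeterMatrix.E₈ 3 7 (by decide))).mul_left (cm CoxeterMatrix.E₈ 4 7 (by decide))).mul_left (cm CoxeterMatrix.E₈ 5 7 (by decide)))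
        have e' : CoxeterMatrix.E₈.simple 0 * CoxeterMatrix.E₈.simple 1 * CoxeterMatrix.E₈.simple 2 * CoxeterMatrix.E₈.simple 3 * CoxeterMatrix.E₈.simple 4 * CoxeterMatrix.E₈.simple 5 * CoxeterMatrix.E₈.simple 6 * CoxeterMatrix.E₈.simple 7 * ((1 : CoxeterMatrix.E₈.Group)) =
            CoxeterMatrix.E₈.simple 0 * CoxeterMatrix.E₈.simple 1 * CoxeterMatrix.E₈.simple 2 * CoxeterMatrix.E₈.simple 3 * CoxeterMatrix.E₈.simple 4 * CoxeterMatrix.E₈.simple 5 * CoxeterMatrix.E₈.simple 6 * CoxeterMatrix.E₈.simple 7 := by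
          simp only [mul_one, mul_assoc]
        rw [e'] at e
        rw [← e]
        exact H.mul_mem (H.mul_mem hw h6) (H.inv_mem hw)
      have hR : CoxeterMatrix.E₈.simple 4 * CoxeterMatrix.E₈.simple 5 * CoxeterMatrix.E₈.simple 6 * CoxeterMatrix.E₈.simple 7 ∈ H := (H.mul_mem (H.mul_mem (H.mul_mem h4 h5) h6) h7)
      have hw' : CoxeterMatrix.E₈.simple 0 * CoxeterMatrix.E₈.simple 1 * CoxeterMatrix.E₈.simple 2 * (CoxeterMatrix.E₈.simple 3 * (CoxeterMatrix.E₈.simple 4 * CoxeterMatrix.E₈.simple 5 * CoxeterMatrix.E₈.simple 6 * CoxeterMatrix.E₈.simple 7)) ∈ H := by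
        have e : CoxeterMatrix.E₈.simple 0 * CoxeterMatrix.E₈.simple 1 * CoxeterMatrix.E₈.simple 2 * (CoxeterMatrix.E₈.simple 3 * (CoxeterMatrix.E₈.simple 4 * CoxeterMatrix.E₈.simple 5 * CoxeterMatrix.E₈.simple 6 * CoxeterMatrix.E₈.simple 7)) =
            CoxeterMatrix.E₈.simple 0 * CoxeterMatrix.E₈.simple 1 * CoxeterMatrix.E₈.simple 2 * CoxeterMatrix.E₈.simple 3 * CoxeterMatrix.E₈.simple 4 * CoxeterMatrix.E₈.simple 5 * CoxeterMatrix.E₈.simple 6 * CoxeterMatrix.E₈.simple 7 := by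
          simp only [mul_assoc]
        rw [e]
        exact hw
      obtain ⟨h0, h1, h2⟩ := e_core (CoxeterMatrix.E₈.simple 0) (CoxeterMatrix.E₈.simple 1) (CoxeterMatrix.E₈.simple 2) (CoxeterMatrix.E₈.simple 3) (CoxeterMatrix.E₈.simple 4 * CoxeterMatrix.E₈.simple 5 * CoxeterMatrix.E₈.simple 6 * CoxeterMatrix.E₈.simple 7) H
        (sq CoxeterMatrix.E₈ 0) (sq CoxeterMatrix.E₈ 1) (sq CoxeterMatrix.E₈ 2) (sq CoxeterMatrix.E₈ 3) (cm CoxeterMatrix.E₈ 1 0 (by decide)) (cm CoxeterMatrix.E₈ 1 2 (by decide))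
        (cm CoxeterMatrix.E₈ 0 3 (by decide)) (pw CoxeterMatrix.E₈ 0 2) (br CoxeterMatrix.E₈ 2 3 (by decide)) hw' h3 hR
      intro i
      fin_cases i
      · exact h0
      · exact h1
      · exact h2
      · exact h3
      · exact h4
      · exact h5
      · exact h6
      · exact h7
    exact key _ (Subgroup.subset_closure (Or.inl rfl)) (Subgroup.subset_closure (Or.inr (by simp)))

theorem main (c : (Σ n : ℕ, CoxeterMatrix (Fin n)) × ℕ)
    (hc : c ∈ [(⟨2, CoxeterMatrix.B 2⟩, 1), (⟨2, CoxeterMatrix.G₂⟩, 1), (⟨4, Cfsg.Lie.coxeterD4⟩, 2), (⟨4, CoxeterMatrix.F₄⟩, 2),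
      (⟨6, CoxeterMatrix.E₆⟩, 1), (⟨7, CoxeterMatrix.E₇⟩, 1), (⟨8, CoxeterMatrix.E₈⟩, 1)]) :
    ∃ T : Finset c.1.2.Group, T.card = c.2 ∧ (∀ t ∈ T, ∃ (g : c.1.2.Group) (i : Fin c.1.1), t = g * c.1.2.simple i * g⁻¹) ∧
      Subgroup.closure (({((List.finRange c.1.1).map c.1.2.simple).prod} : Set c.1.2.Group) ∪ ↑T) = ⊤ := by
  simp only [List.mem_cons, List.mem_nil_iff, or_false] at hc
  rcases hc with rfl | rfl | rfl | rfl | rfl | rfl | rfl
  · exact gen2 _
  · exact gen2 _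
  · exact gen4 _ (by decide) (by decide) (by decide) d4_ne
  · exact gen4 _ (by decide) (by decide) (by decide) f4_ne
  · exact genE6
  · exact genE7
  · exact genE8

end Cfsg.Agent.Helper18.CoxGen
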