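import Mathlib
import Cfsg.Prelude.Def_GeometricClasses

set_option autoImplicit false

namespace Cfsg.Agent.Helper18.TensTwo

open Matrix Kronecker

variable {F : Type*} [Field F] [Fintype F]

theorem two_eq_zero (hq : Fintype.card F = 2) : (1 : F) + 1 = 0 := by
  have h := FiniteField.cast_card_eq_zero F
  rw [hq] at h
  rw [one_add_one_eq_two]
  exact_mod_cast h

theorem zero_or_one (hq : Fintype.card F = 2) (x : F) : x = 0 ∨ x = 1 := by
  classical
  by_contra h
  push Not at h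
  have h3 : ({0, 1, x} : Finset F).card = 3 := by
    rw [Finset.card_insert_of_notMem, Finset.card_insert_of_notMem, Finset.card_singleton]
    · simp [Ne.symm h.2]
    · simp [Ne.symm h.1]
  have h2 := Finset.card_le_univ ({0, 1, x} : Finset F)
  omega

theorem units_eq_one (hq : Fintype.card F = 2) (u : Fˣ) : u = 1 := by
  rcases zero_or_one hq (u : F) with h | h
  · exact absurd h u.ne_zero
  · exact Units.ext h

theorem sl_eq_top (hq : Fintype.card F = 2) (ι : Type) [Fintype ι] [DecidableEq ι] :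
    Cfsg.Geo.specialLinear ι F = ⊤ := by
  rw [eq_top_iff]
  intro g _
  change g ∈ (Matrix.GeneralLinearGroup.det : GL ι F →* Fˣ).ker
  rw [MonoidHom.mem_ker]
  exact units_eq_one hq _

/-- The matrix of order three. -/
def om : Matrix (Fin 2) (Fin 2) F := !![0, 1; 1, 1]

/-- Its inverse. -/
def omi : Matrix (Fin 2) (Fin 2) F := !![1, 1; 1, 0]

theorem om_mul_omi (hq : Fintype.card F = 2) : (om : Matrix (Fin 2) (Fin 2) F) * omi = 1 := by
  have h2 := two_eq_zero hq
  ext i j
  fin_cases i <;> fin_cases j <;> simp [om, omi, Matrix.mul_apply, Fin.sum_univ_two, h2]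

theorem omi_mul_om (hq : Fintype.card F = 2) : (omi : Matrix (Fin 2) (Fin 2) F) * om = 1 := by
  have h2 := two_eq_zero hq
  ext i j
  fin_cases i <;> fin_cases j <;> simp [om, omi, Matrix.mul_apply, Fin.sum_univ_two, h2]

theorem conj_om_entries (hq : Fintype.card F = 2) (p q r s : F) (hdet : p * s - q * r ≠ 0) :
    (!![p, q; r, s] : Matrix (Fin 2) (Fin 2) F) * om = om * !![p, q; r, s] ∨
      (!![p, q; r, s] : Matrix (Fin 2) (Fin 2) F) * om = omi * !![p, q; r, s] := by
  have h2 := two_eq_zero hq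
  rcases zero_or_one hq p with rfl | rfl <;> rcases zero_or_one hq q with rfl | rfl <;>
  rcases zero_or_one hq r with rfl | rfl <;> rcases zero_or_one hq s with rfl | rfl <;>
  simp [om, omi, h2] at hdet ⊢

theorem conj_om_mat (hq : Fintype.card F = 2) (A : Matrix (Fin 2) (Fin 2) F) (hdet : A.det ≠ 0) :
    A * om = om * A ∨ A * om = omi * A := by
  rw [Matrix.det_fin_two] at hdet
  have hA : A = !![A 0 0, A 0 1; A 1 0, A 1 1] := Matrix.eta_fin_two A
  rw [hA]
  exact conj_om_entries hq _ _ _ _ hdet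

theorem mem_normalizer_pair {G : Type*} [Group G] (w g : G)
    (h : g * w = w * g ∨ g * w = w⁻¹ * g) :
    g ∈ Subgroup.normalizer ({w, w⁻¹} : Set G) := by
  rw [Subgroup.mem_set_normalizer_iff]
  intro x
  have hc : ∀ y z : G, g * y * g⁻¹ = g * z * g⁻¹ → y = z := fun y z hyz =>
    mul_left_cancel (mul_right_cancel hyz)
  rcases h with h | h
  · have h1 : g * w * g⁻¹ = w := by rw [h]; group
    have h2 : g * w⁻¹ * g⁻¹ = w⁻¹ := by
      have : g * w⁻¹ * g⁻¹ = (g * w * g⁻¹)⁻¹ := by group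
      rw [this, h1]
    constructor
    · rintro (rfl | rfl)
      · left; exact h1
      · right; exact h2
    · rintro (hx | hx)
      · left; exact hc _ _ (hx.trans h1.symm)
      · right; exact hc _ _ (hx.trans h2.symm)
  · have h1 : g * w * g⁻¹ = w⁻¹ := by rw [h]; group
    have h2 : g * w⁻¹ * g⁻¹ = w := by
      have : g * w⁻¹ * g⁻¹ = (g * w * g⁻¹)⁻¹ := by group
      rw [this, h1, inv_inv]
    constructor
    · rintro (rfl | rfl)
      · right; exact h1
      · left; exact h2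
    · rintro (hx | hx)
      · right; exact hc _ _ (hx.trans h2.symm)
      · left; exact hc _ _ (hx.trans h1.symm)

theorem of_mem_normalizer_pair {G : Type*} [Group G] (w g : G)
    (h : g ∈ Subgroup.normalizer ({w, w⁻¹} : Set G)) :
    g * w = w * g ∨ g * w = w⁻¹ * g := by
  rw [Subgroup.mem_set_normalizer_iff] at h
  rcases (h w).1 (Or.inl rfl) with h1 | h1
  · left
    calc g * w = (g * w * g⁻¹) * g := by group
      _ = w * g := by rw [h1]
  · right
    have h1' : g * w * g⁻¹ = w⁻¹ := h1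
    calc g * w = (g * w * g⁻¹) * g := by group
      _ = w⁻¹ * g := by rw [h1']

section kron

variable (m : ℕ)

/-- The element of order three in the first tensor factor. -/
def w0 (hq : Fintype.card F = 2) : GL (Fin 2 × Fin m) F :=
  ⟨(om : Matrix (Fin 2) (Fin 2) F) ⊗ₖ (1 : Matrix (Fin m) (Fin m) F), omi ⊗ₖ 1,
    by rw [← Matrix.mul_kronecker_mul, om_mul_omi hq, one_mul, Matrix.one_kronecker_one],
    by rw [← Matrix.mul_kronecker_mul, omi_mul_om hq, one_mul, Matrix.one_kronecker_one]⟩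

theorem kron_le (hq : Fintype.card F = 2) :
    Cfsg.Geo.kroneckerSubgroup 2 m F ≤
      Subgroup.normalizer ({w0 m hq, (w0 m hq)⁻¹} : Set (GL (Fin 2 × Fin m) F)) := by
  intro g hg
  obtain ⟨a, b, hab⟩ := hg
  apply mem_normalizer_pair
  have hdet : (a : Matrix (Fin 2) (Fin 2) F).det ≠ 0 :=
    ((Matrix.isUnit_iff_isUnit_det _).1 a.isUnit).ne_zero
  rcases conj_om_mat hq _ hdet with h | h
  · left
    apply Units.ext
    rw [Units.val_mul, Units.val_mul, hab]
    change ((a : Matrix (Fin 2) (Fin 2) F) ⊗ₖ (b : Matrix (Fin m) (Fin m) F)) * (om ⊗ₖ 1) =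
      (om ⊗ₖ 1) * ((a : Matrix (Fin 2) (Fin 2) F) ⊗ₖ (b : Matrix (Fin m) (Fin m) F))
    rw [← Matrix.mul_kronecker_mul, ← Matrix.mul_kronecker_mul, h, mul_one, one_mul]
  · right
    apply Units.ext
    rw [Units.val_mul, Units.val_mul, hab]
    change ((a : Matrix (Fin 2) (Fin 2) F) ⊗ₖ (b : Matrix (Fin m) (Fin m) F)) * (om ⊗ₖ 1) =
      (omi ⊗ₖ 1) * ((a : Matrix (Fin 2) (Fin 2) F) ⊗ₖ (b : Matrix (Fin m) (Fin m) F))
    rw [← Matrix.mul_kronecker_mul, ← Matrix.mul_kronecker_mul, h, mul_one, one_mul]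

end kron

section elts

variable (k : ℕ)

/-- An elementary matrix. -/
def eMat : Matrix (Fin (k + 3)) (Fin (k + 3)) F := Matrix.single 0 1 1

/-- An elementary matrix of size two. -/
def eTwo : Matrix (Fin 2) (Fin 2) F := Matrix.single 0 1 1

omit [Fintype F] in
theorem eMat_sq : (eMat k : Matrix (Fin (k + 3)) (Fin (k + 3)) F) * eMat k = 0 := by
  unfold eMat
  rw [Matrix.single_mul_single_of_ne]
  intro h
  exact absurd (congrArg Fin.val h) (by simp)

theorem add_self_mat (hq : Fintype.card F = 2) {ι : Type*} (X : Matrix ι ι F) : X + X = 0 := by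
  calc X + X = (1 + 1 : F) • X := by rw [add_smul, one_smul]
    _ = 0 := by rw [two_eq_zero hq, zero_smul]

theorem invol (hq : Fintype.card F = 2) {ι : Type*} [Fintype ι] [DecidableEq ι] (X : Matrix ι ι F)
    (hX : X * X = 0) : (1 + X) * (1 + X) = 1 := by
  rw [mul_add, add_mul, add_mul, one_mul, one_mul, mul_one, hX, add_zero, add_assoc,
    add_self_mat hq, add_zero]

/-- An element of the normalizer outside the tensor subgroup. -/
def g0 (hq : Fintype.card F = 2) : GL (Fin 2 × Fin (k + 3)) F :=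
  ⟨1 + (om : Matrix (Fin 2) (Fin 2) F) ⊗ₖ eMat k, 1 + (om : Matrix (Fin 2) (Fin 2) F) ⊗ₖ eMat k,
    invol hq _ (by rw [← Matrix.mul_kronecker_mul, eMat_sq, Matrix.kronecker_zero]),
    invol hq _ (by rw [← Matrix.mul_kronecker_mul, eMat_sq, Matrix.kronecker_zero])⟩

theorem g0_mem (hq : Fintype.card F = 2) :
    g0 k hq ∈ Subgroup.normalizer ({w0 (k + 3) hq, (w0 (k + 3) hq)⁻¹} :
      Set (GL (Fin 2 × Fin (k + 3)) F)) := by
  apply mem_normalizer_pair
  left
  apply Units.ext
  rw [Units.val_mul, Units.val_mul]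
  change (1 + (om : Matrix (Fin 2) (Fin 2) F) ⊗ₖ eMat k) * (om ⊗ₖ 1) =
    (om ⊗ₖ 1) * (1 + (om : Matrix (Fin 2) (Fin 2) F) ⊗ₖ eMat k)
  rw [add_mul, mul_add, one_mul, mul_one, ← Matrix.mul_kronecker_mul, ← Matrix.mul_kronecker_mul,
    mul_one, one_mul]

theorem g0_not_mem (hq : Fintype.card F = 2) :
    g0 k hq ∉ Cfsg.Geo.kroneckerSubgroup 2 (k + 3) F := by
  intro hg
  obtain ⟨a, b, hab⟩ := hg
  have hab' : (1 + (om : Matrix (Fin 2) (Fin 2) F) ⊗ₖ eMat k) =
      (a : Matrix (Fin 2) (Fin 2) F) ⊗ₖ (b : Matrix (Fin (k + 3)) (Fin (k + 3)) F) := hab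
  have e1 := congrFun (congrFun hab' (0, 0)) (0, 0)
  have e2 := congrFun (congrFun hab' (0, 0)) (1, 0)
  have e3 := congrFun (congrFun hab' (0, 0)) (1, 1)
  simp [om, eMat, Matrix.kroneckerMap_apply, Matrix.single_apply, Matrix.one_apply] at e1 e2 e3
  rcases e2 with e2 | e2
  · rw [e2] at e3; simp at e3
  · rw [e2] at e1; simp at e1

omit [Fintype F] in
theorem eTwo_mul_om : (eTwo : Matrix (Fin 2) (Fin 2) F) * om = !![1, 1; 0, 0] := by
  ext i j
  fin_cases i <;> fin_cases j <;>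
    simp [eTwo, om, Matrix.mul_apply, Fin.sum_univ_two, Matrix.single_apply]

omit [Fintype F] in
theorem om_mul_eTwo : (om : Matrix (Fin 2) (Fin 2) F) * eTwo = !![0, 0; 0, 1] := by
  ext i j
  fin_cases i <;> fin_cases j <;>
    simp [eTwo, om, Matrix.mul_apply, Fin.sum_univ_two, Matrix.single_apply]

omit [Fintype F] in
theorem omi_mul_eTwo : (omi : Matrix (Fin 2) (Fin 2) F) * eTwo = !![0, 1; 0, 1] := by
  ext i j
  fin_cases i <;> fin_cases j <;>
    simp [eTwo, omi, Matrix.mul_apply, Fin.sum_univ_two, Matrix.single_apply]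

/-- An element outside the normalizer. -/
def h0 (hq : Fintype.card F = 2) : GL (Fin 2 × Fin (k + 3)) F :=
  ⟨1 + (eTwo : Matrix (Fin 2) (Fin 2) F) ⊗ₖ eMat k, 1 + (eTwo : Matrix (Fin 2) (Fin 2) F) ⊗ₖ eMat k,
    invol hq _ (by rw [← Matrix.mul_kronecker_mul, eMat_sq, Matrix.kronecker_zero]),
    invol hq _ (by rw [← Matrix.mul_kronecker_mul, eMat_sq, Matrix.kronecker_zero])⟩

theorem h0_not_mem (hq : Fintype.card F = 2) :
    h0 k hq ∉ Subgroup.normalizer ({w0 (k + 3) hq, (w0 (k + 3) hq)⁻¹} :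
      Set (GL (Fin 2 × Fin (k + 3)) F)) := by
  intro hmem
  rcases of_mem_normalizer_pair _ _ hmem with h | h
  · have h' := congrArg Units.val h
    rw [Units.val_mul, Units.val_mul] at h'
    have h'' : (1 + (eTwo : Matrix (Fin 2) (Fin 2) F) ⊗ₖ eMat k) * (om ⊗ₖ 1) =
      (om ⊗ₖ 1) * (1 + (eTwo : Matrix (Fin 2) (Fin 2) F) ⊗ₖ eMat k) := h'
    rw [add_mul, mul_add, one_mul, mul_one, ← Matrix.mul_kronecker_mul,
      ← Matrix.mul_kronecker_mul, mul_one, one_mul] at h''
    rw [eTwo_mul_om, om_mul_eTwo] at h''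
    have e1 := congrFun (congrFun h'' (0, 0)) (0, 1)
    simp [om, eMat, Matrix.kroneckerMap_apply] at e1
  · have h' := congrArg Units.val h
    rw [Units.val_mul, Units.val_mul] at h'
    have h'' : (1 + (eTwo : Matrix (Fin 2) (Fin 2) F) ⊗ₖ eMat k) * (om ⊗ₖ 1) =
      (omi ⊗ₖ 1) * (1 + (eTwo : Matrix (Fin 2) (Fin 2) F) ⊗ₖ eMat k) := h'
    rw [add_mul, mul_add, one_mul, mul_one, ← Matrix.mul_kronecker_mul,
      ← Matrix.mul_kronecker_mul, mul_one, one_mul] at h''
    rw [eTwo_mul_om, omi_mul_eTwo] at h''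
    have h02 : (0 : Fin (k + 3)) ≠ 2 := by
      intro h
      have h3 := congrArg Fin.val h
      rw [Fin.val_zero, Fin.val_two] at h3
      omega
    have e1 := congrFun (congrFun h'' (0, 2)) (0, 2)
    simp [om, omi, eMat, Matrix.kroneckerMap_apply, Matrix.single_apply, h02] at e1

end elts

theorem main (n : ℕ) (hn : 13 ≤ n) (hq : Fintype.card F = 2) (n₂ : ℕ)
    (e : Fin n ≃ Fin 2 × Fin n₂) (P : Matrix.GeneralLinearGroup (Fin n) F) :
    ∃ K : Subgroup (Matrix.GeneralLinearGroup (Fin n) F),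
      Cfsg.Geo.tensorProductSubgroup 2 n₂ e P ⊓ Cfsg.Geo.specialLinear (Fin n) F < K ∧
        K < Cfsg.Geo.specialLinear (Fin n) F := by
  have hcard : n = 2 * n₂ := by simpa using Fintype.card_congr e
  obtain ⟨k, rfl⟩ : ∃ k, n₂ = k + 3 := ⟨n₂ - 3, by omega⟩
  rw [sl_eq_top hq, inf_top_eq]
  refine ⟨((Subgroup.normalizer ({w0 (k + 3) hq, (w0 (k + 3) hq)⁻¹} :
      Set (GL (Fin 2 × Fin (k + 3)) F))).map (Cfsg.Geo.glReindex e.symm).toMonoidHom).map
        (MulAut.conj P).toMonoidHom, ?_, ?_⟩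
  · unfold Cfsg.Geo.tensorProductSubgroup
    rw [Subgroup.map_lt_map_iff_of_injective (MulEquiv.injective _),
      Subgroup.map_lt_map_iff_of_injective (MulEquiv.injective _)]
    exact lt_of_le_of_ne (kron_le _ hq) (fun h => g0_not_mem k hq (h ▸ g0_mem k hq))
  · have htop : (⊤ : Subgroup (GL (Fin n) F)) =
        ((⊤ : Subgroup (GL (Fin 2 × Fin (k + 3)) F)).map
          (Cfsg.Geo.glReindex e.symm).toMonoidHom).map (MulAut.conj P).toMonoidHom := by
      rw [Subgroup.map_top_of_surjective _ (MulEquiv.surjective _),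
        Subgroup.map_top_of_surjective _ (MulEquiv.surjective _)]
    rw [htop, Subgroup.map_lt_map_iff_of_injective (MulEquiv.injective _),
      Subgroup.map_lt_map_iff_of_injective (MulEquiv.injective _)]
    exact lt_top_iff_ne_top.2 (fun h => h0_not_mem k hq (h ▸ Subgroup.mem_top _))

end Cfsg.Agent.Helper18.TensTwo
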