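import Mathlib
import Cfsg.Prelude.Def_GeometricClasses
import Cfsg.Agent.Helper18.TensTwo

set_option autoImplicit false

namespace Cfsg.Agent.Helper18.DecStab

open Matrix

variable {F : Type*} [Field F]

section transport

variable {ι κ : Type} [Fintype ι] [DecidableEq ι] [Fintype κ] [DecidableEq κ]

/-- Conjugation by a rectangular invertible matrix. -/
def conjHom (A : Matrix ι κ F) (A' : Matrix κ ι F) (h1 : A * A' = 1) (h2 : A' * A = 1) :
    GL κ F →* GL ι F where
  toFun g := ⟨A * (g : Matrix κ κ F) * A', A * ((g⁻¹ : GL κ F) : Matrix κ κ F) * A', by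
      calc A * (g : Matrix κ κ F) * A' * (A * ((g⁻¹ : GL κ F) : Matrix κ κ F) * A')
          = A * ((g : Matrix κ κ F) * (A' * A) * ((g⁻¹ : GL κ F) : Matrix κ κ F)) * A' := by
            simp only [Matrix.mul_assoc]
        _ = 1 := by
            rw [h2, Matrix.mul_one, ← Units.val_mul, mul_inv_cancel, Units.val_one, Matrix.mul_one, h1],
    by
      calc A * ((g⁻¹ : GL κ F) : Matrix κ κ F) * A' * (A * (g : Matrix κ κ F) * A')
          = A * (((g⁻¹ : GL κ F) : Matrix κ κ F) * (A' * A) * (g : Matrix κ κ F)) * A' := by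
            simp only [Matrix.mul_assoc]
        _ = 1 := by
            rw [h2, Matrix.mul_one, ← Units.val_mul, inv_mul_cancel, Units.val_one, Matrix.mul_one, h1]⟩
  map_one' := Units.ext (by
    show A * ((1 : GL κ F) : Matrix κ κ F) * A' = 1
    rw [Units.val_one, Matrix.mul_one, h1])
  map_mul' g h := Units.ext (by
    show A * ((g * h : GL κ F) : Matrix κ κ F) * A' =
      (A * (g : Matrix κ κ F) * A') * (A * (h : Matrix κ κ F) * A')
    rw [Units.val_mul]
    calc A * ((g : Matrix κ κ F) * (h : Matrix κ κ F)) * A'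
        = A * ((g : Matrix κ κ F) * 1 * (h : Matrix κ κ F)) * A' := by rw [Matrix.mul_one]
      _ = A * ((g : Matrix κ κ F) * (A' * A) * (h : Matrix κ κ F)) * A' := by rw [h2]
      _ = _ := by simp only [Matrix.mul_assoc])

theorem conjHom_val (A : Matrix ι κ F) (A' : Matrix κ ι F) (h1 : A * A' = 1) (h2 : A' * A = 1)
    (g : GL κ F) : ((conjHom A A' h1 h2 g : GL ι F) : Matrix ι ι F) = A * (g : Matrix κ κ F) * A' :=
  rfl

theorem conjHom_left_inv (A : Matrix ι κ F) (A' : Matrix κ ι F) (h1 : A * A' = 1) (h2 : A' * A = 1)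
    (g : GL κ F) : conjHom A' A h2 h1 (conjHom A A' h1 h2 g) = g := by
  apply Units.ext
  rw [conjHom_val, conjHom_val]
  calc A' * (A * (g : Matrix κ κ F) * A') * A = (A' * A) * (g : Matrix κ κ F) * (A' * A) := by
        simp only [Matrix.mul_assoc]
    _ = (g : Matrix κ κ F) := by rw [h2, Matrix.one_mul, Matrix.mul_one]

theorem conjHom_injective (A : Matrix ι κ F) (A' : Matrix κ ι F) (h1 : A * A' = 1) (h2 : A' * A = 1) :
    Function.Injective (conjHom A A' h1 h2) :=
  Function.LeftInverse.injective (conjHom_left_inv A A' h1 h2)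

theorem conjHom_surjective (A : Matrix ι κ F) (A' : Matrix κ ι F) (h1 : A * A' = 1) (h2 : A' * A = 1) :
    Function.Surjective (conjHom A A' h1 h2) :=
  fun g => ⟨conjHom A' A h2 h1 g, conjHom_left_inv A' A h2 h1 g⟩

theorem stab_iff (A : Matrix ι κ F) (A' : Matrix κ ι F) (h1 : A * A' = 1) (h2 : A' * A = 1) {t : ℕ}
    (D : Fin t → Submodule F (ι → F)) (D0 : Fin t → Submodule F (κ → F))
    (hmap : ∀ i, (D0 i).map (Matrix.toLin' A) = D i) (g : GL κ F) :
    g ∈ Cfsg.Geo.decompositionStabilizer D0 ↔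
      conjHom A A' h1 h2 g ∈ Cfsg.Geo.decompositionStabilizer D := by
  have key : ∀ i, (D i).map (Matrix.toLin' ((conjHom A A' h1 h2 g : GL ι F) : Matrix ι ι F)) =
      ((D0 i).map (Matrix.toLin' (g : Matrix κ κ F))).map (Matrix.toLin' A) := by
    intro i
    rw [← hmap i, ← Submodule.map_comp, ← Submodule.map_comp, ← Matrix.toLin'_mul,
      ← Matrix.toLin'_mul, conjHom_val]
    congr 2
    rw [Matrix.mul_assoc, Matrix.mul_assoc, h2, Matrix.mul_one]
  have hinj : Function.Injective (Matrix.toLin' A) := by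
    intro x y hxy
    have := congrArg (Matrix.toLin' A') hxy
    rw [← LinearMap.comp_apply, ← LinearMap.comp_apply, ← Matrix.toLin'_mul, h2,
      Matrix.toLin'_one] at this
    exact this
  constructor
  · rintro ⟨σ, hσ⟩
    refine ⟨σ, fun i => ?_⟩
    rw [key, hσ, hmap]
  · rintro ⟨σ, hσ⟩
    refine ⟨σ, fun i => ?_⟩
    apply Submodule.map_injective_of_injective hinj
    rw [← key, hσ, hmap]

theorem sl_iff (A : Matrix ι κ F) (A' : Matrix κ ι F) (h1 : A * A' = 1) (h2 : A' * A = 1)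
    (g : GL κ F) :
    g ∈ Cfsg.Geo.specialLinear κ F ↔ conjHom A A' h1 h2 g ∈ Cfsg.Geo.specialLinear ι F := by
  unfold Cfsg.Geo.specialLinear
  rw [MonoidHom.mem_ker, MonoidHom.mem_ker, Units.ext_iff, Units.ext_iff]
  have : ((Matrix.GeneralLinearGroup.det (conjHom A A' h1 h2 g) : Fˣ) : F) =
      ((Matrix.GeneralLinearGroup.det g : Fˣ) : F) := by
    show Matrix.det (A * (g : Matrix κ κ F) * A') = Matrix.det (g : Matrix κ κ F)
    exact Matrix.det_conj_of_mul_eq_one h1 h2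
  rw [this]

theorem transport (A : Matrix ι κ F) (A' : Matrix κ ι F) (h1 : A * A' = 1) (h2 : A' * A = 1) {t : ℕ}
    (D : Fin t → Submodule F (ι → F)) (D0 : Fin t → Submodule F (κ → F))
    (hmap : ∀ i, (D0 i).map (Matrix.toLin' A) = D i) (K0 : Subgroup (GL κ F))
    (hK1 : Cfsg.Geo.decompositionStabilizer D0 ⊓ Cfsg.Geo.specialLinear κ F < K0)
    (hK2 : K0 < Cfsg.Geo.specialLinear κ F) :
    ∃ K : Subgroup (GL ι F), Cfsg.Geo.decompositionStabilizer D ⊓ Cfsg.Geo.specialLinear ι F < K ∧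
      K < Cfsg.Geo.specialLinear ι F := by
  have e1 : Cfsg.Geo.decompositionStabilizer D =
      (Cfsg.Geo.decompositionStabilizer D0).map (conjHom A A' h1 h2) := by
    ext g
    rw [Subgroup.mem_map]
    constructor
    · intro hg
      obtain ⟨g0, rfl⟩ := conjHom_surjective A A' h1 h2 g
      exact ⟨g0, (stab_iff A A' h1 h2 D D0 hmap g0).2 hg, rfl⟩
    · rintro ⟨g0, hg0, rfl⟩
      exact (stab_iff A A' h1 h2 D D0 hmap g0).1 hg0
  have e2 : Cfsg.Geo.specialLinear ι F = (Cfsg.Geo.specialLinear κ F).map (conjHom A A' h1 h2) := by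
    ext g
    rw [Subgroup.mem_map]
    constructor
    · intro hg
      obtain ⟨g0, rfl⟩ := conjHom_surjective A A' h1 h2 g
      exact ⟨g0, (sl_iff A A' h1 h2 g0).2 hg, rfl⟩
    · rintro ⟨g0, hg0, rfl⟩
      exact (sl_iff A A' h1 h2 g0).1 hg0
  refine ⟨K0.map (conjHom A A' h1 h2), ?_, ?_⟩
  · rw [e1, e2, ← Subgroup.map_inf_eq _ _ _ (conjHom_injective A A' h1 h2),
      Subgroup.map_lt_map_iff_of_injective (conjHom_injective A A' h1 h2)]
    exact hK1
  · rw [e2, Subgroup.map_lt_map_iff_of_injective (conjHom_injective A A' h1 h2)]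
    exact hK2

end transport

section std

variable (t m : ℕ)

/-- The standard decomposition. -/
def stdD (i : Fin t) : Submodule F (Fin t × Fin m → F) where
  carrier := {x | ∀ p : Fin t × Fin m, p.1 ≠ i → x p = 0}
  add_mem' := by
    intro a b ha hb p hp
    rw [Pi.add_apply, ha p hp, hb p hp, add_zero]
  zero_mem' := fun p _ => rfl
  smul_mem' := by
    intro c x hx p hp
    rw [Pi.smul_apply, hx p hp, smul_zero]

theorem exists_std {n : ℕ} {D : Fin t → Submodule F (Fin n → F)}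
    (hD : Cfsg.Geo.IsMDecomposition m D) :
    ∃ (A : Matrix (Fin n) (Fin t × Fin m) F) (A' : Matrix (Fin t × Fin m) (Fin n) F),
      A * A' = 1 ∧ A' * A = 1 ∧ (∀ i, (stdD t m i).map (Matrix.toLin' A) = D i) ∧ n = t * m := by
  classical
  have hInt : DirectSum.IsInternal D :=
    DirectSum.isInternal_submodule_of_iSupIndep_of_iSup_eq_top hD.indep hD.iSup_eq_top
  let b : ∀ i, Module.Basis (Fin m) F (D i) := fun i =>
    Module.finBasisOfFinrankEq F (D i) (hD.finrank_eq i)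
  let B := (hInt.collectedBasis b).reindex (Equiv.sigmaEquivProd (Fin t) (Fin m))
  have hB : ∀ i j, B (i, j) = (b i j : Fin n → F) := by
    intro i j
    simp [B, Module.Basis.reindex_apply, DirectSum.IsInternal.collectedBasis_coe]
  refine ⟨(Pi.basisFun F (Fin n)).toMatrix B, B.toMatrix (Pi.basisFun F (Fin n)),
    Module.Basis.toMatrix_mul_toMatrix_flip _ _, Module.Basis.toMatrix_mul_toMatrix_flip _ _, ?_, ?_⟩
  swap
  · have hfr := Module.finrank_eq_card_basis B
    rw [Module.finrank_fin_fun, Fintype.card_prod, Fintype.card_fin, Fintype.card_fin] at hfr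
    exact hfr
  intro i
  have hA : ∀ y : Fin t × Fin m → F,
      Matrix.toLin' ((Pi.basisFun F (Fin n)).toMatrix B) y = ∑ p, y p • B p := by
    intro y
    ext k
    simp [Matrix.toLin'_apply, Matrix.mulVec, dotProduct, Module.Basis.toMatrix_apply, mul_comm]
  apply le_antisymm
  · rintro _ ⟨y, hy, rfl⟩
    rw [hA]
    apply Submodule.sum_mem
    intro p _
    by_cases hp : p.1 = i
    · apply Submodule.smul_mem
      obtain ⟨p1, p2⟩ := p
      simp only at hp
      subst hp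
      rw [hB]
      exact (b p1 p2).2
    · rw [hy p hp, zero_smul]
      exact Submodule.zero_mem _
  · intro d hd
    refine ⟨fun p => if p.1 = i then (b i).repr ⟨d, hd⟩ p.2 else 0, ?_, ?_⟩
    · intro p hp
      simp [hp]
    · rw [hA, Fintype.sum_prod_type, Finset.sum_eq_single i]
      · simp only [if_true, hB]
        have h2 := congrArg (Submodule.subtype (D i)) ((b i).sum_repr ⟨d, hd⟩)
        rw [map_sum] at h2
        simpa only [map_smul, Submodule.subtype_apply] using h2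
      · intro i' _ hne
        simp [hne]
      · intro h
        exact absurd (Finset.mem_univ i) h

end std

section wt

variable (t m : ℕ)

/-- Restriction to a block. -/
def blk (i : Fin t) (x : Fin t × Fin m → F) : Fin t × Fin m → F :=
  fun p => if p.1 = i then x p else 0

theorem blk_mem (i : Fin t) (x : Fin t × Fin m → F) : blk t m i x ∈ stdD t m i := by
  intro p hp
  simp [blk, hp]

theorem sum_blk (x : Fin t × Fin m → F) : ∑ i, blk t m i x = x := by
  ext p
  rw [Finset.sum_apply]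
  simp [blk]

open Classical in
/-- Block indicator. -/
noncomputable def chi (i : Fin t) (x : Fin t × Fin m → F) : F :=
  if ∃ j, x (i, j) ≠ 0 then 1 else 0

/-- Weight modulo the characteristic. -/
noncomputable def wt (x : Fin t × Fin m → F) : F := ∑ i, chi t m i x

theorem stab_mem (g : GL (Fin t × Fin m) F) (σ : Equiv.Perm (Fin t))
    (hσ : ∀ i, (stdD t m i).map (Matrix.toLin' (g : Matrix (Fin t × Fin m) (Fin t × Fin m) F)) =
      stdD t m (σ i)) (i' : Fin t) (y : Fin t × Fin m → F) (hy : y ∈ stdD t m i') :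
    (g : Matrix (Fin t × Fin m) (Fin t × Fin m) F) *ᵥ y ∈ stdD t m (σ i') := by
  rw [← hσ i']
  exact ⟨y, hy, rfl⟩

theorem stab_blk (g : GL (Fin t × Fin m) F) (σ : Equiv.Perm (Fin t))
    (hσ : ∀ i, (stdD t m i).map (Matrix.toLin' (g : Matrix (Fin t × Fin m) (Fin t × Fin m) F)) =
      stdD t m (σ i)) (x : Fin t × Fin m → F) (i : Fin t) (p : Fin t × Fin m) (hp : p.1 = σ i) :
    ((g : Matrix (Fin t × Fin m) (Fin t × Fin m) F) *ᵥ x) p =
      ((g : Matrix (Fin t × Fin m) (Fin t × Fin m) F) *ᵥ blk t m i x) p := by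
  conv_lhs => rw [← sum_blk t m x]
  have hsum : (g : Matrix (Fin t × Fin m) (Fin t × Fin m) F) *ᵥ (∑ i', blk t m i' x) =
      ∑ i', (g : Matrix (Fin t × Fin m) (Fin t × Fin m) F) *ᵥ blk t m i' x :=
    map_sum (Matrix.mulVecLin (g : Matrix (Fin t × Fin m) (Fin t × Fin m) F)) _ _
  rw [hsum, Finset.sum_apply, Finset.sum_eq_single i]
  · intro i' _ hne
    exact stab_mem t m g σ hσ i' _ (blk_mem t m i' x) p
      (by rw [hp]; exact fun h => hne (σ.injective h).symm)
  · intro h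
    exact absurd (Finset.mem_univ i) h

theorem stab_chi (g : GL (Fin t × Fin m) F) (σ : Equiv.Perm (Fin t))
    (hσ : ∀ i, (stdD t m i).map (Matrix.toLin' (g : Matrix (Fin t × Fin m) (Fin t × Fin m) F)) =
      stdD t m (σ i)) (x : Fin t × Fin m → F) (i : Fin t) :
    chi t m (σ i) ((g : Matrix (Fin t × Fin m) (Fin t × Fin m) F) *ᵥ x) = chi t m i x := by
  have H : (∃ j, ((g : Matrix (Fin t × Fin m) (Fin t × Fin m) F) *ᵥ x) (σ i, j) ≠ 0) ↔
      (∃ j, x (i, j) ≠ 0) := by
    constructor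
    · rintro ⟨j, hj⟩
      by_contra hcon
      push Not at hcon
      have hz : blk t m i x = 0 := by
        ext p
        simp only [blk, Pi.zero_apply]
        split_ifs with hp
        · obtain ⟨p1, p2⟩ := p
          simp only at hp
          subst hp
          exact hcon p2
        · rfl
      rw [stab_blk t m g σ hσ x i (σ i, j) rfl, hz, Matrix.mulVec_zero] at hj
      exact hj rfl
    · rintro ⟨j, hj⟩
      by_contra hcon
      push Not at hcon
      have hz : (g : Matrix (Fin t × Fin m) (Fin t × Fin m) F) *ᵥ blk t m i x = 0 := by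
        ext p
        by_cases hp : p.1 = σ i
        · obtain ⟨p1, p2⟩ := p
          simp only at hp
          subst hp
          rw [← stab_blk t m g σ hσ x i (σ i, p2) rfl]
          exact hcon p2
        · exact stab_mem t m g σ hσ i _ (blk_mem t m i x) p hp
      have hz2 : blk t m i x = 0 := by
        have h3 := congrArg
          (fun y => ((g⁻¹ : GL (Fin t × Fin m) F) : Matrix (Fin t × Fin m) (Fin t × Fin m) F) *ᵥ y) hz
        simp only [Matrix.mulVec_mulVec, Matrix.mulVec_zero] at h3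
        rw [← Units.val_mul, inv_mul_cancel, Units.val_one, Matrix.one_mulVec] at h3
        exact h3
      have h4 := congrFun hz2 (i, j)
      simp [blk] at h4
      exact hj h4
  unfold chi
  by_cases h : ∃ j, x (i, j) ≠ 0
  · rw [if_pos h, if_pos (H.2 h)]
  · rw [if_neg h, if_neg (fun h' => h (H.1 h'))]

theorem stab_wt (g : GL (Fin t × Fin m) F)
    (hg : g ∈ Cfsg.Geo.decompositionStabilizer (stdD (F := F) t m)) (x : Fin t × Fin m → F) :
    wt t m ((g : Matrix (Fin t × Fin m) (Fin t × Fin m) F) *ᵥ x) = wt t m x := by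
  obtain ⟨σ, hσ⟩ := hg
  unfold wt
  rw [← Equiv.sum_comp σ (fun i => chi t m i ((g : Matrix (Fin t × Fin m) (Fin t × Fin m) F) *ᵥ x))]
  exact Finset.sum_congr rfl (fun i _ => stab_chi t m g σ hσ x i)

/-- The subgroup preserving the weight. -/
def wtStab : Subgroup (GL (Fin t × Fin m) F) where
  carrier := {g | ∀ x, wt t m ((g : Matrix (Fin t × Fin m) (Fin t × Fin m) F) *ᵥ x) = wt t m x}
  mul_mem' := by
    intro a b ha hb x
    rw [Units.val_mul, ← Matrix.mulVec_mulVec, ha, hb]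
  one_mem' := by
    intro x
    rw [Units.val_one, Matrix.one_mulVec]
  inv_mem' := by
    intro a ha x
    have h := ha (((a⁻¹ : GL (Fin t × Fin m) F) : Matrix (Fin t × Fin m) (Fin t × Fin m) F) *ᵥ x)
    rw [Matrix.mulVec_mulVec, ← Units.val_mul, mul_inv_cancel, Units.val_one, Matrix.one_mulVec] at h
    exact h.symm

theorem stab_le : Cfsg.Geo.decompositionStabilizer (stdD (F := F) t m) ≤ wtStab t m :=
  fun g hg x => stab_wt t m g hg x

end wt

section elts

variable {t m : ℕ}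

theorem chi_one (i : Fin t) (x : Fin t × Fin m → F) (h : ∃ j, x (i, j) ≠ 0) : chi t m i x = 1 :=
  if_pos h

theorem chi_zero (i : Fin t) (x : Fin t × Fin m → F) (h : ∀ j, x (i, j) = 0) : chi t m i x = 0 :=
  if_neg (fun ⟨j, hj⟩ => hj (h j))

theorem not_stab (g : GL (Fin t × Fin m) F) (i0 : Fin t) (x : Fin t × Fin m → F)
    (hx : x ∈ stdD t m i0) (p1 p2 : Fin t × Fin m) (h12 : p1.1 ≠ p2.1)
    (h1 : ((g : Matrix (Fin t × Fin m) (Fin t × Fin m) F) *ᵥ x) p1 ≠ 0)
    (h2 : ((g : Matrix (Fin t × Fin m) (Fin t × Fin m) F) *ᵥ x) p2 ≠ 0) :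
    g ∉ Cfsg.Geo.decompositionStabilizer (stdD (F := F) t m) := by
  rintro ⟨σ, hσ⟩
  have hm := stab_mem t m g σ hσ i0 x hx
  by_cases hp : p1.1 = σ i0
  · exact h2 (hm p2 (fun h => h12 (hp.trans h.symm)))
  · exact h1 (hm p1 hp)

theorem pair_ne (i0 i1 : Fin t) (j0 : Fin m) (h : i0 ≠ i1) : (i1, j0) ≠ (i0, j0) := by
  intro h'
  exact h (congrArg Prod.fst h').symm

/-- A transvection. -/
def tv (i0 i1 : Fin t) (j0 : Fin m) (h : i0 ≠ i1) : GL (Fin t × Fin m) F :=
  ⟨Matrix.transvection (i1, j0) (i0, j0) 1, Matrix.transvection (i1, j0) (i0, j0) (-1),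
    by rw [Matrix.transvection_mul_transvection_same _ _ (pair_ne i0 i1 j0 h), add_neg_cancel,
      Matrix.transvection_zero],
    by rw [Matrix.transvection_mul_transvection_same _ _ (pair_ne i0 i1 j0 h), neg_add_cancel,
      Matrix.transvection_zero]⟩

theorem tv_sl (i0 i1 : Fin t) (j0 : Fin m) (h : i0 ≠ i1) :
    tv (F := F) i0 i1 j0 h ∈ Cfsg.Geo.specialLinear (Fin t × Fin m) F := by
  unfold Cfsg.Geo.specialLinear
  rw [MonoidHom.mem_ker, Units.ext_iff]
  show Matrix.det (Matrix.transvection (i1, j0) (i0, j0) (1 : F)) = 1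
  exact Matrix.det_transvection_of_ne _ _ (pair_ne i0 i1 j0 h) 1

theorem tv_not (i0 i1 : Fin t) (j0 : Fin m) (h : i0 ≠ i1) :
    tv (F := F) i0 i1 j0 h ∉ wtStab t m := by
  intro hmem
  have h1 := hmem (Pi.single (i0, j0) 1)
  have hy : ∀ p, (((tv (F := F) i0 i1 j0 h : GL (Fin t × Fin m) F) :
      Matrix (Fin t × Fin m) (Fin t × Fin m) F) *ᵥ (Pi.single (i0, j0) 1)) p =
      (if p = (i0, j0) then 1 else 0) + (if p = (i1, j0) then 1 else 0) := by
    intro p
    rw [Matrix.mulVec_single_one]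
    show Matrix.transvection (i1, j0) (i0, j0) (1 : F) p (i0, j0) = _
    simp only [Matrix.transvection, Matrix.add_apply, Matrix.one_apply, Matrix.single_apply]
    congr 1
    by_cases hp : p = (i1, j0)
    · rw [if_pos hp, if_pos ⟨hp.symm, trivial⟩]
    · rw [if_neg hp, if_neg (fun h' => hp h'.1.symm)]
  have hw1 : wt t m (Pi.single (i0, j0) (1 : F)) = 1 := by
    unfold wt
    rw [Finset.sum_eq_single i0]
    · exact chi_one i0 _ ⟨j0, by simp⟩
    · intro i _ hne
      exact chi_zero i _ (fun j => by simp [hne])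
    · intro h'
      exact absurd (Finset.mem_univ i0) h'
  have hw2 : wt t m (((tv (F := F) i0 i1 j0 h : GL (Fin t × Fin m) F) :
      Matrix (Fin t × Fin m) (Fin t × Fin m) F) *ᵥ (Pi.single (i0, j0) 1)) = 1 + 1 := by
    unfold wt
    rw [Fintype.sum_eq_add i0 i1 h]
    · rw [chi_one i0 _ ⟨j0, by rw [hy]; simp [h]⟩, chi_one i1 _ ⟨j0, by rw [hy]; simp [h.symm]⟩]
    · intro i hi
      exact chi_zero i _ (fun j => by rw [hy]; simp [hi.1, hi.2])
  rw [hw1, hw2] at h1
  simp at h1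

theorem rank_one_sq {κ : Type} [Fintype κ] [DecidableEq κ] (u v : κ → F)
    (h : 1 + 1 + v ⬝ᵥ u = 0) :
    (1 + Matrix.vecMulVec u v) * (1 + Matrix.vecMulVec u v) = 1 := by
  have h3 : Matrix.vecMulVec u ((v ⬝ᵥ u) • v) = (v ⬝ᵥ u) • Matrix.vecMulVec u v := by
    ext i j
    simp [Matrix.vecMulVec_apply]
    ring
  have h4 : Matrix.vecMulVec u v + (Matrix.vecMulVec u v + (v ⬝ᵥ u) • Matrix.vecMulVec u v) =
      (1 + 1 + v ⬝ᵥ u) • Matrix.vecMulVec u v := by
    rw [add_smul, add_smul, one_smul, add_assoc]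
  rw [mul_add, add_mul, add_mul, one_mul, one_mul, mul_one, Matrix.vecMulVec_mul_vecMulVec, h3,
    add_assoc, h4, h, zero_smul, add_zero]

/-- A rank one perturbation of the identity which is an involution. -/
def rk {κ : Type} [Fintype κ] [DecidableEq κ] (u v : κ → F) (h : 1 + 1 + v ⬝ᵥ u = 0) : GL κ F :=
  ⟨1 + Matrix.vecMulVec u v, 1 + Matrix.vecMulVec u v, rank_one_sq u v h, rank_one_sq u v h⟩

theorem rk_mulVec {κ : Type} [Fintype κ] [DecidableEq κ] (u v : κ → F) (h : 1 + 1 + v ⬝ᵥ u = 0)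
    (x : κ → F) : ((rk u v h : GL κ F) : Matrix κ κ F) *ᵥ x = x + (v ⬝ᵥ x) • u := by
  show (1 + Matrix.vecMulVec u v) *ᵥ x = _
  rw [Matrix.add_mulVec, Matrix.one_mulVec, Matrix.vecMulVec_mulVec, op_smul_eq_smul]

theorem rk_det {κ : Type} [Fintype κ] [DecidableEq κ] (u v : κ → F) (h : 1 + 1 + v ⬝ᵥ u = 0) :
    Matrix.det ((rk u v h : GL κ F) : Matrix κ κ F) = 1 + v ⬝ᵥ u := by
  show Matrix.det (1 + Matrix.vecMulVec u v) = _
  rw [Matrix.vecMulVec_eq Unit, Matrix.det_one_add_replicateCol_mul_replicateRow]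

theorem sum4 {M : Type*} [AddCommMonoid M] (s : ℕ) (f : Fin (4 + s) → M) :
    ∑ i, f i = f (Fin.castAdd s 0) + f (Fin.castAdd s 1) + f (Fin.castAdd s 2) +
      f (Fin.castAdd s 3) + ∑ i : Fin s, f (Fin.natAdd 4 i) := by
  rw [Fin.sum_univ_add, Fin.sum_univ_four]

end elts

section diag

theorem mem_sl_iff {κ : Type} [Fintype κ] [DecidableEq κ] (g : GL κ F) :
    g ∈ Cfsg.Geo.specialLinear κ F ↔ Matrix.det (g : Matrix κ κ F) = 1 := by
  unfold Cfsg.Geo.specialLinear
  rw [MonoidHom.mem_ker, Units.ext_iff]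
  rfl

theorem dg_sq {κ : Type} [Fintype κ] [DecidableEq κ] (p0 : κ) :
    Matrix.diagonal (fun p => if p = p0 then (-1 : F) else 1) *
      Matrix.diagonal (fun p => if p = p0 then (-1 : F) else 1) = 1 := by
  rw [Matrix.diagonal_mul_diagonal, ← Matrix.diagonal_one]
  congr 1
  ext p
  split_ifs <;> simp

/-- A diagonal matrix with a single entry equal to minus one. -/
def dg {κ : Type} [Fintype κ] [DecidableEq κ] (p0 : κ) : GL κ F :=
  ⟨Matrix.diagonal (fun p => if p = p0 then (-1 : F) else 1),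
    Matrix.diagonal (fun p => if p = p0 then (-1 : F) else 1), dg_sq p0, dg_sq p0⟩

theorem dg_mulVec {κ : Type} [Fintype κ] [DecidableEq κ] (p0 : κ) (x : κ → F) (p : κ) :
    (((dg p0 : GL κ F) : Matrix κ κ F) *ᵥ x) p = (if p = p0 then (-1 : F) else 1) * x p :=
  Matrix.mulVec_diagonal _ _ _

theorem dg_det {κ : Type} [Fintype κ] [DecidableEq κ] (p0 : κ) :
    Matrix.det ((dg p0 : GL κ F) : Matrix κ κ F) = -1 := by
  show Matrix.det (Matrix.diagonal (fun p => if p = p0 then (-1 : F) else 1)) = -1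
  rw [Matrix.det_diagonal, Finset.prod_ite_eq']
  simp

theorem dg_ne {κ : Type} [Fintype κ] [DecidableEq κ] (p0 : κ) (x : κ → F) (p : κ) :
    (((dg p0 : GL κ F) : Matrix κ κ F) *ᵥ x) p ≠ 0 ↔ x p ≠ 0 := by
  rw [dg_mulVec]
  split_ifs <;> simp

theorem dg_wt {t m : ℕ} (p0 : Fin t × Fin m) : dg (F := F) p0 ∈ wtStab t m := by
  intro x
  unfold wt
  apply Finset.sum_congr rfl
  intro i _
  have H : (∃ j, (((dg p0 : GL (Fin t × Fin m) F) : Matrix (Fin t × Fin m) (Fin t × Fin m) F) *ᵥ x)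
      (i, j) ≠ 0) ↔ ∃ j, x (i, j) ≠ 0 :=
    exists_congr (fun j => dg_ne p0 x (i, j))
  unfold chi
  by_cases h : ∃ j, x (i, j) ≠ 0
  · rw [if_pos h, if_pos (H.2 h)]
  · rw [if_neg h, if_neg (fun h' => h (H.1 h'))]

end diag

section mone

variable [Fintype F] (s : ℕ)

/-- Indicator of the first four blocks. -/
def u4 : Fin (4 + s) × Fin 1 → F := fun p => if (p.1 : ℕ) < 4 then 1 else 0

omit [Fintype F] in
theorem u4_castAdd (k : Fin 4) : (u4 s : Fin (4 + s) × Fin 1 → F) (Fin.castAdd s k, 0) = 1 := by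
  simp [u4]

omit [Fintype F] in
theorem u4_natAdd (i : Fin s) : (u4 s : Fin (4 + s) × Fin 1 → F) (Fin.natAdd 4 i, 0) = 0 := by
  simp [u4]

omit [Fintype F] in
theorem dot_u4 (x : Fin (4 + s) × Fin 1 → F) :
    u4 s ⬝ᵥ x = x (Fin.castAdd s 0, 0) + x (Fin.castAdd s 1, 0) + x (Fin.castAdd s 2, 0) +
      x (Fin.castAdd s 3, 0) := by
  unfold dotProduct
  rw [Fintype.sum_prod_type]
  simp only [Fin.sum_univ_one]
  rw [sum4]
  simp only [u4_castAdd, u4_natAdd, one_mul, zero_mul, Finset.sum_const_zero, add_zero]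

omit [Fintype F] in
theorem dot_u4_self : (u4 s : Fin (4 + s) × Fin 1 → F) ⬝ᵥ u4 s = 1 + 1 + 1 + 1 := by
  rw [dot_u4]
  simp only [u4_castAdd]

theorem chi_pow (t : ℕ) (i : Fin t) (x : Fin t × Fin 1 → F) :
    chi t 1 i x = x (i, 0) ^ (Fintype.card F - 1) := by
  by_cases h : x (i, 0) = 0
  · rw [chi_zero i x (fun j => by rw [Fin.eq_zero j]; exact h), h, zero_pow]
    have := Fintype.one_lt_card (α := F)
    omega
  · rw [chi_one i x ⟨0, h⟩, FiniteField.pow_card_sub_one_eq_one _ h]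

theorem wt_m1 (x : Fin (4 + s) × Fin 1 → F) :
    wt (4 + s) 1 x = x (Fin.castAdd s 0, 0) ^ (Fintype.card F - 1) +
      x (Fin.castAdd s 1, 0) ^ (Fintype.card F - 1) + x (Fin.castAdd s 2, 0) ^ (Fintype.card F - 1) +
      x (Fin.castAdd s 3, 0) ^ (Fintype.card F - 1) +
      ∑ i : Fin s, x (Fin.natAdd 4 i, 0) ^ (Fintype.card F - 1) := by
  unfold wt
  rw [sum4]
  simp only [chi_pow]

theorem rk4_wt (h6 : (1 : F) + 1 + u4 s ⬝ᵥ u4 s = 0)
    (hP : ∀ a b c d : F, (a + (a + b + c + d)) ^ (Fintype.card F - 1) +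
      (b + (a + b + c + d)) ^ (Fintype.card F - 1) + (c + (a + b + c + d)) ^ (Fintype.card F - 1) +
      (d + (a + b + c + d)) ^ (Fintype.card F - 1) =
      a ^ (Fintype.card F - 1) + b ^ (Fintype.card F - 1) + c ^ (Fintype.card F - 1) +
        d ^ (Fintype.card F - 1)) :
    rk (u4 s) (u4 s) h6 ∈ wtStab (F := F) (4 + s) 1 := by
  intro x
  rw [rk_mulVec, wt_m1, wt_m1, dot_u4]
  simp only [Pi.add_apply, Pi.smul_apply, smul_eq_mul, u4_castAdd, u4_natAdd, mul_one, mul_zero,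
    add_zero]
  rw [hP]

omit [Fintype F] in
theorem rk4_x0 (h6 : (1 : F) + 1 + u4 s ⬝ᵥ u4 s = 0) :
    (((rk (u4 s) (u4 s) h6 : GL (Fin (4 + s) × Fin 1) F) :
        Matrix (Fin (4 + s) × Fin 1) (Fin (4 + s) × Fin 1) F) *ᵥ
        Pi.single (Fin.castAdd s 0, 0) 1) (Fin.castAdd s 1, 0) = 1 ∧
    (((rk (u4 s) (u4 s) h6 : GL (Fin (4 + s) × Fin 1) F) :
        Matrix (Fin (4 + s) × Fin 1) (Fin (4 + s) × Fin 1) F) *ᵥ
        Pi.single (Fin.castAdd s 0, 0) 1) (Fin.castAdd s 2, 0) = 1 := by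
  rw [rk_mulVec, dot_u4]
  simp [u4_castAdd, Pi.single_apply]

omit [Fintype F] in
theorem x0_mem (j : Fin 1) : (Pi.single (Fin.castAdd s 0, j) 1 : Fin (4 + s) × Fin 1 → F) ∈
    stdD (4 + s) 1 (Fin.castAdd s 0) := by
  intro p hp
  rw [Pi.single_apply, if_neg]
  intro h
  exact hp (congrArg Prod.fst h)

omit [Fintype F] in
theorem c12_ne : (Fin.castAdd s (1 : Fin 4)) ≠ Fin.castAdd s 2 := by
  intro h
  have := Fin.castAdd_injective 4 s h
  exact absurd this (by decide)

end mone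

section mtwo

variable [Fintype F] (s : ℕ)

/-- First vector of the reflection-like element. -/
def u3 : Fin (4 + s) × Fin 2 → F := fun p => if (p.1 : ℕ) < 3 ∧ p.2 = 0 then 1 else 0

/-- Second vector of the reflection-like element. -/
def v3 : Fin (4 + s) × Fin 2 → F := fun p => if (p.1 : ℕ) < 3 ∧ p.2 = 1 then 1 else 0

omit [Fintype F] in
theorem v3_dot_u3 : (v3 s : Fin (4 + s) × Fin 2 → F) ⬝ᵥ u3 s = 0 := by
  unfold dotProduct
  apply Finset.sum_eq_zero
  intro p _
  by_cases hp : p.2 = 0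
  · have h0 : (v3 s : Fin (4 + s) × Fin 2 → F) p = 0 := by simp [v3, hp]
    rw [h0, zero_mul]
  · have h0 : (u3 s : Fin (4 + s) × Fin 2 → F) p = 0 := by simp [u3, hp]
    rw [h0, mul_zero]

omit [Fintype F] in
theorem u3_c0 : (u3 s : Fin (4 + s) × Fin 2 → F) (Fin.castAdd s 0, 0) = 1 := by simp [u3]

omit [Fintype F] in
theorem u3_c1 : (u3 s : Fin (4 + s) × Fin 2 → F) (Fin.castAdd s 1, 0) = 1 := by simp [u3]

omit [Fintype F] in
theorem u3_c2 : (u3 s : Fin (4 + s) × Fin 2 → F) (Fin.castAdd s 2, 0) = 1 := by simp [u3]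

omit [Fintype F] in
theorem u3_c3 : (u3 s : Fin (4 + s) × Fin 2 → F) (Fin.castAdd s 3, 0) = 0 := by
  have h3 : ((3 : Fin 4) : ℕ) = 3 := rfl
  simp [u3, h3]

omit [Fintype F] in
theorem u3_one (i : Fin (4 + s)) : (u3 s : Fin (4 + s) × Fin 2 → F) (i, 1) = 0 := by simp [u3]

omit [Fintype F] in
theorem u3_natAdd (i : Fin s) (j : Fin 2) :
    (u3 s : Fin (4 + s) × Fin 2 → F) (Fin.natAdd 4 i, j) = 0 := by
  have hlt : ¬ (4 + (i : ℕ) < 3) := by omega
  simp [u3, hlt]

omit [Fintype F] in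
theorem v3_c0 : (v3 s : Fin (4 + s) × Fin 2 → F) (Fin.castAdd s 0, 1) = 1 := by simp [v3]

omit [Fintype F] in
theorem v3_c1 : (v3 s : Fin (4 + s) × Fin 2 → F) (Fin.castAdd s 1, 1) = 1 := by simp [v3]

omit [Fintype F] in
theorem v3_c2 : (v3 s : Fin (4 + s) × Fin 2 → F) (Fin.castAdd s 2, 1) = 1 := by simp [v3]

omit [Fintype F] in
theorem v3_c3 : (v3 s : Fin (4 + s) × Fin 2 → F) (Fin.castAdd s 3, 1) = 0 := by
  have h3 : ((3 : Fin 4) : ℕ) = 3 := rfl
  simp [v3, h3]

omit [Fintype F] in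
theorem v3_zero (i : Fin (4 + s)) : (v3 s : Fin (4 + s) × Fin 2 → F) (i, 0) = 0 := by simp [v3]

omit [Fintype F] in
theorem v3_natAdd (i : Fin s) (j : Fin 2) :
    (v3 s : Fin (4 + s) × Fin 2 → F) (Fin.natAdd 4 i, j) = 0 := by
  have hlt : ¬ (4 + (i : ℕ) < 3) := by omega
  simp [v3, hlt]

omit [Fintype F] in
theorem dot_v3 (x : Fin (4 + s) × Fin 2 → F) :
    v3 s ⬝ᵥ x = x (Fin.castAdd s 0, 1) + x (Fin.castAdd s 1, 1) + x (Fin.castAdd s 2, 1) := by
  unfold dotProduct
  rw [Fintype.sum_prod_type]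
  simp only [Fin.sum_univ_two]
  rw [sum4]
  simp only [v3_zero, v3_natAdd, v3_c0, v3_c1, v3_c2, v3_c3, one_mul, zero_mul,
    Finset.sum_const_zero, add_zero, zero_add]

theorem chi_two (hq : Fintype.card F = 2) (t : ℕ) (i : Fin t) (x : Fin t × Fin 2 → F) :
    chi t 2 i x = x (i, 0) + x (i, 0) * x (i, 1) + x (i, 1) := by
  have h2 := Cfsg.Agent.Helper18.TensTwo.two_eq_zero hq
  rcases Cfsg.Agent.Helper18.TensTwo.zero_or_one hq (x (i, 0)) with ha | ha <;>
    rcases Cfsg.Agent.Helper18.TensTwo.zero_or_one hq (x (i, 1)) with hb | hb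
  · rw [chi_zero i x (Fin.forall_fin_two.2 ⟨ha, hb⟩), ha, hb]
    simp
  · rw [chi_one i x ⟨1, by rw [hb]; exact one_ne_zero⟩, ha, hb]
    simp
  · rw [chi_one i x ⟨0, by rw [ha]; exact one_ne_zero⟩, ha, hb]
    simp
  · rw [chi_one i x ⟨0, by rw [ha]; exact one_ne_zero⟩, ha, hb]
    linear_combination (-1 : F) * h2

theorem rk3_wt (hq : Fintype.card F = 2) (h6 : (1 : F) + 1 + v3 s ⬝ᵥ u3 s = 0) :
    rk (u3 s) (v3 s) h6 ∈ wtStab (F := F) (4 + s) 2 := by
  intro x
  have h2 := Cfsg.Agent.Helper18.TensTwo.two_eq_zero hq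
  have hβ : (x (Fin.castAdd s 0, 1) + x (Fin.castAdd s 1, 1) + x (Fin.castAdd s 2, 1)) *
      (x (Fin.castAdd s 0, 1) + x (Fin.castAdd s 1, 1) + x (Fin.castAdd s 2, 1)) =
      x (Fin.castAdd s 0, 1) + x (Fin.castAdd s 1, 1) + x (Fin.castAdd s 2, 1) := by
    rcases Cfsg.Agent.Helper18.TensTwo.zero_or_one hq
      (x (Fin.castAdd s 0, 1) + x (Fin.castAdd s 1, 1) + x (Fin.castAdd s 2, 1)) with h | h <;>
      rw [h] <;> simp
  rw [rk_mulVec, dot_v3]
  unfold wt
  rw [sum4, sum4]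
  simp only [chi_two hq, Pi.add_apply, Pi.smul_apply, smul_eq_mul, u3_c0, u3_c1, u3_c2, u3_c3,
    u3_one, u3_natAdd, mul_one, mul_zero, add_zero]
  linear_combination hβ + (x (Fin.castAdd s 0, 1) + x (Fin.castAdd s 1, 1) +
    x (Fin.castAdd s 2, 1)) * (2 : F) * h2

omit [Fintype F] in
theorem rk3_x0 (h6 : (1 : F) + 1 + v3 s ⬝ᵥ u3 s = 0) :
    (((rk (u3 s) (v3 s) h6 : GL (Fin (4 + s) × Fin 2) F) :
        Matrix (Fin (4 + s) × Fin 2) (Fin (4 + s) × Fin 2) F) *ᵥ
        Pi.single (Fin.castAdd s 0, 1) 1) (Fin.castAdd s 1, 0) = 1 ∧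
    (((rk (u3 s) (v3 s) h6 : GL (Fin (4 + s) × Fin 2) F) :
        Matrix (Fin (4 + s) × Fin 2) (Fin (4 + s) × Fin 2) F) *ᵥ
        Pi.single (Fin.castAdd s 0, 1) 1) (Fin.castAdd s 2, 0) = 1 := by
  rw [rk_mulVec, dot_v3]
  simp [u3_c1, u3_c2, Pi.single_apply]

omit [Fintype F] in
theorem x0_mem2 (j : Fin 2) : (Pi.single (Fin.castAdd s 0, j) 1 : Fin (4 + s) × Fin 2 → F) ∈
    stdD (4 + s) 2 (Fin.castAdd s 0) := by
  intro p hp
  rw [Pi.single_apply, if_neg]
  intro h
  exact hp (congrArg Prod.fst h)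

end mtwo

section final

variable [Fintype F]

theorem std_main (t m : ℕ) (ht : 5 ≤ t)
    (h : (m = 1 ∧ Fintype.card F ≤ 4) ∨ (m = 2 ∧ Fintype.card F = 2)) :
    ∃ K0 : Subgroup (GL (Fin t × Fin m) F),
      Cfsg.Geo.decompositionStabilizer (stdD (F := F) t m) ⊓
        Cfsg.Geo.specialLinear (Fin t × Fin m) F < K0 ∧
      K0 < Cfsg.Geo.specialLinear (Fin t × Fin m) F := by
  obtain ⟨s, rfl⟩ : ∃ s, t = 4 + s := ⟨t - 4, by omega⟩
  have hs : 0 < s := by omega
  have key : ∀ (g : GL (Fin (4 + s) × Fin m) F), g ∈ wtStab (4 + s) m →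
      g ∈ Cfsg.Geo.specialLinear (Fin (4 + s) × Fin m) F →
      g ∉ Cfsg.Geo.decompositionStabilizer (stdD (F := F) (4 + s) m) → 0 < m →
      ∃ K0 : Subgroup (GL (Fin (4 + s) × Fin m) F),
        Cfsg.Geo.decompositionStabilizer (stdD (F := F) (4 + s) m) ⊓
          Cfsg.Geo.specialLinear (Fin (4 + s) × Fin m) F < K0 ∧
        K0 < Cfsg.Geo.specialLinear (Fin (4 + s) × Fin m) F := by
    intro g hw hsl hns hm
    refine ⟨wtStab (4 + s) m ⊓ Cfsg.Geo.specialLinear (Fin (4 + s) × Fin m) F,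
      lt_of_le_of_ne (inf_le_inf_right _ (stab_le _ _)) ?_, lt_of_le_of_ne inf_le_right ?_⟩
    · intro heq
      have hg : g ∈ Cfsg.Geo.decompositionStabilizer (stdD (F := F) (4 + s) m) ⊓
          Cfsg.Geo.specialLinear (Fin (4 + s) × Fin m) F := by
        rw [heq]
        exact ⟨hw, hsl⟩
      exact hns hg.1
    · intro heq
      have h01 : (Fin.castAdd s (0 : Fin 4)) ≠ Fin.castAdd s 1 := by
        intro h'
        exact absurd (Fin.castAdd_injective 4 s h') (by decide)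
      have htv : tv (F := F) (Fin.castAdd s 0) (Fin.castAdd s 1) ⟨0, hm⟩ h01 ∈
          wtStab (4 + s) m ⊓ Cfsg.Geo.specialLinear (Fin (4 + s) × Fin m) F := by
        rw [heq]
        exact tv_sl _ _ _ _
      exact tv_not _ _ _ _ htv.1
  have hcard := FiniteField.cast_card_eq_zero F
  rcases h with ⟨rfl, hq⟩ | ⟨rfl, hq⟩
  · have h1 := Fintype.one_lt_card (α := F)
    have hcases : Fintype.card F = 2 ∨ Fintype.card F = 3 ∨ Fintype.card F = 4 := by omega
    rcases hcases with hq | hq | hq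
    · have h2 : (2 : F) = 0 := by
        rw [hq] at hcard
        exact_mod_cast hcard
      have h6 : (1 : F) + 1 + u4 s ⬝ᵥ u4 s = 0 := by
        rw [dot_u4_self]
        linear_combination 3 * h2
      refine key (rk (u4 s) (u4 s) h6) (rk4_wt s h6 ?_) ?_ ?_ (by norm_num)
      · intro a b c d
        simp only [hq, Nat.reduceSub, pow_one]
        linear_combination (2 * (a + b + c + d)) * h2
      · rw [mem_sl_iff, rk_det, dot_u4_self]
        linear_combination 2 * h2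
      · exact not_stab _ (Fin.castAdd s 0) (Pi.single (Fin.castAdd s 0, 0) 1) (x0_mem s 0)
          (Fin.castAdd s 1, 0) (Fin.castAdd s 2, 0) (c12_ne s)
          (by rw [(rk4_x0 s h6).1]; exact one_ne_zero) (by rw [(rk4_x0 s h6).2]; exact one_ne_zero)
    · have h3 : (3 : F) = 0 := by
        rw [hq] at hcard
        exact_mod_cast hcard
      have h6 : (1 : F) + 1 + u4 s ⬝ᵥ u4 s = 0 := by
        rw [dot_u4_self]
        linear_combination 2 * h3
      have hP : ∀ a b c d : F, (a + (a + b + c + d)) ^ (Fintype.card F - 1) +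
          (b + (a + b + c + d)) ^ (Fintype.card F - 1) + (c + (a + b + c + d)) ^ (Fintype.card F - 1) +
          (d + (a + b + c + d)) ^ (Fintype.card F - 1) =
          a ^ (Fintype.card F - 1) + b ^ (Fintype.card F - 1) + c ^ (Fintype.card F - 1) +
            d ^ (Fintype.card F - 1) := by
        intro a b c d
        simp only [hq, Nat.reduceSub]
        linear_combination (2 * (a + b + c + d) ^ 2) * h3
      refine key (dg (Fin.natAdd 4 (⟨0, hs⟩ : Fin s), (0 : Fin 1)) * rk (u4 s) (u4 s) h6)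
        (Subgroup.mul_mem _ (dg_wt _) (rk4_wt s h6 hP)) ?_ ?_ (by norm_num)
      · rw [mem_sl_iff, Units.val_mul, Matrix.det_mul, dg_det, rk_det, dot_u4_self]
        linear_combination (-2 : F) * h3
      · exact not_stab _ (Fin.castAdd s 0) (Pi.single (Fin.castAdd s 0, 0) 1) (x0_mem s 0)
          (Fin.castAdd s 1, 0) (Fin.castAdd s 2, 0) (c12_ne s)
          (by rw [Units.val_mul, ← Matrix.mulVec_mulVec, dg_ne, (rk4_x0 s h6).1]; exact one_ne_zero)
          (by rw [Units.val_mul, ← Matrix.mulVec_mulVec, dg_ne, (rk4_x0 s h6).2]; exact one_ne_zero)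
    · have h2 : (2 : F) = 0 := by
        rw [hq] at hcard
        have h4 : (2 : F) * 2 = 0 := by
          have h4' : ((4 : ℕ) : F) = 0 := hcard
          push_cast at h4'
          linear_combination h4'
        exact mul_self_eq_zero.1 h4
      have h6 : (1 : F) + 1 + u4 s ⬝ᵥ u4 s = 0 := by
        rw [dot_u4_self]
        linear_combination 3 * h2
      refine key (rk (u4 s) (u4 s) h6) (rk4_wt s h6 ?_) ?_ ?_ (by norm_num)
      · intro a b c d
        simp only [hq, Nat.reduceSub]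
        linear_combination (5 * (a + b + c + d) ^ 3 - 3 * (a + b + c + d) *
          (a * b + a * c + a * d + b * c + b * d + c * d)) * h2
      · rw [mem_sl_iff, rk_det, dot_u4_self]
        linear_combination 2 * h2
      · exact not_stab _ (Fin.castAdd s 0) (Pi.single (Fin.castAdd s 0, 0) 1) (x0_mem s 0)
          (Fin.castAdd s 1, 0) (Fin.castAdd s 2, 0) (c12_ne s)
          (by rw [(rk4_x0 s h6).1]; exact one_ne_zero) (by rw [(rk4_x0 s h6).2]; exact one_ne_zero)
  · have h2 := Cfsg.Agent.Helper18.TensTwo.two_eq_zero hq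
    have h6 : (1 : F) + 1 + v3 s ⬝ᵥ u3 s = 0 := by
      rw [v3_dot_u3, add_zero, h2]
    refine key (rk (u3 s) (v3 s) h6) (rk3_wt s hq h6) ?_ ?_ (by norm_num)
    · rw [Cfsg.Agent.Helper18.TensTwo.sl_eq_top hq]
      exact Subgroup.mem_top _
    · exact not_stab _ (Fin.castAdd s 0) (Pi.single (Fin.castAdd s 0, 1) 1) (x0_mem2 s 1)
        (Fin.castAdd s 1, 0) (Fin.castAdd s 2, 0) (c12_ne s)
        (by rw [(rk3_x0 s h6).1]; exact one_ne_zero) (by rw [(rk3_x0 s h6).2]; exact one_ne_zero)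

theorem main (n : ℕ) (hn : 13 ≤ n) {t : ℕ} (m : ℕ) (D : Fin t → Submodule F (Fin n → F))
    (hD : Cfsg.Geo.IsMDecomposition m D)
    (h : (m = 1 ∧ Fintype.card F ≤ 4) ∨ (m = 2 ∧ Fintype.card F = 2)) :
    ∃ K : Subgroup (Matrix.GeneralLinearGroup (Fin n) F),
      Cfsg.Geo.decompositionStabilizer D ⊓ Cfsg.Geo.specialLinear (Fin n) F < K ∧
        K < Cfsg.Geo.specialLinear (Fin n) F := by
  obtain ⟨A, A', h1, h2, hmap, hnt⟩ := exists_std t m hD
  have ht : 5 ≤ t := by
    rcases h with ⟨rfl, _⟩ | ⟨rfl, _⟩ <;> omega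
  obtain ⟨K0, hK1, hK2⟩ := std_main (F := F) t m ht h
  exact transport A A' h1 h2 D (stdD t m) hmap K0 hK1 hK2

end final

end Cfsg.Agent.Helper18.DecStab
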