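import Mathlib
import Cfsg.Prelude.Def_GeometricClasses
import Cfsg.Prelude.Def_LieClassical
import Cfsg.Agent.Helper18.DecStab

set_option autoImplicit false

namespace Cfsg.Agent.Helper18.DecUnit

open Matrix

variable {F : Type*} [Field F]

/-- The standard Hermitian form for the squaring map. -/
def hf {ι : Type} [Fintype ι] (u v : ι → F) : F := ∑ i, u i * v i ^ 2

section formalg

variable {ι : Type} [Fintype ι]

theorem hf_add_left (x y v : ι → F) : hf (x + y) v = hf x v + hf y v := by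
  unfold hf
  rw [← Finset.sum_add_distrib]
  apply Finset.sum_congr rfl
  intro i _
  rw [Pi.add_apply, add_mul]

theorem hf_smul_left (c : F) (x v : ι → F) : hf (c • x) v = c * hf x v := by
  unfold hf
  rw [Finset.mul_sum]
  apply Finset.sum_congr rfl
  intro i _
  rw [Pi.smul_apply, smul_eq_mul, mul_assoc]

theorem hf_zero_left (v : ι → F) : hf (0 : ι → F) v = 0 := by
  simp [hf]

theorem hf_sum_left {α : Type*} (s : Finset α) (c : α → F) (w : α → ι → F) (v : ι → F) :
    hf (∑ a ∈ s, c a • w a) v = ∑ a ∈ s, c a * hf (w a) v := by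
  classical
  induction s using Finset.induction_on with
  | empty => simp [hf_zero_left]
  | insert a s ha ih =>
    rw [Finset.sum_insert ha, Finset.sum_insert ha, hf_add_left, hf_smul_left, ih]

variable [CharP F 2]

theorem hf_add_right (u x y : ι → F) : hf u (x + y) = hf u x + hf u y := by
  unfold hf
  rw [← Finset.sum_add_distrib]
  apply Finset.sum_congr rfl
  intro i _
  rw [Pi.add_apply, add_pow_char, mul_add]

omit [CharP F 2] in
theorem hf_smul_right (c : F) (u x : ι → F) : hf u (c • x) = c ^ 2 * hf u x := by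
  unfold hf
  rw [Finset.mul_sum]
  apply Finset.sum_congr rfl
  intro i _
  rw [Pi.smul_apply, smul_eq_mul, mul_pow]
  ring

omit [CharP F 2] in
theorem hf_zero_right (u : ι → F) : hf u (0 : ι → F) = 0 := by
  simp [hf]

theorem hf_sum_right {α : Type*} (s : Finset α) (c : α → F) (w : α → ι → F) (u : ι → F) :
    hf u (∑ a ∈ s, c a • w a) = ∑ a ∈ s, c a ^ 2 * hf u (w a) := by
  classical
  induction s using Finset.induction_on with
  | empty => simp [hf_zero_right]
  | insert a s ha ih =>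
    rw [Finset.sum_insert ha, Finset.sum_insert ha, hf_add_right, hf_smul_right, ih]

theorem hf_symm [Fintype F] (hF : Fintype.card F = 4) (u v : ι → F) : hf v u = hf u v ^ 2 := by
  unfold hf
  rw [sum_pow_char 2]
  apply Finset.sum_congr rfl
  intro i _
  have h4 : v i ^ 4 = v i := by
    have h := FiniteField.pow_card (v i)
    rwa [hF] at h
  rw [mul_pow, ← pow_mul, h4, mul_comm]

theorem hf_idem [Fintype F] (hF : Fintype.card F = 4) (x : ι → F) : hf x x = 0 ∨ hf x x = 1 := by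
  have h := hf_symm hF x x
  have h2 : hf x x * (hf x x - 1) = 0 := by linear_combination -h
  rcases mul_eq_zero.1 h2 with h3 | h3
  · exact Or.inl h3
  · exact Or.inr (sub_eq_zero.1 h3)

end formalg

theorem two_eq_zero4 [Fintype F] (hF : Fintype.card F = 4) : (2 : F) = 0 := by
  have hcard := FiniteField.cast_card_eq_zero F
  rw [hF] at hcard
  have h4 : (2 : F) * 2 = 0 := by
    have h4' : ((4 : ℕ) : F) = 0 := hcard
    push_cast at h4'
    linear_combination h4'
  exact mul_self_eq_zero.1 h4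

theorem charP4 [Fintype F] (hF : Fintype.card F = 4) : CharP F 2 :=
  CharTwo.of_one_ne_zero_of_two_eq_zero one_ne_zero (two_eq_zero4 hF)

theorem exists_onb [Fintype F] (hF : Fintype.card F = 4) {n : ℕ} (W : Submodule F (Fin n → F))
    (hdim : Module.finrank F W = 2)
    (hnd : Cfsg.Geo.IsNondegenerateOn (Cfsg.hermForm n F 2) W) :
    ∃ b : Module.Basis (Fin 2) F W, ∀ j j',
      hf ((b j : ↥W) : Fin n → F) ((b j' : ↥W) : Fin n → F) = if j = j' then 1 else 0 := by
  classical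
  have hc2 : CharP F 2 := charP4 hF
  have hnd' : ∀ w ∈ W, w ≠ 0 → (∃ x ∈ W, hf x w ≠ 0) ∧ (∃ x ∈ W, hf w x ≠ 0) := hnd
  obtain ⟨e1, he1W, he1⟩ : ∃ e1 ∈ W, hf e1 e1 = 1 := by
    by_contra hcon
    push Not at hcon
    have hz : ∀ x ∈ W, hf x x = 0 := fun x hx => (hf_idem hF x).resolve_right (hcon x hx)
    have hxy : ∀ x ∈ W, ∀ y ∈ W, hf x y + hf x y ^ 2 = 0 := by
      intro x hx y hy
      have h := hz (x + y) (W.add_mem hx hy)
      rw [hf_add_left, hf_add_right, hf_add_right, hz x hx, hz y hy, zero_add, add_zero,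
        hf_symm hF x y] at h
      exact h
    have hne : W ≠ ⊥ := by
      intro h
      rw [h] at hdim
      simp at hdim
    obtain ⟨w, hwW, hw0⟩ := Submodule.exists_mem_ne_zero_of_ne_bot hne
    obtain ⟨⟨x, hxW, hxw⟩, _⟩ := hnd' w hwW hw0
    obtain ⟨c, hc0, hc1⟩ : ∃ c : F, c ≠ 0 ∧ c ≠ 1 := by
      by_contra hall
      push Not at hall
      have hle : Fintype.card F ≤ 2 := by
        calc Fintype.card F = (Finset.univ : Finset F).card := rfl
          _ ≤ ({0, 1} : Finset F).card := Finset.card_le_card (fun c _ => by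
              by_cases h : c = 0
              · simp [h]
              · simp [hall c h])
          _ ≤ 2 := Finset.card_le_two
      omega
    have h1 := hxy x hxW w hwW
    have h2' := hxy (c • x) (W.smul_mem c hxW) w hwW
    rw [hf_smul_left] at h2'
    have ha : hf x w = -1 := by
      have h3 : hf x w * (1 + hf x w) = 0 := by linear_combination h1
      rcases mul_eq_zero.1 h3 with h | h
      · exact absurd h hxw
      · linear_combination h
    have hca : c * hf x w = -1 := by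
      have h3 : (c * hf x w) * (1 + c * hf x w) = 0 := by linear_combination h2'
      rcases mul_eq_zero.1 h3 with h | h
      · exact absurd h (mul_ne_zero hc0 hxw)
      · linear_combination h
    apply hc1
    rw [ha] at hca
    linear_combination -hca
  let φ : ↥W →ₗ[F] F :=
    { toFun := fun x => hf (x : Fin n → F) e1
      map_add' := fun x y => hf_add_left _ _ _
      map_smul' := fun c x => by
        simp only [Submodule.coe_smul, hf_smul_left, RingHom.id_apply, smul_eq_mul] }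
  have hker : 0 < Module.finrank F (LinearMap.ker φ) := by
    have h1 := LinearMap.finrank_range_add_finrank_ker φ
    have h2 : Module.finrank F (LinearMap.range φ) ≤ 1 := by
      have h3 := Submodule.finrank_le (LinearMap.range φ)
      rwa [Module.finrank_self] at h3
    omega
  have hne' : LinearMap.ker φ ≠ ⊥ := by
    intro h
    rw [h] at hker
    simp at hker
  obtain ⟨e2, he2ker, he2ne⟩ := Submodule.exists_mem_ne_zero_of_ne_bot hne'
  have he21 : hf ((e2 : ↥W) : Fin n → F) e1 = 0 := LinearMap.mem_ker.1 he2ker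
  have he12 : hf e1 ((e2 : ↥W) : Fin n → F) = 0 := by
    rw [hf_symm hF _ e1, he21]
    norm_num
  have he2W0 : ((e2 : ↥W) : Fin n → F) ≠ 0 := fun h => he2ne (Subtype.ext h)
  have hli : LinearIndependent F ![(⟨e1, he1W⟩ : ↥W), (e2 : ↥W)] := by
    rw [LinearIndependent.pair_iff]
    intro s t hst
    have h0 := congrArg (fun z : ↥W => hf (z : Fin n → F) e1) hst
    simp only [Submodule.coe_add, Submodule.coe_smul, hf_add_left, hf_smul_left, he1, he21,
      Submodule.coe_zero, hf_zero_left, mul_one, mul_zero, add_zero] at h0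
    refine ⟨h0, ?_⟩
    rw [h0, zero_smul, zero_add] at hst
    rcases smul_eq_zero.1 hst with h | h
    · exact h
    · exact absurd (congrArg Subtype.val h) he2W0
  let b := basisOfLinearIndependentOfCardEqFinrank hli (by rw [Fintype.card_fin, hdim])
  have hb : ⇑b = ![(⟨e1, he1W⟩ : ↥W), (e2 : ↥W)] :=
    coe_basisOfLinearIndependentOfCardEqFinrank hli _
  have he22 : hf ((e2 : ↥W) : Fin n → F) ((e2 : ↥W) : Fin n → F) = 1 := by
    rcases hf_idem hF ((e2 : ↥W) : Fin n → F) with h | h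
    · exfalso
      obtain ⟨⟨x, hxW, hx⟩, _⟩ := hnd' _ (e2 : ↥W).2 he2W0
      apply hx
      have hrep := congrArg Subtype.val (b.sum_repr ⟨x, hxW⟩)
      rw [Fin.sum_univ_two, hb] at hrep
      have hx' : x = (b.repr ⟨x, hxW⟩ 0) • e1 + (b.repr ⟨x, hxW⟩ 1) • ((e2 : ↥W) : Fin n → F) := by
        simpa using hrep.symm
      rw [hx', hf_add_left, hf_smul_left, hf_smul_left, he12, h, mul_zero, mul_zero, add_zero]
    · exact h
  refine ⟨b, ?_⟩
  intro j j'
  rw [hb]
  fin_cases j <;> fin_cases j' <;> simp [he1, he12, he21, he22]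

theorem exists_std' (t m : ℕ) {n : ℕ} {D : Fin t → Submodule F (Fin n → F)}
    (hD : Cfsg.Geo.IsMDecomposition m D) (b : ∀ i, Module.Basis (Fin m) F (D i)) :
    ∃ (A : Matrix (Fin n) (Fin t × Fin m) F) (A' : Matrix (Fin t × Fin m) (Fin n) F),
      A * A' = 1 ∧ A' * A = 1 ∧ (∀ i, (DecStab.stdD t m i).map (Matrix.toLin' A) = D i) ∧
      n = t * m ∧
      ∀ y : Fin t × Fin m → F, A *ᵥ y = ∑ p, y p • ((b p.1 p.2 : ↥(D p.1)) : Fin n → F) := by
  classical
  have hInt : DirectSum.IsInternal D :=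
    DirectSum.isInternal_submodule_of_iSupIndep_of_iSup_eq_top hD.indep hD.iSup_eq_top
  let B := (hInt.collectedBasis b).reindex (Equiv.sigmaEquivProd (Fin t) (Fin m))
  have hB : ∀ i j, B (i, j) = (b i j : Fin n → F) := by
    intro i j
    simp [B, Module.Basis.reindex_apply, DirectSum.IsInternal.collectedBasis_coe]
  have hA : ∀ y : Fin t × Fin m → F,
      Matrix.toLin' ((Pi.basisFun F (Fin n)).toMatrix B) y = ∑ p, y p • B p := by
    intro y
    ext k
    simp [Matrix.toLin'_apply, Matrix.mulVec, dotProduct, Module.Basis.toMatrix_apply, mul_comm]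
  refine ⟨(Pi.basisFun F (Fin n)).toMatrix B, B.toMatrix (Pi.basisFun F (Fin n)),
    Module.Basis.toMatrix_mul_toMatrix_flip _ _, Module.Basis.toMatrix_mul_toMatrix_flip _ _, ?_, ?_, ?_⟩
  · intro i
    apply le_antisymm
    · rintro _ ⟨y, hy, rfl⟩
      rw [hA]
      apply Submodule.sum_mem
      intro p _
      by_cases hp : p.1 = i
      · apply Submodule.smul_mem
        obtain ⟨p1, p2⟩ := p
        simp only at hp
        subst hp
        rw [hB]
        exact (b p1 p2).2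
      · rw [hy p hp, zero_smul]
        exact Submodule.zero_mem _
    · intro d hd
      refine ⟨fun p => if p.1 = i then (b i).repr ⟨d, hd⟩ p.2 else 0, ?_, ?_⟩
      · intro p hp
        simp [hp]
      · rw [hA, Fintype.sum_prod_type, Finset.sum_eq_single i]
        · simp only [if_true, hB]
          have h2 := congrArg (Submodule.subtype (D i)) ((b i).sum_repr ⟨d, hd⟩)
          rw [map_sum] at h2
          simpa only [map_smul, Submodule.subtype_apply] using h2
        · intro i' _ hne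
          simp [hne]
        · intro h
          exact absurd (Finset.mem_univ i) h
  · have hfr := Module.finrank_eq_card_basis B
    rw [Module.finrank_fin_fun, Fintype.card_prod, Fintype.card_fin, Fintype.card_fin] at hfr
    exact hfr
  · intro y
    have h1 := hA y
    rw [Matrix.toLin'_apply] at h1
    rw [h1]
    apply Finset.sum_congr rfl
    intro p _
    obtain ⟨p1, p2⟩ := p
    rw [hB]

theorem iso_of_onb [CharP F 2] {n : ℕ} {κ : Type} [Fintype κ] [DecidableEq κ]
    (A : Matrix (Fin n) κ F) (B : κ → Fin n → F) (hA : ∀ y : κ → F, A *ᵥ y = ∑ p, y p • B p)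
    (hB : ∀ p p', hf (B p) (B p') = if p = p' then 1 else 0) (x y : κ → F) :
    hf (A *ᵥ x) (A *ᵥ y) = hf x y := by
  rw [hA, hA, hf_sum_left]
  show ∑ p, x p * hf (B p) (∑ p', y p' • B p') = ∑ p, x p * y p ^ 2
  apply Finset.sum_congr rfl
  intro p _
  rw [hf_sum_right]
  simp only [hB, mul_ite, mul_one, mul_zero]
  rw [Finset.sum_ite_eq]
  simp

theorem gu_iff {n : ℕ} {κ : Type} [Fintype κ] [DecidableEq κ]
    (A : Matrix (Fin n) κ F) (A' : Matrix κ (Fin n) F) (h1 : A * A' = 1) (h2 : A' * A = 1)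
    (hiso : ∀ x y : κ → F, hf (A *ᵥ x) (A *ᵥ y) = hf x y) (g : GL κ F) :
    g ∈ Cfsg.preserving (Units.coeHom (Matrix κ κ F)) (hf (F := F) (ι := κ)) ↔
      DecStab.conjHom A A' h1 h2 g ∈ Cfsg.GU n F 2 := by
  have hGU : ∀ g' : GL (Fin n) F, g' ∈ Cfsg.GU n F 2 ↔ ∀ u v : Fin n → F,
      hf ((g' : Matrix (Fin n) (Fin n) F) *ᵥ u) ((g' : Matrix (Fin n) (Fin n) F) *ᵥ v) = hf u v :=
    fun g' => Iff.rfl
  rw [hGU]
  have e1 : ∀ u : Fin n → F, ((DecStab.conjHom A A' h1 h2 g : GL (Fin n) F) :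
      Matrix (Fin n) (Fin n) F) *ᵥ u = A *ᵥ ((g : Matrix κ κ F) *ᵥ (A' *ᵥ u)) := by
    intro u
    rw [DecStab.conjHom_val]
    simp only [Matrix.mulVec_mulVec, Matrix.mul_assoc]
  have e2 : ∀ z : κ → F, ((DecStab.conjHom A A' h1 h2 g : GL (Fin n) F) :
      Matrix (Fin n) (Fin n) F) *ᵥ (A *ᵥ z) = A *ᵥ ((g : Matrix κ κ F) *ᵥ z) := by
    intro z
    have hz : A' *ᵥ (A *ᵥ z) = z := by rw [Matrix.mulVec_mulVec, h2, Matrix.one_mulVec]
    rw [e1, hz]
  constructor
  · intro hg u v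
    have hg' : ∀ x y : κ → F, hf ((g : Matrix κ κ F) *ᵥ x) ((g : Matrix κ κ F) *ᵥ y) = hf x y := hg
    have hu : A *ᵥ (A' *ᵥ u) = u := by rw [Matrix.mulVec_mulVec, h1, Matrix.one_mulVec]
    have hv : A *ᵥ (A' *ᵥ v) = v := by rw [Matrix.mulVec_mulVec, h1, Matrix.one_mulVec]
    rw [e1, e1, hiso, hg', ← hiso, hu, hv]
  · intro hg x y
    have h3 := hg (A *ᵥ x) (A *ᵥ y)
    rw [e2, e2, hiso, hiso] at h3
    exact h3

theorem transport' {ι κ : Type} [Fintype ι] [DecidableEq ι] [Fintype κ] [DecidableEq κ]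
    (A : Matrix ι κ F) (A' : Matrix κ ι F) (h1 : A * A' = 1) (h2 : A' * A = 1) {t : ℕ}
    (D : Fin t → Submodule F (ι → F)) (D0 : Fin t → Submodule F (κ → F))
    (hmap : ∀ i, (D0 i).map (Matrix.toLin' A) = D i) (X : Subgroup (GL ι F))
    (X0 : Subgroup (GL κ F)) (hX : ∀ g, g ∈ X0 ↔ DecStab.conjHom A A' h1 h2 g ∈ X)
    (K0 : Subgroup (GL κ F))
    (hK1 : Cfsg.Geo.decompositionStabilizer D0 ⊓ X0 < K0) (hK2 : K0 < X0) :
    ∃ K : Subgroup (GL ι F), Cfsg.Geo.decompositionStabilizer D ⊓ X < K ∧ K < X := by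
  have e1 : Cfsg.Geo.decompositionStabilizer D =
      (Cfsg.Geo.decompositionStabilizer D0).map (DecStab.conjHom A A' h1 h2) := by
    ext g
    rw [Subgroup.mem_map]
    constructor
    · intro hg
      obtain ⟨g0, rfl⟩ := DecStab.conjHom_surjective A A' h1 h2 g
      exact ⟨g0, (DecStab.stab_iff A A' h1 h2 D D0 hmap g0).2 hg, rfl⟩
    · rintro ⟨g0, hg0, rfl⟩
      exact (DecStab.stab_iff A A' h1 h2 D D0 hmap g0).1 hg0
  have e2 : X = X0.map (DecStab.conjHom A A' h1 h2) := by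
    ext g
    rw [Subgroup.mem_map]
    constructor
    · intro hg
      obtain ⟨g0, rfl⟩ := DecStab.conjHom_surjective A A' h1 h2 g
      exact ⟨g0, (hX g0).2 hg, rfl⟩
    · rintro ⟨g0, hg0, rfl⟩
      exact (hX g0).1 hg0
  refine ⟨K0.map (DecStab.conjHom A A' h1 h2), ?_, ?_⟩
  · rw [e1, e2, ← Subgroup.map_inf_eq _ _ _ (DecStab.conjHom_injective A A' h1 h2),
      Subgroup.map_lt_map_iff_of_injective (DecStab.conjHom_injective A A' h1 h2)]
    exact hK1
  · rw [e2, Subgroup.map_lt_map_iff_of_injective (DecStab.conjHom_injective A A' h1 h2)]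
    exact hK2

/-- Vectors with exactly one nonzero coordinate. -/
def wt1 (κ : Type) : Set (κ → F) := {x | ∃ p, x p ≠ 0 ∧ ∀ p', p' ≠ p → x p' = 0}

/-- Stabilizer of a set of vectors. -/
def setStab {κ : Type} [Fintype κ] [DecidableEq κ] (E : Set (κ → F)) : Subgroup (GL κ F) where
  carrier := {g | ∀ x, x ∈ E ↔ (g : Matrix κ κ F) *ᵥ x ∈ E}
  mul_mem' := by
    intro a b ha hb x
    rw [Units.val_mul, ← Matrix.mulVec_mulVec, ← ha, ← hb]
  one_mem' := by
    intro x
    rw [Units.val_one, Matrix.one_mulVec]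
  inv_mem' := by
    intro a ha x
    have h := ha (((a⁻¹ : GL κ F) : Matrix κ κ F) *ᵥ x)
    rw [Matrix.mulVec_mulVec, ← Units.val_mul, mul_inv_cancel, Units.val_one, Matrix.one_mulVec] at h
    exact h.symm

theorem h6_of [CharP F 2] {κ : Type} [Fintype κ] (w : κ → F) (hw : ∀ p, w p * w p = w p)
    (hsum : ∑ p, w p = 0) : (1 : F) + 1 + w ⬝ᵥ w = 0 := by
  have h0 : w ⬝ᵥ w = 0 := by
    unfold dotProduct
    rw [← hsum]
    exact Finset.sum_congr rfl (fun p _ => hw p)
  rw [h0, add_zero]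
  exact CharTwo.add_self_eq_zero 1

theorem rk_gu [CharP F 2] {κ : Type} [Fintype κ] [DecidableEq κ] (w : κ → F)
    (hw : ∀ p, w p * w p = w p) (hsum : ∑ p, w p = 0) (h6 : (1 : F) + 1 + w ⬝ᵥ w = 0) :
    DecStab.rk w w h6 ∈ Cfsg.preserving (Units.coeHom (Matrix κ κ F)) (hf (F := F) (ι := κ)) := by
  intro x y
  show hf (((DecStab.rk w w h6 : GL κ F) : Matrix κ κ F) *ᵥ x)
    (((DecStab.rk w w h6 : GL κ F) : Matrix κ κ F) *ᵥ y) = hf x y
  rw [DecStab.rk_mulVec, DecStab.rk_mulVec]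
  have hxw : hf x w = w ⬝ᵥ x := by
    unfold hf dotProduct
    apply Finset.sum_congr rfl
    intro p _
    rw [pow_two, hw, mul_comm]
  have hwy : hf w y = (w ⬝ᵥ y) ^ 2 := by
    unfold hf dotProduct
    rw [sum_pow_char 2]
    apply Finset.sum_congr rfl
    intro p _
    rw [mul_pow, pow_two (w p), hw]
  have hww : hf w w = 0 := by
    unfold hf
    rw [← hsum]
    apply Finset.sum_congr rfl
    intro p _
    rw [pow_two, hw, hw]
  have h2 : (2 : F) = 0 := CharTwo.two_eq_zero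
  simp only [hf_add_left, hf_add_right, hf_smul_left, hf_smul_right, hxw, hwy, hww]
  linear_combination ((w ⬝ᵥ y) ^ 2 * (w ⬝ᵥ x)) * h2

theorem rk_sl [CharP F 2] {κ : Type} [Fintype κ] [DecidableEq κ] (w : κ → F)
    (hw : ∀ p, w p * w p = w p) (hsum : ∑ p, w p = 0) (h6 : (1 : F) + 1 + w ⬝ᵥ w = 0) :
    DecStab.rk w w h6 ∈ Cfsg.Geo.specialLinear κ F := by
  rw [DecStab.mem_sl_iff, DecStab.rk_det]
  have h0 : w ⬝ᵥ w = 0 := by
    unfold dotProduct
    rw [← hsum]
    exact Finset.sum_congr rfl (fun p _ => hw p)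
  rw [h0, add_zero]

theorem rk_invol {κ : Type} [Fintype κ] [DecidableEq κ] (w : κ → F)
    (h6 : (1 : F) + 1 + w ⬝ᵥ w = 0) (x : κ → F) :
    ((DecStab.rk w w h6 : GL κ F) : Matrix κ κ F) *ᵥ
      (((DecStab.rk w w h6 : GL κ F) : Matrix κ κ F) *ᵥ x) = x := by
  rw [Matrix.mulVec_mulVec]
  have h : ((DecStab.rk w w h6 : GL κ F) : Matrix κ κ F) *
      ((DecStab.rk w w h6 : GL κ F) : Matrix κ κ F) = 1 := DecStab.rank_one_sq w w h6
  rw [h, Matrix.one_mulVec]

/-- Indicator of a pair of coordinates. -/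
def uS {κ : Type} [DecidableEq κ] (a b : κ) : κ → F := fun p => if p = a ∨ p = b then 1 else 0

/-- Indicator of a pair of blocks. -/
def wB {t : ℕ} (i0 i1 : Fin t) : Fin t × Fin 2 → F := fun p => if p.1 = i0 ∨ p.1 = i1 then 1 else 0

theorem uS_idem {κ : Type} [DecidableEq κ] (a b : κ) (p : κ) :
    (uS a b p : F) * uS a b p = uS a b p := by
  unfold uS
  split_ifs <;> simp

theorem wB_idem {t : ℕ} (i0 i1 : Fin t) (p : Fin t × Fin 2) :
    (wB i0 i1 p : F) * wB i0 i1 p = wB i0 i1 p := by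
  unfold wB
  split_ifs <;> simp

theorem uS_sum [CharP F 2] {κ : Type} [Fintype κ] [DecidableEq κ] (a b : κ) (hab : a ≠ b) :
    ∑ p, (uS a b p : F) = 0 := by
  rw [Fintype.sum_eq_add a b hab]
  · have h1 : (uS a b a : F) = 1 := if_pos (Or.inl rfl)
    have h2 : (uS a b b : F) = 1 := if_pos (Or.inr rfl)
    rw [h1, h2]
    exact CharTwo.add_self_eq_zero 1
  · intro x hx
    exact if_neg (fun h => h.elim hx.1 hx.2)

theorem wB_sum [CharP F 2] {t : ℕ} (i0 i1 : Fin t) : ∑ p, (wB i0 i1 p : F) = 0 := by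
  rw [Fintype.sum_prod_type]
  apply Finset.sum_eq_zero
  intro i _
  rw [Fin.sum_univ_two]
  exact CharTwo.add_self_eq_zero _

theorem stab_gu_wt1 [Fintype F] (hF : Fintype.card F = 4) (t : ℕ) (g : GL (Fin t × Fin 2) F)
    (hg : g ∈ Cfsg.Geo.decompositionStabilizer (DecStab.stdD (F := F) t 2))
    (hgu : g ∈ Cfsg.preserving (Units.coeHom (Matrix (Fin t × Fin 2) (Fin t × Fin 2) F))
      (hf (F := F) (ι := Fin t × Fin 2)))
    (x : Fin t × Fin 2 → F) (hx : x ∈ wt1 (F := F) (Fin t × Fin 2)) :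
    (g : Matrix (Fin t × Fin 2) (Fin t × Fin 2) F) *ᵥ x ∈ wt1 (F := F) (Fin t × Fin 2) := by
  obtain ⟨σ, hσ⟩ := hg
  obtain ⟨p, hp, hp'⟩ := hx
  have hxD : x ∈ DecStab.stdD t 2 p.1 := fun p' hne => hp' p' (fun h => hne (by rw [h]))
  have hy := DecStab.stab_mem t 2 g σ hσ p.1 x hxD
  have hcube : ∀ c : F, c ≠ 0 → c ^ 3 = 1 := fun c hc => by
    have h := FiniteField.pow_card_sub_one_eq_one c hc
    rwa [hF] at h
  have hxx : hf x x = 1 := by
    unfold hf
    rw [Finset.sum_eq_single p]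
    · rw [← pow_succ', hcube _ hp]
    · intro p' _ hne
      rw [hp' p' hne, zero_mul]
    · intro h
      exact absurd (Finset.mem_univ p) h
  have hyy : hf ((g : Matrix (Fin t × Fin 2) (Fin t × Fin 2) F) *ᵥ x)
      ((g : Matrix (Fin t × Fin 2) (Fin t × Fin 2) F) *ᵥ x) = 1 := by
    rw [← hxx]
    exact hgu x x
  obtain ⟨y, hydef⟩ : ∃ y, y = (g : Matrix (Fin t × Fin 2) (Fin t × Fin 2) F) *ᵥ x := ⟨_, rfl⟩
  rw [← hydef] at hy hyy ⊢
  have hyy' : y (σ p.1, 0) ^ 3 + y (σ p.1, 1) ^ 3 = 1 := by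
    rw [← hyy]
    unfold hf
    rw [Fintype.sum_prod_type, Finset.sum_eq_single (σ p.1)]
    · rw [Fin.sum_univ_two, ← pow_succ', ← pow_succ']
    · intro i _ hne
      rw [Fin.sum_univ_two, hy (i, 0) hne, hy (i, 1) hne]
      simp
    · intro h
      exact absurd (Finset.mem_univ _) h
  have hfin2 : ∀ q : Fin 2, q = 0 ∨ q = 1 := by
    intro q
    fin_cases q <;> simp
  by_cases ha : y (σ p.1, 0) = 0
  · by_cases hb : y (σ p.1, 1) = 0
    · rw [ha, hb] at hyy'
      simp at hyy'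
    · refine ⟨(σ p.1, 1), hb, ?_⟩
      intro p' hne
      by_cases h1 : p'.1 = σ p.1
      · obtain ⟨p1, p2⟩ := p'
        simp only at h1
        subst h1
        rcases hfin2 p2 with h | h
        · rw [h]
          exact ha
        · rw [h] at hne
          exact absurd rfl hne
      · exact hy p' h1
  · by_cases hb : y (σ p.1, 1) = 0
    · refine ⟨(σ p.1, 0), ha, ?_⟩
      intro p' hne
      by_cases h1 : p'.1 = σ p.1
      · obtain ⟨p1, p2⟩ := p'
        simp only at h1
        subst h1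
        rcases hfin2 p2 with h | h
        · rw [h] at hne
          exact absurd rfl hne
        · rw [h]
          exact hb
      · exact hy p' h1
    · rw [hcube _ ha, hcube _ hb] at hyy'
      exfalso
      have h10 : (1 : F) = 0 := by linear_combination hyy'
      exact one_ne_zero h10

theorem stab_le_set [Fintype F] (hF : Fintype.card F = 4) (t : ℕ) :
    Cfsg.Geo.decompositionStabilizer (DecStab.stdD (F := F) t 2) ⊓
      Cfsg.preserving (Units.coeHom (Matrix (Fin t × Fin 2) (Fin t × Fin 2) F))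
        (hf (F := F) (ι := Fin t × Fin 2)) ≤ setStab (wt1 (F := F) (Fin t × Fin 2)) := by
  intro g hg x
  constructor
  · exact stab_gu_wt1 hF t g hg.1 hg.2 x
  · intro hx
    have hinv := Subgroup.inv_mem _ hg
    have h := stab_gu_wt1 hF t g⁻¹ hinv.1 hinv.2 _ hx
    rwa [Matrix.mulVec_mulVec, ← Units.val_mul, inv_mul_cancel, Units.val_one,
      Matrix.one_mulVec] at h

theorem swap_wt1 [CharP F 2] {κ : Type} [Fintype κ] [DecidableEq κ] (a b : κ) (hab : a ≠ b)
    (h6 : (1 : F) + 1 + uS a b ⬝ᵥ uS a b = 0) (x : κ → F) (hx : x ∈ wt1 (F := F) κ) :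
    ((DecStab.rk (uS a b) (uS a b) h6 : GL κ F) : Matrix κ κ F) *ᵥ x ∈ wt1 (F := F) κ := by
  obtain ⟨p, hp, hp'⟩ := hx
  rw [DecStab.rk_mulVec]
  have hdot : (uS a b : κ → F) ⬝ᵥ x = uS a b p * x p := by
    unfold dotProduct
    rw [Finset.sum_eq_single p]
    · intro p' _ hne
      rw [hp' p' hne, mul_zero]
    · intro h
      exact absurd (Finset.mem_univ p) h
  rw [hdot]
  have hua : (uS a b a : F) = 1 := if_pos (Or.inl rfl)
  have hub : (uS a b b : F) = 1 := if_pos (Or.inr rfl)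
  have huo : ∀ q, q ≠ a → q ≠ b → (uS a b q : F) = 0 := fun q h1 h2 =>
    if_neg (fun h => h.elim h1 h2)
  by_cases hpa : p = a
  · rw [hpa] at hp hp' ⊢
    refine ⟨b, ?_, ?_⟩
    · rw [Pi.add_apply, Pi.smul_apply, smul_eq_mul, hua, hub, hp' b (Ne.symm hab), zero_add,
        one_mul, mul_one]
      exact hp
    · intro q hq
      rw [Pi.add_apply, Pi.smul_apply, smul_eq_mul, hua, one_mul]
      by_cases hqa : q = a
      · rw [hqa, hua, mul_one]
        exact CharTwo.add_self_eq_zero _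
      · rw [hp' q hqa, huo q hqa hq, mul_zero, add_zero]
  · by_cases hpb : p = b
    · rw [hpb] at hp hp' ⊢
      refine ⟨a, ?_, ?_⟩
      · rw [Pi.add_apply, Pi.smul_apply, smul_eq_mul, hua, hub, hp' a hab, zero_add,
          one_mul, mul_one]
        exact hp
      · intro q hq
        rw [Pi.add_apply, Pi.smul_apply, smul_eq_mul, hub, one_mul]
        by_cases hqb : q = b
        · rw [hqb, hub, mul_one]
          exact CharTwo.add_self_eq_zero _
        · rw [hp' q hqb, huo q hq hqb, mul_zero, add_zero]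
    · rw [huo p hpa hpb, zero_mul, zero_smul, add_zero]
      exact ⟨p, hp, hp'⟩

theorem std_main_u [Fintype F] (hF : Fintype.card F = 4) (t : ℕ) (i0 i1 : Fin t) (h01 : i0 ≠ i1) :
    ∃ K0 : Subgroup (GL (Fin t × Fin 2) F),
      Cfsg.Geo.decompositionStabilizer (DecStab.stdD (F := F) t 2) ⊓
        (Cfsg.preserving (Units.coeHom (Matrix (Fin t × Fin 2) (Fin t × Fin 2) F))
          (hf (F := F) (ι := Fin t × Fin 2)) ⊓ Cfsg.Geo.specialLinear (Fin t × Fin 2) F) < K0 ∧
      K0 < Cfsg.preserving (Units.coeHom (Matrix (Fin t × Fin 2) (Fin t × Fin 2) F))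
          (hf (F := F) (ι := Fin t × Fin 2)) ⊓ Cfsg.Geo.specialLinear (Fin t × Fin 2) F := by
  have hc2 : CharP F 2 := charP4 hF
  have hab : ((i0, 0) : Fin t × Fin 2) ≠ (i1, 0) := fun h => h01 (congrArg Prod.fst h)
  have h6u := h6_of (uS (F := F) ((i0, 0) : Fin t × Fin 2) (i1, 0)) (uS_idem _ _) (uS_sum _ _ hab)
  have h6w := h6_of (wB (F := F) i0 i1) (wB_idem _ _) (wB_sum _ _)
  refine ⟨setStab (wt1 (F := F) (Fin t × Fin 2)) ⊓
    (Cfsg.preserving (Units.coeHom (Matrix (Fin t × Fin 2) (Fin t × Fin 2) F))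
      (hf (F := F) (ι := Fin t × Fin 2)) ⊓ Cfsg.Geo.specialLinear (Fin t × Fin 2) F), ?_, ?_⟩
  · refine lt_of_le_of_ne (le_inf (fun g hg => stab_le_set hF t ⟨hg.1, hg.2.1⟩) inf_le_right) ?_
    intro heq
    have hmem : DecStab.rk (uS (F := F) ((i0, 0) : Fin t × Fin 2) (i1, 0)) (uS (i0, 0) (i1, 0)) h6u ∈
        setStab (wt1 (F := F) (Fin t × Fin 2)) ⊓
        (Cfsg.preserving (Units.coeHom (Matrix (Fin t × Fin 2) (Fin t × Fin 2) F))
          (hf (F := F) (ι := Fin t × Fin 2)) ⊓ Cfsg.Geo.specialLinear (Fin t × Fin 2) F) := by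
      refine ⟨?_, rk_gu _ (uS_idem _ _) (uS_sum _ _ hab) h6u, rk_sl _ (uS_idem _ _) (uS_sum _ _ hab) h6u⟩
      intro x
      constructor
      · exact swap_wt1 _ _ hab h6u x
      · intro hx
        have h := swap_wt1 _ _ hab h6u _ hx
        rwa [rk_invol] at h
    rw [← heq] at hmem
    refine DecStab.not_stab _ i0 (Pi.single (i0, 0) 1 + Pi.single (i0, 1) 1) ?_ (i0, 1) (i1, 0) h01 ?_ ?_
      hmem.1
    · intro p hp
      have h1 : p ≠ (i0, 0) := fun h => hp (by rw [h])
      have h2 : p ≠ (i0, 1) := fun h => hp (by rw [h])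
      simp [Pi.single_apply, h1, h2]
    · rw [DecStab.rk_mulVec]
      simp [uS, Pi.single_apply, h01, Ne.symm h01]
    · rw [DecStab.rk_mulVec]
      simp [uS, Pi.single_apply, h01, Ne.symm h01]
  · refine lt_of_le_of_ne inf_le_right ?_
    intro heq
    have hmem : DecStab.rk (wB (F := F) i0 i1) (wB i0 i1) h6w ∈
        Cfsg.preserving (Units.coeHom (Matrix (Fin t × Fin 2) (Fin t × Fin 2) F))
          (hf (F := F) (ι := Fin t × Fin 2)) ⊓ Cfsg.Geo.specialLinear (Fin t × Fin 2) F :=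
      ⟨rk_gu _ (wB_idem _ _) (wB_sum _ _) h6w, rk_sl _ (wB_idem _ _) (wB_sum _ _) h6w⟩
    rw [← heq] at hmem
    have hx0 : (Pi.single (i0, 0) 1 : Fin t × Fin 2 → F) ∈ wt1 (F := F) (Fin t × Fin 2) :=
      ⟨(i0, 0), by simp, fun p' hne => by simp [Pi.single_apply, hne]⟩
    obtain ⟨p, hp, hp'⟩ := (hmem.1 _).1 hx0
    have hv1 : (((DecStab.rk (wB (F := F) i0 i1) (wB i0 i1) h6w : GL (Fin t × Fin 2) F) :
        Matrix (Fin t × Fin 2) (Fin t × Fin 2) F) *ᵥ Pi.single (i0, 0) 1) (i0, 1) = 1 := by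
      rw [DecStab.rk_mulVec]
      simp [wB, Pi.single_apply]
    have hv2 : (((DecStab.rk (wB (F := F) i0 i1) (wB i0 i1) h6w : GL (Fin t × Fin 2) F) :
        Matrix (Fin t × Fin 2) (Fin t × Fin 2) F) *ᵥ Pi.single (i0, 0) 1) (i1, 0) = 1 := by
      rw [DecStab.rk_mulVec]
      simp [wB, Pi.single_apply, h01, Ne.symm h01]
    by_cases hpp : p = (i0, 1)
    · have h3 := hp' (i1, 0) (by rw [hpp]; exact fun h => h01 (congrArg Prod.fst h).symm)
      rw [hv2] at h3
      exact one_ne_zero h3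
    · have h3 := hp' (i0, 1) (fun h => hpp h.symm)
      rw [hv1] at h3
      exact one_ne_zero h3

theorem main [Fintype F] (n : ℕ) (hF : Fintype.card F = 4) (hn : 13 ≤ n) {t : ℕ}
    (D : Fin t → Submodule F (Fin n → F))
    (hD : Cfsg.Geo.IsNondegenerateMDecomposition (Cfsg.hermForm n F 2) 2 D) :
    ∃ K : Subgroup (Matrix.GeneralLinearGroup (Fin n) F),
      Cfsg.Geo.decompositionStabilizer D ⊓ (Cfsg.GU n F 2 ⊓ Cfsg.Geo.specialLinear (Fin n) F) < K ∧
        K < (Cfsg.GU n F 2 ⊓ Cfsg.Geo.specialLinear (Fin n) F) := by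
  classical
  have hc2 : CharP F 2 := charP4 hF
  have hex : ∀ i, ∃ b : Module.Basis (Fin 2) F (D i), ∀ j j',
      hf ((b j : ↥(D i)) : Fin n → F) ((b j' : ↥(D i)) : Fin n → F) = if j = j' then 1 else 0 :=
    fun i => exists_onb hF (D i) (hD.decomp.finrank_eq i) (hD.nondegenerate i)
  choose b hb using hex
  obtain ⟨A, A', h1, h2, hmap, hnt, hAsum⟩ := exists_std' t 2 hD.decomp b
  have hB : ∀ p p' : Fin t × Fin 2, hf ((b p.1 p.2 : ↥(D p.1)) : Fin n → F)
      ((b p'.1 p'.2 : ↥(D p'.1)) : Fin n → F) = if p = p' then 1 else 0 := by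
    intro p p'
    obtain ⟨i, j⟩ := p
    obtain ⟨i', j'⟩ := p'
    by_cases hii : i = i'
    · subst hii
      rw [hb i j j']
      by_cases hjj : j = j'
      · rw [if_pos hjj, if_pos (by rw [hjj])]
      · rw [if_neg hjj, if_neg (fun h => hjj (congrArg Prod.snd h))]
    · rw [if_neg (fun h => hii (congrArg Prod.fst h))]
      exact hD.orthogonal i i' hii _ (b i j).2 _ (b i' j').2
  have hiso := iso_of_onb A (fun p : Fin t × Fin 2 => ((b p.1 p.2 : ↥(D p.1)) : Fin n → F)) hAsum hB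
  have ht : 2 ≤ t := hD.decomp.two_le
  obtain ⟨K0, hK1, hK2⟩ := std_main_u hF t ⟨0, by omega⟩ ⟨1, by omega⟩
    (fun h => by simpa using congrArg Fin.val h)
  refine transport' A A' h1 h2 D (DecStab.stdD t 2) hmap _ _ ?_ K0 hK1 hK2
  intro g
  constructor
  · rintro ⟨hg1, hg2⟩
    exact ⟨(gu_iff A A' h1 h2 hiso g).1 hg1, (DecStab.sl_iff A A' h1 h2 g).1 hg2⟩
  · rintro ⟨hg1, hg2⟩
    exact ⟨(gu_iff A A' h1 h2 hiso g).2 hg1, (DecStab.sl_iff A A' h1 h2 g).2 hg2⟩

end Cfsg.Agent.Helper18.DecUnit
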