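import Mathlib
import Cfsg.Prelude.Def_GeometricClasses
import Cfsg.Prelude.Def_LieClassical
import Cfsg.Agent.Helper18.DecStab
import Cfsg.Agent.Helper18.DecUnit

set_option autoImplicit false

namespace Cfsg.Agent.Helper18.TensUnit

open Matrix Kronecker

variable {F : Type*} [Field F]

section onb

variable [Fintype F] {m : ℕ} {f : (Fin m → F) → (Fin m → F) → F}

theorem f_add_right (hF : Fintype.card F = 4) (hf : Cfsg.Geo.IsUnitaryFormPow 2 f)
    (v x y : Fin m → F) : f v (x + y) = f v x + f v y := by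
  have hc2 : CharP F 2 := DecUnit.charP4 hF
  rw [hf.herm v (x + y), hf.add_left, CharTwo.add_sq, ← hf.herm, ← hf.herm]

theorem f_smul_right (hf : Cfsg.Geo.IsUnitaryFormPow 2 f) (c : F) (v x : Fin m → F) :
    f v (c • x) = c ^ 2 * f v x := by
  rw [hf.herm v (c • x), hf.smul_left, mul_pow, ← hf.herm]

theorem f_zero_left (hf : Cfsg.Geo.IsUnitaryFormPow 2 f) (v : Fin m → F) : f 0 v = 0 := by
  have h := hf.smul_left 0 0 v
  rwa [zero_smul, zero_mul] at h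

theorem f_zero_right (hf : Cfsg.Geo.IsUnitaryFormPow 2 f) (v : Fin m → F) : f v 0 = 0 := by
  rw [hf.herm, f_zero_left hf, zero_pow two_ne_zero]

theorem f_sum_left (hf : Cfsg.Geo.IsUnitaryFormPow 2 f) {α : Type*} (s : Finset α)
    (w : α → Fin m → F) (v : Fin m → F) : f (∑ i ∈ s, w i) v = ∑ i ∈ s, f (w i) v := by
  classical
  induction s using Finset.induction_on with
  | empty => simp [f_zero_left hf]
  | insert a s ha ih => rw [Finset.sum_insert ha, Finset.sum_insert ha, hf.add_left, ih]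

theorem f_sum_right (hF : Fintype.card F = 4) (hf : Cfsg.Geo.IsUnitaryFormPow 2 f) {α : Type*}
    (s : Finset α) (w : α → Fin m → F) (v : Fin m → F) :
    f v (∑ i ∈ s, w i) = ∑ i ∈ s, f v (w i) := by
  classical
  induction s using Finset.induction_on with
  | empty => simp [f_zero_right hf]
  | insert a s ha ih => rw [Finset.sum_insert ha, Finset.sum_insert ha, f_add_right hF hf, ih]

theorem vec_expand (x : Fin m → F) : x = ∑ a, x a • (Pi.single a 1 : Fin m → F) := by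
  ext i
  simp [Finset.sum_apply, Pi.single_apply]

theorem f_gram (hF : Fintype.card F = 4) (hf : Cfsg.Geo.IsUnitaryFormPow 2 f) (x y : Fin m → F) :
    f x y = ∑ a, ∑ b, x a * Cfsg.Geo.gramMatrix f a b * y b ^ 2 := by
  conv_lhs => rw [vec_expand x, vec_expand y]
  rw [f_sum_left hf]
  apply Finset.sum_congr rfl
  intro a _
  rw [hf.smul_left, f_sum_right hF hf, Finset.mul_sum]
  apply Finset.sum_congr rfl
  intro b _
  rw [f_smul_right hf]
  unfold Cfsg.Geo.gramMatrix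
  ring

theorem f_idem (hf : Cfsg.Geo.IsUnitaryFormPow 2 f) (x : Fin m → F) : f x x = 0 ∨ f x x = 1 := by
  have h := hf.herm x x
  have h2 : f x x * (f x x - 1) = 0 := by linear_combination -h
  rcases mul_eq_zero.1 h2 with h3 | h3
  · exact Or.inl h3
  · exact Or.inr (sub_eq_zero.1 h3)

theorem exists_omega (hF : Fintype.card F = 4) : ∃ ω : F, ω ≠ 0 ∧ ω ≠ 1 := by
  classical
  by_contra hcon
  push Not at hcon
  have hsub : (Finset.univ : Finset F) ⊆ {0, 1} := by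
    intro x _
    by_cases hx : x = 0
    · simp [hx]
    · simp [hcon x hx]
  have h := Finset.card_le_card hsub
  rw [Finset.card_univ, hF] at h
  have h2 : ({0, 1} : Finset F).card ≤ 2 := Finset.card_le_two
  omega

theorem exists_next (hF : Fintype.card F = 4) (hf : Cfsg.Geo.IsUnitaryFormPow 2 f) {k : ℕ}
    (hk : k < m) (B : Fin k → Fin m → F)
    (hB : ∀ i j, f (B i) (B j) = if i = j then 1 else 0) :
    ∃ v, f v v = 1 ∧ ∀ i, f v (B i) = 0 := by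
  classical
  have hc2 : CharP F 2 := DecUnit.charP4 hF
  let L : (Fin m → F) →ₗ[F] (Fin k → F) :=
    { toFun := fun x i => f x (B i)
      map_add' := fun x y => by
        ext i
        exact hf.add_left x y (B i)
      map_smul' := fun c x => by
        ext i
        simp [hf.smul_left] }
  have hker : LinearMap.ker L ≠ ⊥ := by
    apply LinearMap.ker_ne_bot_of_finrank_lt
    simpa using hk
  obtain ⟨x0, hx0, hx0ne⟩ := (Submodule.ne_bot_iff _).1 hker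
  have hx0' : ∀ i, f x0 (B i) = 0 := fun i => congrFun (LinearMap.mem_ker.1 hx0) i
  by_contra hcon
  push Not at hcon
  have hz : ∀ v, (∀ i, f v (B i) = 0) → f v v = 0 := by
    intro v hv
    rcases f_idem hf v with h | h
    · exact h
    · obtain ⟨i, hi⟩ := hcon v h
      exact absurd (hv i) hi
  have hxy : ∀ x y, (∀ i, f x (B i) = 0) → (∀ i, f y (B i) = 0) → f x y + f x y ^ 2 = 0 := by
    intro x y hx hy
    have h := hz (x + y) (fun i => by rw [hf.add_left, hx i, hy i, add_zero])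
    rw [hf.add_left, f_add_right hF hf, f_add_right hF hf, hz x hx, hz y hy, zero_add, add_zero,
      hf.herm y x] at h
    exact h
  obtain ⟨ω, hω0, hω1⟩ := exists_omega hF
  have h2 : (2 : F) = 0 := CharTwo.two_eq_zero
  have hzero : ∀ x y, (∀ i, f x (B i) = 0) → (∀ i, f y (B i) = 0) → f x y = 0 := by
    intro x y hx hy
    have h1 := hxy x y hx hy
    have h3 := hxy (ω • x) y (fun i => by rw [hf.smul_left, hx i, mul_zero]) hy
    rw [hf.smul_left] at h3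
    have h4 : ω * (ω - 1) * f x y = 0 := by
      linear_combination ω ^ 2 * h1 - h3
    rcases mul_eq_zero.1 h4 with h5 | h5
    · rcases mul_eq_zero.1 h5 with h6 | h6
      · exact absurd h6 hω0
      · exact absurd (sub_eq_zero.1 h6) hω1
    · exact h5
  obtain ⟨z, hz0⟩ := (hf.nondegenerate x0 hx0ne).2
  apply hz0
  have hz'B : ∀ j, f (z - ∑ i, f z (B i) • B i) (B j) = 0 := by
    intro j
    rw [sub_eq_add_neg, hf.add_left, ← neg_one_smul F, hf.smul_left, f_sum_left hf]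
    simp only [hf.smul_left, hB]
    simp
  have hzz : z = (z - ∑ i, f z (B i) • B i) + ∑ i, f z (B i) • B i := by abel
  rw [hzz, f_add_right hF hf, hzero x0 _ hx0' hz'B, zero_add, f_sum_right hF hf]
  apply Finset.sum_eq_zero
  intro i _
  rw [f_smul_right hf, hx0' i, mul_zero]

theorem exists_onf (hF : Fintype.card F = 4) (hf : Cfsg.Geo.IsUnitaryFormPow 2 f) :
    ∀ k, k ≤ m → ∃ B : Fin k → Fin m → F, ∀ i j, f (B i) (B j) = if i = j then 1 else 0 := by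
  intro k
  induction k with
  | zero =>
    intro _
    exact ⟨fun i => i.elim0, fun i => i.elim0⟩
  | succ k ih =>
    intro hk
    obtain ⟨B, hB⟩ := ih (by omega)
    obtain ⟨v, hv1, hv2⟩ := exists_next hF hf (by omega) B hB
    refine ⟨(Fin.cons v B : Fin (k + 1) → Fin m → F), ?_⟩
    intro i j
    refine Fin.cases ?_ (fun i' => ?_) i <;> refine Fin.cases ?_ (fun j' => ?_) j
    · simp [hv1]
    · simp [hv2, (Fin.succ_ne_zero j').symm]
    · have h : f (B i') v = 0 := by rw [hf.herm, hv2, zero_pow two_ne_zero]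
      simp [h, Fin.succ_ne_zero]
    · simp [hB]

theorem exists_U (hF : Fintype.card F = 4) (hf : Cfsg.Geo.IsUnitaryFormPow 2 f) :
    ∃ U U' : Matrix (Fin m) (Fin m) F, U * U' = 1 ∧ U' * U = 1 ∧
      Uᵀ * Cfsg.Geo.gramMatrix f * U.map (fun x => x ^ 2) = 1 := by
  obtain ⟨B, hB⟩ := exists_onf hF hf m le_rfl
  let U : Matrix (Fin m) (Fin m) F := Matrix.of (fun a p => B p a)
  have hU : Uᵀ * Cfsg.Geo.gramMatrix f * U.map (fun x => x ^ 2) = 1 := by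
    ext p q
    rw [Matrix.mul_apply]
    simp only [Matrix.mul_apply, Matrix.transpose_apply, Matrix.map_apply, Matrix.one_apply]
    rw [← hB p q, f_gram hF hf (B p) (B q), Finset.sum_comm]
    apply Finset.sum_congr rfl
    intro b _
    rw [Finset.sum_mul]
    rfl
  have hdet : IsUnit U.det := by
    have h := congrArg Matrix.det hU
    rw [Matrix.det_mul, Matrix.det_mul, Matrix.det_transpose, Matrix.det_one, mul_assoc] at h
    exact IsUnit.of_mul_eq_one _ h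
  exact ⟨U, U⁻¹, Matrix.mul_nonsing_inv U hdet, Matrix.nonsing_inv_mul U hdet, hU⟩

end onb

section fog

variable {κ : Type} [Fintype κ] [DecidableEq κ]

theorem fog_eq [CharP F 2] (G U : Matrix κ κ F)
    (hU : Uᵀ * G * U.map (fun x => x ^ 2) = 1) (x y : κ → F) :
    Cfsg.Geo.formOfGram (fun x : F => x ^ 2) G (U *ᵥ x) (U *ᵥ y) = DecUnit.hf x y := by
  have e1 : ∀ z w : κ → F, Cfsg.Geo.formOfGram (fun x : F => x ^ 2) G z w =
      z ⬝ᵥ (G *ᵥ (fun b => w b ^ 2)) := by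
    intro z w
    unfold Cfsg.Geo.formOfGram dotProduct Matrix.mulVec dotProduct
    apply Finset.sum_congr rfl
    intro a _
    rw [Finset.mul_sum]
    apply Finset.sum_congr rfl
    intro b _
    ring
  have e2 : (fun b => (U *ᵥ y) b ^ 2) = U.map (fun x => x ^ 2) *ᵥ (fun c => y c ^ 2) := by
    ext b
    unfold Matrix.mulVec dotProduct
    rw [sum_pow_char 2]
    apply Finset.sum_congr rfl
    intro c _
    show (U b c * y c) ^ 2 = U b c ^ 2 * y c ^ 2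
    exact mul_pow _ _ _
  rw [e1, e2, dotProduct_comm, Matrix.dotProduct_mulVec, ← Matrix.mulVec_transpose,
    Matrix.mulVec_mulVec, Matrix.mulVec_mulVec, hU, Matrix.one_mulVec]
  unfold DecUnit.hf dotProduct
  apply Finset.sum_congr rfl
  intro c _
  rw [mul_comm]

theorem kron_U {m₁ m₂ : ℕ} (G₁ U₁ : Matrix (Fin m₁) (Fin m₁) F) (G₂ U₂ : Matrix (Fin m₂) (Fin m₂) F)
    (h1 : U₁ᵀ * G₁ * U₁.map (fun x => x ^ 2) = 1) (h2 : U₂ᵀ * G₂ * U₂.map (fun x => x ^ 2) = 1) :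
    (U₁ ⊗ₖ U₂)ᵀ * (G₁ ⊗ₖ G₂) * (U₁ ⊗ₖ U₂).map (fun x => x ^ 2) = 1 := by
  have e1 : (U₁ ⊗ₖ U₂)ᵀ = U₁ᵀ ⊗ₖ U₂ᵀ := (Matrix.kroneckerMap_transpose _ _ _).symm
  have e2 : (U₁ ⊗ₖ U₂).map (fun x => x ^ 2) =
      U₁.map (fun x => x ^ 2) ⊗ₖ U₂.map (fun x => x ^ 2) := by
    ext i j
    show (U₁ i.1 j.1 * U₂ i.2 j.2) ^ 2 = U₁ i.1 j.1 ^ 2 * U₂ i.2 j.2 ^ 2
    exact mul_pow _ _ _
  rw [e1, e2, ← Matrix.mul_kronecker_mul, ← Matrix.mul_kronecker_mul, h1, h2,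
    Matrix.one_kronecker_one]

theorem kron_conj {m₁ m₂ : ℕ} (V₁ V₁' : Matrix (Fin m₁) (Fin m₁) F)
    (V₂ V₂' : Matrix (Fin m₂) (Fin m₂) F)
    (ha1 : V₁ * V₁' = 1) (ha2 : V₁' * V₁ = 1) (hb1 : V₂ * V₂' = 1) (hb2 : V₂' * V₂ = 1)
    (h1 : (V₁ ⊗ₖ V₂) * (V₁' ⊗ₖ V₂') = 1) (h2 : (V₁' ⊗ₖ V₂') * (V₁ ⊗ₖ V₂) = 1)
    (k : GL (Fin m₁ × Fin m₂) F) (hk : k ∈ Cfsg.Geo.kroneckerSubgroup m₁ m₂ F) :
    DecStab.conjHom (V₁ ⊗ₖ V₂) (V₁' ⊗ₖ V₂') h1 h2 k ∈ Cfsg.Geo.kroneckerSubgroup m₁ m₂ F := by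
  obtain ⟨a, b, hab⟩ := hk
  refine ⟨DecStab.conjHom V₁ V₁' ha1 ha2 a, DecStab.conjHom V₂ V₂' hb1 hb2 b, ?_⟩
  rw [DecStab.conjHom_val, DecStab.conjHom_val, DecStab.conjHom_val, hab,
    ← Matrix.mul_kronecker_mul, ← Matrix.mul_kronecker_mul]

theorem transport_gen {G H : Type*} [Group G] [Group H] (c : G →* H)
    (hinj : Function.Injective c) (hsurj : Function.Surjective c)
    (T0 X0 K0 : Subgroup G) (T X : Subgroup H) (hT : T = T0.map c)
    (hX : ∀ g, g ∈ X0 ↔ c g ∈ X)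
    (h1 : T0 ⊓ X0 < K0) (h2 : K0 < X0) : ∃ K : Subgroup H, T ⊓ X < K ∧ K < X := by
  have e2 : X = X0.map c := by
    ext g
    rw [Subgroup.mem_map]
    constructor
    · intro hg
      obtain ⟨g0, rfl⟩ := hsurj g
      exact ⟨g0, (hX g0).2 hg, rfl⟩
    · rintro ⟨g0, hg0, rfl⟩
      exact (hX g0).1 hg0
  refine ⟨K0.map c, ?_, ?_⟩
  · rw [hT, e2, ← Subgroup.map_inf_eq _ _ _ hinj, Subgroup.map_lt_map_iff_of_injective hinj]
    exact h1
  · rw [e2, Subgroup.map_lt_map_iff_of_injective hinj]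
    exact h2

/-- The reindexing matrix. -/
def Rm (F : Type*) [Field F] {ι κ : Type} [DecidableEq κ] (e : ι ≃ κ) : Matrix ι κ F :=
  (1 : Matrix κ κ F).submatrix e id

/-- The inverse reindexing matrix. -/
def Rm' (F : Type*) [Field F] {ι κ : Type} [DecidableEq κ] (e : ι ≃ κ) : Matrix κ ι F :=
  (1 : Matrix κ κ F).submatrix id e

theorem Rm_mul_Rm' {ι : Type} [Fintype ι] [DecidableEq ι] (e : ι ≃ κ) :
    Rm F e * Rm' F e = 1 := by
  ext i j
  simp [Rm, Rm', Matrix.mul_apply, Matrix.one_apply]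

theorem Rm'_mul_Rm {ι : Type} [Fintype ι] [DecidableEq ι] (e : ι ≃ κ) :
    Rm' F e * Rm F e = 1 := by
  unfold Rm Rm'
  rw [Matrix.submatrix_mul_equiv, Matrix.one_mul]
  rfl

theorem Rm_mulVec {ι : Type} [Fintype ι] [DecidableEq ι] (e : ι ≃ κ) (z : κ → F) :
    Rm F e *ᵥ z = z ∘ e := by
  ext i
  simp [Rm, Matrix.mulVec, dotProduct, Matrix.one_apply]

theorem Rm_conj {ι : Type} [Fintype ι] [DecidableEq ι] (e : ι ≃ κ) (X : Matrix κ κ F) :
    Rm F e * X * Rm' F e = X.submatrix e e := by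
  ext i j
  rw [Matrix.mul_apply, Finset.sum_eq_single (e j)]
  · rw [Matrix.mul_apply, Finset.sum_eq_single (e i)]
    · simp [Rm, Rm', Matrix.one_apply]
    · intro p _ hp
      simp [Rm, Matrix.one_apply, Ne.symm hp]
    · intro h
      exact absurd (Finset.mem_univ _) h
  · intro q _ hq
    simp [Rm', Matrix.one_apply, hq]
  · intro h
    exact absurd (Finset.mem_univ _) h

end fog

section coord

variable [Fintype F] {n₂ : ℕ}

/-- Vectors supported on a single block. -/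
def blk (F : Type*) [Field F] (n₂ : ℕ) : Set (Fin 2 × Fin n₂ → F) :=
  {x | ∃ i : Fin 2, ∀ p : Fin 2 × Fin n₂, p.1 ≠ i → x p = 0}

theorem cube_eq_one (hF : Fintype.card F = 4) (z : F) (hz : z ≠ 0) : z ^ 3 = 1 := by
  have h := FiniteField.pow_card_sub_one_eq_one z hz
  rwa [hF] at h

theorem fin2 (i : Fin 2) : i = 0 ∨ i = 1 := by
  fin_cases i <;> simp

/-- The standard unitary group intersected with the special linear group, in coordinates. -/
def X1 (F : Type*) [Field F] (n₂ : ℕ) : Subgroup (GL (Fin 2 × Fin n₂) F) :=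
  Cfsg.preserving (Units.coeHom (Matrix (Fin 2 × Fin n₂) (Fin 2 × Fin n₂) F))
    (DecUnit.hf (F := F) (ι := Fin 2 × Fin n₂)) ⊓ Cfsg.Geo.specialLinear (Fin 2 × Fin n₂) F

theorem kron_blk (hF : Fintype.card F = 4) (hn : 0 < n₂) (g : GL (Fin 2 × Fin n₂) F)
    (hg : g ∈ Cfsg.Geo.kroneckerSubgroup 2 n₂ F)
    (hgu : g ∈ Cfsg.preserving (Units.coeHom (Matrix (Fin 2 × Fin n₂) (Fin 2 × Fin n₂) F))
      (DecUnit.hf (F := F) (ι := Fin 2 × Fin n₂)))
    (x : Fin 2 × Fin n₂ → F) (hx : x ∈ blk F n₂) :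
    (g : Matrix (Fin 2 × Fin n₂) (Fin 2 × Fin n₂) F) *ᵥ x ∈ blk F n₂ := by
  classical
  have hc2 : CharP F 2 := DecUnit.charP4 hF
  obtain ⟨a, b, hab⟩ := hg
  obtain ⟨i0, hi0⟩ := hx
  have hcol : (a : Matrix (Fin 2) (Fin 2) F) 0 i0 = 0 ∨ (a : Matrix (Fin 2) (Fin 2) F) 1 i0 = 0 := by
    by_contra hcon
    push Not at hcon
    have h : DecUnit.hf ((g : Matrix (Fin 2 × Fin n₂) (Fin 2 × Fin n₂) F) *ᵥ
        Pi.single ((i0, ⟨0, hn⟩) : Fin 2 × Fin n₂) 1)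
        ((g : Matrix (Fin 2 × Fin n₂) (Fin 2 × Fin n₂) F) *ᵥ
        Pi.single ((i0, ⟨0, hn⟩) : Fin 2 × Fin n₂) 1) =
        DecUnit.hf (Pi.single ((i0, ⟨0, hn⟩) : Fin 2 × Fin n₂) (1 : F))
          (Pi.single ((i0, ⟨0, hn⟩) : Fin 2 × Fin n₂) 1) := hgu _ _
    have h3 : DecUnit.hf (Pi.single ((i0, ⟨0, hn⟩) : Fin 2 × Fin n₂) (1 : F))
        (Pi.single (i0, ⟨0, hn⟩) 1) = 1 := by
      simp [DecUnit.hf, Pi.single_apply]
    rw [h3, Matrix.mulVec_single_one, hab] at h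
    have e : ∀ (i : Fin 2) (j : Fin n₂),
        ((a : Matrix (Fin 2) (Fin 2) F) i i0 * (b : Matrix (Fin n₂) (Fin n₂) F) j ⟨0, hn⟩) *
          ((a : Matrix (Fin 2) (Fin 2) F) i i0 * (b : Matrix (Fin n₂) (Fin n₂) F) j ⟨0, hn⟩) ^ 2 =
        (a : Matrix (Fin 2) (Fin 2) F) i i0 ^ 3 * (b : Matrix (Fin n₂) (Fin n₂) F) j ⟨0, hn⟩ ^ 3 := by
      intro i j
      ring
    have h4 : DecUnit.hf
        (((a : Matrix (Fin 2) (Fin 2) F) ⊗ₖ (b : Matrix (Fin n₂) (Fin n₂) F)).col (i0, ⟨0, hn⟩))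
        (((a : Matrix (Fin 2) (Fin 2) F) ⊗ₖ (b : Matrix (Fin n₂) (Fin n₂) F)).col (i0, ⟨0, hn⟩)) = 0 := by
      unfold DecUnit.hf
      rw [Fintype.sum_prod_type]
      simp only [Matrix.col_apply, Matrix.kronecker_apply, Fin.sum_univ_two, e,
        cube_eq_one hF _ hcon.1, cube_eq_one hF _ hcon.2, one_mul]
      exact CharTwo.add_self_eq_zero _
    rw [h4] at h
    exact zero_ne_one h
  have key : ∀ i' : Fin 2, (a : Matrix (Fin 2) (Fin 2) F) i' i0 = 0 → ∀ p : Fin 2 × Fin n₂,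
      p.1 = i' → ((g : Matrix (Fin 2 × Fin n₂) (Fin 2 × Fin n₂) F) *ᵥ x) p = 0 := by
    intro i' hi' p hp
    rw [hab]
    unfold Matrix.mulVec dotProduct
    apply Finset.sum_eq_zero
    intro q _
    show ((a : Matrix (Fin 2) (Fin 2) F) p.1 q.1 * (b : Matrix (Fin n₂) (Fin n₂) F) p.2 q.2) * x q = 0
    by_cases hq : q.1 = i0
    · rw [hp, hq, hi', zero_mul, zero_mul]
    · rw [hi0 q hq, mul_zero]
  rcases hcol with h0 | h1
  · refine ⟨1, fun p hp => key 0 h0 p ?_⟩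
    exact (fin2 p.1).resolve_right hp
  · refine ⟨0, fun p hp => key 1 h1 p ?_⟩
    exact (fin2 p.1).resolve_left hp

theorem kron_le_stab (hF : Fintype.card F = 4) (hn : 0 < n₂) :
    Cfsg.Geo.kroneckerSubgroup 2 n₂ F ⊓ X1 F n₂ ≤ DecUnit.setStab (blk F n₂) ⊓ X1 F n₂ := by
  intro g hg
  refine ⟨?_, hg.2⟩
  intro x
  constructor
  · exact kron_blk hF hn g hg.1 hg.2.1 x
  · intro hx
    have h := kron_blk hF hn g⁻¹ (inv_mem hg.1) (inv_mem hg.2.1) _ hx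
    rwa [Matrix.mulVec_mulVec, ← Units.val_mul, inv_mul_cancel, Units.val_one,
      Matrix.one_mulVec] at h

theorem swap_blk [CharP F 2] (j0 j1 : Fin n₂)
    (h6 : (1 : F) + 1 + DecUnit.uS ((0 : Fin 2), j0) ((0 : Fin 2), j1) ⬝ᵥ
      DecUnit.uS ((0 : Fin 2), j0) ((0 : Fin 2), j1) = 0)
    (x : Fin 2 × Fin n₂ → F) (hx : x ∈ blk F n₂) :
    ((DecStab.rk (DecUnit.uS ((0 : Fin 2), j0) ((0 : Fin 2), j1))
      (DecUnit.uS ((0 : Fin 2), j0) ((0 : Fin 2), j1)) h6 : GL (Fin 2 × Fin n₂) F) :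
        Matrix (Fin 2 × Fin n₂) (Fin 2 × Fin n₂) F) *ᵥ x ∈ blk F n₂ := by
  obtain ⟨i, hi⟩ := hx
  refine ⟨i, fun p hp => ?_⟩
  rw [DecStab.rk_mulVec, Pi.add_apply, Pi.smul_apply, smul_eq_mul, hi p hp, zero_add]
  by_cases h0 : i = 0
  · have hu : DecUnit.uS (F := F) ((0 : Fin 2), j0) ((0 : Fin 2), j1) p = 0 := by
      unfold DecUnit.uS
      rw [if_neg]
      rintro (h | h) <;> exact hp (by rw [h, h0])
    rw [hu, mul_zero]
  · have hd : (DecUnit.uS (F := F) ((0 : Fin 2), j0) ((0 : Fin 2), j1)) ⬝ᵥ x = 0 := by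
      unfold dotProduct
      apply Finset.sum_eq_zero
      intro q _
      unfold DecUnit.uS
      split_ifs with h
      · have hq : q.1 ≠ i := by
          rcases h with h | h <;> rw [h] <;> exact fun h' => h0 h'.symm
        rw [hi q hq, mul_zero]
      · rw [zero_mul]
    rw [hd, zero_mul]

theorem coord_main (hF : Fintype.card F = 4) (hn : 2 ≤ n₂) :
    ∃ K0 : Subgroup (GL (Fin 2 × Fin n₂) F),
      Cfsg.Geo.kroneckerSubgroup 2 n₂ F ⊓ X1 F n₂ < K0 ∧ K0 < X1 F n₂ := by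
  classical
  have hc2 : CharP F 2 := DecUnit.charP4 hF
  obtain ⟨j0, j1, hj⟩ : ∃ j0 j1 : Fin n₂, j0 ≠ j1 :=
    ⟨⟨0, by omega⟩, ⟨1, by omega⟩, by simp [Fin.ext_iff]⟩
  have hab : (((0 : Fin 2), j0) : Fin 2 × Fin n₂) ≠ ((0 : Fin 2), j1) :=
    fun h => hj (congrArg Prod.snd h)
  have hac : (((0 : Fin 2), j0) : Fin 2 × Fin n₂) ≠ ((1 : Fin 2), j0) :=
    fun h => absurd (Prod.mk.inj h).1 (by decide)
  have hbc : (((0 : Fin 2), j1) : Fin 2 × Fin n₂) ≠ ((1 : Fin 2), j0) :=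
    fun h => absurd (Prod.mk.inj h).1 (by decide)
  have h6ab := DecUnit.h6_of (DecUnit.uS (F := F) ((0 : Fin 2), j0) ((0 : Fin 2), j1))
    (DecUnit.uS_idem _ _) (DecUnit.uS_sum _ _ hab)
  have h6ac := DecUnit.h6_of (DecUnit.uS (F := F) ((0 : Fin 2), j0) ((1 : Fin 2), j0))
    (DecUnit.uS_idem _ _) (DecUnit.uS_sum _ _ hac)
  refine ⟨DecUnit.setStab (blk F n₂) ⊓ X1 F n₂, ?_, ?_⟩
  · refine lt_of_le_of_ne (kron_le_stab hF (by omega)) ?_
    intro heq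
    have hmem : DecStab.rk (DecUnit.uS (F := F) ((0 : Fin 2), j0) ((0 : Fin 2), j1))
        (DecUnit.uS ((0 : Fin 2), j0) ((0 : Fin 2), j1)) h6ab ∈
        DecUnit.setStab (blk F n₂) ⊓ X1 F n₂ := by
      refine ⟨?_, DecUnit.rk_gu _ (DecUnit.uS_idem _ _) (DecUnit.uS_sum _ _ hab) h6ab,
        DecUnit.rk_sl _ (DecUnit.uS_idem _ _) (DecUnit.uS_sum _ _ hab) h6ab⟩
      intro x
      constructor
      · exact swap_blk j0 j1 h6ab x
      · intro hx
        have h := swap_blk j0 j1 h6ab _ hx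
        rwa [DecUnit.rk_invol] at h
    rw [← heq] at hmem
    obtain ⟨A, B, hAB⟩ := hmem.1
    have hval : ((DecStab.rk (DecUnit.uS (F := F) ((0 : Fin 2), j0) ((0 : Fin 2), j1))
        (DecUnit.uS ((0 : Fin 2), j0) ((0 : Fin 2), j1)) h6ab : GL (Fin 2 × Fin n₂) F) :
        Matrix (Fin 2 × Fin n₂) (Fin 2 × Fin n₂) F) =
        1 + Matrix.vecMulVec (DecUnit.uS ((0 : Fin 2), j0) ((0 : Fin 2), j1))
          (DecUnit.uS ((0 : Fin 2), j0) ((0 : Fin 2), j1)) := rfl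
    rw [hval] at hAB
    have e1 : (1 : F) + 1 = (A : Matrix (Fin 2) (Fin 2) F) 0 0 *
        (B : Matrix (Fin n₂) (Fin n₂) F) j0 j0 := by
      have h := congrFun (congrFun hAB ((0 : Fin 2), j0)) ((0 : Fin 2), j0)
      simpa [DecUnit.uS, Matrix.vecMulVec_apply, Matrix.kronecker_apply] using h
    have e2 : (1 : F) = (A : Matrix (Fin 2) (Fin 2) F) 0 0 *
        (B : Matrix (Fin n₂) (Fin n₂) F) j0 j1 := by
      have h := congrFun (congrFun hAB ((0 : Fin 2), j0)) ((0 : Fin 2), j1)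
      simpa [DecUnit.uS, Matrix.vecMulVec_apply, Matrix.kronecker_apply, Matrix.one_apply, hj]
        using h
    have e3 : (1 : F) = (A : Matrix (Fin 2) (Fin 2) F) 1 1 *
        (B : Matrix (Fin n₂) (Fin n₂) F) j0 j0 := by
      have h := congrFun (congrFun hAB ((1 : Fin 2), j0)) ((1 : Fin 2), j0)
      simpa [DecUnit.uS, Matrix.vecMulVec_apply, Matrix.kronecker_apply] using h
    have hA : (A : Matrix (Fin 2) (Fin 2) F) 0 0 ≠ 0 := by
      intro h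
      rw [h, zero_mul] at e2
      exact one_ne_zero e2
    have hB : (B : Matrix (Fin n₂) (Fin n₂) F) j0 j0 ≠ 0 := by
      intro h
      rw [h, mul_zero] at e3
      exact one_ne_zero e3
    rw [CharTwo.add_self_eq_zero] at e1
    exact mul_ne_zero hA hB e1.symm
  · refine lt_of_le_of_ne inf_le_right ?_
    intro heq
    have hmem : DecStab.rk (DecUnit.uS (F := F) ((0 : Fin 2), j0) ((1 : Fin 2), j0))
        (DecUnit.uS ((0 : Fin 2), j0) ((1 : Fin 2), j0)) h6ac ∈ X1 F n₂ :=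
      ⟨DecUnit.rk_gu _ (DecUnit.uS_idem _ _) (DecUnit.uS_sum _ _ hac) h6ac,
        DecUnit.rk_sl _ (DecUnit.uS_idem _ _) (DecUnit.uS_sum _ _ hac) h6ac⟩
    rw [← heq] at hmem
    have hx : DecUnit.uS (F := F) ((0 : Fin 2), j0) ((0 : Fin 2), j1) ∈ blk F n₂ := by
      refine ⟨0, fun p hp => if_neg ?_⟩
      rintro (h | h) <;> exact hp (by rw [h])
    have h := (hmem.1 _).1 hx
    rw [DecStab.rk_mulVec] at h
    have hdot : (DecUnit.uS (F := F) ((0 : Fin 2), j0) ((1 : Fin 2), j0)) ⬝ᵥ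
        (DecUnit.uS ((0 : Fin 2), j0) ((0 : Fin 2), j1)) = 1 := by
      unfold dotProduct
      rw [Finset.sum_eq_single (((0 : Fin 2), j0) : Fin 2 × Fin n₂)]
      · simp [DecUnit.uS]
      · intro p _ hp
        unfold DecUnit.uS
        by_cases hpc : p = ((1 : Fin 2), j0)
        · have hn1 : ¬ ((((1 : Fin 2), j0) : Fin 2 × Fin n₂) = ((0 : Fin 2), j0) ∨
              (((1 : Fin 2), j0) : Fin 2 × Fin n₂) = ((0 : Fin 2), j1)) := by
            rintro (h | h)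
            · exact hac h.symm
            · exact hbc h.symm
          rw [hpc, if_neg hn1, mul_zero]
        · have hn2 : ¬ (p = ((0 : Fin 2), j0) ∨ p = ((1 : Fin 2), j0)) := by
            rintro (h | h)
            · exact hp h
            · exact hpc h
          rw [if_neg hn2, zero_mul]
      · intro h
        exact absurd (Finset.mem_univ _) h
    rw [hdot, one_smul] at h
    obtain ⟨i, hi⟩ := h
    rcases fin2 i with rfl | rfl
    · have h1 := hi ((1 : Fin 2), j0) (show (1 : Fin 2) ≠ 0 by decide)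
      simp [DecUnit.uS, Ne.symm hac, Ne.symm hbc] at h1
    · have h1 := hi ((0 : Fin 2), j1) (show (0 : Fin 2) ≠ 1 by decide)
      simp [DecUnit.uS, Ne.symm hab, hbc] at h1

end coord

theorem main [Fintype F] (n : ℕ) (hF : Fintype.card F = 4) (hn : 13 ≤ n) (n₂ : ℕ)
    (e : Fin n ≃ Fin 2 × Fin n₂) (P : Matrix.GeneralLinearGroup (Fin n) F)
    (f₁ : (Fin 2 → F) → (Fin 2 → F) → F) (f₂ : (Fin n₂ → F) → (Fin n₂ → F) → F)
    (hf₁ : Cfsg.Geo.IsUnitaryFormPow 2 f₁) (hf₂ : Cfsg.Geo.IsUnitaryFormPow 2 f₂)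
    (hT : Cfsg.Geo.IsTensorFormStructure (fun x : F => x ^ 2) (Cfsg.hermForm n F 2) f₁ f₂ e P) :
    ∃ K : Subgroup (Matrix.GeneralLinearGroup (Fin n) F),
      Cfsg.Geo.tensorProductSubgroup 2 n₂ e P ⊓
        (Cfsg.GU n F 2 ⊓ Cfsg.Geo.specialLinear (Fin n) F) < K ∧
      K < (Cfsg.GU n F 2 ⊓ Cfsg.Geo.specialLinear (Fin n) F) := by
  classical
  have hc2 : CharP F 2 := DecUnit.charP4 hF
  have hcard : n = 2 * n₂ := by simpa using Fintype.card_congr e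
  obtain ⟨U₁, U₁', hU₁a, hU₁b, hU₁⟩ := exists_U hF hf₁
  obtain ⟨U₂, U₂', hU₂a, hU₂b, hU₂⟩ := exists_U hF hf₂
  obtain ⟨c, hc0, hc⟩ := hT
  have hUU' : (U₁ ⊗ₖ U₂) * (U₁' ⊗ₖ U₂') = 1 := by
    rw [← Matrix.mul_kronecker_mul, hU₁a, hU₂a, Matrix.one_kronecker_one]
  have hU'U : (U₁' ⊗ₖ U₂') * (U₁ ⊗ₖ U₂) = 1 := by
    rw [← Matrix.mul_kronecker_mul, hU₁b, hU₂b, Matrix.one_kronecker_one]
  obtain ⟨M, hM⟩ : ∃ M : Matrix (Fin n) (Fin 2 × Fin n₂) F,
      M = (P : Matrix (Fin n) (Fin n) F) * Rm F e * (U₁ ⊗ₖ U₂) := ⟨_, rfl⟩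
  obtain ⟨M', hM'⟩ : ∃ M' : Matrix (Fin 2 × Fin n₂) (Fin n) F,
      M' = (U₁' ⊗ₖ U₂') * Rm' F e * ((P⁻¹ : GL (Fin n) F) : Matrix (Fin n) (Fin n) F) := ⟨_, rfl⟩
  have h1 : M * M' = 1 := by
    calc M * M' = (P : Matrix (Fin n) (Fin n) F) * (Rm F e * ((U₁ ⊗ₖ U₂) * (U₁' ⊗ₖ U₂')) * Rm' F e) *
          ((P⁻¹ : GL (Fin n) F) : Matrix (Fin n) (Fin n) F) := by
          simp only [hM, hM', Matrix.mul_assoc]
      _ = 1 := by
          rw [hUU', Matrix.mul_one, Rm_mul_Rm', Matrix.mul_one, ← Units.val_mul, mul_inv_cancel,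
            Units.val_one]
  have h2 : M' * M = 1 := by
    calc M' * M = (U₁' ⊗ₖ U₂') * (Rm' F e * (((P⁻¹ : GL (Fin n) F) : Matrix (Fin n) (Fin n) F) *
          (P : Matrix (Fin n) (Fin n) F)) * Rm F e) * (U₁ ⊗ₖ U₂) := by
          simp only [hM, hM', Matrix.mul_assoc]
      _ = 1 := by
          rw [← Units.val_mul, inv_mul_cancel, Units.val_one, Matrix.mul_one, Rm'_mul_Rm,
            Matrix.mul_one, hU'U]
  have hMv : ∀ x : Fin 2 × Fin n₂ → F,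
      M *ᵥ x = (P : Matrix (Fin n) (Fin n) F) *ᵥ (((U₁ ⊗ₖ U₂) *ᵥ x) ∘ e) := by
    intro x
    rw [hM, ← Matrix.mulVec_mulVec, ← Matrix.mulVec_mulVec, Rm_mulVec]
  have hiso0 : ∀ x y : Fin 2 × Fin n₂ → F,
      DecUnit.hf (M *ᵥ x) (M *ᵥ y) = c * DecUnit.hf x y := by
    intro x y
    rw [hMv, hMv]
    have h := hc ((U₁ ⊗ₖ U₂) *ᵥ x) ((U₁ ⊗ₖ U₂) *ᵥ y)
    rw [fog_eq _ (U₁ ⊗ₖ U₂) (kron_U _ _ _ _ hU₁ hU₂)] at h
    exact h
  have hc1 : c = 1 := by
    have h := hiso0 (Pi.single ((0 : Fin 2), (⟨0, by omega⟩ : Fin n₂)) 1)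
      (Pi.single ((0 : Fin 2), (⟨0, by omega⟩ : Fin n₂)) 1)
    have h3 : DecUnit.hf (Pi.single (((0 : Fin 2), (⟨0, by omega⟩ : Fin n₂)) : Fin 2 × Fin n₂) (1 : F))
        (Pi.single ((0 : Fin 2), (⟨0, by omega⟩ : Fin n₂)) 1) = 1 := by
      simp [DecUnit.hf, Pi.single_apply]
    rw [h3, mul_one] at h
    rcases DecUnit.hf_idem hF (M *ᵥ Pi.single ((0 : Fin 2), (⟨0, by omega⟩ : Fin n₂)) 1) with h4 | h4
    · rw [h4] at h
      exact absurd h.symm hc0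
    · rw [h4] at h
      exact h.symm
  have hiso : ∀ x y : Fin 2 × Fin n₂ → F, DecUnit.hf (M *ᵥ x) (M *ᵥ y) = DecUnit.hf x y := by
    intro x y
    rw [hiso0, hc1, one_mul]
  have hcomp : ∀ k : GL (Fin 2 × Fin n₂) F, DecStab.conjHom M M' h1 h2 k =
      (MulAut.conj P) ((Cfsg.Geo.glReindex e.symm)
        (DecStab.conjHom (U₁ ⊗ₖ U₂) (U₁' ⊗ₖ U₂') hUU' hU'U k)) := by
    intro k
    apply Units.ext
    rw [DecStab.conjHom_val, MulAut.conj_apply, Units.val_mul, Units.val_mul]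
    have hre : ((Cfsg.Geo.glReindex e.symm (DecStab.conjHom (U₁ ⊗ₖ U₂) (U₁' ⊗ₖ U₂') hUU' hU'U k) :
        GL (Fin n) F) : Matrix (Fin n) (Fin n) F) =
        ((U₁ ⊗ₖ U₂) * (k : Matrix (Fin 2 × Fin n₂) (Fin 2 × Fin n₂) F) * (U₁' ⊗ₖ U₂')).submatrix e e :=
      rfl
    rw [hre, ← Rm_conj, hM, hM']
    simp only [Matrix.mul_assoc]
  have hTeq : Cfsg.Geo.tensorProductSubgroup 2 n₂ e P =
      (Cfsg.Geo.kroneckerSubgroup 2 n₂ F).map (DecStab.conjHom M M' h1 h2) := by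
    unfold Cfsg.Geo.tensorProductSubgroup
    ext g
    simp only [Subgroup.mem_map]
    constructor
    · rintro ⟨g1, ⟨k, hk, rfl⟩, rfl⟩
      refine ⟨DecStab.conjHom (U₁' ⊗ₖ U₂') (U₁ ⊗ₖ U₂) hU'U hUU' k,
        kron_conj U₁' U₁ U₂' U₂ hU₁b hU₁a hU₂b hU₂a hU'U hUU' k hk, ?_⟩
      rw [hcomp, DecStab.conjHom_left_inv]
      rfl
    · rintro ⟨k, hk, rfl⟩
      exact ⟨_, ⟨DecStab.conjHom (U₁ ⊗ₖ U₂) (U₁' ⊗ₖ U₂') hUU' hU'U k,
        kron_conj U₁ U₁' U₂ U₂' hU₁a hU₁b hU₂a hU₂b hUU' hU'U k hk, rfl⟩, (hcomp k).symm⟩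
  obtain ⟨K0, hK0a, hK0b⟩ := coord_main (F := F) (n₂ := n₂) hF (by omega)
  refine transport_gen (DecStab.conjHom M M' h1 h2) (DecStab.conjHom_injective M M' h1 h2)
    (DecStab.conjHom_surjective M M' h1 h2) (Cfsg.Geo.kroneckerSubgroup 2 n₂ F) (X1 F n₂) K0 _ _
    hTeq ?_ hK0a hK0b
  intro g
  constructor
  · intro hg
    exact ⟨(DecUnit.gu_iff M M' h1 h2 hiso g).1 hg.1, (DecStab.sl_iff M M' h1 h2 g).1 hg.2⟩
  · intro hg
    exact ⟨(DecUnit.gu_iff M M' h1 h2 hiso g).2 hg.1, (DecStab.sl_iff M M' h1 h2 g).2 hg.2⟩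

end Cfsg.Agent.Helper18.TensUnit
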