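import Mathlib
import Cfsg.Prelude.Def_GeometricClasses
import Cfsg.Prelude.Def_LieClassical
import Cfsg.Prelude.Def_ClassicalGeometry
import Cfsg.Agent.Helper18.DecStab
import Cfsg.Agent.Helper18.DecUnit
import Cfsg.Agent.Helper18.TensUnit

set_option autoImplicit false

namespace Cfsg.Agent.Helper18.TensSymp

open Matrix Kronecker

variable {F : Type*} [Field F]

section three

variable [Fintype F]

theorem three_eq_zero (hq : Fintype.card F = 3) : (3 : F) = 0 := by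
  have h := FiniteField.cast_card_eq_zero F
  rw [hq] at h
  exact_mod_cast h

theorem sq_eq_one3 (hq : Fintype.card F = 3) (z : F) (hz : z ≠ 0) : z ^ 2 = 1 := by
  have h := FiniteField.pow_card_sub_one_eq_one z hz
  rwa [hq] at h

theorem eq_one_or_neg_one (hq : Fintype.card F = 3) (z : F) (hz : z ≠ 0) : z = 1 ∨ z = -1 := by
  have h := sq_eq_one3 hq z hz
  have h2 : (z - 1) * (z + 1) = 0 := by linear_combination h
  rcases mul_eq_zero.1 h2 with h3 | h3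
  · left
    linear_combination h3
  · right
    linear_combination h3

end three

section bil

variable {k : ℕ} {f : (Fin k → F) → (Fin k → F) → F}

/-- The form as a bilinear map. -/
def Bf (hb : Cfsg.Geo.IsBilinearForm f) : (Fin k → F) →ₗ[F] (Fin k → F) →ₗ[F] F :=
  LinearMap.mk₂ F f hb.add_left hb.smul_left hb.add_right hb.smul_right

theorem Bf_apply (hb : Cfsg.Geo.IsBilinearForm f) (x y : Fin k → F) : Bf hb x y = f x y := rfl

theorem b_gram (hb : Cfsg.Geo.IsBilinearForm f) (x y : Fin k → F) :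
    f x y = ∑ a, ∑ b, x a * Cfsg.Geo.gramMatrix f a b * y b := by
  have hx : x = ∑ a, x a • (Pi.single a 1 : Fin k → F) := by
    ext i
    simp [Finset.sum_apply, Pi.single_apply]
  have hy : y = ∑ a, y a • (Pi.single a 1 : Fin k → F) := by
    ext i
    simp [Finset.sum_apply, Pi.single_apply]
  rw [← Bf_apply hb]
  conv_lhs => rw [hx, hy]
  simp only [map_sum, LinearMap.sum_apply, map_smul, LinearMap.smul_apply, smul_eq_mul, Bf_apply]
  rw [Finset.sum_comm]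
  apply Finset.sum_congr rfl
  intro a _
  rw [Finset.mul_sum]
  apply Finset.sum_congr rfl
  intro b _
  unfold Cfsg.Geo.gramMatrix
  ring

variable [Fintype F]

theorem exists_next_sym (hq : Fintype.card F = 3) (hs : Cfsg.Geo.IsSymmetricForm f) {j : ℕ}
    (hj : j < k) (B : Fin j → Fin k → F)
    (hB : ∀ i i', i ≠ i' → f (B i) (B i') = 0) (hB' : ∀ i, f (B i) (B i) ≠ 0) :
    ∃ v, f v v ≠ 0 ∧ ∀ i, f v (B i) = 0 := by
  classical
  have hb := hs.bilinear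
  have h3 := three_eq_zero hq
  let L : (Fin k → F) →ₗ[F] (Fin j → F) :=
    { toFun := fun x i => f x (B i)
      map_add' := fun x y => by
        ext i
        exact hb.add_left x y (B i)
      map_smul' := fun c x => by
        ext i
        simp [hb.smul_left] }
  have hker : LinearMap.ker L ≠ ⊥ := by
    apply LinearMap.ker_ne_bot_of_finrank_lt
    simpa using hj
  obtain ⟨x0, hx0, hx0ne⟩ := (Submodule.ne_bot_iff _).1 hker
  have hx0' : ∀ i, f x0 (B i) = 0 := fun i => congrFun (LinearMap.mem_ker.1 hx0) i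
  by_contra hcon
  push Not at hcon
  have hz : ∀ v, (∀ i, f v (B i) = 0) → f v v = 0 := by
    intro v hv
    by_contra h
    obtain ⟨i, hi⟩ := hcon v h
    exact hi (hv i)
  have hzero : ∀ x y, (∀ i, f x (B i) = 0) → (∀ i, f y (B i) = 0) → f x y = 0 := by
    intro x y hx hy
    have h := hz (x + y) (fun i => by rw [hb.add_left, hx i, hy i, add_zero])
    rw [hb.add_left, hb.add_right, hb.add_right, hz x hx, hz y hy, zero_add, add_zero,
      hs.symm y x] at h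
    linear_combination (f x y) * h3 - h
  obtain ⟨z, hz0⟩ := (hs.nondegenerate x0 hx0ne).2
  apply hz0
  have hz'B : ∀ i', f (z - ∑ i, (f z (B i) / f (B i) (B i)) • B i) (B i') = 0 := by
    intro i'
    rw [← Bf_apply hb]
    simp only [map_sub, map_sum, LinearMap.sub_apply, LinearMap.sum_apply, map_smul,
      LinearMap.smul_apply, smul_eq_mul, Bf_apply]
    rw [Finset.sum_eq_single i']
    · rw [div_mul_cancel₀ _ (hB' i'), sub_self]
    · intro i _ hi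
      rw [hB i i' hi, mul_zero]
    · intro h
      exact absurd (Finset.mem_univ _) h
  have hzz : z = (z - ∑ i, (f z (B i) / f (B i) (B i)) • B i) +
      ∑ i, (f z (B i) / f (B i) (B i)) • B i := by abel
  rw [hzz, hb.add_right, hzero x0 _ hx0' hz'B, zero_add, ← Bf_apply hb]
  simp only [map_sum, map_smul, smul_eq_mul, Bf_apply, hx0', mul_zero, Finset.sum_const_zero]

theorem exists_ogf (hq : Fintype.card F = 3) (hs : Cfsg.Geo.IsSymmetricForm f) :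
    ∀ j, j ≤ k → ∃ B : Fin j → Fin k → F,
      (∀ i i', i ≠ i' → f (B i) (B i') = 0) ∧ ∀ i, f (B i) (B i) ≠ 0 := by
  intro j
  induction j with
  | zero =>
    intro _
    exact ⟨fun i => i.elim0, fun i => i.elim0, fun i => i.elim0⟩
  | succ j ih =>
    intro hk
    obtain ⟨B, hB, hB'⟩ := ih (by omega)
    obtain ⟨v, hv1, hv2⟩ := exists_next_sym hq hs (by omega) B hB hB'
    refine ⟨(Fin.cons v B : Fin (j + 1) → Fin k → F), ?_, ?_⟩
    · intro i i'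
      refine Fin.cases ?_ (fun i1 => ?_) i <;> refine Fin.cases ?_ (fun i2 => ?_) i'
      · intro h
        exact absurd rfl h
      · intro _
        simpa using hv2 i2
      · intro _
        have h : f (B i1) v = 0 := by rw [hs.symm, hv2]
        simpa using h
      · intro h
        have h' : i1 ≠ i2 := fun h'' => h (by rw [h''])
        simpa using hB i1 i2 h'
    · intro i
      refine Fin.cases ?_ (fun i1 => ?_) i
      · simpa using hv1
      · simpa using hB' i1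

end bil

section sym3

variable [Fintype F] {f : (Fin 3 → F) → (Fin 3 → F) → F}

theorem fix_signs (hq : Fintype.card F = 3) (hs : Cfsg.Geo.IsSymmetricForm f)
    (u v w : Fin 3 → F) (α β : F) (hα : α = 1 ∨ α = -1) (hβ : β = 1 ∨ β = -1)
    (huu : f u u = α) (hvv : f v v = α) (hww : f w w = β) (huv : f u v = 0) (huw : f u w = 0)
    (hvw : f v w = 0) :
    ∃ B : Fin 3 → Fin 3 → F, ∀ i j, f (B i) (B j) = if i = j then β else 0 := by
  have hb := hs.bilinear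
  have h3 := three_eq_zero hq
  have hvu : f v u = 0 := by rw [hs.symm, huv]
  have hwu : f w u = 0 := by rw [hs.symm, huw]
  have hwv : f w v = 0 := by rw [hs.symm, hvw]
  by_cases hαβ : α = β
  · refine ⟨![u, v, w], ?_⟩
    intro i j
    fin_cases i <;> fin_cases j <;> simp [huu, hvv, hww, huv, huw, hvw, hvu, hwu, hwv, hαβ]
  · have hαβ' : α = -β := by
      rcases hα with h | h <;> rcases hβ with h' | h'
      · exact absurd (h.trans h'.symm) hαβ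
      · rw [h, h', neg_neg]
      · rw [h, h']
      · exact absurd (h.trans h'.symm) hαβ
    have h11 : f (u + v) (u + v) = β := by
      rw [← Bf_apply hb]
      simp only [map_add, LinearMap.add_apply, Bf_apply, huu, hvv, huv, hvu]
      linear_combination 2 * hαβ' - β * h3
    have h22 : f (u - v) (u - v) = β := by
      rw [← Bf_apply hb]
      simp only [map_sub, LinearMap.sub_apply, Bf_apply, huu, hvv, huv, hvu]
      linear_combination 2 * hαβ' - β * h3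
    have h12 : f (u + v) (u - v) = 0 := by
      rw [← Bf_apply hb]
      simp only [map_add, map_sub, LinearMap.add_apply, LinearMap.sub_apply, Bf_apply, huu, hvv,
        huv, hvu]
      ring
    have h21 : f (u - v) (u + v) = 0 := by rw [hs.symm, h12]
    have h13 : f (u + v) w = 0 := by rw [hb.add_left, huw, hvw, add_zero]
    have h31 : f w (u + v) = 0 := by rw [hs.symm, h13]
    have h23 : f (u - v) w = 0 := by
      rw [← Bf_apply hb]
      simp only [map_sub, LinearMap.sub_apply, Bf_apply, huw, hvw, sub_zero]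
    have h32 : f w (u - v) = 0 := by rw [hs.symm, h23]
    refine ⟨![u + v, u - v, w], ?_⟩
    intro i j
    fin_cases i <;> fin_cases j <;> simp [h11, h22, h12, h21, h13, h31, h23, h32, hww]

theorem exists_U_sym (hq : Fintype.card F = 3) (hs : Cfsg.Geo.IsSymmetricForm f) :
    ∃ (U U' : Matrix (Fin 3) (Fin 3) F) (ε : F), ε ≠ 0 ∧ U * U' = 1 ∧ U' * U = 1 ∧
      Uᵀ * Cfsg.Geo.gramMatrix f * U = ε • (1 : Matrix (Fin 3) (Fin 3) F) := by
  obtain ⟨B0, hB0, hB0'⟩ := exists_ogf hq hs 3 le_rfl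
  have hsg : ∀ i, f (B0 i) (B0 i) = 1 ∨ f (B0 i) (B0 i) = -1 :=
    fun i => eq_one_or_neg_one hq _ (hB0' i)
  obtain ⟨B, β, hβ, hB⟩ : ∃ (B : Fin 3 → Fin 3 → F) (β : F), β ≠ 0 ∧
      ∀ i j, f (B i) (B j) = if i = j then β else 0 := by
    have h01 := hB0 0 1 (by decide)
    have h02 := hB0 0 2 (by decide)
    have h12 := hB0 1 2 (by decide)
    by_cases e01 : f (B0 0) (B0 0) = f (B0 1) (B0 1)
    · obtain ⟨B, hB⟩ := fix_signs hq hs (B0 0) (B0 1) (B0 2) _ _ (hsg 0) (hsg 2) rfl e01.symm rfl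
        h01 h02 h12
      exact ⟨B, _, hB0' 2, hB⟩
    · by_cases e02 : f (B0 0) (B0 0) = f (B0 2) (B0 2)
      · obtain ⟨B, hB⟩ := fix_signs hq hs (B0 0) (B0 2) (B0 1) _ _ (hsg 0) (hsg 1) rfl e02.symm
          rfl h02 h01 (by rw [hs.symm]; exact h12)
        exact ⟨B, _, hB0' 1, hB⟩
      · have e12 : f (B0 1) (B0 1) = f (B0 2) (B0 2) := by
          rcases hsg 0 with a | a <;> rcases hsg 1 with b | b <;> rcases hsg 2 with c | c <;>
            simp_all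
        obtain ⟨B, hB⟩ := fix_signs hq hs (B0 1) (B0 2) (B0 0) _ _ (hsg 1) (hsg 0) rfl e12.symm
          rfl h12 (by rw [hs.symm]; exact h01) (by rw [hs.symm]; exact h02)
        exact ⟨B, _, hB0' 0, hB⟩
  let U : Matrix (Fin 3) (Fin 3) F := Matrix.of (fun a p => B p a)
  have hU : Uᵀ * Cfsg.Geo.gramMatrix f * U = β • (1 : Matrix (Fin 3) (Fin 3) F) := by
    ext p q
    rw [Matrix.mul_apply]
    simp only [Matrix.mul_apply, Matrix.transpose_apply, Matrix.smul_apply, Matrix.one_apply,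
      smul_eq_mul, mul_ite, mul_one, mul_zero]
    rw [← hB p q, b_gram hs.bilinear (B p) (B q), Finset.sum_comm]
    apply Finset.sum_congr rfl
    intro b _
    rw [Finset.sum_mul]
    rfl
  have hdet : IsUnit U.det := by
    have h := congrArg Matrix.det hU
    rw [Matrix.det_mul, Matrix.det_mul, Matrix.det_transpose, Matrix.det_smul, Matrix.det_one,
      mul_one, mul_assoc] at h
    have hne : U.det * ((Cfsg.Geo.gramMatrix f).det * U.det) ≠ 0 := by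
      rw [h]
      exact pow_ne_zero _ hβ
    exact isUnit_iff_ne_zero.2 (left_ne_zero_of_mul hne)
  exact ⟨U, U⁻¹, β, hβ, Matrix.mul_nonsing_inv U hdet, Matrix.nonsing_inv_mul U hdet, hU⟩

end sym3

section fog2

variable {κ : Type} [Fintype κ] [DecidableEq κ]

theorem fog_dot (N : Matrix κ κ F) (x y : κ → F) :
    Cfsg.Geo.formOfGram id N x y = x ⬝ᵥ (N *ᵥ y) := by
  unfold Cfsg.Geo.formOfGram dotProduct Matrix.mulVec dotProduct
  apply Finset.sum_congr rfl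
  intro a _
  rw [Finset.mul_sum]
  apply Finset.sum_congr rfl
  intro b _
  simp [mul_assoc]

theorem fog_mat {κ' : Type} [Fintype κ'] [DecidableEq κ'] (N : Matrix κ κ F) (A : Matrix κ κ' F)
    (x y : κ' → F) :
    Cfsg.Geo.formOfGram id N (A *ᵥ x) (A *ᵥ y) = Cfsg.Geo.formOfGram id (Aᵀ * N * A) x y := by
  rw [fog_dot, fog_dot]
  calc (A *ᵥ x) ⬝ᵥ (N *ᵥ (A *ᵥ y)) = (N *ᵥ (A *ᵥ y)) ⬝ᵥ (A *ᵥ x) := dotProduct_comm _ _
    _ = ((N *ᵥ (A *ᵥ y)) ᵥ* A) ⬝ᵥ x := Matrix.dotProduct_mulVec _ _ _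
    _ = (Aᵀ *ᵥ (N *ᵥ (A *ᵥ y))) ⬝ᵥ x := by rw [Matrix.mulVec_transpose]
    _ = x ⬝ᵥ (Aᵀ *ᵥ (N *ᵥ (A *ᵥ y))) := dotProduct_comm _ _
    _ = x ⬝ᵥ ((Aᵀ * N * A) *ᵥ y) := by rw [Matrix.mulVec_mulVec, Matrix.mulVec_mulVec]

theorem fog_inj (A B : Matrix κ κ F)
    (h : ∀ x y, Cfsg.Geo.formOfGram id A x y = Cfsg.Geo.formOfGram id B x y) : A = B := by
  ext p q
  have h1 := h (Pi.single p 1) (Pi.single q 1)
  simpa [Cfsg.Geo.formOfGram, Pi.single_apply] using h1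

theorem fog_smul (r : F) (N : Matrix κ κ F) (x y : κ → F) :
    Cfsg.Geo.formOfGram id (r • N) x y = r * Cfsg.Geo.formOfGram id N x y := by
  unfold Cfsg.Geo.formOfGram
  rw [Finset.mul_sum]
  apply Finset.sum_congr rfl
  intro a _
  rw [Finset.mul_sum]
  apply Finset.sum_congr rfl
  intro b _
  simp only [Matrix.smul_apply, smul_eq_mul]
  ring

theorem pres_iff {ι : Type} [Fintype ι] [DecidableEq ι]
    (A : Matrix ι κ F) (A' : Matrix κ ι F) (h1 : A * A' = 1) (h2 : A' * A = 1)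
    (φ : (ι → F) → (ι → F) → F) (ψ : (κ → F) → (κ → F) → F) (c : F) (hc : c ≠ 0)
    (hiso : ∀ x y : κ → F, φ (A *ᵥ x) (A *ᵥ y) = c * ψ x y) (g : GL κ F) :
    g ∈ Cfsg.preserving (Units.coeHom (Matrix κ κ F)) ψ ↔
      DecStab.conjHom A A' h1 h2 g ∈ Cfsg.preserving (Units.coeHom (Matrix ι ι F)) φ := by
  have e1 : ∀ u : ι → F, ((DecStab.conjHom A A' h1 h2 g : GL ι F) : Matrix ι ι F) *ᵥ u =
      A *ᵥ ((g : Matrix κ κ F) *ᵥ (A' *ᵥ u)) := by
    intro u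
    rw [DecStab.conjHom_val]
    simp only [Matrix.mulVec_mulVec, Matrix.mul_assoc]
  have e2 : ∀ z : κ → F, ((DecStab.conjHom A A' h1 h2 g : GL ι F) : Matrix ι ι F) *ᵥ (A *ᵥ z) =
      A *ᵥ ((g : Matrix κ κ F) *ᵥ z) := by
    intro z
    have hz : A' *ᵥ (A *ᵥ z) = z := by rw [Matrix.mulVec_mulVec, h2, Matrix.one_mulVec]
    rw [e1, hz]
  constructor
  · intro hg u v
    have hg' : ∀ x y : κ → F, ψ ((g : Matrix κ κ F) *ᵥ x) ((g : Matrix κ κ F) *ᵥ y) = ψ x y := hg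
    have hu : A *ᵥ (A' *ᵥ u) = u := by rw [Matrix.mulVec_mulVec, h1, Matrix.one_mulVec]
    have hv : A *ᵥ (A' *ᵥ v) = v := by rw [Matrix.mulVec_mulVec, h1, Matrix.one_mulVec]
    show φ (((DecStab.conjHom A A' h1 h2 g : GL ι F) : Matrix ι ι F) *ᵥ u)
      (((DecStab.conjHom A A' h1 h2 g : GL ι F) : Matrix ι ι F) *ᵥ v) = φ u v
    rw [e1, e1, hiso, hg', ← hiso, hu, hv]
  · intro hg x y
    have h3 : φ (((DecStab.conjHom A A' h1 h2 g : GL ι F) : Matrix ι ι F) *ᵥ (A *ᵥ x))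
      (((DecStab.conjHom A A' h1 h2 g : GL ι F) : Matrix ι ι F) *ᵥ (A *ᵥ y)) =
        φ (A *ᵥ x) (A *ᵥ y) := hg _ _
    rw [e2, e2, hiso, hiso] at h3
    exact mul_left_cancel₀ hc h3

theorem mem_setStab_of_maps [Finite F] (E : Set (κ → F)) (g : GL κ F)
    (h : ∀ x ∈ E, (g : Matrix κ κ F) *ᵥ x ∈ E) : g ∈ DecUnit.setStab E := by
  intro x
  constructor
  · exact h x
  · intro hx
    let φ : E → E := fun y => ⟨(g : Matrix κ κ F) *ᵥ y.1, h y.1 y.2⟩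
    have hcancel : ∀ v v' : κ → F, (g : Matrix κ κ F) *ᵥ v = (g : Matrix κ κ F) *ᵥ v' → v = v' := by
      intro v v' hvv
      have h2 := congrArg (fun v => ((g⁻¹ : GL κ F) : Matrix κ κ F) *ᵥ v) hvv
      simp only [Matrix.mulVec_mulVec, ← Units.val_mul, inv_mul_cancel, Units.val_one,
        Matrix.one_mulVec] at h2
      exact h2
    have hinj : Function.Injective φ := by
      intro y y' hyy
      exact Subtype.ext (hcancel _ _ (congrArg Subtype.val hyy))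
    obtain ⟨y, hy⟩ := Finite.surjective_of_injective hinj ⟨_, hx⟩
    have h1 : y.1 = x := hcancel _ _ (congrArg Subtype.val hy)
    rw [← h1]
    exact y.2

theorem skew_self [Fintype F] (hq : Fintype.card F = 3) (N : Matrix κ κ F) (hN : Nᵀ = -N)
    (z : κ → F) : (N *ᵥ z) ⬝ᵥ z = 0 := by
  have h : (N *ᵥ z) ⬝ᵥ z = - ((N *ᵥ z) ⬝ᵥ z) := by
    calc (N *ᵥ z) ⬝ᵥ z = z ⬝ᵥ (N *ᵥ z) := dotProduct_comm _ _
      _ = (z ᵥ* N) ⬝ᵥ z := Matrix.dotProduct_mulVec _ _ _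
      _ = (Nᵀ *ᵥ z) ⬝ᵥ z := by rw [Matrix.mulVec_transpose]
      _ = -((N *ᵥ z) ⬝ᵥ z) := by rw [hN, Matrix.neg_mulVec, neg_dotProduct]
  have h3 := three_eq_zero hq
  linear_combination (-(1 : F)) * h + ((N *ᵥ z) ⬝ᵥ z) * h3

/-- The transvection along `z` for the alternating form with Gram matrix `N`. -/
def tvN (N : Matrix κ κ F) (z : κ → F) (hz : (N *ᵥ z) ⬝ᵥ z = 0) : GL κ F :=
  ⟨1 + Matrix.vecMulVec z (N *ᵥ z), 1 - Matrix.vecMulVec z (N *ᵥ z), by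
    have h : Matrix.vecMulVec z (N *ᵥ z) * Matrix.vecMulVec z (N *ᵥ z) = 0 := by
      rw [Matrix.vecMulVec_mul_vecMulVec, hz, zero_smul, Matrix.vecMulVec_zero]
    simp only [Matrix.add_mul, Matrix.mul_sub, Matrix.one_mul, Matrix.mul_one, h]
    abel, by
    have h : Matrix.vecMulVec z (N *ᵥ z) * Matrix.vecMulVec z (N *ᵥ z) = 0 := by
      rw [Matrix.vecMulVec_mul_vecMulVec, hz, zero_smul, Matrix.vecMulVec_zero]
    simp only [Matrix.sub_mul, Matrix.mul_add, Matrix.one_mul, Matrix.mul_one, h]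
    abel⟩

theorem tvN_mulVec (N : Matrix κ κ F) (z : κ → F) (hz : (N *ᵥ z) ⬝ᵥ z = 0) (x : κ → F) :
    ((tvN N z hz : GL κ F) : Matrix κ κ F) *ᵥ x = x + ((N *ᵥ z) ⬝ᵥ x) • z := by
  show (1 + Matrix.vecMulVec z (N *ᵥ z)) *ᵥ x = _
  rw [Matrix.add_mulVec, Matrix.one_mulVec, Matrix.vecMulVec_mulVec, op_smul_eq_smul]

theorem tvN_mem (N : Matrix κ κ F) (hN : Nᵀ = -N) (z : κ → F) (hz : (N *ᵥ z) ⬝ᵥ z = 0) :
    tvN N z hz ∈ Cfsg.preserving (Units.coeHom (Matrix κ κ F)) (Cfsg.Geo.formOfGram id N) := by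
  intro x y
  show Cfsg.Geo.formOfGram id N (((tvN N z hz : GL κ F) : Matrix κ κ F) *ᵥ x)
    (((tvN N z hz : GL κ F) : Matrix κ κ F) *ᵥ y) = Cfsg.Geo.formOfGram id N x y
  rw [fog_dot, fog_dot, tvN_mulVec, tvN_mulVec]
  simp only [Matrix.mulVec_add, Matrix.mulVec_smul, dotProduct_add, add_dotProduct,
    smul_dotProduct, dotProduct_smul, smul_eq_mul]
  have e1 : x ⬝ᵥ (N *ᵥ z) = (N *ᵥ z) ⬝ᵥ x := dotProduct_comm _ _
  have e2 : z ⬝ᵥ (N *ᵥ y) = -((N *ᵥ z) ⬝ᵥ y) := by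
    rw [Matrix.dotProduct_mulVec, ← Matrix.mulVec_transpose, hN, Matrix.neg_mulVec, neg_dotProduct]
  have e3 : z ⬝ᵥ (N *ᵥ z) = 0 := by
    rw [dotProduct_comm]
    exact hz
  rw [e1, e2, e3]
  ring

end fog2

section coord

variable [Fintype F] {n₁ : ℕ}

/-- Vectors supported on a single block. -/
def blk3 (F : Type*) [Field F] (n₁ : ℕ) : Set (Fin n₁ × Fin 3 → F) :=
  {x | ∃ j : Fin 3, ∀ p : Fin n₁ × Fin 3, p.2 ≠ j → x p = 0}

/-- The Gram matrix in coordinates. -/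
def Nm (G₁ : Matrix (Fin n₁) (Fin n₁) F) : Matrix (Fin n₁ × Fin 3) (Fin n₁ × Fin 3) F :=
  G₁ ⊗ₖ (1 : Matrix (Fin 3) (Fin 3) F)

omit [Fintype F] in
theorem Nm_apply' (G₁ : Matrix (Fin n₁) (Fin n₁) F) (p : Fin n₁ × Fin 3) (i : Fin n₁) (j : Fin 3) :
    Nm G₁ p (i, j) = if p.2 = j then G₁ p.1 i else 0 := by
  unfold Nm
  rw [Matrix.kroneckerMap_apply, Matrix.one_apply]
  split_ifs <;> simp

omit [Fintype F] in
theorem Nm_skew (G₁ : Matrix (Fin n₁) (Fin n₁) F) (h : G₁ᵀ = -G₁) : (Nm G₁)ᵀ = - Nm G₁ := by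
  ext p q
  obtain ⟨q1, q2⟩ := q
  obtain ⟨p1, p2⟩ := p
  rw [Matrix.transpose_apply, Matrix.neg_apply, Nm_apply', Nm_apply']
  have h1 : G₁ q1 p1 = - G₁ p1 q1 := by
    have h2 := congrFun (congrFun h p1) q1
    simpa using h2
  by_cases hpq : p2 = q2
  · rw [if_pos hpq.symm, if_pos hpq, h1]
  · rw [if_neg (fun h' => hpq h'.symm), if_neg hpq, neg_zero]

omit [Fintype F] in
theorem Nm_col (G₁ : Matrix (Fin n₁) (Fin n₁) F) (p : Fin n₁ × Fin 3) :
    Nm G₁ *ᵥ Pi.single p 1 = fun q => Nm G₁ q p := by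
  rw [Matrix.mulVec_single_one]
  rfl

/-- The isometry group in coordinates. -/
def X0 (G₁ : Matrix (Fin n₁) (Fin n₁) F) : Subgroup (GL (Fin n₁ × Fin 3) F) :=
  Cfsg.preserving (Units.coeHom (Matrix (Fin n₁ × Fin 3) (Fin n₁ × Fin 3) F))
    (Cfsg.Geo.formOfGram id (Nm G₁))

theorem kron_blk3 (hq : Fintype.card F = 3) (G₁ : Matrix (Fin n₁) (Fin n₁) F) (a0 b0 : Fin n₁)
    (hG : G₁ b0 a0 ≠ 0) (g : GL (Fin n₁ × Fin 3) F)
    (hg : g ∈ Cfsg.Geo.kroneckerSubgroup n₁ 3 F) (hgx : g ∈ X0 G₁)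
    (x : Fin n₁ × Fin 3 → F) (hx : x ∈ blk3 F n₁) :
    (g : Matrix (Fin n₁ × Fin 3) (Fin n₁ × Fin 3) F) *ᵥ x ∈ blk3 F n₁ := by
  classical
  obtain ⟨a, b, hab⟩ := hg
  obtain ⟨j0, hj0⟩ := hx
  have hmat : (g : Matrix (Fin n₁ × Fin 3) (Fin n₁ × Fin 3) F)ᵀ * Nm G₁ *
      (g : Matrix (Fin n₁ × Fin 3) (Fin n₁ × Fin 3) F) = Nm G₁ := by
    apply fog_inj
    intro x y
    rw [← fog_mat]
    exact hgx x y
  have hkron : ((a : Matrix (Fin n₁) (Fin n₁) F)ᵀ * G₁ * (a : Matrix (Fin n₁) (Fin n₁) F)) ⊗ₖ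
      ((b : Matrix (Fin 3) (Fin 3) F)ᵀ * (b : Matrix (Fin 3) (Fin 3) F)) =
      G₁ ⊗ₖ (1 : Matrix (Fin 3) (Fin 3) F) := by
    have h1 : (g : Matrix (Fin n₁ × Fin 3) (Fin n₁ × Fin 3) F)ᵀ * Nm G₁ *
        (g : Matrix (Fin n₁ × Fin 3) (Fin n₁ × Fin 3) F) =
        ((a : Matrix (Fin n₁) (Fin n₁) F)ᵀ * G₁ * (a : Matrix (Fin n₁) (Fin n₁) F)) ⊗ₖ
        ((b : Matrix (Fin 3) (Fin 3) F)ᵀ * (b : Matrix (Fin 3) (Fin 3) F)) := by
      rw [hab, ← Matrix.kroneckerMap_transpose]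
      unfold Nm
      rw [← Matrix.mul_kronecker_mul, ← Matrix.mul_kronecker_mul, Matrix.mul_one]
    rw [← h1, hmat]
    rfl
  have hent : ∀ (i i' : Fin n₁) (j j' : Fin 3),
      ((a : Matrix (Fin n₁) (Fin n₁) F)ᵀ * G₁ * (a : Matrix (Fin n₁) (Fin n₁) F)) i i' *
        ((b : Matrix (Fin 3) (Fin 3) F)ᵀ * (b : Matrix (Fin 3) (Fin 3) F)) j j' =
      G₁ i i' * (if j = j' then 1 else 0) := by
    intro i i' j j'
    have h1 := congrFun (congrFun hkron (i, j)) (i', j')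
    rw [Matrix.kroneckerMap_apply, Matrix.kroneckerMap_apply, Matrix.one_apply] at h1
    exact h1
  have hl : ((a : Matrix (Fin n₁) (Fin n₁) F)ᵀ * G₁ * (a : Matrix (Fin n₁) (Fin n₁) F)) b0 a0 ≠ 0 := by
    intro h
    have h1 := hent b0 a0 0 0
    rw [h, zero_mul, if_pos rfl, mul_one] at h1
    exact hG h1.symm
  have hSoff : ∀ j j', j ≠ j' →
      ((b : Matrix (Fin 3) (Fin 3) F)ᵀ * (b : Matrix (Fin 3) (Fin 3) F)) j j' = 0 := by
    intro j j' hjj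
    have h1 := hent b0 a0 j j'
    rw [if_neg hjj, mul_zero] at h1
    exact (mul_eq_zero.1 h1).resolve_left hl
  obtain ⟨μ, hμ⟩ : ∃ μ : F, μ = G₁ b0 a0 /
      ((a : Matrix (Fin n₁) (Fin n₁) F)ᵀ * G₁ * (a : Matrix (Fin n₁) (Fin n₁) F)) b0 a0 := ⟨_, rfl⟩
  have hSdiag : ∀ j, ((b : Matrix (Fin 3) (Fin 3) F)ᵀ * (b : Matrix (Fin 3) (Fin 3) F)) j j = μ := by
    intro j
    have h1 := hent b0 a0 j j
    rw [if_pos rfl, mul_one] at h1
    rw [hμ, eq_div_iff hl]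
    linear_combination h1
  have hμ0 : μ ≠ 0 := by
    rw [hμ]
    exact div_ne_zero hG hl
  have hSeq : (b : Matrix (Fin 3) (Fin 3) F)ᵀ * (b : Matrix (Fin 3) (Fin 3) F) =
      μ • (1 : Matrix (Fin 3) (Fin 3) F) := by
    ext j j'
    rw [Matrix.smul_apply, Matrix.one_apply, smul_eq_mul]
    by_cases hjj : j = j'
    · rw [hjj, if_pos rfl, mul_one, hSdiag]
    · rw [if_neg hjj, mul_zero, hSoff j j' hjj]
  have hμ1 : μ = 1 := by
    have hdet := congrArg Matrix.det hSeq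
    rw [Matrix.det_mul, Matrix.det_transpose, Matrix.det_smul, Matrix.det_one, mul_one,
      Fintype.card_fin] at hdet
    have hb0 : (b : Matrix (Fin 3) (Fin 3) F).det ≠ 0 :=
      ((Matrix.isUnit_iff_isUnit_det _).1 b.isUnit).ne_zero
    have h1 := sq_eq_one3 hq _ hb0
    have h2 := sq_eq_one3 hq μ hμ0
    calc μ = μ * μ ^ 2 := by rw [h2, mul_one]
      _ = μ ^ 3 := by ring
      _ = (b : Matrix (Fin 3) (Fin 3) F).det * (b : Matrix (Fin 3) (Fin 3) F).det := hdet.symm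
      _ = 1 := by rw [← pow_two]; exact h1
  have hcol : (b : Matrix (Fin 3) (Fin 3) F) 0 j0 ^ 2 + (b : Matrix (Fin 3) (Fin 3) F) 1 j0 ^ 2 +
      (b : Matrix (Fin 3) (Fin 3) F) 2 j0 ^ 2 = 1 := by
    have h1 := hSdiag j0
    rw [hμ1, Matrix.mul_apply, Fin.sum_univ_three] at h1
    simp only [Matrix.transpose_apply] at h1
    linear_combination h1
  have h3 := three_eq_zero hq
  have hsq : ∀ z : F, z = 0 ∨ z ^ 2 = 1 := fun z => by
    by_cases hz : z = 0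
    · exact Or.inl hz
    · exact Or.inr (sq_eq_one3 hq z hz)
  have hex : ∃ j1 : Fin 3, ∀ j : Fin 3, j ≠ j1 → (b : Matrix (Fin 3) (Fin 3) F) j j0 = 0 := by
    rcases hsq ((b : Matrix (Fin 3) (Fin 3) F) 0 j0) with h0 | h0 <;>
      rcases hsq ((b : Matrix (Fin 3) (Fin 3) F) 1 j0) with h1 | h1 <;>
      rcases hsq ((b : Matrix (Fin 3) (Fin 3) F) 2 j0) with h2 | h2
    · exfalso
      rw [h0, h1, h2] at hcol
      have h4 : (1 : F) = 0 := by linear_combination -hcol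
      exact one_ne_zero h4
    · exact ⟨2, fun j hj => by fin_cases j; exacts [h0, h1, absurd rfl hj]⟩
    · exact ⟨1, fun j hj => by fin_cases j; exacts [h0, absurd rfl hj, h2]⟩
    · exfalso
      rw [h0, h1, h2] at hcol
      have h4 : (1 : F) = 0 := by linear_combination hcol
      exact one_ne_zero h4
    · exact ⟨0, fun j hj => by fin_cases j; exacts [absurd rfl hj, h1, h2]⟩
    · exfalso
      rw [h0, h1, h2] at hcol
      have h4 : (1 : F) = 0 := by linear_combination hcol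
      exact one_ne_zero h4
    · exfalso
      rw [h0, h1, h2] at hcol
      have h4 : (1 : F) = 0 := by linear_combination hcol
      exact one_ne_zero h4
    · exfalso
      rw [h0, h1, h2] at hcol
      have h4 : (1 : F) = 0 := by linear_combination h3 - hcol
      exact one_ne_zero h4
  obtain ⟨j1, hj1⟩ := hex
  refine ⟨j1, fun p hp => ?_⟩
  rw [hab]
  unfold Matrix.mulVec dotProduct
  apply Finset.sum_eq_zero
  intro q _
  show ((a : Matrix (Fin n₁) (Fin n₁) F) p.1 q.1 * (b : Matrix (Fin 3) (Fin 3) F) p.2 q.2) * x q = 0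
  by_cases hq2 : q.2 = j0
  · rw [hq2, hj1 p.2 hp, mul_zero, zero_mul]
  · rw [hj0 q hq2, mul_zero]

omit [Fintype F] in
theorem tv0_blk (G₁ : Matrix (Fin n₁) (Fin n₁) F) (a0 : Fin n₁)
    (hz : (Nm G₁ *ᵥ Pi.single ((a0, (0 : Fin 3)) : Fin n₁ × Fin 3) (1 : F)) ⬝ᵥ
      Pi.single ((a0, (0 : Fin 3)) : Fin n₁ × Fin 3) (1 : F) = 0)
    (x : Fin n₁ × Fin 3 → F) (hx : x ∈ blk3 F n₁) :
    ((tvN (Nm G₁) (Pi.single ((a0, (0 : Fin 3)) : Fin n₁ × Fin 3) (1 : F)) hz :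
      GL (Fin n₁ × Fin 3) F) : Matrix (Fin n₁ × Fin 3) (Fin n₁ × Fin 3) F) *ᵥ x ∈ blk3 F n₁ := by
  obtain ⟨j, hj⟩ := hx
  refine ⟨j, fun p hp => ?_⟩
  rw [tvN_mulVec, Pi.add_apply, Pi.smul_apply, smul_eq_mul, hj p hp, zero_add]
  by_cases h0 : j = 0
  · have hs : (Pi.single ((a0, (0 : Fin 3)) : Fin n₁ × Fin 3) (1 : F) : Fin n₁ × Fin 3 → F) p = 0 := by
      rw [Pi.single_apply, if_neg]
      intro h
      exact hp (by rw [h, h0])
    rw [hs, mul_zero]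
  · have hd : (Nm G₁ *ᵥ Pi.single ((a0, (0 : Fin 3)) : Fin n₁ × Fin 3) (1 : F)) ⬝ᵥ x = 0 := by
      rw [Nm_col]
      unfold dotProduct
      apply Finset.sum_eq_zero
      intro q _
      show Nm G₁ q (a0, 0) * x q = 0
      rw [Nm_apply']
      by_cases hq2 : q.2 = 0
      · rw [hj q (by rw [hq2]; exact fun h => h0 h.symm), mul_zero]
      · rw [if_neg hq2, zero_mul]
    rw [hd, zero_mul]

theorem coord_main3 (hq : Fintype.card F = 3) (G₁ : Matrix (Fin n₁) (Fin n₁) F)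
    (hskew : G₁ᵀ = -G₁) (a0 b0 : Fin n₁) (hab : a0 ≠ b0) (hG : G₁ b0 a0 ≠ 0) :
    ∃ K0 : Subgroup (GL (Fin n₁ × Fin 3) F),
      Cfsg.Geo.kroneckerSubgroup n₁ 3 F ⊓ X0 G₁ < K0 ∧ K0 < X0 G₁ := by
  classical
  have hN := Nm_skew G₁ hskew
  have hz0 := skew_self hq (Nm G₁) hN (Pi.single ((a0, (0 : Fin 3)) : Fin n₁ × Fin 3) (1 : F))
  have hz1 := skew_self hq (Nm G₁) hN (Pi.single ((a0, (0 : Fin 3)) : Fin n₁ × Fin 3) (1 : F) +
    Pi.single ((a0, (1 : Fin 3)) : Fin n₁ × Fin 3) (1 : F))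
  refine ⟨DecUnit.setStab (blk3 F n₁) ⊓ X0 G₁, ?_, ?_⟩
  · refine lt_of_le_of_ne ?_ ?_
    · intro g hg
      exact ⟨mem_setStab_of_maps _ g (kron_blk3 hq G₁ a0 b0 hG g hg.1 hg.2), hg.2⟩
    · intro heq
      have hmem : tvN (Nm G₁) _ hz0 ∈ DecUnit.setStab (blk3 F n₁) ⊓ X0 G₁ :=
        ⟨mem_setStab_of_maps _ _ (tv0_blk G₁ a0 hz0), tvN_mem _ hN _ hz0⟩
      rw [← heq] at hmem
      obtain ⟨A, B, hAB⟩ := hmem.1
      have hval : ((tvN (Nm G₁) (Pi.single ((a0, (0 : Fin 3)) : Fin n₁ × Fin 3) (1 : F)) hz0 :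
          GL (Fin n₁ × Fin 3) F) : Matrix (Fin n₁ × Fin 3) (Fin n₁ × Fin 3) F) =
          1 + Matrix.vecMulVec (Pi.single ((a0, (0 : Fin 3)) : Fin n₁ × Fin 3) (1 : F))
            (Nm G₁ *ᵥ Pi.single ((a0, (0 : Fin 3)) : Fin n₁ × Fin 3) (1 : F)) := rfl
      rw [hval, Nm_col] at hAB
      have e1 : G₁ b0 a0 = (A : Matrix (Fin n₁) (Fin n₁) F) a0 b0 *
          (B : Matrix (Fin 3) (Fin 3) F) 0 0 := by
        have h := congrFun (congrFun hAB (a0, 0)) (b0, 0)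
        simpa [Matrix.vecMulVec_apply, Matrix.kroneckerMap_apply, Matrix.one_apply, Nm_apply', hab]
          using h
      have e2 : (1 : F) = (A : Matrix (Fin n₁) (Fin n₁) F) a0 a0 *
          (B : Matrix (Fin 3) (Fin 3) F) 1 1 := by
        have h := congrFun (congrFun hAB (a0, 1)) (a0, 1)
        simpa [Matrix.vecMulVec_apply, Matrix.kroneckerMap_apply, Matrix.one_apply, Nm_apply']
          using h
      have e3 : (0 : F) = (A : Matrix (Fin n₁) (Fin n₁) F) a0 b0 *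
          (B : Matrix (Fin 3) (Fin 3) F) 1 1 := by
        have h := congrFun (congrFun hAB (a0, 1)) (b0, 1)
        simpa [Matrix.vecMulVec_apply, Matrix.kroneckerMap_apply, Matrix.one_apply, Nm_apply', hab]
          using h
      have hA : (A : Matrix (Fin n₁) (Fin n₁) F) a0 b0 ≠ 0 := by
        intro h
        rw [h, zero_mul] at e1
        exact hG e1
      have hB : (B : Matrix (Fin 3) (Fin 3) F) 1 1 ≠ 0 := by
        intro h
        rw [h, mul_zero] at e2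
        exact one_ne_zero e2
      exact mul_ne_zero hA hB e3.symm
  · refine lt_of_le_of_ne inf_le_right ?_
    intro heq
    have hmem : tvN (Nm G₁) _ hz1 ∈ X0 G₁ := tvN_mem _ hN _ hz1
    rw [← heq] at hmem
    have hx : (Pi.single ((b0, (0 : Fin 3)) : Fin n₁ × Fin 3) (1 : F)) ∈ blk3 F n₁ := by
      refine ⟨0, fun p hp => ?_⟩
      rw [Pi.single_apply, if_neg]
      intro h
      exact hp (by rw [h])
    have h := (hmem.1 _).1 hx
    rw [tvN_mulVec, dotProduct_single_one] at h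
    have hγ : (Nm G₁ *ᵥ (Pi.single ((a0, (0 : Fin 3)) : Fin n₁ × Fin 3) (1 : F) +
        Pi.single ((a0, (1 : Fin 3)) : Fin n₁ × Fin 3) (1 : F))) (b0, 0) = G₁ b0 a0 := by
      rw [Matrix.mulVec_add, Nm_col, Nm_col, Pi.add_apply, Nm_apply', Nm_apply']
      simp
    rw [hγ] at h
    obtain ⟨j, hj⟩ := h
    by_cases hj0 : j = 0
    · have h1 := hj (a0, 1) (by rw [hj0]; exact one_ne_zero)
      simp [Pi.single_apply, hab, hG] at h1
    · have h1 := hj (b0, 0) (fun h => hj0 h.symm)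
      simp [Pi.single_apply, Ne.symm hab] at h1

end coord

theorem tens_eq {ι : Type} [Fintype ι] [DecidableEq ι] {n₁ n₂ : ℕ} (e : ι ≃ Fin n₁ × Fin n₂)
    (P : GL ι F) (U₁ U₁' : Matrix (Fin n₁) (Fin n₁) F) (U₂ U₂' : Matrix (Fin n₂) (Fin n₂) F)
    (hU₁a : U₁ * U₁' = 1) (hU₁b : U₁' * U₁ = 1) (hU₂a : U₂ * U₂' = 1) (hU₂b : U₂' * U₂ = 1) :
    ∃ (M : Matrix ι (Fin n₁ × Fin n₂) F) (M' : Matrix (Fin n₁ × Fin n₂) ι F)
      (h1 : M * M' = 1) (h2 : M' * M = 1),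
      (∀ x : Fin n₁ × Fin n₂ → F, M *ᵥ x = (P : Matrix ι ι F) *ᵥ (((U₁ ⊗ₖ U₂) *ᵥ x) ∘ e)) ∧
      Cfsg.Geo.tensorProductSubgroup n₁ n₂ e P =
        (Cfsg.Geo.kroneckerSubgroup n₁ n₂ F).map (DecStab.conjHom M M' h1 h2) := by
  classical
  have hUU' : (U₁ ⊗ₖ U₂) * (U₁' ⊗ₖ U₂') = 1 := by
    rw [← Matrix.mul_kronecker_mul, hU₁a, hU₂a, Matrix.one_kronecker_one]
  have hU'U : (U₁' ⊗ₖ U₂') * (U₁ ⊗ₖ U₂) = 1 := by
    rw [← Matrix.mul_kronecker_mul, hU₁b, hU₂b, Matrix.one_kronecker_one]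
  obtain ⟨M, hM⟩ : ∃ M : Matrix ι (Fin n₁ × Fin n₂) F,
      M = (P : Matrix ι ι F) * TensUnit.Rm F e * (U₁ ⊗ₖ U₂) := ⟨_, rfl⟩
  obtain ⟨M', hM'⟩ : ∃ M' : Matrix (Fin n₁ × Fin n₂) ι F,
      M' = (U₁' ⊗ₖ U₂') * TensUnit.Rm' F e * ((P⁻¹ : GL ι F) : Matrix ι ι F) := ⟨_, rfl⟩
  have h1 : M * M' = 1 := by
    calc M * M' = (P : Matrix ι ι F) * (TensUnit.Rm F e * ((U₁ ⊗ₖ U₂) * (U₁' ⊗ₖ U₂')) *
          TensUnit.Rm' F e) * ((P⁻¹ : GL ι F) : Matrix ι ι F) := by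
          simp only [hM, hM', Matrix.mul_assoc]
      _ = 1 := by
          rw [hUU', Matrix.mul_one, TensUnit.Rm_mul_Rm', Matrix.mul_one, ← Units.val_mul,
            mul_inv_cancel, Units.val_one]
  have h2 : M' * M = 1 := by
    calc M' * M = (U₁' ⊗ₖ U₂') * (TensUnit.Rm' F e * (((P⁻¹ : GL ι F) : Matrix ι ι F) *
          (P : Matrix ι ι F)) * TensUnit.Rm F e) * (U₁ ⊗ₖ U₂) := by
          simp only [hM, hM', Matrix.mul_assoc]
      _ = 1 := by
          rw [← Units.val_mul, inv_mul_cancel, Units.val_one, Matrix.mul_one,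
            TensUnit.Rm'_mul_Rm, Matrix.mul_one, hU'U]
  have hMv : ∀ x : Fin n₁ × Fin n₂ → F,
      M *ᵥ x = (P : Matrix ι ι F) *ᵥ (((U₁ ⊗ₖ U₂) *ᵥ x) ∘ e) := by
    intro x
    rw [hM, ← Matrix.mulVec_mulVec, ← Matrix.mulVec_mulVec, TensUnit.Rm_mulVec]
  have hcomp : ∀ k : GL (Fin n₁ × Fin n₂) F, DecStab.conjHom M M' h1 h2 k =
      (MulAut.conj P) ((Cfsg.Geo.glReindex e.symm)
        (DecStab.conjHom (U₁ ⊗ₖ U₂) (U₁' ⊗ₖ U₂') hUU' hU'U k)) := by
    intro k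
    apply Units.ext
    rw [DecStab.conjHom_val, MulAut.conj_apply, Units.val_mul, Units.val_mul]
    have hre : ((Cfsg.Geo.glReindex e.symm (DecStab.conjHom (U₁ ⊗ₖ U₂) (U₁' ⊗ₖ U₂') hUU' hU'U k) :
        GL ι F) : Matrix ι ι F) =
        ((U₁ ⊗ₖ U₂) * (k : Matrix (Fin n₁ × Fin n₂) (Fin n₁ × Fin n₂) F) *
          (U₁' ⊗ₖ U₂')).submatrix e e :=
      rfl
    rw [hre, ← TensUnit.Rm_conj, hM, hM']
    simp only [Matrix.mul_assoc]
  have hTeq : Cfsg.Geo.tensorProductSubgroup n₁ n₂ e P =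
      (Cfsg.Geo.kroneckerSubgroup n₁ n₂ F).map (DecStab.conjHom M M' h1 h2) := by
    unfold Cfsg.Geo.tensorProductSubgroup
    ext g
    simp only [Subgroup.mem_map]
    constructor
    · rintro ⟨g1, ⟨k, hk, rfl⟩, rfl⟩
      refine ⟨DecStab.conjHom (U₁' ⊗ₖ U₂') (U₁ ⊗ₖ U₂) hU'U hUU' k,
        TensUnit.kron_conj U₁' U₁ U₂' U₂ hU₁b hU₁a hU₂b hU₂a hU'U hUU' k hk, ?_⟩
      rw [hcomp, DecStab.conjHom_left_inv]
      rfl
    · rintro ⟨k, hk, rfl⟩
      exact ⟨_, ⟨DecStab.conjHom (U₁ ⊗ₖ U₂) (U₁' ⊗ₖ U₂') hUU' hU'U k,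
        TensUnit.kron_conj U₁ U₁' U₂ U₂' hU₁a hU₁b hU₂a hU₂b hUU' hU'U k hk, rfl⟩, (hcomp k).symm⟩
  exact ⟨M, M', h1, h2, hMv, hTeq⟩

theorem main [Fintype F] (m : ℕ) (hm : 7 ≤ m) (hq : Fintype.card F = 3) (n₁ : ℕ)
    (e : (Fin m ⊕ Fin m) ≃ Fin n₁ × Fin 3) (P : Matrix.GeneralLinearGroup (Fin m ⊕ Fin m) F)
    (f₁ : (Fin n₁ → F) → (Fin n₁ → F) → F) (f₂ : (Fin 3 → F) → (Fin 3 → F) → F)
    (hf₁ : Cfsg.Geo.IsSymplecticForm f₁) (hf₂ : Cfsg.Geo.IsSymmetricForm f₂)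
    (hT : Cfsg.Geo.IsTensorFormStructure id (Cfsg.sympForm m F) f₁ f₂ e P) :
    ∃ K : Subgroup (Matrix.GeneralLinearGroup (Fin m ⊕ Fin m) F),
      Cfsg.Geo.tensorProductSubgroup n₁ 3 e P ⊓ Cfsg.spGL m F < K ∧ K < Cfsg.spGL m F := by
  classical
  have hcard : m + m = n₁ * 3 := by simpa using Fintype.card_congr e
  have hn₁ : 0 < n₁ := by omega
  obtain ⟨U₂, U₂', ε, hε, hU₂a, hU₂b, hU₂⟩ := exists_U_sym hq hf₂
  obtain ⟨c, hc0, hc⟩ := hT
  obtain ⟨M, M', h1, h2, hMv, hTeq⟩ := tens_eq e P (1 : Matrix (Fin n₁) (Fin n₁) F) 1 U₂ U₂'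
    (Matrix.one_mul 1) (Matrix.one_mul 1) hU₂a hU₂b
  have hiso : ∀ x y : Fin n₁ × Fin 3 → F, Cfsg.sympForm m F (M *ᵥ x) (M *ᵥ y) =
      (c * ε) * Cfsg.Geo.formOfGram id (Nm (Cfsg.Geo.gramMatrix f₁)) x y := by
    intro x y
    rw [hMv, hMv, hc, fog_mat]
    have hk : ((1 : Matrix (Fin n₁) (Fin n₁) F) ⊗ₖ U₂)ᵀ *
        (Cfsg.Geo.gramMatrix f₁ ⊗ₖ Cfsg.Geo.gramMatrix f₂) *
        ((1 : Matrix (Fin n₁) (Fin n₁) F) ⊗ₖ U₂) = ε • Nm (Cfsg.Geo.gramMatrix f₁) := by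
      rw [← Matrix.kroneckerMap_transpose, Matrix.transpose_one, ← Matrix.mul_kronecker_mul,
        ← Matrix.mul_kronecker_mul, Matrix.one_mul, Matrix.mul_one, hU₂, Matrix.kronecker_smul]
      rfl
    rw [hk, fog_smul, mul_assoc]
  have hskew : (Cfsg.Geo.gramMatrix f₁)ᵀ = -Cfsg.Geo.gramMatrix f₁ := by
    ext a b
    rw [Matrix.transpose_apply, Matrix.neg_apply]
    exact hf₁.skew _ _
  obtain ⟨b0, hb0⟩ : ∃ b0, Cfsg.Geo.gramMatrix f₁ b0 ⟨0, hn₁⟩ ≠ 0 := by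
    by_contra hcon
    push Not at hcon
    have hv : (Pi.single (⟨0, hn₁⟩ : Fin n₁) (1 : F) : Fin n₁ → F) ≠ 0 := by
      intro h
      have h' := congrFun h ⟨0, hn₁⟩
      simp at h'
    obtain ⟨x, hx⟩ := (hf₁.nondegenerate _ hv).1
    apply hx
    rw [b_gram hf₁.bilinear]
    apply Finset.sum_eq_zero
    intro a _
    apply Finset.sum_eq_zero
    intro b _
    by_cases hb : b = ⟨0, hn₁⟩
    · rw [hb, hcon a, mul_zero, zero_mul]
    · rw [Pi.single_apply, if_neg hb, mul_zero]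
  have hab : (⟨0, hn₁⟩ : Fin n₁) ≠ b0 := by
    intro h
    apply hb0
    rw [← h]
    exact hf₁.alternating _
  obtain ⟨K0, hK0a, hK0b⟩ := coord_main3 hq (Cfsg.Geo.gramMatrix f₁) hskew ⟨0, hn₁⟩ b0 hab hb0
  refine TensUnit.transport_gen (DecStab.conjHom M M' h1 h2)
    (DecStab.conjHom_injective M M' h1 h2) (DecStab.conjHom_surjective M M' h1 h2)
    (Cfsg.Geo.kroneckerSubgroup n₁ 3 F) (X0 (Cfsg.Geo.gramMatrix f₁)) K0 _ _ hTeq ?_ hK0a hK0b
  intro g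
  exact pres_iff M M' h1 h2 (Cfsg.sympForm m F)
    (Cfsg.Geo.formOfGram id (Nm (Cfsg.Geo.gramMatrix f₁))) (c * ε) (mul_ne_zero hc0 hε) hiso g

end Cfsg.Agent.Helper18.TensSymp
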