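import Mathlib
import Cfsg.Prelude.Def_GeometricClasses
import Cfsg.Prelude.Def_LieClassical
import Cfsg.Prelude.Def_ClassicalGeometry
import Cfsg.Agent.Helper18.DecStab
import Cfsg.Agent.Helper18.DecUnit
import Cfsg.Agent.Helper18.TensUnit
import Cfsg.Agent.Helper18.TensSymp

set_option autoImplicit false

namespace Cfsg.Agent.Helper18.DiagOrth

open Matrix Kronecker

open scoped commutatorElement

variable {F : Type*} [Field F]

section grp

theorem omega_eq {ι : Type} [Fintype ι] [DecidableEq ι] (Q : (ι → F) → F) :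
    Cfsg.Geo.omegaGL Q = ⁅Cfsg.isometryGroup F Q, Cfsg.isometryGroup F Q⁆ := by
  unfold Cfsg.Geo.omegaGL Cfsg.Omega
  rw [commutator_def, Subgroup.map_commutator, ← MonoidHom.range_eq_map, Subgroup.range_subtype]

theorem comm_transport {G H : Type*} [Group G] [Group H] (c : G →* H)
    (hinj : Function.Injective c) (hsurj : Function.Surjective c)
    (X0 : Subgroup G) (X : Subgroup H) (hX : ∀ g, g ∈ X0 ↔ c g ∈ X) (g : G) :
    g ∈ ⁅X0, X0⁆ ↔ c g ∈ ⁅X, X⁆ := by
  have e2 : X = X0.map c := by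
    ext g
    rw [Subgroup.mem_map]
    constructor
    · intro hg
      obtain ⟨g0, rfl⟩ := hsurj g
      exact ⟨g0, (hX g0).2 hg, rfl⟩
    · rintro ⟨g0, hg0, rfl⟩
      exact (hX g0).1 hg0
  rw [e2, ← Subgroup.map_commutator, Subgroup.mem_map_iff_mem hinj]

end grp

section diag

variable {κ : Type} [Fintype κ] [DecidableEq κ]

/-- The diagonal quadratic form. -/
def qd (D : κ → F) (x : κ → F) : F := ∑ p, D p * x p ^ 2

/-- The isometry group of the diagonal quadratic form. -/
def XD (D : κ → F) : Subgroup (GL κ F) :=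
  Cfsg.preserving (Units.coeHom (Matrix κ κ F)) (fun u _ => qd D u)

theorem XD_apply (D : κ → F) (g : GL κ F) (hg : g ∈ XD D) (u : κ → F) :
    qd D ((g : Matrix κ κ F) *ᵥ u) = qd D u := hg u u

/-- Permutation matrices as invertible matrices. -/
def pm (F : Type*) [Field F] (κ : Type) [Fintype κ] [DecidableEq κ] : Equiv.Perm κ →* GL κ F :=
  (Matrix.permMatrixHom (n := κ) (R := F)).toHomUnits

theorem pm_mulVec (σ : Equiv.Perm κ) (v : κ → F) :
    ((pm F κ σ : GL κ F) : Matrix κ κ F) *ᵥ v = v ∘ ⇑σ⁻¹ := by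
  show (Matrix.permMatrixHom (n := κ) (R := F) σ) *ᵥ v = _
  rw [Matrix.permMatrixHom_apply, Matrix.permMatrix_mulVec]

theorem pm_apply (σ : Equiv.Perm κ) (p q : κ) :
    ((pm F κ σ : GL κ F) : Matrix κ κ F) p q = if σ⁻¹ p = q then 1 else 0 := by
  have h := congrFun (pm_mulVec (F := F) σ (Pi.single q 1)) p
  rw [Matrix.mulVec_single_one] at h
  rw [show ((pm F κ σ : GL κ F) : Matrix κ κ F) p q = ((pm F κ σ : GL κ F) : Matrix κ κ F).col q p from rfl, h]
  simp [Pi.single_apply]

theorem pm_mem (D : κ → F) (σ : Equiv.Perm κ) (h : ∀ p, D (σ p) = D p) : pm F κ σ ∈ XD D := by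
  intro u v
  show qd D (((pm F κ σ : GL κ F) : Matrix κ κ F) *ᵥ u) = qd D u
  rw [pm_mulVec]
  unfold qd
  rw [← Equiv.sum_comp σ]
  apply Finset.sum_congr rfl
  intro p _
  simp [h p]

omit [Fintype κ] in
theorem swap_D (D : κ → F) (A B : κ) (h : D A = D B) (p : κ) : D (Equiv.swap A B p) = D p := by
  by_cases hA : p = A
  · rw [hA, Equiv.swap_apply_left, h]
  · by_cases hB : p = B
    · rw [hB, Equiv.swap_apply_right, h]
    · rw [Equiv.swap_apply_of_ne_of_ne hA hB]

/-- A three-cycle as a commutator of transpositions. -/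
def cyc (A B C : κ) : Equiv.Perm κ := ⁅Equiv.swap A B, Equiv.swap B C⁆

theorem cyc_mem (D : κ → F) (A B C : κ) (h1 : D A = D B) (h2 : D B = D C) :
    pm F κ (cyc A B C) ∈ ⁅XD D, XD D⁆ := by
  unfold cyc
  rw [map_commutatorElement]
  exact Subgroup.commutator_mem_commutator (pm_mem D _ (swap_D D A B h1))
    (pm_mem D _ (swap_D D B C h2))

omit [Fintype κ] in
theorem cyc_inv_A (A B C : κ) (hAC : A ≠ C) (hBC : B ≠ C) : (cyc A B C)⁻¹ A = B := by
  unfold cyc
  rw [commutatorElement_inv, commutatorElement_def]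
  simp only [Equiv.Perm.mul_apply, Equiv.swap_inv, Equiv.swap_apply_left, Equiv.swap_apply_right]
  rw [Equiv.swap_apply_of_ne_of_ne (Ne.symm hAC) (Ne.symm hBC), Equiv.swap_apply_right]

omit [Fintype κ] in
theorem cyc_inv_B (A B C : κ) (hAB : A ≠ B) (hAC : A ≠ C) : (cyc A B C)⁻¹ B = C := by
  unfold cyc
  rw [commutatorElement_inv, commutatorElement_def]
  simp only [Equiv.Perm.mul_apply, Equiv.swap_inv, Equiv.swap_apply_left, Equiv.swap_apply_right]
  rw [Equiv.swap_apply_of_ne_of_ne hAB hAC, Equiv.swap_apply_left, Equiv.swap_apply_left]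

omit [Fintype κ] in
theorem cyc_inv_C (A B C : κ) (hAB : A ≠ B) (hAC : A ≠ C) (hBC : B ≠ C) : (cyc A B C)⁻¹ C = A := by
  unfold cyc
  rw [commutatorElement_inv, commutatorElement_def]
  simp only [Equiv.Perm.mul_apply, Equiv.swap_inv, Equiv.swap_apply_left, Equiv.swap_apply_right]
  rw [Equiv.swap_apply_of_ne_of_ne (Ne.symm hAC) (Ne.symm hBC), Equiv.swap_apply_right,
    Equiv.swap_apply_right, Equiv.swap_apply_of_ne_of_ne hAB hAC]

omit [Fintype κ] in
theorem cyc_inv_other (A B C p : κ) (hA : p ≠ A) (hB : p ≠ B) (hC : p ≠ C) :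
    (cyc A B C)⁻¹ p = p := by
  unfold cyc
  rw [commutatorElement_inv, commutatorElement_def]
  simp only [Equiv.Perm.mul_apply, Equiv.swap_inv]
  rw [Equiv.swap_apply_of_ne_of_ne hA hB, Equiv.swap_apply_of_ne_of_ne hB hC,
    Equiv.swap_apply_of_ne_of_ne hA hB, Equiv.swap_apply_of_ne_of_ne hB hC]

theorem XD_mat [Fintype F] (hq : Fintype.card F = 3) (D : κ → F) (g : GL κ F) (hg : g ∈ XD D) :
    (g : Matrix κ κ F)ᵀ * Matrix.diagonal D * (g : Matrix κ κ F) = Matrix.diagonal D := by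
  have h3 := TensSymp.three_eq_zero hq
  have hpol : ∀ u v : κ → F, Cfsg.Geo.formOfGram id (Matrix.diagonal D) u v =
      2 * (qd D (u + v) - qd D u - qd D v) := by
    intro u v
    unfold Cfsg.Geo.formOfGram qd
    rw [← Finset.sum_sub_distrib, ← Finset.sum_sub_distrib, Finset.mul_sum]
    apply Finset.sum_congr rfl
    intro a _
    rw [Finset.sum_eq_single a]
    · rw [Matrix.diagonal_apply_eq, Pi.add_apply]
      simp only [id]
      linear_combination (-(D a * u a * v a)) * h3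
    · intro b _ hb
      rw [Matrix.diagonal_apply_ne _ (Ne.symm hb), mul_zero, zero_mul]
    · intro h
      exact absurd (Finset.mem_univ _) h
  apply TensSymp.fog_inj
  intro x y
  rw [← TensSymp.fog_mat, hpol, hpol, ← Matrix.mulVec_add, XD_apply D g hg, XD_apply D g hg,
    XD_apply D g hg]

end diag

section mono

variable [Fintype F]

theorem mono3 (hq : Fintype.card F = 3) (b : Matrix (Fin 3) (Fin 3) F) (hb0 : b.det ≠ 0) (μ : F)
    (hμ0 : μ ≠ 0) (hSeq : bᵀ * b = μ • (1 : Matrix (Fin 3) (Fin 3) F)) (j0 : Fin 3) :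
    ∃ j1 : Fin 3, ∀ j : Fin 3, j ≠ j1 → b j j0 = 0 := by
  have hμ1 : μ = 1 := by
    have hdet := congrArg Matrix.det hSeq
    rw [Matrix.det_mul, Matrix.det_transpose, Matrix.det_smul, Matrix.det_one, mul_one,
      Fintype.card_fin] at hdet
    have h1 := TensSymp.sq_eq_one3 hq _ hb0
    have h2 := TensSymp.sq_eq_one3 hq μ hμ0
    calc μ = μ * μ ^ 2 := by rw [h2, mul_one]
      _ = μ ^ 3 := by ring
      _ = b.det * b.det := hdet.symm
      _ = 1 := by rw [← pow_two]; exact h1
  have hcol : b 0 j0 ^ 2 + b 1 j0 ^ 2 + b 2 j0 ^ 2 = 1 := by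
    have h1 := congrFun (congrFun hSeq j0) j0
    rw [hμ1, Matrix.mul_apply, Fin.sum_univ_three] at h1
    simp only [Matrix.transpose_apply, Matrix.smul_apply, Matrix.one_apply_eq, smul_eq_mul,
      mul_one] at h1
    linear_combination h1
  have h3 := TensSymp.three_eq_zero hq
  have hsq : ∀ z : F, z = 0 ∨ z ^ 2 = 1 := fun z => by
    by_cases hz : z = 0
    · exact Or.inl hz
    · exact Or.inr (TensSymp.sq_eq_one3 hq z hz)
  rcases hsq (b 0 j0) with h0 | h0 <;> rcases hsq (b 1 j0) with h1 | h1 <;>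
    rcases hsq (b 2 j0) with h2 | h2
  · exfalso
    rw [h0, h1, h2] at hcol
    have h4 : (1 : F) = 0 := by linear_combination -hcol
    exact one_ne_zero h4
  · exact ⟨2, fun j hj => by fin_cases j; exacts [h0, h1, absurd rfl hj]⟩
  · exact ⟨1, fun j hj => by fin_cases j; exacts [h0, absurd rfl hj, h2]⟩
  · exfalso
    rw [h0, h1, h2] at hcol
    have h4 : (1 : F) = 0 := by linear_combination hcol
    exact one_ne_zero h4
  · exact ⟨0, fun j hj => by fin_cases j; exacts [absurd rfl hj, h1, h2]⟩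
  · exfalso
    rw [h0, h1, h2] at hcol
    have h4 : (1 : F) = 0 := by linear_combination hcol
    exact one_ne_zero h4
  · exfalso
    rw [h0, h1, h2] at hcol
    have h4 : (1 : F) = 0 := by linear_combination hcol
    exact one_ne_zero h4
  · exfalso
    rw [h0, h1, h2] at hcol
    have h4 : (1 : F) = 0 := by linear_combination h3 - hcol
    exact one_ne_zero h4

theorem exists_U_diag (hq : Fintype.card F = 3) {k : ℕ} {f : (Fin k → F) → (Fin k → F) → F}
    (hs : Cfsg.Geo.IsSymmetricForm f) :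
    ∃ (U U' : Matrix (Fin k) (Fin k) F) (d : Fin k → F), (∀ j, d j ≠ 0) ∧ U * U' = 1 ∧ U' * U = 1 ∧
      Uᵀ * Cfsg.Geo.gramMatrix f * U = Matrix.diagonal d := by
  classical
  obtain ⟨B, hB, hB'⟩ := TensSymp.exists_ogf hq hs k le_rfl
  let U : Matrix (Fin k) (Fin k) F := Matrix.of (fun a p => B p a)
  have hU : Uᵀ * Cfsg.Geo.gramMatrix f * U = Matrix.diagonal (fun j => f (B j) (B j)) := by
    ext p q
    rw [Matrix.mul_apply]
    simp only [Matrix.mul_apply, Matrix.transpose_apply]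
    have hpq : Matrix.diagonal (fun j => f (B j) (B j)) p q = f (B p) (B q) := by
      by_cases h : p = q
      · rw [h, Matrix.diagonal_apply_eq]
      · rw [Matrix.diagonal_apply_ne _ h, hB p q h]
    rw [hpq, TensSymp.b_gram hs.bilinear (B p) (B q), Finset.sum_comm]
    apply Finset.sum_congr rfl
    intro b _
    rw [Finset.sum_mul]
    rfl
  have hdet : IsUnit U.det := by
    have h := congrArg Matrix.det hU
    rw [Matrix.det_mul, Matrix.det_mul, Matrix.det_transpose, Matrix.det_diagonal, mul_assoc] at h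
    have hne : U.det * ((Cfsg.Geo.gramMatrix f).det * U.det) ≠ 0 := by
      rw [h]
      exact Finset.prod_ne_zero_iff.2 (fun j _ => hB' j)
    exact isUnit_iff_ne_zero.2 (left_ne_zero_of_mul hne)
  exact ⟨U, U⁻¹, _, hB', Matrix.mul_nonsing_inv U hdet, Matrix.nonsing_inv_mul U hdet, hU⟩

theorem exists_three (hq : Fintype.card F = 3) {k : ℕ} (hk : 5 ≤ k) (d : Fin k → F)
    (hd : ∀ j, d j ≠ 0) :
    ∃ j j' j'' : Fin k, j ≠ j' ∧ j ≠ j'' ∧ j' ≠ j'' ∧ d j = d j' ∧ d j' = d j'' := by
  classical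
  have hd' : ∀ j, d j = 1 ∨ d j = -1 := fun j => TensSymp.eq_one_or_neg_one hq _ (hd j)
  by_cases hS : 3 ≤ (Finset.univ.filter (fun j => d j = 1)).card
  · obtain ⟨t, hts, htc⟩ := Finset.exists_subset_card_eq hS
    obtain ⟨x, y, z, hxy, hxz, hyz, rfl⟩ := Finset.card_eq_three.1 htc
    have hx := (Finset.mem_filter.1 (hts (show x ∈ ({x, y, z} : Finset (Fin k)) by simp))).2
    have hy := (Finset.mem_filter.1 (hts (show y ∈ ({x, y, z} : Finset (Fin k)) by simp))).2
    have hz := (Finset.mem_filter.1 (hts (show z ∈ ({x, y, z} : Finset (Fin k)) by simp))).2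
    exact ⟨x, y, z, hxy, hxz, hyz, hx.trans hy.symm, hy.trans hz.symm⟩
  · have hc : 3 ≤ (Finset.univ.filter (fun j => ¬ d j = 1)).card := by
      have h1 := Finset.card_filter_add_card_filter_not (s := (Finset.univ : Finset (Fin k)))
        (fun j => d j = 1)
      rw [Finset.card_univ, Fintype.card_fin] at h1
      omega
    obtain ⟨t, hts, htc⟩ := Finset.exists_subset_card_eq hc
    obtain ⟨x, y, z, hxy, hxz, hyz, rfl⟩ := Finset.card_eq_three.1 htc
    have hx := (hd' x).resolve_left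
      (Finset.mem_filter.1 (hts (show x ∈ ({x, y, z} : Finset (Fin k)) by simp))).2
    have hy := (hd' y).resolve_left
      (Finset.mem_filter.1 (hts (show y ∈ ({x, y, z} : Finset (Fin k)) by simp))).2
    have hz := (hd' z).resolve_left
      (Finset.mem_filter.1 (hts (show z ∈ ({x, y, z} : Finset (Fin k)) by simp))).2
    exact ⟨x, y, z, hxy, hxz, hyz, hx.trans hy.symm, hy.trans hz.symm⟩

end mono

end Cfsg.Agent.Helper18.DiagOrth
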