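import Mathlib
import Cfsg.Prelude.Def_GeometricClasses
import Cfsg.Prelude.Def_LieClassical
import Cfsg.Prelude.Def_ClassicalGeometry
import Cfsg.Agent.Helper18.DecStab
import Cfsg.Agent.Helper18.DecUnit
import Cfsg.Agent.Helper18.TensUnit
import Cfsg.Agent.Helper18.TensSymp
import Cfsg.Agent.Helper18.DiagOrth

set_option autoImplicit false

namespace Cfsg.Agent.Helper18.DecOrth

open Matrix Kronecker

open scoped commutatorElement

variable {F : Type*} [Field F]

section coord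

variable [Fintype F] {t k : ℕ}

/-- The diagonal entries, constant on blocks. -/
def Dd (δ : Fin t → F) : Fin t × Fin k → F := fun p => δ p.1

omit [Fintype F] in
theorem pm_wt1 {κ : Type} [Fintype κ] [DecidableEq κ] (σ : Equiv.Perm κ) (x : κ → F)
    (hx : x ∈ DecUnit.wt1 (F := F) κ) :
    ((DiagOrth.pm F κ σ : GL κ F) : Matrix κ κ F) *ᵥ x ∈ DecUnit.wt1 (F := F) κ := by
  obtain ⟨p, hp, hp'⟩ := hx
  rw [DiagOrth.pm_mulVec]
  refine ⟨σ p, ?_, ?_⟩
  · rw [Function.comp_apply, show σ⁻¹ (σ p) = p from Equiv.Perm.inv_eq_iff_eq.mpr rfl]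
    exact hp
  · intro q hq
    rw [Function.comp_apply]
    apply hp'
    intro h
    apply hq
    rw [← h]
    exact ((Equiv.eq_symm_apply σ).mp rfl).symm

theorem stab_wt1 (hq : Fintype.card F = 3) (δ : Fin t → F) (hδ : ∀ i, δ i ≠ 0)
    (hmono : ∀ (i i' : Fin t) (b : Matrix (Fin k) (Fin k) F),
      bᵀ * b = (δ i / δ i') • (1 : Matrix (Fin k) (Fin k) F) →
      ∀ j0, ∃ j1, ∀ j, j ≠ j1 → b j j0 = 0)
    (g : GL (Fin t × Fin k) F)
    (hg : g ∈ Cfsg.Geo.decompositionStabilizer (DecStab.stdD (F := F) t k))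
    (hgx : g ∈ DiagOrth.XD (Dd (k := k) δ)) (x : Fin t × Fin k → F)
    (hx : x ∈ DecUnit.wt1 (F := F) (Fin t × Fin k)) :
    (g : Matrix (Fin t × Fin k) (Fin t × Fin k) F) *ᵥ x ∈ DecUnit.wt1 (F := F) (Fin t × Fin k) := by
  classical
  obtain ⟨σ, hσ⟩ := hg
  obtain ⟨p, hp, hp'⟩ := hx
  obtain ⟨i, j0⟩ := p
  have hxe : x = x (i, j0) • (Pi.single ((i, j0) : Fin t × Fin k) (1 : F) : Fin t × Fin k → F) := by
    ext q
    rw [Pi.smul_apply, smul_eq_mul, Pi.single_apply]
    by_cases hq : q = (i, j0)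
    · rw [if_pos hq, mul_one, hq]
    · rw [if_neg hq, mul_zero, hp' q hq]
  have hcol : ∀ (j' : Fin k) (q : Fin t × Fin k), q.1 ≠ σ i →
      (g : Matrix (Fin t × Fin k) (Fin t × Fin k) F) q (i, j') = 0 := by
    intro j' q hq1
    have hmem : (Pi.single ((i, j') : Fin t × Fin k) (1 : F) : Fin t × Fin k → F) ∈
        DecStab.stdD (F := F) t k i := by
      intro p hp1
      rw [Pi.single_apply, if_neg]
      intro h
      exact hp1 (by rw [h])
    have h2 : Matrix.toLin' (g : Matrix (Fin t × Fin k) (Fin t × Fin k) F)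
        (Pi.single ((i, j') : Fin t × Fin k) (1 : F)) ∈ DecStab.stdD (F := F) t k (σ i) := by
      rw [← hσ i]
      exact Submodule.mem_map_of_mem hmem
    rw [Matrix.toLin'_apply, Matrix.mulVec_single_one] at h2
    exact h2 q hq1
  have hmat := DiagOrth.XD_mat hq (Dd (k := k) δ) g hgx
  have hb : (Matrix.of (fun j j' => (g : Matrix (Fin t × Fin k) (Fin t × Fin k) F) (σ i, j) (i, j')))ᵀ *
      (Matrix.of (fun j j' => (g : Matrix (Fin t × Fin k) (Fin t × Fin k) F) (σ i, j) (i, j'))) =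
      (δ i / δ (σ i)) • (1 : Matrix (Fin k) (Fin k) F) := by
    ext j' j''
    have h1 := congrFun (congrFun hmat (i, j')) (i, j'')
    rw [Matrix.mul_apply] at h1
    simp only [Matrix.mul_diagonal, Matrix.transpose_apply] at h1
    rw [Fintype.sum_prod_type, Finset.sum_eq_single (σ i)] at h1
    · rw [Matrix.mul_apply, Matrix.smul_apply, Matrix.one_apply, smul_eq_mul]
      simp only [Matrix.transpose_apply, Matrix.of_apply]
      rw [div_mul_eq_mul_div, eq_div_iff (hδ (σ i)), Finset.sum_mul]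
      have h3 : Matrix.diagonal (Dd (k := k) δ) (i, j') (i, j'') =
          δ i * (if j' = j'' then 1 else 0) := by
        by_cases hjj : j' = j''
        · rw [hjj, Matrix.diagonal_apply_eq, if_pos rfl, mul_one]
          rfl
        · rw [Matrix.diagonal_apply_ne _ (fun h => hjj (Prod.mk.inj h).2), if_neg hjj, mul_zero]
      rw [← h3, ← h1]
      apply Finset.sum_congr rfl
      intro j _
      show _ = _ * δ (σ i) * _
      ring
    · intro i' _ hne
      apply Finset.sum_eq_zero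
      intro j _
      rw [hcol j' (i', j) hne, zero_mul, zero_mul]
    · intro h
      exact absurd (Finset.mem_univ _) h
  obtain ⟨j1, hj1⟩ := hmono i (σ i) _ hb j0
  have hoff : ∀ q : Fin t × Fin k, q ≠ (σ i, j1) →
      ((g : Matrix (Fin t × Fin k) (Fin t × Fin k) F) *ᵥ x) q = 0 := by
    intro q hq
    rw [hxe, Matrix.mulVec_smul, Matrix.mulVec_single_one, Pi.smul_apply, smul_eq_mul]
    show x (i, j0) * (g : Matrix (Fin t × Fin k) (Fin t × Fin k) F) q (i, j0) = 0
    by_cases hq1 : q.1 = σ i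
    · have hq2 : q.2 ≠ j1 := fun h => hq (Prod.ext hq1 h)
      have h4 := hj1 q.2 hq2
      rw [Matrix.of_apply] at h4
      have hqq : q = (σ i, q.2) := Prod.ext hq1 rfl
      rw [hqq, h4, mul_zero]
    · rw [hcol j0 q hq1, mul_zero]
  refine ⟨(σ i, j1), ?_, hoff⟩
  intro hzero
  have hall : (g : Matrix (Fin t × Fin k) (Fin t × Fin k) F) *ᵥ x = 0 := by
    ext q
    by_cases hq : q = (σ i, j1)
    · rw [hq]
      exact hzero
    · exact hoff q hq
  have h5 := congrArg (fun v => ((g⁻¹ : GL (Fin t × Fin k) F) :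
    Matrix (Fin t × Fin k) (Fin t × Fin k) F) *ᵥ v) hall
  simp only [Matrix.mulVec_mulVec, ← Units.val_mul, inv_mul_cancel, Units.val_one,
    Matrix.one_mulVec, Matrix.mulVec_zero] at h5
  rw [h5] at hp
  exact hp rfl

omit [Fintype F] in
theorem pm_single {κ : Type} [Fintype κ] [DecidableEq κ] (σ : Equiv.Perm κ) (p : κ) :
    ((DiagOrth.pm F κ σ : GL κ F) : Matrix κ κ F) *ᵥ (Pi.single p 1 : κ → F) =
      (Pi.single (σ p) 1 : κ → F) := by
  ext q
  rw [DiagOrth.pm_mulVec, Function.comp_apply, Pi.single_apply, Pi.single_apply]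
  by_cases h : q = σ p
  · rw [if_pos h, if_pos (by rw [h]; exact Equiv.Perm.inv_eq_iff_eq.mpr rfl)]
  · rw [if_neg h, if_neg]
    intro h'
    apply h
    rw [← h']
    exact ((Equiv.eq_symm_apply σ).mp rfl).symm

theorem coord_dec (hq : Fintype.card F = 3) (δ : Fin t → F) (hδ : ∀ i, δ i ≠ 0)
    (hmono : ∀ (i i' : Fin t) (b : Matrix (Fin k) (Fin k) F),
      bᵀ * b = (δ i / δ i') • (1 : Matrix (Fin k) (Fin k) F) →
      ∀ j0, ∃ j1, ∀ j, j ≠ j1 → b j j0 = 0)
    (p1 p2 p3 p4 p5 : Fin t × Fin k)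
    (h12 : p1 ≠ p2) (h13 : p1 ≠ p3) (h14 : p1 ≠ p4) (h23 : p2 ≠ p3) (h24 : p2 ≠ p4)
    (h34 : p3 ≠ p4) (h15 : p1 ≠ p5) (h25 : p2 ≠ p5) (h35 : p3 ≠ p5) (h45 : p4 ≠ p5)
    (hd2 : δ p2.1 = δ p1.1) (hd3 : δ p3.1 = δ p1.1) (hd4 : δ p4.1 = δ p1.1)
    (hd5 : δ p5.1 = δ p1.1) (hb12 : p1.1 = p2.1) (hb14 : p1.1 ≠ p4.1) :
    ∃ K0 : Subgroup (GL (Fin t × Fin k) F),
      Cfsg.Geo.decompositionStabilizer (DecStab.stdD (F := F) t k) ⊓
        ⁅DiagOrth.XD (Dd (k := k) δ), DiagOrth.XD (Dd (k := k) δ)⁆ < K0 ∧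
      K0 < ⁅DiagOrth.XD (Dd (k := k) δ), DiagOrth.XD (Dd (k := k) δ)⁆ := by
  classical
  have h3 := TensSymp.three_eq_zero hq
  have h2ne : (2 : F) ≠ 0 := by
    intro h
    have h4 : (1 : F) = 0 := by linear_combination h3 - h
    exact one_ne_zero h4
  have hΩX : ⁅DiagOrth.XD (Dd (k := k) δ), DiagOrth.XD (Dd (k := k) δ)⁆ ≤
      DiagOrth.XD (Dd (k := k) δ) := by
    rw [Subgroup.commutator_le]
    intro g₁ h₁ g₂ h₂
    rw [commutatorElement_def]
    exact Subgroup.mul_mem _ (Subgroup.mul_mem _ (Subgroup.mul_mem _ h₁ h₂) (Subgroup.inv_mem _ h₁))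
      (Subgroup.inv_mem _ h₂)
  have hsm : ∀ q : Fin t × Fin k, (Pi.single q (1 : F) : Fin t × Fin k → F) ∈
      DecStab.stdD (F := F) t k q.1 := by
    intro q p hp1
    rw [Pi.single_apply, if_neg]
    intro h
    exact hp1 (by rw [h])
  refine ⟨DecUnit.setStab (DecUnit.wt1 (F := F) (Fin t × Fin k)) ⊓
    ⁅DiagOrth.XD (Dd (k := k) δ), DiagOrth.XD (Dd (k := k) δ)⁆, ?_, ?_⟩
  · refine lt_of_le_of_ne ?_ ?_
    · intro g hg
      exact ⟨TensSymp.mem_setStab_of_maps _ g (stab_wt1 hq δ hδ hmono g hg.1 (hΩX hg.2)), hg.2⟩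
    · intro heq
      have hmem : DiagOrth.pm F (Fin t × Fin k) (DiagOrth.cyc p1 p2 p4) ∈
          DecUnit.setStab (DecUnit.wt1 (F := F) (Fin t × Fin k)) ⊓
          ⁅DiagOrth.XD (Dd (k := k) δ), DiagOrth.XD (Dd (k := k) δ)⁆ :=
        ⟨TensSymp.mem_setStab_of_maps _ _ (pm_wt1 _),
          DiagOrth.cyc_mem (Dd (k := k) δ) p1 p2 p4 (show δ p1.1 = δ p2.1 from hd2.symm)
            (show δ p2.1 = δ p4.1 from hd2.trans hd4.symm)⟩
      rw [← heq] at hmem
      obtain ⟨σ, hσ⟩ := hmem.1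
      have hA : Matrix.toLin' ((DiagOrth.pm F (Fin t × Fin k) (DiagOrth.cyc p1 p2 p4) :
          GL (Fin t × Fin k) F) : Matrix (Fin t × Fin k) (Fin t × Fin k) F)
          (Pi.single p1 (1 : F)) ∈ DecStab.stdD (F := F) t k (σ p1.1) := by
        rw [← hσ]
        exact Submodule.mem_map_of_mem (hsm p1)
      have hB : Matrix.toLin' ((DiagOrth.pm F (Fin t × Fin k) (DiagOrth.cyc p1 p2 p4) :
          GL (Fin t × Fin k) F) : Matrix (Fin t × Fin k) (Fin t × Fin k) F)
          (Pi.single p2 (1 : F)) ∈ DecStab.stdD (F := F) t k (σ p1.1) := by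
        rw [← hσ]
        apply Submodule.mem_map_of_mem
        rw [hb12]
        exact hsm p2
      rw [Matrix.toLin'_apply, DiagOrth.pm_mulVec] at hA hB
      have hA4 : p4.1 = σ p1.1 := by
        by_contra hne
        have h5 := hA p4 hne
        rw [Function.comp_apply, DiagOrth.cyc_inv_C p1 p2 p4 h12 h14 h24, Pi.single_eq_same] at h5
        exact one_ne_zero h5
      have hB1 : p1.1 = σ p1.1 := by
        by_contra hne
        have h5 := hB p1 hne
        rw [Function.comp_apply, DiagOrth.cyc_inv_A p1 p2 p4 h14 h24, Pi.single_eq_same] at h5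
        exact one_ne_zero h5
      exact hb14 (hB1.trans hA4.symm)
  · refine lt_of_le_of_ne inf_le_right ?_
    intro heq
    obtain ⟨u, hu⟩ : ∃ u : Fin t × Fin k → F, u = Pi.single p1 1 + Pi.single p2 1 +
        Pi.single p3 1 + Pi.single p4 1 := ⟨_, rfl⟩
    have hu1 : u p1 = 1 := by
      rw [hu]
      simp [Pi.single_apply, h12, h13, h14]
    have hu4 : u p4 = 1 := by
      rw [hu]
      simp [Pi.single_apply, Ne.symm h14, Ne.symm h24, Ne.symm h34]
    have hu5 : u p5 = 0 := by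
      rw [hu]
      simp [Pi.single_apply, Ne.symm h15, Ne.symm h25, Ne.symm h35, Ne.symm h45]
    have huu : u ⬝ᵥ u = 4 := by
      rw [hu]
      simp only [add_dotProduct, single_dotProduct, one_mul, Pi.add_apply, Pi.single_apply]
      simp [h12, h13, h14, h23, h24, h34, Ne.symm h12, Ne.symm h13, Ne.symm h14, Ne.symm h23,
        Ne.symm h24, Ne.symm h34]
      norm_num
    have h6 : (1 : F) + 1 + u ⬝ᵥ u = 0 := by
      rw [huu]
      linear_combination 2 * h3
    have hs : ∀ q : Fin t × Fin k, δ q.1 = δ p1.1 → ∀ p : Fin t × Fin k,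
        Dd (k := k) δ p * (Pi.single q (1 : F) : Fin t × Fin k → F) p =
        δ p1.1 * (Pi.single q (1 : F) : Fin t × Fin k → F) p := by
      intro q hq' p
      rw [Pi.single_apply]
      by_cases h : p = q
      · rw [if_pos h, mul_one, mul_one, h]
        exact hq'
      · rw [if_neg h, mul_zero, mul_zero]
    have hDu : ∀ p : Fin t × Fin k, Dd (k := k) δ p * u p = δ p1.1 * u p := by
      intro p
      rw [hu]
      simp only [Pi.add_apply, mul_add, hs p1 rfl p, hs p2 hd2 p, hs p3 hd3 p, hs p4 hd4 p]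
    have hr : DecStab.rk u u h6 ∈ DiagOrth.XD (Dd (k := k) δ) := by
      intro x _
      show DiagOrth.qd (Dd (k := k) δ) (((DecStab.rk u u h6 : GL (Fin t × Fin k) F) :
        Matrix (Fin t × Fin k) (Fin t × Fin k) F) *ᵥ x) = DiagOrth.qd (Dd (k := k) δ) x
      rw [DecStab.rk_mulVec]
      unfold DiagOrth.qd
      have e1 : ∀ p : Fin t × Fin k, Dd (k := k) δ p * (x + (u ⬝ᵥ x) • u) p ^ 2 =
          Dd (k := k) δ p * x p ^ 2 + (2 * (u ⬝ᵥ x) * δ p1.1) * (u p * x p) +
            ((u ⬝ᵥ x) ^ 2 * δ p1.1) * (u p * u p) := by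
        intro p
        rw [Pi.add_apply, Pi.smul_apply, smul_eq_mul]
        linear_combination (2 * (u ⬝ᵥ x) * x p + (u ⬝ᵥ x) ^ 2 * u p) * hDu p
      rw [Finset.sum_congr rfl (fun p _ => e1 p), Finset.sum_add_distrib, Finset.sum_add_distrib,
        ← Finset.mul_sum, ← Finset.mul_sum]
      have e2 : ∑ p, u p * x p = u ⬝ᵥ x := rfl
      have e3 : ∑ p, u p * u p = u ⬝ᵥ u := rfl
      rw [e2, e3, huu]
      linear_combination (2 * (u ⬝ᵥ x) ^ 2 * δ p1.1) * h3
    have hτ : DiagOrth.pm F (Fin t × Fin k) (Equiv.swap p4 p5) ∈ DiagOrth.XD (Dd (k := k) δ) :=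
      DiagOrth.pm_mem _ _ (DiagOrth.swap_D (Dd (k := k) δ) p4 p5
        (show δ p4.1 = δ p5.1 from hd4.trans hd5.symm))
    have hmem : ⁅DecStab.rk u u h6, DiagOrth.pm F (Fin t × Fin k) (Equiv.swap p4 p5)⁆ ∈
        ⁅DiagOrth.XD (Dd (k := k) δ), DiagOrth.XD (Dd (k := k) δ)⁆ :=
      Subgroup.commutator_mem_commutator hr hτ
    rw [← heq] at hmem
    have hx : (Pi.single p4 (1 : F) : Fin t × Fin k → F) ∈ DecUnit.wt1 (F := F) (Fin t × Fin k) := by
      refine ⟨p4, ?_, fun q hq' => ?_⟩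
      · rw [Pi.single_eq_same]
        exact one_ne_zero
      · rw [Pi.single_apply, if_neg hq']
    have h := (hmem.1 _).1 hx
    have hcomp : ((⁅DecStab.rk u u h6, DiagOrth.pm F (Fin t × Fin k) (Equiv.swap p4 p5)⁆ :
        GL (Fin t × Fin k) F) : Matrix (Fin t × Fin k) (Fin t × Fin k) F) *ᵥ
        (Pi.single p4 (1 : F) : Fin t × Fin k → F) = Pi.single p4 1 + u := by
      rw [commutatorElement_def]
      have hrinv : (DecStab.rk u u h6)⁻¹ = DecStab.rk u u h6 :=
        inv_eq_of_mul_eq_one_left (Units.ext (DecStab.rank_one_sq u u h6))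
      have hτinv : (DiagOrth.pm F (Fin t × Fin k) (Equiv.swap p4 p5))⁻¹ =
          DiagOrth.pm F (Fin t × Fin k) (Equiv.swap p4 p5) := by
        rw [← map_inv, Equiv.swap_inv]
      rw [hrinv, hτinv]
      simp only [Units.val_mul, ← Matrix.mulVec_mulVec]
      have s1 : ((DiagOrth.pm F (Fin t × Fin k) (Equiv.swap p4 p5) : GL (Fin t × Fin k) F) :
          Matrix (Fin t × Fin k) (Fin t × Fin k) F) *ᵥ (Pi.single p4 (1 : F) : Fin t × Fin k → F) =
          Pi.single p5 1 := by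
        rw [pm_single, Equiv.swap_apply_left]
      have s2 : ((DecStab.rk u u h6 : GL (Fin t × Fin k) F) :
          Matrix (Fin t × Fin k) (Fin t × Fin k) F) *ᵥ (Pi.single p5 (1 : F) : Fin t × Fin k → F) =
          Pi.single p5 1 := by
        rw [DecStab.rk_mulVec, dotProduct_single_one, hu5, zero_smul, add_zero]
      have s3 : ((DiagOrth.pm F (Fin t × Fin k) (Equiv.swap p4 p5) : GL (Fin t × Fin k) F) :
          Matrix (Fin t × Fin k) (Fin t × Fin k) F) *ᵥ (Pi.single p5 (1 : F) : Fin t × Fin k → F) =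
          Pi.single p4 1 := by
        rw [pm_single, Equiv.swap_apply_right]
      have s4 : ((DecStab.rk u u h6 : GL (Fin t × Fin k) F) :
          Matrix (Fin t × Fin k) (Fin t × Fin k) F) *ᵥ (Pi.single p4 (1 : F) : Fin t × Fin k → F) =
          Pi.single p4 1 + u := by
        rw [DecStab.rk_mulVec, dotProduct_single_one, hu4, one_smul]
      rw [s1, s2, s3, s4]
    rw [hcomp] at h
    obtain ⟨q, hq1, hq2⟩ := h
    have v1 : ((Pi.single p4 (1 : F) : Fin t × Fin k → F) + u) p1 = 1 := by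
      rw [Pi.add_apply, hu1, Pi.single_apply, if_neg h14, zero_add]
    have v4 : ((Pi.single p4 (1 : F) : Fin t × Fin k → F) + u) p4 = 2 := by
      rw [Pi.add_apply, hu4, Pi.single_eq_same]
      norm_num
    by_cases hq3 : q = p1
    · have h7 := hq2 p4 (by rw [hq3]; exact Ne.symm h14)
      rw [v4] at h7
      exact h2ne h7
    · have h7 := hq2 p1 (fun h' => hq3 h'.symm)
      rw [v1] at h7
      exact one_ne_zero h7

end coord

section general

variable {ι : Type} [Fintype ι] [DecidableEq ι]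

theorem exists_stdG (t m : ℕ) {D : Fin t → Submodule F (ι → F)}
    (hD : Cfsg.Geo.IsMDecomposition m D) (b : ∀ i, Module.Basis (Fin m) F (D i)) :
    ∃ (A : Matrix ι (Fin t × Fin m) F) (A' : Matrix (Fin t × Fin m) ι F),
      A * A' = 1 ∧ A' * A = 1 ∧ (∀ i, (DecStab.stdD t m i).map (Matrix.toLin' A) = D i) ∧
      Fintype.card ι = t * m ∧
      ∀ y : Fin t × Fin m → F, A *ᵥ y = ∑ p, y p • ((b p.1 p.2 : ↥(D p.1)) : ι → F) := by
  classical
  have hInt : DirectSum.IsInternal D :=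
    DirectSum.isInternal_submodule_of_iSupIndep_of_iSup_eq_top hD.indep hD.iSup_eq_top
  let B := (hInt.collectedBasis b).reindex (Equiv.sigmaEquivProd (Fin t) (Fin m))
  have hB : ∀ i j, B (i, j) = (b i j : ι → F) := by
    intro i j
    simp [B, Module.Basis.reindex_apply, DirectSum.IsInternal.collectedBasis_coe]
  have hA : ∀ y : Fin t × Fin m → F,
      Matrix.toLin' ((Pi.basisFun F ι).toMatrix B) y = ∑ p, y p • B p := by
    intro y
    ext k
    simp [Matrix.toLin'_apply, Matrix.mulVec, dotProduct, Module.Basis.toMatrix_apply, mul_comm]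
  refine ⟨(Pi.basisFun F ι).toMatrix B, B.toMatrix (Pi.basisFun F ι),
    Module.Basis.toMatrix_mul_toMatrix_flip _ _, Module.Basis.toMatrix_mul_toMatrix_flip _ _, ?_, ?_, ?_⟩
  · intro i
    apply le_antisymm
    · rintro _ ⟨y, hy, rfl⟩
      rw [hA]
      apply Submodule.sum_mem
      intro p _
      by_cases hp : p.1 = i
      · apply Submodule.smul_mem
        obtain ⟨p1, p2⟩ := p
        simp only at hp
        subst hp
        rw [hB]
        exact (b p1 p2).2
      · rw [hy p hp, zero_smul]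
        exact Submodule.zero_mem _
    · intro d hd
      refine ⟨fun p => if p.1 = i then (b i).repr ⟨d, hd⟩ p.2 else 0, ?_, ?_⟩
      · intro p hp
        simp [hp]
      · rw [hA, Fintype.sum_prod_type, Finset.sum_eq_single i]
        · simp only [if_true, hB]
          have h2 := congrArg (Submodule.subtype (D i)) ((b i).sum_repr ⟨d, hd⟩)
          rw [map_sum] at h2
          simpa only [map_smul, Submodule.subtype_apply] using h2
        · intro i' _ hne
          simp [hne]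
        · intro h
          exact absurd (Finset.mem_univ i) h
  · have hfr := Module.finrank_eq_card_basis B
    rw [Module.finrank_fintype_fun_eq_card, Fintype.card_prod, Fintype.card_fin,
      Fintype.card_fin] at hfr
    exact hfr
  · intro y
    have h1 := hA y
    rw [Matrix.toLin'_apply] at h1
    rw [h1]
    apply Finset.sum_congr rfl
    intro p _
    obtain ⟨p1, p2⟩ := p
    rw [hB]

/-- The polar form as a bilinear map. -/
def Bp (Q : (ι → F) → F) (hpb : Cfsg.Geo.IsBilinearForm (QuadraticMap.polar Q)) :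
    (ι → F) →ₗ[F] (ι → F) →ₗ[F] F :=
  LinearMap.mk₂ F (QuadraticMap.polar Q) hpb.add_left hpb.smul_left hpb.add_right hpb.smul_right

omit [Fintype ι] [DecidableEq ι] in
theorem Bp_apply (Q : (ι → F) → F) (hpb : Cfsg.Geo.IsBilinearForm (QuadraticMap.polar Q))
    (x y : ι → F) : Bp Q hpb x y = QuadraticMap.polar Q x y := rfl

omit [Fintype ι] [DecidableEq ι] in
theorem polar_sum (Q : (ι → F) → F) (hpb : Cfsg.Geo.IsBilinearForm (QuadraticMap.polar Q))
    {α : Type} [Fintype α] (B : α → ι → F) (y z : α → F) :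
    QuadraticMap.polar Q (∑ p, y p • B p) (∑ q, z q • B q) =
      ∑ p, ∑ q, y p * z q * QuadraticMap.polar Q (B p) (B q) := by
  rw [← Bp_apply Q hpb]
  simp only [map_sum, map_smul, LinearMap.sum_apply, LinearMap.smul_apply, smul_eq_mul, Bp_apply]
  rw [Finset.sum_comm]
  apply Finset.sum_congr rfl
  intro q _
  rw [Finset.mul_sum]
  apply Finset.sum_congr rfl
  intro p _
  ring

theorem basis_of_orth (Q : (ι → F) → F) (hpb : Cfsg.Geo.IsBilinearForm (QuadraticMap.polar Q))
    (W : Submodule F (ι → F)) {k : ℕ} (hk : 0 < k) (hfin : Module.finrank F W = k) (c : Fin k → W)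
    (ε : F) (hε : ε ≠ 0) (hc : ∀ j j', QuadraticMap.polar Q (c j : ι → F) (c j' : ι → F) =
      if j = j' then ε else 0) :
    ∃ b : Module.Basis (Fin k) F W, ∀ j j', QuadraticMap.polar Q (b j : ι → F) (b j' : ι → F) =
      if j = j' then ε else 0 := by
  classical
  have hli : LinearIndependent F c := by
    rw [Fintype.linearIndependent_iff]
    intro g hg j'
    have h0 : QuadraticMap.polar Q (0 : ι → F) (c j' : ι → F) = 0 := by
      have h := hpb.smul_left 0 0 (c j' : ι → F)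
      rwa [zero_smul, zero_mul] at h
    have h1 : QuadraticMap.polar Q ((∑ j, g j • c j : W) : ι → F) (c j' : ι → F) = 0 := by
      rw [hg]
      exact h0
    have h2 : ((∑ j, g j • c j : W) : ι → F) = ∑ j, g j • (c j : ι → F) := by
      simp
    have h3 : (c j' : ι → F) = ∑ j, (if j = j' then (1 : F) else 0) • (c j : ι → F) := by
      simp
    rw [h2] at h1
    rw [h3, polar_sum Q hpb] at h1
    simp only [hc] at h1
    rw [Finset.sum_eq_single j'] at h1
    · rw [Finset.sum_eq_single j'] at h1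
      · rw [if_pos rfl, if_pos rfl, mul_one] at h1
        exact (mul_eq_zero.1 h1).resolve_right hε
      · intro q _ hq
        rw [if_neg hq, mul_zero, zero_mul]
      · intro h
        exact absurd (Finset.mem_univ _) h
    · intro p _ hp
      apply Finset.sum_eq_zero
      intro q _
      by_cases hq : q = j'
      · rw [hq, if_neg hp, mul_zero]
      · rw [if_neg hq, mul_zero, zero_mul]
    · intro h
      exact absurd (Finset.mem_univ _) h
  haveI : Nonempty (Fin k) := ⟨⟨0, hk⟩⟩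
  refine ⟨basisOfLinearIndependentOfCardEqFinrank hli (by rw [Fintype.card_fin, hfin]), ?_⟩
  intro j j'
  rw [coe_basisOfLinearIndependentOfCardEqFinrank]
  exact hc j j'

end general

section blocks

variable [Fintype F] {ι : Type} [Fintype ι] [DecidableEq ι]

omit [Fintype F] [Fintype ι] [DecidableEq ι] in
theorem pull_sym (Q : (ι → F) → F) (hpb : Cfsg.Geo.IsBilinearForm (QuadraticMap.polar Q))
    (W : Submodule F (ι → F)) {k : ℕ} (ψ : (Fin k → F) ≃ₗ[F] W)
    (hnd : Cfsg.Geo.IsNondegenerateOn (QuadraticMap.polar Q) W) :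
    Cfsg.Geo.IsSymmetricForm (fun x y : Fin k → F =>
      QuadraticMap.polar Q ((ψ x : W) : ι → F) ((ψ y : W) : ι → F)) := by
  refine ⟨⟨?_, ?_, ?_, ?_⟩, ?_, ?_⟩
  · intro x y v
    show QuadraticMap.polar Q ((ψ (x + y) : W) : ι → F) _ = _
    rw [map_add, Submodule.coe_add, hpb.add_left]
  · intro c x v
    show QuadraticMap.polar Q ((ψ (c • x) : W) : ι → F) _ = _
    rw [map_smul, Submodule.coe_smul, hpb.smul_left]
  · intro v x y
    show QuadraticMap.polar Q _ ((ψ (x + y) : W) : ι → F) = _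
    rw [map_add, Submodule.coe_add, hpb.add_right]
  · intro c v x
    show QuadraticMap.polar Q _ ((ψ (c • x) : W) : ι → F) = _
    rw [map_smul, Submodule.coe_smul, hpb.smul_right]
  · intro u v
    exact QuadraticMap.polar_comm Q _ _
  · intro v hv
    have hne : ((ψ v : W) : ι → F) ≠ 0 := by
      intro h
      apply hv
      have h' : ψ v = 0 := Subtype.ext h
      exact (LinearEquiv.map_eq_zero_iff ψ).1 h'
    obtain ⟨⟨x, hxW, hx⟩, ⟨y, hyW, hy⟩⟩ := hnd _ (ψ v).2 hne
    refine ⟨⟨ψ.symm ⟨x, hxW⟩, ?_⟩, ⟨ψ.symm ⟨y, hyW⟩, ?_⟩⟩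
    · show QuadraticMap.polar Q ((ψ (ψ.symm ⟨x, hxW⟩) : W) : ι → F) _ ≠ 0
      rw [LinearEquiv.apply_symm_apply]
      exact hx
    · show QuadraticMap.polar Q _ ((ψ (ψ.symm ⟨y, hyW⟩) : W) : ι → F) ≠ 0
      rw [LinearEquiv.apply_symm_apply]
      exact hy

theorem block_basis3 (hq : Fintype.card F = 3) (Q : (ι → F) → F)
    (hpb : Cfsg.Geo.IsBilinearForm (QuadraticMap.polar Q)) (W : Submodule F (ι → F))
    (hfin : Module.finrank F W = 3) (hnd : Cfsg.Geo.IsNondegenerateOn (QuadraticMap.polar Q) W) :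
    ∃ (b : Module.Basis (Fin 3) F W) (ε : F), ε ≠ 0 ∧
      ∀ j j', QuadraticMap.polar Q (b j : ι → F) (b j' : ι → F) = if j = j' then ε else 0 := by
  classical
  obtain ⟨ψ, -⟩ : ∃ ψ : (Fin 3 → F) ≃ₗ[F] W, True :=
    ⟨(Module.finBasisOfFinrankEq F W hfin).equivFun.symm, trivial⟩
  have hs := pull_sym Q hpb W ψ hnd
  obtain ⟨U, U', ε, hε, hUa, hUb, hU⟩ := TensSymp.exists_U_sym hq hs
  have hc : ∀ j j', QuadraticMap.polar Q ((ψ (fun a => U a j) : W) : ι → F)
      ((ψ (fun a => U a j') : W) : ι → F) = if j = j' then ε else 0 := by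
    intro j j'
    have h1 := congrFun (congrFun hU j) j'
    rw [Matrix.smul_apply, Matrix.one_apply, smul_eq_mul, mul_ite, mul_one, mul_zero] at h1
    rw [← h1, Matrix.mul_apply]
    have h2 : QuadraticMap.polar Q ((ψ (fun a => U a j) : W) : ι → F)
        ((ψ (fun a => U a j') : W) : ι → F) = ∑ a, ∑ b, U a j *
        Cfsg.Geo.gramMatrix (fun x y : Fin 3 → F =>
          QuadraticMap.polar Q ((ψ x : W) : ι → F) ((ψ y : W) : ι → F)) a b * U b j' :=
      TensSymp.b_gram hs.bilinear (fun a => U a j) (fun a => U a j')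
    rw [h2]
    simp only [Matrix.mul_apply, Matrix.transpose_apply]
    rw [Finset.sum_comm]
    apply Finset.sum_congr rfl
    intro b _
    rw [Finset.sum_mul]
  obtain ⟨b, hb⟩ := basis_of_orth Q hpb W (by norm_num) hfin (fun j => ψ (fun a => U a j)) ε hε hc
  exact ⟨b, ε, hε, hb⟩

theorem block_basis2 (hq : Fintype.card F = 3) (Q : (ι → F) → F)
    (hpb : Cfsg.Geo.IsBilinearForm (QuadraticMap.polar Q)) (hQ2 : ∀ v, Q (v + v) = 4 * Q v)
    (W : Submodule F (ι → F)) (hfin : Module.finrank F W = 2)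
    (hnd : Cfsg.Geo.IsNondegenerateOn (QuadraticMap.polar Q) W)
    (hminus : ¬ Cfsg.Geo.IsPlusTypeOn Q W) :
    ∃ b : Module.Basis (Fin 2) F W,
      ∀ j j', QuadraticMap.polar Q (b j : ι → F) (b j' : ι → F) = if j = j' then 1 else 0 := by
  classical
  have h3 := TensSymp.three_eq_zero hq
  obtain ⟨ψ, -⟩ : ∃ ψ : (Fin 2 → F) ≃ₗ[F] W, True :=
    ⟨(Module.finBasisOfFinrankEq F W hfin).equivFun.symm, trivial⟩
  have hs := pull_sym Q hpb W ψ hnd
  obtain ⟨B, hB, hB'⟩ := TensSymp.exists_ogf hq hs 2 le_rfl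
  obtain ⟨u, hu⟩ : ∃ u : W, u = ψ (B 0) := ⟨_, rfl⟩
  obtain ⟨v, hv⟩ : ∃ v : W, v = ψ (B 1) := ⟨_, rfl⟩
  have huv : QuadraticMap.polar Q (u : ι → F) (v : ι → F) = 0 := by
    rw [hu, hv]
    exact hB 0 1 (by decide)
  have hvu : QuadraticMap.polar Q (v : ι → F) (u : ι → F) = 0 := by
    rw [QuadraticMap.polar_comm]
    exact huv
  have huu0 : QuadraticMap.polar Q (u : ι → F) (u : ι → F) ≠ 0 := by
    rw [hu]
    exact hB' 0
  have hvv0 : QuadraticMap.polar Q (v : ι → F) (v : ι → F) ≠ 0 := by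
    rw [hv]
    exact hB' 1
  have hα := TensSymp.eq_one_or_neg_one hq _ huu0
  have hβ := TensSymp.eq_one_or_neg_one hq _ hvv0
  have hQv : ∀ x : ι → F, Q x = 2 * QuadraticMap.polar Q x x := by
    intro x
    unfold QuadraticMap.polar
    rw [hQ2]
    linear_combination (-(Q x)) * h3
  have hαβ : QuadraticMap.polar Q (u : ι → F) (u : ι → F) =
      QuadraticMap.polar Q (v : ι → F) (v : ι → F) := by
    by_contra hne
    have hsum : QuadraticMap.polar Q (u : ι → F) (u : ι → F) +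
        QuadraticMap.polar Q (v : ι → F) (v : ι → F) = 0 := by
      rcases hα with h | h <;> rcases hβ with h' | h'
      · exact absurd (h.trans h'.symm) hne
      · rw [h, h']
        ring
      · rw [h, h']
        ring
      · exact absurd (h.trans h'.symm) hne
    apply hminus
    have hw0 : ((u + v : W) : ι → F) ≠ 0 := by
      intro h
      have h1 : QuadraticMap.polar Q (((u + v : W) : ι → F)) (u : ι → F) =
          QuadraticMap.polar Q (u : ι → F) (u : ι → F) := by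
        rw [Submodule.coe_add, hpb.add_left, hvu, add_zero]
      rw [h] at h1
      have h0 : QuadraticMap.polar Q (0 : ι → F) (u : ι → F) = 0 := by
        have h := hpb.smul_left 0 0 (u : ι → F)
        rwa [zero_smul, zero_mul] at h
      rw [h0] at h1
      exact huu0 h1.symm
    have hww : QuadraticMap.polar Q ((u + v : W) : ι → F) ((u + v : W) : ι → F) = 0 := by
      rw [Submodule.coe_add, hpb.add_left, hpb.add_right, hpb.add_right, huv, hvu]
      linear_combination hsum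
    refine ⟨Submodule.span F {((u + v : W) : ι → F)}, ?_, ?_, ?_⟩
    · rw [Submodule.span_singleton_le_iff_mem]
      exact (u + v).2
    · intro x hx
      obtain ⟨c, rfl⟩ := Submodule.mem_span_singleton.1 hx
      rw [hQv, hpb.smul_left, hpb.smul_right, hww]
      ring
    · rw [finrank_span_singleton hw0, hfin]
  rcases hα with h1 | h1
  · have hvv : QuadraticMap.polar Q (v : ι → F) (v : ι → F) = 1 := by
      rw [← hαβ]
      exact h1
    have hc : ∀ j j', QuadraticMap.polar Q ((![u, v] j : W) : ι → F)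
        ((![u, v] j' : W) : ι → F) = if j = j' then 1 else 0 := by
      intro j j'
      fin_cases j <;> fin_cases j' <;> simp [h1, hvv, huv, hvu]
    exact basis_of_orth Q hpb W (by norm_num) hfin ![u, v] 1 one_ne_zero hc
  · have hvv : QuadraticMap.polar Q (v : ι → F) (v : ι → F) = -1 := by
      rw [← hαβ]
      exact h1
    have e11 : QuadraticMap.polar Q ((u : ι → F) + v) ((u : ι → F) + v) = 1 := by
      rw [hpb.add_left, hpb.add_right, hpb.add_right, huv, hvu, h1, hvv]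
      linear_combination (-(1 : F)) * h3
    have e22 : QuadraticMap.polar Q ((u : ι → F) - v) ((u : ι → F) - v) = 1 := by
      rw [← Bp_apply Q hpb]
      simp only [map_sub, LinearMap.sub_apply, Bp_apply, huv, hvu, h1, hvv]
      linear_combination (-(1 : F)) * h3
    have e12 : QuadraticMap.polar Q ((u : ι → F) + v) ((u : ι → F) - v) = 0 := by
      rw [← Bp_apply Q hpb]
      simp only [map_add, map_sub, LinearMap.add_apply, LinearMap.sub_apply, Bp_apply, huv, hvu,
        h1, hvv]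
      ring
    have e21 : QuadraticMap.polar Q ((u : ι → F) - v) ((u : ι → F) + v) = 0 := by
      rw [QuadraticMap.polar_comm]
      exact e12
    have hc : ∀ j j', QuadraticMap.polar Q ((![u + v, u - v] j : W) : ι → F)
        ((![u + v, u - v] j' : W) : ι → F) = if j = j' then 1 else 0 := by
      intro j j'
      fin_cases j <;> fin_cases j' <;> simp [e11, e22, e12, e21]
    exact basis_of_orth Q hpb W (by norm_num) hfin ![u + v, u - v] 1 one_ne_zero hc

end blocks

section mains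

variable [Fintype F] {ι : Type} [Fintype ι] [DecidableEq ι]

theorem dec_main (hq : Fintype.card F = 3) (Q : (ι → F) → F)
    (hpb : Cfsg.Geo.IsBilinearForm (QuadraticMap.polar Q)) (hQ2 : ∀ v, Q (v + v) = 4 * Q v)
    {t k : ℕ} (D : Fin t → Submodule F (ι → F)) (hD : Cfsg.Geo.IsMDecomposition k D)
    (horth : ∀ i j, i ≠ j → Cfsg.Geo.AreOrthogonalFor (QuadraticMap.polar Q) (D i) (D j))
    (b : ∀ i, Module.Basis (Fin k) F (D i)) (ε : Fin t → F) (hε : ∀ i, ε i ≠ 0)
    (hb : ∀ i j j', QuadraticMap.polar Q ((b i j : D i) : ι → F) ((b i j' : D i) : ι → F) =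
      if j = j' then ε i else 0)
    (hmono : ∀ (i i' : Fin t) (m : Matrix (Fin k) (Fin k) F),
      mᵀ * m = ((2 * ε i) / (2 * ε i')) • (1 : Matrix (Fin k) (Fin k) F) →
      ∀ j0, ∃ j1, ∀ j, j ≠ j1 → m j j0 = 0)
    (p1 p2 p3 p4 p5 : Fin t × Fin k)
    (h12 : p1 ≠ p2) (h13 : p1 ≠ p3) (h14 : p1 ≠ p4) (h23 : p2 ≠ p3) (h24 : p2 ≠ p4)
    (h34 : p3 ≠ p4) (h15 : p1 ≠ p5) (h25 : p2 ≠ p5) (h35 : p3 ≠ p5) (h45 : p4 ≠ p5)
    (hd2 : ε p2.1 = ε p1.1) (hd3 : ε p3.1 = ε p1.1) (hd4 : ε p4.1 = ε p1.1)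
    (hd5 : ε p5.1 = ε p1.1) (hb12 : p1.1 = p2.1) (hb14 : p1.1 ≠ p4.1) :
    ∃ K : Subgroup (GL ι F),
      Cfsg.Geo.decompositionStabilizer D ⊓ Cfsg.Geo.omegaGL Q < K ∧ K < Cfsg.Geo.omegaGL Q := by
  classical
  have h3 := TensSymp.three_eq_zero hq
  have h2ne : (2 : F) ≠ 0 := by
    intro h
    have h4 : (1 : F) = 0 := by linear_combination h3 - h
    exact one_ne_zero h4
  obtain ⟨A, A', h1, h2, hmap, hcard, hAsum⟩ := exists_stdG t k hD b
  have hB : ∀ p p' : Fin t × Fin k, QuadraticMap.polar Q ((b p.1 p.2 : ↥(D p.1)) : ι → F)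
      ((b p'.1 p'.2 : ↥(D p'.1)) : ι → F) = if p = p' then ε p.1 else 0 := by
    intro p p'
    obtain ⟨i, j⟩ := p
    obtain ⟨i', j'⟩ := p'
    by_cases hii : i = i'
    · subst hii
      rw [hb i j j']
      by_cases hjj : j = j'
      · rw [if_pos hjj, if_pos (by rw [hjj])]
      · rw [if_neg hjj, if_neg (fun h => hjj (congrArg Prod.snd h))]
    · rw [if_neg (fun h => hii (congrArg Prod.fst h))]
      exact horth i i' hii _ (b i j).2 _ (b i' j').2
  have hQv : ∀ x : ι → F, Q x = 2 * QuadraticMap.polar Q x x := by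
    intro x
    unfold QuadraticMap.polar
    rw [hQ2]
    linear_combination (-(Q x)) * h3
  have hiso : ∀ y : Fin t × Fin k → F,
      Q (A *ᵥ y) = DiagOrth.qd (Dd (k := k) (fun i => 2 * ε i)) y := by
    intro y
    rw [hQv, hAsum, polar_sum Q hpb]
    unfold DiagOrth.qd
    rw [Finset.mul_sum]
    apply Finset.sum_congr rfl
    intro p _
    rw [Finset.sum_eq_single p]
    · rw [hB, if_pos rfl]
      show _ = 2 * ε p.1 * y p ^ 2
      ring
    · intro q _ hq'
      rw [hB, if_neg (Ne.symm hq'), mul_zero]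
    · intro h
      exact absurd (Finset.mem_univ _) h
  have hXiff : ∀ g : GL (Fin t × Fin k) F, g ∈ DiagOrth.XD (Dd (k := k) (fun i => 2 * ε i)) ↔
      DecStab.conjHom A A' h1 h2 g ∈ Cfsg.isometryGroup F Q := by
    intro g
    exact TensSymp.pres_iff A A' h1 h2 (fun u _ => Q u)
      (fun u _ => DiagOrth.qd (Dd (k := k) (fun i => 2 * ε i)) u) 1 one_ne_zero
      (fun x _ => by rw [one_mul]; exact hiso x) g
  obtain ⟨K0, hK0a, hK0b⟩ := coord_dec hq (fun i => 2 * ε i) (fun i => mul_ne_zero h2ne (hε i))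
    hmono p1 p2 p3 p4 p5 h12 h13 h14 h23 h24 h34 h15 h25 h35 h45
    (by show 2 * ε p2.1 = 2 * ε p1.1; rw [hd2]) (by show 2 * ε p3.1 = 2 * ε p1.1; rw [hd3])
    (by show 2 * ε p4.1 = 2 * ε p1.1; rw [hd4]) (by show 2 * ε p5.1 = 2 * ε p1.1; rw [hd5])
    hb12 hb14
  rw [DiagOrth.omega_eq]
  exact DecUnit.transport' A A' h1 h2 D (DecStab.stdD t k) hmap _ _
    (fun g => DiagOrth.comm_transport _ (DecStab.conjHom_injective A A' h1 h2)
      (DecStab.conjHom_surjective A A' h1 h2) _ _ hXiff g) K0 hK0a hK0b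

theorem dec3 (hq : Fintype.card F = 3) (Q : (ι → F) → F)
    (hpb : Cfsg.Geo.IsBilinearForm (QuadraticMap.polar Q)) (hQ2 : ∀ v, Q (v + v) = 4 * Q v)
    {t : ℕ} (D : Fin t → Submodule F (ι → F))
    (hD : Cfsg.Geo.IsNondegenerateMDecomposition (QuadraticMap.polar Q) 3 D)
    (hcard : 7 ≤ Fintype.card ι) :
    ∃ K : Subgroup (GL ι F),
      Cfsg.Geo.decompositionStabilizer D ⊓ Cfsg.Geo.omegaGL Q < K ∧ K < Cfsg.Geo.omegaGL Q := by
  classical
  have hex : ∀ i, ∃ (b : Module.Basis (Fin 3) F (D i)) (ε : F), ε ≠ 0 ∧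
      ∀ j j', QuadraticMap.polar Q (b j : ι → F) (b j' : ι → F) = if j = j' then ε else 0 :=
    fun i => block_basis3 hq Q hpb (D i) (hD.decomp.finrank_eq i) (hD.nondegenerate i)
  choose b ε hε hb using hex
  obtain ⟨A, A', h1, h2, hmap, hc, hAsum⟩ := exists_stdG t 3 hD.decomp b
  have ht : 3 ≤ t := by omega
  have hsg : ∀ i, ε i = 1 ∨ ε i = -1 := fun i => TensSymp.eq_one_or_neg_one hq _ (hε i)
  obtain ⟨i, i', hii, hεε⟩ : ∃ i i' : Fin t, i ≠ i' ∧ ε i' = ε i := by
    have h01 : (⟨0, by omega⟩ : Fin t) ≠ ⟨1, by omega⟩ := by simp [Fin.ext_iff]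
    have h02 : (⟨0, by omega⟩ : Fin t) ≠ ⟨2, by omega⟩ := by simp [Fin.ext_iff]
    have h12 : (⟨1, by omega⟩ : Fin t) ≠ ⟨2, by omega⟩ := by simp [Fin.ext_iff]
    by_cases e01 : ε ⟨1, by omega⟩ = ε ⟨0, by omega⟩
    · exact ⟨_, _, h01, e01⟩
    · by_cases e02 : ε ⟨2, by omega⟩ = ε ⟨0, by omega⟩
      · exact ⟨_, _, h02, e02⟩
      · refine ⟨_, _, h12, ?_⟩
        rcases hsg ⟨0, by omega⟩ with a | a <;> rcases hsg ⟨1, by omega⟩ with b' | b' <;>
          rcases hsg ⟨2, by omega⟩ with c | c <;> simp_all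
  have hmono : ∀ (i i' : Fin t) (m : Matrix (Fin 3) (Fin 3) F),
      mᵀ * m = ((2 * ε i) / (2 * ε i')) • (1 : Matrix (Fin 3) (Fin 3) F) →
      ∀ j0, ∃ j1, ∀ j, j ≠ j1 → m j j0 = 0 := by
    intro i i' m hm j0
    have h3 := TensSymp.three_eq_zero hq
    have h2ne : (2 : F) ≠ 0 := by
      intro h
      have h4 : (1 : F) = 0 := by linear_combination h3 - h
      exact one_ne_zero h4
    have hμ : (2 * ε i) / (2 * ε i') ≠ 0 :=
      div_ne_zero (mul_ne_zero h2ne (hε i)) (mul_ne_zero h2ne (hε i'))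
    have hdet : m.det ≠ 0 := by
      intro h0
      have h5 := congrArg Matrix.det hm
      rw [Matrix.det_mul, Matrix.det_transpose, h0, mul_zero, Matrix.det_smul, Matrix.det_one,
        mul_one] at h5
      exact pow_ne_zero _ hμ h5.symm
    exact DiagOrth.mono3 hq m hdet _ hμ hm j0
  exact dec_main hq Q hpb hQ2 D hD.decomp hD.orthogonal b ε hε hb hmono
    (i, 0) (i, 1) (i, 2) (i', 0) (i', 1)
    (fun h => absurd (Prod.mk.inj h).2 (by decide)) (fun h => absurd (Prod.mk.inj h).2 (by decide))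
    (fun h => hii (Prod.mk.inj h).1) (fun h => absurd (Prod.mk.inj h).2 (by decide))
    (fun h => hii (Prod.mk.inj h).1) (fun h => hii (Prod.mk.inj h).1)
    (fun h => hii (Prod.mk.inj h).1) (fun h => hii (Prod.mk.inj h).1)
    (fun h => hii (Prod.mk.inj h).1) (fun h => absurd (Prod.mk.inj h).2 (by decide))
    rfl rfl hεε hεε rfl hii

theorem dec2 (hq : Fintype.card F = 3) (Q : (ι → F) → F)
    (hpb : Cfsg.Geo.IsBilinearForm (QuadraticMap.polar Q)) (hQ2 : ∀ v, Q (v + v) = 4 * Q v)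
    {t : ℕ} (D : Fin t → Submodule F (ι → F))
    (hD : Cfsg.Geo.IsNondegenerateMDecomposition (QuadraticMap.polar Q) 2 D)
    (hminus : ∀ i, ¬ Cfsg.Geo.IsPlusTypeOn Q (D i))
    (hcard : 5 ≤ Fintype.card ι) :
    ∃ K : Subgroup (GL ι F),
      Cfsg.Geo.decompositionStabilizer D ⊓ Cfsg.Geo.omegaGL Q < K ∧ K < Cfsg.Geo.omegaGL Q := by
  classical
  have hex : ∀ i, ∃ b : Module.Basis (Fin 2) F (D i),
      ∀ j j', QuadraticMap.polar Q (b j : ι → F) (b j' : ι → F) = if j = j' then 1 else 0 :=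
    fun i => block_basis2 hq Q hpb hQ2 (D i) (hD.decomp.finrank_eq i) (hD.nondegenerate i)
      (hminus i)
  choose b hb using hex
  obtain ⟨A, A', h1, h2, hmap, hc, hAsum⟩ := exists_stdG t 2 hD.decomp b
  have ht : 3 ≤ t := by omega
  have h3 := TensSymp.three_eq_zero hq
  have h2ne : (2 : F) ≠ 0 := by
    intro h
    have h4 : (1 : F) = 0 := by linear_combination h3 - h
    exact one_ne_zero h4
  have hmono : ∀ (i i' : Fin t) (m : Matrix (Fin 2) (Fin 2) F),
      mᵀ * m = ((2 * (1 : F)) / (2 * (1 : F))) • (1 : Matrix (Fin 2) (Fin 2) F) →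
      ∀ j0, ∃ j1, ∀ j, j ≠ j1 → m j j0 = 0 := by
    intro i i' m hm j0
    rw [div_self (mul_ne_zero h2ne one_ne_zero), one_smul] at hm
    have hcol : m 0 j0 ^ 2 + m 1 j0 ^ 2 = 1 := by
      have h5 := congrFun (congrFun hm j0) j0
      rw [Matrix.mul_apply, Fin.sum_univ_two, Matrix.one_apply_eq] at h5
      simp only [Matrix.transpose_apply] at h5
      linear_combination h5
    have hsq : ∀ z : F, z = 0 ∨ z ^ 2 = 1 := fun z => by
      by_cases hz : z = 0
      · exact Or.inl hz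
      · exact Or.inr (TensSymp.sq_eq_one3 hq z hz)
    rcases hsq (m 0 j0) with h0 | h0 <;> rcases hsq (m 1 j0) with h1' | h1'
    · exfalso
      rw [h0, h1'] at hcol
      have h4 : (1 : F) = 0 := by linear_combination -hcol
      exact one_ne_zero h4
    · exact ⟨1, fun j hj => by fin_cases j; exacts [h0, absurd rfl hj]⟩
    · exact ⟨0, fun j hj => by fin_cases j; exacts [absurd rfl hj, h1']⟩
    · exfalso
      rw [h0, h1'] at hcol
      have h4 : (1 : F) = 0 := by linear_combination hcol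
      exact one_ne_zero h4
  have h01 : (⟨0, by omega⟩ : Fin t) ≠ ⟨1, by omega⟩ := by simp [Fin.ext_iff]
  have h02 : (⟨0, by omega⟩ : Fin t) ≠ ⟨2, by omega⟩ := by simp [Fin.ext_iff]
  have h12 : (⟨1, by omega⟩ : Fin t) ≠ ⟨2, by omega⟩ := by simp [Fin.ext_iff]
  exact dec_main hq Q hpb hQ2 D hD.decomp hD.orthogonal b (fun _ => 1) (fun _ => one_ne_zero)
    hb hmono
    (⟨0, by omega⟩, 0) (⟨0, by omega⟩, 1) (⟨1, by omega⟩, 0) (⟨1, by omega⟩, 1) (⟨2, by omega⟩, 0)
    (fun h => absurd (Prod.mk.inj h).2 (by decide)) (fun h => h01 (Prod.mk.inj h).1)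
    (fun h => h01 (Prod.mk.inj h).1) (fun h => h01 (Prod.mk.inj h).1)
    (fun h => h01 (Prod.mk.inj h).1) (fun h => absurd (Prod.mk.inj h).2 (by decide))
    (fun h => h02 (Prod.mk.inj h).1) (fun h => h02 (Prod.mk.inj h).1)
    (fun h => h12 (Prod.mk.inj h).1) (fun h => h12 (Prod.mk.inj h).1)
    rfl rfl rfl rfl rfl h01

end mains

section odd

omit [Field F] in
theorem quad_odd_two [Field F] (m : ℕ) (v : Unit ⊕ (Fin m ⊕ Fin m) → F) :
    Cfsg.quadFormOdd m F (v + v) = 4 * Cfsg.quadFormOdd m F v := by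
  unfold Cfsg.quadFormOdd
  have h : ∀ i : Fin m, (v + v) (Sum.inr (Sum.inl i)) * (v + v) (Sum.inr (Sum.inr i)) =
      4 * (v (Sum.inr (Sum.inl i)) * v (Sum.inr (Sum.inr i))) := fun i => by
    simp only [Pi.add_apply]
    ring
  rw [Finset.sum_congr rfl (fun i _ => h i), ← Finset.mul_sum, Pi.add_apply]
  ring

theorem polar_odd (m : ℕ) (u v : Unit ⊕ (Fin m ⊕ Fin m) → F) :
    QuadraticMap.polar (Cfsg.quadFormOdd m F) u v = 2 * u (Sum.inl ()) * v (Sum.inl ()) +
      ∑ i : Fin m, (u (Sum.inr (Sum.inl i)) * v (Sum.inr (Sum.inr i)) +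
        v (Sum.inr (Sum.inl i)) * u (Sum.inr (Sum.inr i))) := by
  unfold QuadraticMap.polar Cfsg.quadFormOdd
  have h : ∀ i : Fin m, (u + v) (Sum.inr (Sum.inl i)) * (u + v) (Sum.inr (Sum.inr i)) =
      u (Sum.inr (Sum.inl i)) * u (Sum.inr (Sum.inr i)) +
      v (Sum.inr (Sum.inl i)) * v (Sum.inr (Sum.inr i)) +
      (u (Sum.inr (Sum.inl i)) * v (Sum.inr (Sum.inr i)) +
        v (Sum.inr (Sum.inl i)) * u (Sum.inr (Sum.inr i))) := fun i => by
    simp only [Pi.add_apply]
    ring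
  rw [Finset.sum_congr rfl (fun i _ => h i), Finset.sum_add_distrib, Finset.sum_add_distrib,
    Pi.add_apply]
  ring

theorem odd_bilinear (m : ℕ) :
    Cfsg.Geo.IsBilinearForm (QuadraticMap.polar (Cfsg.quadFormOdd m F)) := by
  refine ⟨?_, ?_, ?_, ?_⟩
  · intro x y v
    simp only [polar_odd, Pi.add_apply]
    rw [add_add_add_comm, ← Finset.sum_add_distrib]
    congr 1
    · ring
    · exact Finset.sum_congr rfl (fun i _ => by ring)
  · intro c x v
    simp only [polar_odd, Pi.smul_apply, smul_eq_mul]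
    rw [mul_add, Finset.mul_sum]
    congr 1
    · ring
    · exact Finset.sum_congr rfl (fun i _ => by ring)
  · intro v x y
    simp only [polar_odd, Pi.add_apply]
    rw [add_add_add_comm, ← Finset.sum_add_distrib]
    congr 1
    · ring
    · exact Finset.sum_congr rfl (fun i _ => by ring)
  · intro c v x
    simp only [polar_odd, Pi.smul_apply, smul_eq_mul]
    rw [mul_add, Finset.mul_sum]
    congr 1
    · ring
    · exact Finset.sum_congr rfl (fun i _ => by ring)

end odd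

end Cfsg.Agent.Helper18.DecOrth
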