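import Mathlib
import Cfsg.Prelude.Def_GeometricClasses
import Cfsg.Agent.Helper28.Transv
import Cfsg.Agent.Helper2.SLGen
import Cfsg.Agent.S5631

set_option autoImplicit false

namespace Cfsg.Agent.Helper18.SlSp

open scoped Matrix

open scoped MatrixGroups

open Cfsg.Agent.Helper28

variable {ι : Type} [Fintype ι] [DecidableEq ι] {F : Type*} [Field F]

theorem act_inv (g : GL ι F) (x : ι → F) : g.1 *ᵥ ((g⁻¹).1 *ᵥ x) = x := by
  rw [Matrix.mulVec_mulVec, ← Units.val_mul, mul_inv_cancel, Units.val_one, Matrix.one_mulVec]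

theorem inv_act (g : GL ι F) (x : ι → F) : (g⁻¹).1 *ᵥ (g.1 *ᵥ x) = x := by
  rw [Matrix.mulVec_mulVec, ← Units.val_mul, inv_mul_cancel, Units.val_one, Matrix.one_mulVec]

/-- The working configuration: an alternating nondegenerate form and a subgroup of the special
linear group containing the similarities of determinant one. -/
structure Cfg (f : (ι → F) → (ι → F) → F) (B : LinearMap.BilinForm F (ι → F))
    (M : Subgroup (GL ι F)) : Prop where
  eq : ∀ x y, B x y = f x y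
  alt : B.IsAlt
  nd : ∀ v, v ≠ 0 → ∃ x, B v x ≠ 0
  sl : M ≤ Cfsg.Geo.specialLinear ι F
  par : Cfsg.Geo.similarityGroup f ⊓ Cfsg.Geo.specialLinear ι F ≤ M

/-- All maps `x ↦ x + c B(u, x) v` lie in `M`. -/
def memS (M : Subgroup (GL ι F)) (B : LinearMap.BilinForm F (ι → F)) (v u : ι → F) : Prop :=
  ∀ c : F, ∃ A ∈ M, ∀ x : ι → F, A.1 *ᵥ x = x + (c * B u x) • v

section cfg

variable {f : (ι → F) → (ι → F) → F} {B : LinearMap.BilinForm F (ι → F)}
  {M : Subgroup (GL ι F)}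

theorem skw (hC : Cfg f B M) (x y : ι → F) : B y x = - B x y := (hC.alt.neg_eq x y).symm

theorem skw0 (hC : Cfg f B M) (x y : ι → F) (h : B x y = 0) : B y x = 0 := by
  rw [skw hC, h, neg_zero]

theorem skw1 (hC : Cfg f B M) (x y : ι → F) (h : B x y ≠ 0) : B y x ≠ 0 :=
  fun hc => h (skw0 hC y x hc)

theorem tv (hC : Cfg f B M) (w : ι → F) (c : F) :
    ∃ A ∈ M, (∀ x y, B (A.1 *ᵥ x) (A.1 *ᵥ y) = B x y) ∧
      ∀ x, A.1 *ᵥ x = x + (c * B w x) • w := by
  have h0 : (c • B w) w = 0 := by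
    rw [LinearMap.smul_apply, hC.alt w, smul_zero]
  have hact : ∀ x, (transvGL w (c • B w) h0).1 *ᵥ x = x + (c * B w x) • w := by
    intro x
    rw [transvGL_mulVec, LinearMap.smul_apply, smul_eq_mul]
  have hiso : ∀ x y, B ((transvGL w (c • B w) h0).1 *ᵥ x) ((transvGL w (c • B w) h0).1 *ᵥ y)
      = B x y := by
    intro x y
    rw [hact, hact]
    simp only [map_add, map_smul, LinearMap.add_apply, LinearMap.smul_apply, smul_eq_mul,
      hC.alt w, mul_zero, add_zero]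
    rw [skw hC w x]
    ring
  refine ⟨transvGL w (c • B w) h0, hC.par ⟨?_, transvGL_mem_specialLinear w (c • B w) h0⟩,
    hiso, hact⟩
  refine ⟨1, fun u v => ?_⟩
  rw [← hC.eq, ← hC.eq, hiso, Units.val_one, one_mul]

theorem conj_gen (g : GL ι F) (hg : g ∈ M) (v u : ι → F) (h : memS M B v u) :
    ∀ c : F, ∃ A ∈ M, ∀ x : ι → F, A.1 *ᵥ x = x + (c * B u ((g⁻¹).1 *ᵥ x)) • (g.1 *ᵥ v) := by
  intro c
  obtain ⟨A, hA, hAx⟩ := h c
  refine ⟨g * A * g⁻¹, M.mul_mem (M.mul_mem hg hA) (M.inv_mem hg), fun x => ?_⟩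
  rw [Units.val_mul, Units.val_mul, ← Matrix.mulVec_mulVec, ← Matrix.mulVec_mulVec, hAx,
    Matrix.mulVec_add, Matrix.mulVec_smul, act_inv]

theorem conj (g : GL ι F) (hg : g ∈ M) (hiso : ∀ x y, B (g.1 *ᵥ x) (g.1 *ᵥ y) = B x y)
    (v u : ι → F) (h : memS M B v u) : memS M B (g.1 *ᵥ v) (g.1 *ᵥ u) := by
  intro c
  obtain ⟨A, hA, hAx⟩ := conj_gen g hg v u h c
  refine ⟨A, hA, fun x => ?_⟩
  rw [hAx]
  have e : B u ((g⁻¹).1 *ᵥ x) = B (g.1 *ᵥ u) x := by
    have e1 := hiso u ((g⁻¹).1 *ᵥ x)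
    rw [act_inv] at e1
    exact e1.symm
  rw [e]

theorem move1 (hC : Cfg f B M) (a a' : ι → F) (h : B a a' ≠ 0) :
    ∃ g ∈ M, (∀ x y, B (g.1 *ᵥ x) (g.1 *ᵥ y) = B x y) ∧ g.1 *ᵥ a = a' ∧
      ∀ x, B a x = 0 → B a' x = 0 → g.1 *ᵥ x = x := by
  obtain ⟨A, hA, hiso, hAx⟩ := tv hC (a - a') (-(B a a')⁻¹)
  refine ⟨A, hA, hiso, ?_, fun x h1 h2 => ?_⟩
  · rw [hAx, map_sub, LinearMap.sub_apply, hC.alt a, skw hC a a', zero_sub, neg_neg, neg_mul,
      inv_mul_cancel₀ h]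
    module
  · rw [hAx, map_sub, LinearMap.sub_apply, h1, h2, sub_zero, mul_zero, zero_smul, add_zero]

theorem experp (hC : Cfg f B M) (v u : ι → F) (hu : ∀ c : F, u ≠ c • v) :
    ∃ x, B v x = 0 ∧ B u x ≠ 0 := by
  by_contra hcon
  push Not at hcon
  have hu0 : u ≠ 0 := by
    intro h0
    exact hu 0 (by rw [h0, zero_smul])
  by_cases hv0 : v = 0
  · obtain ⟨x, hx⟩ := hC.nd u hu0
    exact hx (hcon x (by rw [hv0, map_zero, LinearMap.zero_apply]))
  · obtain ⟨y, hy⟩ := hC.nd v hv0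
    apply hu (B u y / B v y)
    rw [← sub_eq_zero]
    by_contra hne
    obtain ⟨x, hx⟩ := hC.nd _ hne
    apply hx
    have h1 := hcon (x - (B v x / B v y) • y) (by
      rw [map_sub, map_smul, smul_eq_mul, div_mul_cancel₀ _ hy, sub_self])
    rw [map_sub, map_smul, smul_eq_mul] at h1
    rw [map_sub, LinearMap.sub_apply, map_smul, LinearMap.smul_apply, smul_eq_mul]
    have e : B u y / B v y * B v x = B v x / B v y * B u y := by ring
    rw [e]
    exact h1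

theorem conn (hC : Cfg f B M) (a a' : ι → F) (x x' : ι → F) (hx : B a x ≠ 0)
    (hx' : B a' x' ≠ 0) :
    ∃ z, B a z ≠ 0 ∧ B z a' ≠ 0 ∧ (z = x ∨ z = x' ∨ z = x + x') := by
  by_cases h1 : B a' x = 0
  · by_cases h2 : B a x' = 0
    · refine ⟨x + x', ?_, ?_, Or.inr (Or.inr rfl)⟩
      · rw [map_add, h2, add_zero]
        exact hx
      · apply skw1 hC
        rw [map_add, h1, zero_add]
        exact hx'
    · exact ⟨x', h2, skw1 hC _ _ hx', Or.inr (Or.inl rfl)⟩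
  · exact ⟨x, hx, skw1 hC _ _ h1, Or.inl rfl⟩

theorem move0 (hC : Cfg f B M) (v v' : ι → F) (hv : v ≠ 0) (hv' : v' ≠ 0) :
    ∃ g ∈ M, (∀ x y, B (g.1 *ᵥ x) (g.1 *ᵥ y) = B x y) ∧ g.1 *ᵥ v = v' := by
  by_cases h : B v v' = 0
  · obtain ⟨x, hx⟩ := hC.nd v hv
    obtain ⟨x', hx'⟩ := hC.nd v' hv'
    obtain ⟨z, hz1, hz2, -⟩ := conn hC v v' x x' hx hx'
    obtain ⟨g₁, hg₁, i₁, e₁, -⟩ := move1 hC v z hz1
    obtain ⟨g₂, hg₂, i₂, e₂, -⟩ := move1 hC z v' hz2
    refine ⟨g₂ * g₁, M.mul_mem hg₂ hg₁, fun x y => ?_, ?_⟩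
    · rw [Units.val_mul, ← Matrix.mulVec_mulVec, ← Matrix.mulVec_mulVec, i₂, i₁]
    · rw [Units.val_mul, ← Matrix.mulVec_mulVec, e₁, e₂]
  · obtain ⟨g, hg, i, e, -⟩ := move1 hC v v' h
    exact ⟨g, hg, i, e⟩

theorem move2 (hC : Cfg f B M) (v u u' : ι → F) (hu : B u v = 0) (hu' : B u' v = 0)
    (hnu : ∀ c : F, u ≠ c • v) (hnu' : ∀ c : F, u' ≠ c • v) :
    ∃ g ∈ M, (∀ x y, B (g.1 *ᵥ x) (g.1 *ᵥ y) = B x y) ∧ g.1 *ᵥ u = u' ∧ g.1 *ᵥ v = v := by
  by_cases h : B u u' = 0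
  · obtain ⟨x, hx0, hx⟩ := experp hC v u hnu
    obtain ⟨x', hx0', hx'⟩ := experp hC v u' hnu'
    obtain ⟨z, hz1, hz2, hz⟩ := conn hC u u' x x' hx hx'
    have hzv : B z v = 0 := by
      rcases hz with rfl | rfl | rfl
      · exact skw0 hC _ _ hx0
      · exact skw0 hC _ _ hx0'
      · rw [map_add, LinearMap.add_apply, skw0 hC _ _ hx0, skw0 hC _ _ hx0', add_zero]
    obtain ⟨g₁, hg₁, i₁, e₁, f₁⟩ := move1 hC u z hz1
    obtain ⟨g₂, hg₂, i₂, e₂, f₂⟩ := move1 hC z u' hz2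
    refine ⟨g₂ * g₁, M.mul_mem hg₂ hg₁, fun x y => ?_, ?_, ?_⟩
    · rw [Units.val_mul, ← Matrix.mulVec_mulVec, ← Matrix.mulVec_mulVec, i₂, i₁]
    · rw [Units.val_mul, ← Matrix.mulVec_mulVec, e₁, e₂]
    · rw [Units.val_mul, ← Matrix.mulVec_mulVec, f₁ v hu hzv, f₂ v hzv hu']
  · obtain ⟨g, hg, i, e, f'⟩ := move1 hC u u' h
    exact ⟨g, hg, i, e, f' v hu hu'⟩

theorem riesz (hC : Cfg f B M) (φ : (ι → F) →ₗ[F] F) : ∃ u, ∀ x, φ x = B u x := by
  have hnd : B.Nondegenerate := by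
    refine ⟨fun x hx => ?_, fun y hy => ?_⟩
    · by_contra h0
      obtain ⟨z, hz⟩ := hC.nd x h0
      exact hz (hx z)
    · by_contra h0
      obtain ⟨z, hz⟩ := hC.nd y h0
      exact hz (skw0 hC _ _ (hy z))
  refine ⟨(B.toDual hnd).symm φ, fun x => ?_⟩
  rw [← LinearMap.BilinForm.toDual_def hnd, LinearEquiv.apply_symm_apply]

theorem not_prop (hC : Cfg f B M) (h : GL ι F) (hh : h ∉ Cfsg.Geo.similarityGroup f)
    (v0 : ι → F) (hv0 : v0 ≠ 0) :
    ∃ v, ¬ ∃ lam : F, ∀ x, B ((h⁻¹).1 *ᵥ v) ((h⁻¹).1 *ᵥ x) = lam * B v x := by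
  by_contra hcon
  push Not at hcon
  choose lam hlam using hcon
  apply hh
  have h1 : ∀ v v', B v v' ≠ 0 → lam v = lam v' := by
    intro v v' hvv
    have e1 := hlam v v'
    have e2 := hlam v' v
    rw [skw hC ((h⁻¹).1 *ᵥ v) ((h⁻¹).1 *ᵥ v'), e1, skw hC v v'] at e2
    have e3 : (lam v - lam v') * B v v' = 0 := by linear_combination (-1 : F) * e2
    rcases mul_eq_zero.1 e3 with h5 | h5
    · exact sub_eq_zero.1 h5
    · exact absurd h5 hvv
  have h2 : ∀ v v', v ≠ 0 → v' ≠ 0 → lam v = lam v' := by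
    intro v v' hv hv'
    by_cases hb : B v v' = 0
    · obtain ⟨x, hx⟩ := hC.nd v hv
      obtain ⟨x', hx'⟩ := hC.nd v' hv'
      obtain ⟨z, hz1, hz2, -⟩ := conn hC v v' x x' hx hx'
      exact (h1 v z hz1).trans (h1 z v' hz2)
    · exact h1 v v' hb
  have h3 : ∀ v x, B ((h⁻¹).1 *ᵥ v) ((h⁻¹).1 *ᵥ x) = lam v0 * B v x := by
    intro v x
    by_cases hv : v = 0
    · rw [hv]
      simp
    · rw [hlam v x, h2 v v0 hv hv0]
  have hl0 : lam v0 ≠ 0 := by
    intro hl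
    have hw : (h⁻¹).1 *ᵥ v0 ≠ 0 := by
      intro h0
      apply hv0
      have h4 := act_inv h v0
      rw [h0, Matrix.mulVec_zero] at h4
      exact h4.symm
    obtain ⟨x', hx'⟩ := hC.nd _ hw
    apply hx'
    have h4 := h3 v0 (h.1 *ᵥ x')
    rw [inv_act, hl, zero_mul] at h4
    exact h4
  have hinv : h⁻¹ ∈ Cfsg.Geo.similarityGroup f := by
    refine ⟨Units.mk0 (lam v0) hl0, fun u v => ?_⟩
    rw [← hC.eq, ← hC.eq, h3, Units.val_mk0]
  have h5 := (Cfsg.Geo.similarityGroup f).inv_mem hinv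
  rwa [inv_inv] at h5

theorem all_tv (hC : Cfg f B M) (h : GL ι F) (hh : h ∈ M)
    (hhP : h ∉ Cfsg.Geo.similarityGroup f) (a : ι → F) (φ : (ι → F) →ₗ[F] F) (hφ : φ a = 0) :
    transvGL a φ hφ ∈ M := by
  by_cases ha : a = 0
  · have e : transvGL a φ hφ = 1 := by
      apply Cfsg.Agent.S5631.gl_ext_mulVec
      intro x
      rw [transvGL_mulVec, ha, smul_zero, add_zero, Units.val_one, Matrix.one_mulVec]
    rw [e]
    exact M.one_mem
  obtain ⟨v, hv⟩ := not_prop hC h hhP a ha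
  have hv0 : v ≠ 0 := by
    rintro rfl
    apply hv
    refine ⟨0, fun x => ?_⟩
    simp
  obtain ⟨u₂, hu₂⟩ := riesz hC ((B ((h⁻¹).1 *ᵥ v)).comp (Matrix.toLin' (h⁻¹).1))
  have hu₂' : ∀ x, B ((h⁻¹).1 *ᵥ v) ((h⁻¹).1 *ᵥ x) = B u₂ x := by
    intro x
    rw [← hu₂, LinearMap.comp_apply, Matrix.toLin'_apply]
  have hnu₂ : ∀ c : F, u₂ ≠ c • v := by
    intro c hc
    apply hv
    refine ⟨c, fun x => ?_⟩
    rw [hu₂', hc, map_smul, LinearMap.smul_apply, smul_eq_mul]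
  have hu₂v : B u₂ v = 0 := by rw [← hu₂', hC.alt]
  have hvv : memS M B v v := by
    intro c
    obtain ⟨A, hA, -, hAx⟩ := tv hC v c
    exact ⟨A, hA, hAx⟩
  have hvu₂ : memS M B v u₂ := by
    intro c
    have hww : memS M B ((h⁻¹).1 *ᵥ v) ((h⁻¹).1 *ᵥ v) := by
      intro c
      obtain ⟨A, hA, -, hAx⟩ := tv hC ((h⁻¹).1 *ᵥ v) c
      exact ⟨A, hA, hAx⟩
    obtain ⟨A, hA, hAx⟩ := conj_gen h hh _ _ hww c
    refine ⟨A, hA, fun x => ?_⟩
    rw [hAx, act_inv, hu₂']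
  have hall_v : ∀ u, B u v = 0 → memS M B v u := by
    intro u hu
    by_cases hprop : ∃ c : F, u = c • v
    · obtain ⟨μ, rfl⟩ := hprop
      intro c
      obtain ⟨A, hA, hAx⟩ := hvv (c * μ)
      refine ⟨A, hA, fun x => ?_⟩
      rw [hAx, map_smul, LinearMap.smul_apply, smul_eq_mul, mul_assoc]
    · push Not at hprop
      obtain ⟨g, hg, hiso, e1, e2⟩ := move2 hC v u₂ u hu₂v hu hnu₂ hprop
      have h5 := conj g hg hiso v u₂ hvu₂
      rw [e1, e2] at h5
      exact h5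
  obtain ⟨g, hg, hiso, e⟩ := move0 hC v a hv0 ha
  obtain ⟨u, hu⟩ := riesz hC φ
  have h6 : B ((g⁻¹).1 *ᵥ u) v = 0 := by
    have h7 := hiso ((g⁻¹).1 *ᵥ u) v
    rw [act_inv, e, ← hu, hφ] at h7
    exact h7.symm
  have h8 := conj g hg hiso v _ (hall_v _ h6)
  rw [e, act_inv] at h8
  obtain ⟨A, hA, hAx⟩ := h8 1
  have e2 : transvGL a φ hφ = A := by
    apply Cfsg.Agent.S5631.gl_ext_mulVec
    intro x
    rw [transvGL_mulVec, hAx, one_mul, hu]
  rw [e2]
  exact hA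

end cfg

theorem main [Fintype F] (n : ℕ) (hn : 13 ≤ n) (f : (Fin n → F) → (Fin n → F) → F)
    (hf : Cfsg.Geo.IsSymplecticForm f) :
    Cfsg.Geo.IsMaximalIn (Cfsg.Geo.specialLinear (Fin n) F)
      (Cfsg.Geo.similarityGroup f ⊓ Cfsg.Geo.specialLinear (Fin n) F) := by
  classical
  obtain ⟨B, hB⟩ : ∃ B : LinearMap.BilinForm F (Fin n → F), ∀ x y, B x y = f x y :=
    ⟨LinearMap.mk₂ F f hf.bilinear.add_left
      (fun c x v => by rw [hf.bilinear.smul_left, smul_eq_mul])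
      hf.bilinear.add_right (fun c v x => by rw [hf.bilinear.smul_right, smul_eq_mul]),
      fun x y => rfl⟩
  have mk : ∀ M : Subgroup (GL (Fin n) F), M ≤ Cfsg.Geo.specialLinear (Fin n) F →
      Cfsg.Geo.similarityGroup f ⊓ Cfsg.Geo.specialLinear (Fin n) F ≤ M → Cfg f B M := by
    intro M h1 h2
    exact {
      eq := hB
      alt := fun x => by
        rw [hB]
        exact hf.alternating x
      nd := fun v hv => by
        obtain ⟨-, x, hx⟩ := hf.nondegenerate v hv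
        exact ⟨x, by rw [hB]; exact hx⟩
      sl := h1
      par := h2 }
  constructor
  · refine lt_of_le_of_ne inf_le_right ?_
    intro heq
    have hC := mk _ le_rfl inf_le_right
    obtain ⟨v, hv0⟩ : ∃ v : Fin n → F, v ≠ 0 := ⟨Pi.single ⟨0, by omega⟩ 1, by
      intro h0
      have h1 := congrFun h0 ⟨0, by omega⟩
      simp at h1⟩
    obtain ⟨y, hy⟩ := hC.nd v hv0
    obtain ⟨x, hx0, hvx, hyx⟩ : ∃ x : Fin n → F, x ≠ 0 ∧ B v x = 0 ∧ B y x = 0 := by
      have hlt : Module.finrank F (F × F) < Module.finrank F (Fin n → F) := by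
        rw [Module.finrank_prod, Module.finrank_self, Module.finrank_fintype_fun_eq_card,
          Fintype.card_fin]
        omega
      obtain ⟨x, hx, hx0⟩ := Submodule.exists_mem_ne_zero_of_ne_bot
        (LinearMap.ker_ne_bot_of_finrank_lt (f := (B v).prod (B y)) hlt)
      have h1 : ((B v).prod (B y)) x = 0 := LinearMap.mem_ker.1 hx
      rw [LinearMap.prod_apply] at h1
      exact ⟨x, hx0, congrArg Prod.fst h1, congrArg Prod.snd h1⟩
    have hxv : ∀ c : F, x ≠ c • v := by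
      intro c hc
      have h1 := hyx
      rw [hc, map_smul, smul_eq_mul] at h1
      rcases mul_eq_zero.1 h1 with h2 | h2
      · apply hx0
        rw [hc, h2, zero_smul]
      · exact hy (skw0 hC _ _ h2)
    obtain ⟨u, huv, hux⟩ := experp hC v x hxv
    have hφ : (B u) v = 0 := skw0 hC _ _ huv
    have hT : transvGL v (B u) hφ ∈ Cfsg.Geo.specialLinear (Fin n) F :=
      transvGL_mem_specialLinear _ _ _
    rw [← heq] at hT
    obtain ⟨c, hc⟩ := hT.1
    have hTx : ∀ z, (transvGL v (B u) hφ).1 *ᵥ z = z + B u z • v :=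
      fun z => transvGL_mulVec _ _ _ z
    have h1 := hc y v
    rw [hTx, hTx, hφ, zero_smul, add_zero, ← hB, ← hB, map_add, LinearMap.add_apply, map_smul,
      LinearMap.smul_apply, hC.alt v, smul_zero, add_zero] at h1
    have hc1 : (c : F) = 1 := by
      have hyv : B y v ≠ 0 := skw1 hC _ _ hy
      have h3 : ((c : F) - 1) * B y v = 0 := by linear_combination (-1 : F) * h1
      rcases mul_eq_zero.1 h3 with h2 | h2
      · exact sub_eq_zero.1 h2
      · exact absurd h2 hyv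
    have h2 := hc x y
    rw [hTx, hTx, ← hB, ← hB, hc1, one_mul] at h2
    simp only [map_add, map_smul, LinearMap.add_apply, LinearMap.smul_apply, smul_eq_mul,
      hC.alt v, mul_zero, add_zero, skw0 hC _ _ hvx] at h2
    apply hy
    have hux' : B u x ≠ 0 := skw1 hC _ _ hux
    have h4 : B u x * B v y = 0 := by linear_combination h2
    rcases mul_eq_zero.1 h4 with h3 | h3
    · exact absurd h3 hux'
    · exact h3
  · intro M hPM hMK
    by_cases hMP : M = Cfsg.Geo.similarityGroup f ⊓ Cfsg.Geo.specialLinear (Fin n) F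
    · exact Or.inl hMP
    right
    have hC := mk M hMK hPM
    apply le_antisymm hMK
    obtain ⟨h, hhM, hhP⟩ : ∃ h ∈ M, h ∉ Cfsg.Geo.similarityGroup f := by
      by_contra hcon
      push Not at hcon
      exact hMP (le_antisymm (fun x hx => ⟨hcon x hx, hMK hx⟩) hPM)
    have htr : ∀ (a : Fin n → F) (φ : (Fin n → F) →ₗ[F] F) (hfa : φ a = 0),
        transvGL a φ hfa ∈ M := fun a φ hfa => all_tv hC h hhM hhP a φ hfa
    intro g hg
    have hdet : (g : Matrix (Fin n) (Fin n) F).det = 1 := by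
      have h1 := hg
      rw [Cfsg.Geo.specialLinear, MonoidHom.mem_ker] at h1
      have h2 := congrArg Units.val h1
      rwa [Matrix.GeneralLinearGroup.val_det_apply, Units.val_one] at h2
    haveI : Nontrivial (Fin n) := Fin.nontrivial_iff_two_le.mpr (by omega)
    have key : ∀ A : Matrix.SpecialLinearGroup (Fin n) F,
        Matrix.SpecialLinearGroup.toGL A ∈ M := by
      intro A
      refine Cfsg.Agent.Helper2.transvection_induction
        (fun A => Matrix.SpecialLinearGroup.toGL A ∈ M) ?_ ?_ A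
      · intro i j hij c
        obtain ⟨φ, hφ, e⟩ := Cfsg.Agent.S5631.toGL_transvection_eq (F := F) hij c
        show Matrix.SpecialLinearGroup.toGL (Matrix.SpecialLinearGroup.transvection hij c) ∈ M
        rw [e]
        exact htr _ φ hφ
      · intro A B' hA hB'
        show Matrix.SpecialLinearGroup.toGL (A * B') ∈ M
        rw [map_mul]
        exact M.mul_mem hA hB'
    have h3 := key ⟨(g : Matrix (Fin n) (Fin n) F), hdet⟩
    have e : Matrix.SpecialLinearGroup.toGL ⟨(g : Matrix (Fin n) (Fin n) F), hdet⟩ = g :=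
      Units.ext rfl
    rwa [e] at h3

end Cfsg.Agent.Helper18.SlSp
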