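import Mathlib
import Cfsg.Prelude.Def_GeometricClasses
import Cfsg.Prelude.Def_ClassicalGeometry
import Cfsg.Agent.S5631
import Cfsg.Agent.Helper18.SlSp
import Cfsg.Agent.Helper18.DiagOrth

set_option autoImplicit false

namespace Cfsg.Agent.Helper18.OrthNs

open Matrix

open scoped MatrixGroups commutatorElement

open QuadraticMap

variable {F : Type*} [Field F] {n : ℕ}

/-- Working configuration: a nondegenerate quadratic form in characteristic two. -/
structure OC (Q : (Fin n → F) → F) : Prop where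
  sm : ∀ (c : F) (v : Fin n → F), Q (c • v) = c ^ 2 * Q v
  al : ∀ x y v, polar Q (x + y) v = polar Q x v + polar Q y v
  sl : ∀ (c : F) (x v : Fin n → F), polar Q (c • x) v = c * polar Q x v
  nd : ∀ v : Fin n → F, v ≠ 0 → ∃ x, polar Q x v ≠ 0
  two : (2 : F) = 0
  sq : ∀ a : F, ∃ b : F, b ^ 2 = a
  dim : 13 ≤ n

variable {Q : (Fin n → F) → F}

theorem bc (x y : Fin n → F) : polar Q x y = polar Q y x := polar_comm Q x y

theorem ar (hC : OC Q) (v x y : Fin n → F) :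
    polar Q v (x + y) = polar Q v x + polar Q v y := by
  rw [bc v (x + y), hC.al, bc x v, bc y v]

theorem sr (hC : OC Q) (c : F) (v x : Fin n → F) : polar Q v (c • x) = c * polar Q v x := by
  rw [bc v (c • x), hC.sl, bc x v]

theorem q0 (hC : OC Q) : Q 0 = 0 := by
  have h := hC.sm 0 0
  rw [zero_smul, zero_pow two_ne_zero, zero_mul] at h
  exact h

theorem zl (hC : OC Q) (v : Fin n → F) : polar Q 0 v = 0 := by
  have h := hC.sl 0 0 v
  rw [zero_smul, zero_mul] at h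
  exact h

theorem zr (hC : OC Q) (v : Fin n → F) : polar Q v 0 = 0 := by
  rw [bc v 0, zl hC]

theorem nl (hC : OC Q) (x v : Fin n → F) : polar Q (-x) v = - polar Q x v := by
  have h := hC.sl (-1) x v
  rw [neg_one_smul, neg_one_mul] at h
  exact h

theorem nr (hC : OC Q) (x v : Fin n → F) : polar Q v (-x) = - polar Q v x := by
  rw [bc v (-x), nl hC, bc x v]

theorem subl (hC : OC Q) (x y v : Fin n → F) :
    polar Q (x - y) v = polar Q x v - polar Q y v := by
  rw [sub_eq_add_neg, hC.al, nl hC, ← sub_eq_add_neg]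

theorem subr (hC : OC Q) (x y v : Fin n → F) :
    polar Q v (x - y) = polar Q v x - polar Q v y := by
  rw [bc v (x - y), subl hC, bc x v, bc y v]

theorem qadd (Q : (Fin n → F) → F) (x y : Fin n → F) :
    Q (x + y) = Q x + Q y + polar Q x y := by
  unfold polar
  ring

theorem bxx (hC : OC Q) (x : Fin n → F) : polar Q x x = 0 := by
  have h1 : x + x = 0 := by rw [← two_smul F x, hC.two, zero_smul]
  have h2 : Q x + Q x = 0 := by rw [← two_mul, hC.two, zero_mul]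
  unfold polar
  rw [h1, q0 hC]
  linear_combination (-1 : F) * h2

theorem dbl (hC : OC Q) (a : F) : a + a = 0 := by rw [← two_mul, hC.two, zero_mul]

/-- The Siegel map. -/
def sg (Q : (Fin n → F) → F) (u w x : Fin n → F) : Fin n → F :=
  x + polar Q x w • u - polar Q x u • w - (Q w * polar Q x u) • u

theorem sg_pol (hC : OC Q) (u w x y : Fin n → F) :
    polar Q (sg Q u w x) y = polar Q x y + polar Q x w * polar Q u y - polar Q x u * polar Q w y
      - Q w * polar Q x u * polar Q u y := by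
  unfold sg
  simp only [subl hC, hC.al, hC.sl]

theorem sg_q (hC : OC Q) (u w x : Fin n → F) (hu : Q u = 0) (huw : polar Q u w = 0) :
    Q (sg Q u w x) = Q x := by
  have e : sg Q u w x = x + ((polar Q x w - Q w * polar Q x u) • u + (- polar Q x u) • w) := by
    unfold sg
    ext i
    simp only [Pi.add_apply, Pi.sub_apply, Pi.smul_apply, smul_eq_mul]
    ring
  rw [e, qadd Q, qadd Q, hC.sm, hC.sm, hu]
  simp only [ar hC, sr hC, hC.sl, huw]
  ring

theorem sg_comp (hC : OC Q) (u a b x : Fin n → F) (hua : polar Q u a = 0)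
    (hub : polar Q u b = 0) : sg Q u a (sg Q u b x) = sg Q u (a + b) x := by
  have huu : polar Q u u = 0 := bxx hC u
  have hbu : polar Q b u = 0 := by rw [bc b u]; exact hub
  have h1 : polar Q (sg Q u b x) u = polar Q x u := by
    rw [sg_pol hC, huu, hbu]; ring
  have h2 : polar Q (sg Q u b x) a = polar Q x a - polar Q x u * polar Q b a := by
    rw [sg_pol hC, hua]; ring
  have h3 : sg Q u a (sg Q u b x) = sg Q u b x + polar Q (sg Q u b x) a • u
      - polar Q (sg Q u b x) u • a - (Q a * polar Q (sg Q u b x) u) • u := rfl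
  rw [h3, h1, h2]
  unfold sg
  rw [qadd Q a b]
  simp only [ar hC]
  rw [bc b a]
  ext i
  simp only [Pi.add_apply, Pi.sub_apply, Pi.smul_apply, smul_eq_mul]
  ring

theorem sg_zero (hC : OC Q) (u x : Fin n → F) : sg Q u 0 x = x := by
  unfold sg
  rw [zr hC, q0 hC]
  simp

/-- The Siegel map as a linear map. -/
def sgL (hC : OC Q) (u w : Fin n → F) : (Fin n → F) →ₗ[F] (Fin n → F) where
  toFun x := sg Q u w x
  map_add' x y := by
    unfold sg
    simp only [hC.al]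
    ext i
    simp only [Pi.add_apply, Pi.sub_apply, Pi.smul_apply, smul_eq_mul]
    ring
  map_smul' c x := by
    unfold sg
    simp only [hC.sl, RingHom.id_apply]
    ext i
    simp only [Pi.add_apply, Pi.sub_apply, Pi.smul_apply, smul_eq_mul]
    ring

theorem sg_gl (hC : OC Q) (u w : Fin n → F) (huw : polar Q u w = 0) :
    ∃ A : GL (Fin n) F, ∀ x, A.1 *ᵥ x = sg Q u w x := by
  have hunw : polar Q u (-w) = 0 := by rw [nr hC, huw, neg_zero]
  have h1 : ∀ x, sgL hC u w (sgL hC u (-w) x) = x := by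
    intro x
    show sg Q u w (sg Q u (-w) x) = x
    rw [sg_comp hC u w (-w) x huw hunw, add_neg_cancel, sg_zero hC]
  have h2 : ∀ x, sgL hC u (-w) (sgL hC u w x) = x := by
    intro x
    show sg Q u (-w) (sg Q u w x) = x
    rw [sg_comp hC u (-w) w x hunw huw, neg_add_cancel, sg_zero hC]
  refine ⟨⟨LinearMap.toMatrix' (sgL hC u w), LinearMap.toMatrix' (sgL hC u (-w)), ?_, ?_⟩, ?_⟩
  · rw [← LinearMap.toMatrix'_comp, ← LinearMap.toMatrix'_id]
    congr 1
    exact LinearMap.ext h1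
  · rw [← LinearMap.toMatrix'_comp, ← LinearMap.toMatrix'_id]
    congr 1
    exact LinearMap.ext h2
  · intro x
    show LinearMap.toMatrix' (sgL hC u w) *ᵥ x = sg Q u w x
    rw [← Matrix.toLin'_apply, Matrix.toLin'_toMatrix']
    rfl

theorem mem_iso (A : GL (Fin n) F) :
    A ∈ Cfsg.isometryGroup F Q ↔ ∀ x, Q (A.1 *ᵥ x) = Q x :=
  ⟨fun h x => h x x, fun h x _ => h x⟩

theorem pol_iso (A : GL (Fin n) F) (h : ∀ x, Q (A.1 *ᵥ x) = Q x) (x y : Fin n → F) :
    polar Q (A.1 *ᵥ x) (A.1 *ᵥ y) = polar Q x y := by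
  unfold polar
  rw [← Matrix.mulVec_add, h, h, h]

theorem sg_conj (A : GL (Fin n) F) (h : ∀ x, Q (A.1 *ᵥ x) = Q x) (u w x : Fin n → F) :
    A.1 *ᵥ (sg Q u w x) = sg Q (A.1 *ᵥ u) (A.1 *ᵥ w) (A.1 *ᵥ x) := by
  unfold sg
  rw [pol_iso A h, pol_iso A h, h, Matrix.mulVec_sub, Matrix.mulVec_sub, Matrix.mulVec_add,
    Matrix.mulVec_smul, Matrix.mulVec_smul, Matrix.mulVec_smul]

/-- The polar form as a bilinear form. -/
def bf (hC : OC Q) : LinearMap.BilinForm F (Fin n → F) :=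
  LinearMap.mk₂ F (polar Q) hC.al (fun c x v => by rw [smul_eq_mul]; exact hC.sl c x v) (ar hC)
    (fun c x v => by rw [smul_eq_mul]; exact sr hC c x v)

theorem niso (hC : OC Q) (W : Submodule F (Fin n → F)) (hW : Module.finrank F W ≤ 6) :
    ∃ p t, (∀ w ∈ W, polar Q w p = 0) ∧ (∀ w ∈ W, polar Q w t = 0) ∧ polar Q p t ≠ 0 := by
  by_contra hcon
  push Not at hcon
  have hker : LinearMap.ker (bf hC) = ⊥ := by
    rw [LinearMap.ker_eq_bot']
    intro m hm
    by_contra hne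
    obtain ⟨x, hx⟩ := hC.nd m hne
    apply hx
    rw [bc x m]
    have h := LinearMap.congr_fun hm x
    exact h
  have h1 := LinearMap.BilinForm.finrank_add_finrank_orthogonal' (B := bf hC) W
  have h2 := LinearMap.BilinForm.finrank_add_finrank_orthogonal' (B := bf hC)
    ((bf hC).orthogonal W)
  rw [hker, inf_bot_eq, finrank_bot, add_zero] at h1 h2
  have h3 : (bf hC).orthogonal W ≤ (bf hC).orthogonal ((bf hC).orthogonal W) := by
    intro p hp
    rw [LinearMap.BilinForm.mem_orthogonal_iff]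
    intro t ht
    exact hcon t p (fun w hw => ht w hw) (fun w hw => hp w hw)
  have h4 := Submodule.finrank_mono h3
  have h5 : Module.finrank F (Fin n → F) = n := by simp
  have h6 := hC.dim
  omega

theorem pq (hC : OC Q) (W : Submodule F (Fin n → F)) (hW : Module.finrank F W ≤ 6) (r : F) :
    ∃ s, (∀ w ∈ W, polar Q w s = 0) ∧ Q s = r := by
  obtain ⟨p, t, hp, ht, hpt⟩ := niso hC W hW
  have hex : ∃ t₀, (∀ w ∈ W, polar Q w t₀ = 0) ∧ Q t₀ ≠ 0 := by
    by_cases h1 : Q p = 0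
    · by_cases h2 : Q t = 0
      · refine ⟨p + t, fun w hw => by rw [ar hC, hp w hw, ht w hw, add_zero], ?_⟩
        rw [qadd Q, h1, h2, zero_add, zero_add]
        exact hpt
      · exact ⟨t, ht, h2⟩
    · exact ⟨p, hp, h1⟩
  obtain ⟨t₀, ht₀, hq⟩ := hex
  obtain ⟨b, hb⟩ := hC.sq (r / Q t₀)
  refine ⟨b • t₀, fun w hw => by rw [sr hC, ht₀ w hw, mul_zero], ?_⟩
  rw [hC.sm, hb, div_mul_cancel₀ _ hq]

theorem pq6 (hC : OC Q) (a b c d e f : Fin n → F) (r : F) :
    ∃ s, polar Q a s = 0 ∧ polar Q b s = 0 ∧ polar Q c s = 0 ∧ polar Q d s = 0 ∧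
      polar Q e s = 0 ∧ polar Q f s = 0 ∧ Q s = r := by
  obtain ⟨s, hs, hr⟩ := pq hC (Submodule.span F (Set.range ![a, b, c, d, e, f])) (by
    have h := finrank_range_le_card (R := F) ![a, b, c, d, e, f]
    simpa [Set.finrank] using h) r
  have h : ∀ i, polar Q (![a, b, c, d, e, f] i) s = 0 :=
    fun i => hs _ (Submodule.subset_span ⟨i, rfl⟩)
  exact ⟨s, h 0, h 1, h 2, h 3, h 4, h 5, hr⟩

theorem hyp (hC : OC Q) (a b c d : Fin n → F) :
    ∃ e t, Q e = 0 ∧ Q t = 0 ∧ polar Q t e = 1 ∧ polar Q a e = 0 ∧ polar Q b e = 0 ∧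
      polar Q c e = 0 ∧ polar Q d e = 0 ∧ polar Q a t = 0 ∧ polar Q b t = 0 ∧
      polar Q c t = 0 ∧ polar Q d t = 0 := by
  obtain ⟨p, t, hp, ht, hpt⟩ := niso hC (Submodule.span F (Set.range ![a, b, c, d])) (by
    have h := finrank_range_le_card (R := F) ![a, b, c, d]
    have h2 : Module.finrank F (Submodule.span F (Set.range ![a, b, c, d])) ≤ 4 := by
      simpa [Set.finrank] using h
    omega)
  have hp' : ∀ i, polar Q (![a, b, c, d] i) p = 0 :=
    fun i => hp _ (Submodule.subset_span ⟨i, rfl⟩)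
  have ht' : ∀ i, polar Q (![a, b, c, d] i) t = 0 :=
    fun i => ht _ (Submodule.subset_span ⟨i, rfl⟩)
  have hpa : polar Q a p = 0 := hp' 0
  have hpb : polar Q b p = 0 := hp' 1
  have hpc : polar Q c p = 0 := hp' 2
  have hpd : polar Q d p = 0 := hp' 3
  have hta : polar Q a t = 0 := ht' 0
  have htb : polar Q b t = 0 := ht' 1
  have htc : polar Q c t = 0 := ht' 2
  have htd : polar Q d t = 0 := ht' 3
  obtain ⟨s, hs1, hs2, hs3, hs4, hs5, hs6, hsq⟩ := pq6 hC a b c d p t (Q p)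
  have hQe : Q (p + s) = 0 := by
    rw [qadd Q, hsq, hs5, add_zero]
    exact dbl hC _
  have hte : polar Q t (p + s) ≠ 0 := by
    rw [ar hC, hs6, add_zero, bc t p]
    exact hpt
  obtain ⟨κ, hκ⟩ : ∃ κ : F, κ = (polar Q t (p + s))⁻¹ := ⟨_, rfl⟩
  have hκe : polar Q (κ • t) (p + s) = 1 := by rw [hC.sl, hκ, inv_mul_cancel₀ hte]
  have he : ∀ x, polar Q x p = 0 → polar Q x s = 0 → polar Q x (p + s) = 0 :=
    fun x h1 h2 => by rw [ar hC, h1, h2, add_zero]
  have ht2 : ∀ x, polar Q x t = 0 → polar Q x (p + s) = 0 →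
      polar Q x (κ • t + Q (κ • t) • (p + s)) = 0 :=
    fun x h1 h2 => by rw [ar hC, sr hC, sr hC, h1, h2, mul_zero, mul_zero, add_zero]
  refine ⟨p + s, κ • t + Q (κ • t) • (p + s), hQe, ?_, ?_, he a hpa hs1, he b hpb hs2,
    he c hpc hs3, he d hpd hs4, ht2 a hta (he a hpa hs1), ht2 b htb (he b hpb hs2),
    ht2 c htc (he c hpc hs3), ht2 d htd (he d hpd hs4)⟩
  · rw [qadd Q, hC.sm (Q (κ • t)), hQe, sr hC, hκe, mul_zero, add_zero, mul_one]
    exact dbl hC _
  · rw [hC.al, hC.sl (Q (κ • t)), bxx hC, mul_zero, add_zero]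
    exact hκe

theorem sep (hC : OC Q) (W : Submodule F (Fin n → F)) (x : Fin n → F) (hx : x ∉ W) :
    ∃ y, (∀ w ∈ W, polar Q y w = 0) ∧ polar Q y x ≠ 0 := by
  by_contra hcon
  push Not at hcon
  apply hx
  have hnd : (bf hC).Nondegenerate := by
    refine ⟨fun a ha => ?_, fun a ha => ?_⟩
    · by_contra hne
      obtain ⟨y, hy⟩ := hC.nd a hne
      apply hy
      rw [bc y a]
      exact ha y
    · by_contra hne
      obtain ⟨y, hy⟩ := hC.nd a hne
      exact hy (ha y)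
  have hrefl : (bf hC).IsRefl := by
    intro a b h
    show polar Q b a = 0
    rw [bc b a]
    exact h
  rw [← LinearMap.BilinForm.orthogonal_orthogonal hnd hrefl W]
  rw [LinearMap.BilinForm.mem_orthogonal_iff]
  intro y hy
  exact hcon y (fun w hw => by rw [bc y w]; exact hy w hw)

theorem sep2 (hC : OC Q) (a b x : Fin n → F) (hx : ∀ α β : F, x ≠ α • a + β • b) :
    ∃ y, polar Q y a = 0 ∧ polar Q y b = 0 ∧ polar Q y x ≠ 0 := by
  obtain ⟨y, hy, hyx⟩ := sep hC (Submodule.span F {a, b}) x (by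
    intro hmem
    obtain ⟨α, β, h⟩ := Submodule.mem_span_pair.1 hmem
    exact hx α β h.symm)
  exact ⟨y, hy a (Submodule.subset_span (by simp)), hy b (Submodule.subset_span (by simp)), hyx⟩

theorem qneg (hC : OC Q) (x : Fin n → F) : Q (-x) = Q x := by
  have h := hC.sm (-1) x
  rw [neg_one_smul] at h
  rw [h]
  ring

theorem omega_le (Q : (Fin n → F) → F) : Cfsg.Geo.omegaGL Q ≤ Cfsg.isometryGroup F Q := by
  unfold Cfsg.Geo.omegaGL
  exact Subgroup.map_subtype_le _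

theorem sg_mem (hC : OC Q) (u w : Fin n → F) (hu : Q u = 0) (huw : polar Q u w = 0) :
    ∃ A ∈ Cfsg.Geo.omegaGL Q, ∀ x, A.1 *ᵥ x = sg Q u w x := by
  obtain ⟨e, t, hQe, hQt, hte, hue, hwe, -, -, hut, hwt, -, -⟩ := hyp hC u w w w
  have hz : ∃ z, polar Q z u = 0 ∧ polar Q z e = 0 ∧ polar Q z w = - Q w := by
    by_cases hQw : Q w = 0
    · exact ⟨0, zl hC u, zl hC e, by rw [zl hC, hQw, neg_zero]⟩
    · obtain ⟨z₀, h1, h2, h3⟩ := sep2 hC u e w (by
        intro α β h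
        apply hQw
        rw [h, qadd Q, hC.sm, hC.sm, hu, hQe, hC.sl, sr hC, hue]
        ring)
      refine ⟨(- Q w / polar Q z₀ w) • z₀, by rw [hC.sl, h1, mul_zero],
        by rw [hC.sl, h2, mul_zero], ?_⟩
      rw [hC.sl, div_mul_cancel₀ _ h3]
  obtain ⟨z, hzu, hze, hzw⟩ := hz
  obtain ⟨w', hw'⟩ : ∃ w' : Fin n → F, w' = (-1 : F) • w + (- Q w) • e := ⟨_, rfl⟩
  obtain ⟨w'', hw''⟩ : ∃ w'' : Fin n → F, w'' = t + z := ⟨_, rfl⟩
  have hew' : polar Q e w' = 0 := by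
    rw [hw', ar hC, sr hC, sr hC, bc e w, hwe, bxx hC, mul_zero, mul_zero, add_zero]
  have huw' : polar Q u w' = 0 := by
    rw [hw', ar hC, sr hC, sr hC, huw, hue, mul_zero, mul_zero, add_zero]
  have hQw' : Q w' = Q w := by
    rw [hw', qadd Q, hC.sm, hC.sm, hQe, hC.sl, sr hC, hwe]
    ring
  have huw'' : polar Q u w'' = 0 := by
    rw [hw'', ar hC, hut, bc u z, hzu, add_zero]
  have hw''e : polar Q w'' e = 1 := by
    rw [hw'', hC.al, hte, hze, add_zero]
  have hw''w' : polar Q w'' w' = 0 := by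
    rw [hw'', hw', hC.al, ar hC, ar hC, sr hC, sr hC, sr hC, sr hC, hte, hze, hzw, bc t w, hwt]
    ring
  obtain ⟨h, hh⟩ := sg_gl hC e w' hew'
  obtain ⟨Bm, hBm⟩ := sg_gl hC u w'' huw''
  obtain ⟨C, hCa⟩ := sg_gl hC u w huw
  have hhi : ∀ x, Q (h.1 *ᵥ x) = Q x := fun x => by rw [hh, sg_q hC e w' x hQe hew']
  have hBi : ∀ x, Q (Bm.1 *ᵥ x) = Q x := fun x => by rw [hBm, sg_q hC u w'' x hu huw'']
  have hhu : h.1 *ᵥ u = u := by
    rw [hh]
    unfold sg
    rw [huw', hue]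
    simp
  have hhw : h.1 *ᵥ w'' = w + w'' := by
    rw [hh]
    unfold sg
    rw [hw''w', hw''e, hQw', hw']
    ext i
    simp only [Pi.add_apply, Pi.sub_apply, Pi.smul_apply, smul_eq_mul]
    ring
  have hcomm : h * Bm = C * Bm * h := by
    apply S5631.gl_ext_mulVec
    intro x
    simp only [Units.val_mul, ← Matrix.mulVec_mulVec]
    rw [hBm x, sg_conj h hhi, hhu, hhw, ← sg_comp hC u w w'' _ huw huw'', hBm, hCa]
  have hCeq : C = ⁅h, Bm⁆ := by
    rw [commutatorElement_def, hcomm]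
    group
  refine ⟨C, ?_, hCa⟩
  rw [DiagOrth.omega_eq, hCeq]
  exact Subgroup.commutator_mem_commutator ((mem_iso h).2 hhi) ((mem_iso Bm).2 hBi)

theorem T1 (hC : OC Q) (v y y' : Fin n → F) (hQ : Q y' = Q y)
    (hB : polar Q v y' = polar Q v y) (hind : ∀ α β : F, y ≠ α • v + β • (y' - y)) :
    ∃ A ∈ Cfsg.Geo.omegaGL Q, A.1 *ᵥ v = v ∧ A.1 *ᵥ y = y' := by
  obtain ⟨u₀, hu₀v, hu₀d, hu₀y⟩ := sep2 hC v (y' - y) y hind
  obtain ⟨s, hs1, hs2, hs3, hs4, -, -, hsq⟩ := pq6 hC v (y' - y) y u₀ u₀ u₀ (Q u₀)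
  have hQu : Q (u₀ + s) = 0 := by
    rw [qadd Q, hsq, hs4, add_zero]
    exact dbl hC _
  have huv : polar Q v (u₀ + s) = 0 := by rw [ar hC, bc v u₀, hu₀v, hs1, add_zero]
  have hud : polar Q (y' - y) (u₀ + s) = 0 := by
    rw [ar hC, bc (y' - y) u₀, hu₀d, hs2, add_zero]
  have hyu : polar Q y (u₀ + s) ≠ 0 := by
    rw [ar hC, hs3, add_zero, bc y u₀]
    exact hu₀y
  obtain ⟨u, hu⟩ : ∃ u : Fin n → F, u = u₀ + s := ⟨_, rfl⟩
  rw [← hu] at hQu huv hud hyu
  obtain ⟨β, hβ⟩ : ∃ β : F, β = polar Q y u := ⟨_, rfl⟩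
  have hβ0 : β ≠ 0 := by rw [hβ]; exact hyu
  obtain ⟨w, hw⟩ : ∃ w : Fin n → F, w = (-β⁻¹) • (y' - y) := ⟨_, rfl⟩
  have huw : polar Q u w = 0 := by rw [hw, sr hC, bc u (y' - y), hud, mul_zero]
  obtain ⟨A, hA, hAx⟩ := sg_mem hC u w hQu huw
  refine ⟨A, hA, ?_, ?_⟩
  · rw [hAx]
    unfold sg
    have h1 : polar Q v w = 0 := by rw [hw, sr hC, subr hC, hB, sub_self, mul_zero]
    rw [h1, huv]
    simp
  · rw [hAx]
    unfold sg
    have hd : Q (y' - y) = - polar Q y (y' - y) := by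
      have h2 := qadd Q y (y' - y)
      rw [add_sub_cancel, hQ] at h2
      linear_combination -h2
    rw [hw, sr hC, hC.sm, hd, ← hβ]
    ext i
    simp only [Pi.add_apply, Pi.sub_apply, Pi.smul_apply, smul_eq_mul]
    field_simp
    ring

theorem T (hC : OC Q) (v y y' : Fin n → F) (hQ : Q y' = Q y) (hB : polar Q v y' = polar Q v y)
    (hy : ∀ α : F, y ≠ α • v) (hy' : ∀ α : F, y' ≠ α • v) :
    ∃ A ∈ Cfsg.Geo.omegaGL Q, A.1 *ᵥ v = v ∧ A.1 *ᵥ y = y' := by
  obtain ⟨e, t, hQe, hQt, hte, hve, hye, hy'e, -, hvt, hyt, hy't, -⟩ := hyp hC v y y' y'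
  have hQ'' : Q (y + e) = Q y := by rw [qadd Q, hQe, hye, add_zero, add_zero]
  have hB'' : polar Q v (y + e) = polar Q v y := by rw [ar hC, hve, add_zero]
  obtain ⟨A₁, hA₁, hA₁v, hA₁y⟩ := T1 hC v y (y + e) hQ'' hB'' (by
    intro α β h
    rw [add_sub_cancel_left] at h
    have h2 : polar Q t y = polar Q t (α • v + β • e) := by rw [← h]
    rw [ar hC, sr hC, sr hC, hte, bc t y, hyt, bc t v, hvt] at h2
    have hβ : β = 0 := by linear_combination -h2
    rw [hβ, zero_smul, add_zero] at h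
    exact hy α h)
  obtain ⟨A₂, hA₂, hA₂v, hA₂y⟩ := T1 hC v y' (y + e) (by rw [hQ'', hQ]) (by rw [hB'', hB]) (by
    intro α β h
    have h2 : polar Q t y' = polar Q t (α • v + β • (y + e - y')) := by rw [← h]
    rw [ar hC, sr hC, sr hC, subr hC, ar hC, hte, bc t y', hy't, bc t v, hvt, bc t y, hyt] at h2
    have hβ : β = 0 := by linear_combination -h2
    rw [hβ, zero_smul, add_zero] at h
    exact hy' α h)
  refine ⟨A₂⁻¹ * A₁, (Cfsg.Geo.omegaGL Q).mul_mem ((Cfsg.Geo.omegaGL Q).inv_mem hA₂) hA₁,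
    ?_, ?_⟩
  · rw [Units.val_mul, ← Matrix.mulVec_mulVec, hA₁v]
    have h3 := SlSp.inv_act A₂ v
    rw [hA₂v] at h3
    exact h3
  · rw [Units.val_mul, ← Matrix.mulVec_mulVec, hA₁y, ← hA₂y, SlSp.inv_act]

theorem D (hC : OC Q) (v y : Fin n → F) (c : F) (hy : ∀ α : F, y ≠ α • v) (hv0 : v ≠ 0) :
    ∃ z, Q z = Q v ∧ polar Q v z = c ∧ polar Q z y = c ∧ (∀ α : F, z ≠ α • v) ∧
      (∀ α : F, y ≠ α • z) := by
  obtain ⟨a, hay, -, hav⟩ := sep2 hC y y v (by
    intro α β h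
    rw [← add_smul] at h
    by_cases h0 : α + β = 0
    · rw [h0, zero_smul] at h
      exact hv0 h
    · apply hy (α + β)⁻¹
      rw [h, smul_smul, inv_mul_cancel₀ h0, one_smul])
  obtain ⟨b, hbv, -, hby⟩ := sep2 hC v v y (by
    intro α β h
    rw [← add_smul] at h
    exact hy _ h)
  obtain ⟨z₀, hz₀⟩ : ∃ z₀ : Fin n → F,
      z₀ = (c / polar Q a v) • a + (c / polar Q b y) • b := ⟨_, rfl⟩
  have hvz₀ : polar Q v z₀ = c := by
    rw [hz₀, ar hC, sr hC, sr hC, bc v a, bc v b, hbv, mul_zero, add_zero,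
      div_mul_cancel₀ _ hav]
  have hyz₀ : polar Q y z₀ = c := by
    rw [hz₀, ar hC, sr hC, sr hC, bc y a, bc y b, hay, mul_zero, zero_add,
      div_mul_cancel₀ _ hby]
  obtain ⟨e, t, hQe, hQt, hte, hve, hye, hze, -, hvt, hyt, hzt, -⟩ := hyp hC v y z₀ z₀
  obtain ⟨r, hr⟩ : ∃ r : F, r = Q v - Q z₀ := ⟨_, rfl⟩
  have htz : polar Q t (z₀ + (e + r • t)) = 1 := by
    rw [ar hC, ar hC, sr hC, hte, bxx hC, bc t z₀, hzt, mul_zero, add_zero, zero_add]
  refine ⟨z₀ + (e + r • t), ?_, ?_, ?_, ?_, ?_⟩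
  · rw [qadd Q, qadd Q e, hC.sm, hQe, hQt, sr hC, bc e t, hte, ar hC, sr hC, hze, hzt, hr]
    ring
  · rw [ar hC, ar hC, sr hC, hvz₀, hve, hvt, mul_zero, add_zero, add_zero]
  · rw [bc (z₀ + (e + r • t)) y, ar hC, ar hC, sr hC, hyz₀, hye, hyt, mul_zero, add_zero,
      add_zero]
  · intro α h
    have h2 : polar Q t (z₀ + (e + r • t)) = polar Q t (α • v) := by rw [← h]
    rw [htz, sr hC, bc t v, hvt, mul_zero] at h2
    exact one_ne_zero h2
  · intro α h
    have h2 : polar Q t y = polar Q t (α • (z₀ + (e + r • t))) := by rw [← h]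
    rw [sr hC, htz, mul_one, bc t y, hyt] at h2
    apply hy 0
    rw [h, ← h2, zero_smul, zero_smul]

theorem mem_stab_iff (W : Submodule F (Fin n → F)) (g : GL (Fin n) F) :
    g ∈ Cfsg.Geo.subspaceStabilizer W ↔ ∀ x : Fin n → F, x ∈ W ↔ g.1 *ᵥ x ∈ W := Iff.rfl

theorem stab_of (v : Fin n → F) (A : GL (Fin n) F) (l : F) (hl : l ≠ 0)
    (h : A.1 *ᵥ v = l • v) : A ∈ Cfsg.Geo.subspaceStabilizer (Submodule.span F {v}) := by
  rw [mem_stab_iff]
  intro x
  constructor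
  · intro hx
    obtain ⟨a, rfl⟩ := Submodule.mem_span_singleton.1 hx
    rw [Matrix.mulVec_smul, h]
    exact Submodule.smul_mem _ _ (Submodule.smul_mem _ _ (Submodule.mem_span_singleton_self v))
  · intro hx
    obtain ⟨a, ha⟩ := Submodule.mem_span_singleton.1 hx
    have h2 : (A⁻¹).1 *ᵥ v = l⁻¹ • v := by
      have h3 := SlSp.inv_act A (l⁻¹ • v)
      rw [Matrix.mulVec_smul, h, smul_smul, inv_mul_cancel₀ hl, one_smul] at h3
      exact h3
    have h4 : x = (A⁻¹).1 *ᵥ (a • v) := by rw [ha, SlSp.inv_act]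
    rw [h4, Matrix.mulVec_smul, h2]
    exact Submodule.smul_mem _ _ (Submodule.smul_mem _ _ (Submodule.mem_span_singleton_self v))

theorem main [Fintype F] (hn : 13 ≤ n) (Q : (Fin n → F) → F)
    (hQ : Cfsg.Geo.IsNondegenerateQuadraticForm Q) (hodd : ¬ Odd (Fintype.card F))
    (v : Fin n → F) (hv : Q v ≠ 0) :
    Cfsg.Geo.IsMaximalIn (Cfsg.Geo.omegaGL Q)
      (Cfsg.Geo.subspaceStabilizer (Submodule.span F {v}) ⊓ Cfsg.Geo.omegaGL Q) := by
  classical
  have hchar : ringChar F = 2 := by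
    rw [FiniteField.even_card_iff_char_two]
    rcases Nat.even_or_odd (Fintype.card F) with h | h
    · exact Nat.even_iff.1 h
    · exact absurd h hodd
  have h2 : (2 : F) = 0 := by
    have h3 := CharP.cast_eq_zero F (ringChar F)
    rw [hchar] at h3
    exact_mod_cast h3
  have hC : OC Q := ⟨hQ.smul, hQ.polar_bilinear.add_left, hQ.polar_bilinear.smul_left,
    fun x hx => (hQ.nondegenerate x hx).1, h2, fun a => by
      obtain ⟨r, hr⟩ := FiniteField.isSquare_of_char_two hchar a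
      exact ⟨r, by rw [pow_two]; exact hr.symm⟩, hn⟩
  have hv0 : v ≠ 0 := fun h => hv (by rw [h, q0 hC])
  have hiso : ∀ A ∈ Cfsg.Geo.omegaGL Q, ∀ x, Q (A.1 *ᵥ x) = Q x :=
    fun A hA => (mem_iso A).1 (omega_le Q hA)
  have hne0 : ∀ (A : GL (Fin n) F) (α : F), A.1 *ᵥ v = α • v → α ≠ 0 := by
    intro A α hα h0
    rw [h0, zero_smul] at hα
    have h3 := SlSp.inv_act A v
    rw [hα, Matrix.mulVec_zero] at h3
    exact hv0 h3.symm
  constructor
  · refine lt_of_le_of_ne inf_le_right ?_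
    intro heq
    obtain ⟨a, ha⟩ := hC.nd v hv0
    obtain ⟨s, hs1, hs2, -, -, -, -, hsq⟩ := pq6 hC v a a a a a (Q a)
    have hQu : Q (a + s) = 0 := by
      rw [qadd Q, hsq, hs2, add_zero]
      exact dbl hC _
    have hvu : polar Q v (a + s) ≠ 0 := by
      rw [ar hC, hs1, add_zero, bc v a]
      exact ha
    obtain ⟨e, t, hQe, hQt, hte, hve, hue, -, -, hvt, hut, -, -⟩ := hyp hC v (a + s) v v
    obtain ⟨A, hA, hAx⟩ := sg_mem hC (a + s) e hQu hue
    have hAS : A ∈ Cfsg.Geo.subspaceStabilizer (Submodule.span F {v}) ⊓ Cfsg.Geo.omegaGL Q := by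
      rw [heq]
      exact hA
    have h3 := ((mem_stab_iff _ A).1 hAS.1 v).1 (Submodule.mem_span_singleton_self v)
    obtain ⟨l, hl⟩ := Submodule.mem_span_singleton.1 h3
    have h4 : A.1 *ᵥ v = v - polar Q v (a + s) • e := by
      rw [hAx]
      unfold sg
      rw [hve, hQe]
      simp
    rw [h4] at hl
    have h5 : polar Q t (l • v) = polar Q t (v - polar Q v (a + s) • e) := by rw [hl]
    rw [sr hC, subr hC, sr hC, hte, bc t v, hvt] at h5
    apply hvu
    linear_combination h5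
  · intro M hSM hMΩ
    by_cases hMS : M ≤ Cfsg.Geo.subspaceStabilizer (Submodule.span F {v}) ⊓ Cfsg.Geo.omegaGL Q
    · exact Or.inl (le_antisymm hMS hSM)
    · right
      apply le_antisymm hMΩ
      obtain ⟨g, hgM, hgS⟩ := SetLike.not_le_iff_exists.1 hMS
      have hgst : g ∉ Cfsg.Geo.subspaceStabilizer (Submodule.span F {v}) :=
        fun h => hgS ⟨h, hMΩ hgM⟩
      have hgv : ∀ α : F, g.1 *ᵥ v ≠ α • v := by
        intro α hα
        exact hgst (stab_of v g α (hne0 g α hα) hα)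
      have hSle : ∀ A ∈ Cfsg.Geo.omegaGL Q, A.1 *ᵥ v = v → A ∈ M := by
        intro A hA hAv
        apply hSM
        exact ⟨stab_of v A 1 one_ne_zero (by rw [hAv, one_smul]), hA⟩
      obtain ⟨c, hc⟩ : ∃ c : F, c = polar Q v (g.1 *ᵥ v) := ⟨_, rfl⟩
      have hgi := hiso g (hMΩ hgM)
      have hN : ∀ m ∈ M, ∀ y, Q y = Q v → polar Q (m.1 *ᵥ v) y = c →
          (∀ α : F, y ≠ α • (m.1 *ᵥ v)) → ∃ m' ∈ M, m'.1 *ᵥ v = y := by
        intro m hm y hQy hBy hyind
        have hmi := hiso m (hMΩ hm)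
        have hmi' := hiso m⁻¹ (hMΩ (M.inv_mem hm))
        obtain ⟨A, hA, hAv, hAy⟩ := T hC v (g.1 *ᵥ v) ((m⁻¹).1 *ᵥ y)
          (by rw [hmi', hQy, hgi])
          (by
            rw [← hc, ← hBy]
            have h6 := pol_iso m hmi v ((m⁻¹).1 *ᵥ y)
            rw [SlSp.act_inv] at h6
            exact h6.symm)
          hgv
          (by
            intro α hα
            apply hyind α
            have h6 := congrArg (fun z => m.1 *ᵥ z) hα
            simp only [SlSp.act_inv, Matrix.mulVec_smul] at h6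
            exact h6)
        refine ⟨m * A * g, M.mul_mem (M.mul_mem hm (hSle A hA hAv)) hgM, ?_⟩
        rw [Units.val_mul, Units.val_mul, ← Matrix.mulVec_mulVec, ← Matrix.mulVec_mulVec, hAy,
          SlSp.act_inv]
      have hT : ∀ y, Q y = Q v → (∀ α : F, y ≠ α • v) → ∃ m ∈ M, m.1 *ᵥ v = y := by
        intro y hQy hy
        obtain ⟨z, hQz, hvz, hzy, hzv, hyz⟩ := D hC v y c hy hv0
        obtain ⟨m₁, hm₁, hm₁v⟩ := hN 1 M.one_mem z hQz
          (by rw [Units.val_one, Matrix.one_mulVec]; exact hvz)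
          (by intro α; rw [Units.val_one, Matrix.one_mulVec]; exact hzv α)
        exact hN m₁ hm₁ y hQy (by rw [hm₁v]; exact hzy) (by rw [hm₁v]; exact hyz)
      intro h hh
      by_cases hhv : ∃ α : F, h.1 *ᵥ v = α • v
      · obtain ⟨α, hα⟩ := hhv
        exact hSM ⟨stab_of v h α (hne0 h α hα) hα, hh⟩
      · push Not at hhv
        obtain ⟨m, hm, hmv⟩ := hT (h.1 *ᵥ v) (hiso h hh v) hhv
        have h6 : (m⁻¹ * h) ∈ M := hSle _ ((Cfsg.Geo.omegaGL Q).mul_mem
          ((Cfsg.Geo.omegaGL Q).inv_mem (hMΩ hm)) hh) (by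
            rw [Units.val_mul, ← Matrix.mulVec_mulVec, ← hmv, SlSp.inv_act])
        have h7 : h = m * (m⁻¹ * h) := by group
        rw [h7]
        exact M.mul_mem hm h6

end Cfsg.Agent.Helper18.OrthNs
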