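import Mathlib
import Cfsg.Agent.S1003
import Cfsg.Agent.S0206
import Cfsg.Agent.Helper20.SimpleSylow
import Cfsg.Agent.Helper18.KleinCount
import Cfsg.Agent.Helper18.DihKlein
import Cfsg.Agent.Helper18.KleinClass
import Cfsg.Agent.Helper18.TransferTwo

set_option autoImplicit false
set_option linter.unusedSectionVars false
set_option linter.unusedVariables false

namespace Cfsg.Agent.Helper18.S168

open Cfsg.Agent.Helper18.KleinCount Cfsg.Agent.Helper18.KleinClass Cfsg.Agent.Helper18.DihKlein

section General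

theorem s168_card_fiber {α β : Type*} [Finite α] [Finite β] (f : α → β) (k : ℕ)
    (hf : ∀ b, Nat.card {a // f a = b} = k) : Nat.card α = k * Nat.card β := by
  classical
  have := Fintype.ofFinite β
  rw [Nat.card_congr (Equiv.sigmaFiberEquiv f).symm, Nat.card_sigma]
  simp only [hf, Finset.sum_const, Finset.card_univ, smul_eq_mul, Nat.card_eq_fintype_card]
  rw [mul_comm]

theorem s168_card_ne {α : Type*} [Finite α] (a : α) :
    Nat.card {x : α // x ≠ a} = Nat.card α - 1 := by
  classical
  have := Fintype.ofFinite α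
  rw [Nat.card_eq_fintype_card, Nat.card_eq_fintype_card, Fintype.card_subtype_compl,
    Fintype.card_subtype_eq]

theorem s168_count_prime {G : Type*} [Group G] [Finite G] (p : ℕ) [Fact p.Prime]
    (hP : ∀ P : Sylow p G, Nat.card (P : Subgroup G) = p) :
    Nat.card {g : G // orderOf g = p} = (p - 1) * Nat.card (Sylow p G) := by
  have hp : p.Prime := Fact.out
  have hex : ∀ g : {g : G // orderOf g = p}, ∃ P : Sylow p G,
      (P : Subgroup G) = Subgroup.zpowers g.1 := by
    intro g
    have hpg : IsPGroup p (Subgroup.zpowers g.1) :=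
      IsPGroup.of_card (n := 1) (by rw [Nat.card_zpowers, g.2, pow_one])
    obtain ⟨P, hle⟩ := hpg.exists_le_sylow
    refine ⟨P, (Subgroup.eq_of_le_of_card_ge hle ?_).symm⟩
    rw [hP P, Nat.card_zpowers, g.2]
  choose f hf using hex
  apply s168_card_fiber f
  intro P
  have h1 := s168_card_ne (1 : (P : Subgroup G))
  rw [hP P] at h1
  rw [← h1]
  have hord : ∀ x : {x : (P : Subgroup G) // x ≠ 1}, orderOf x.1.1 = p := by
    intro x
    have h2 : orderOf x.1.1 ∣ Nat.card (P : Subgroup G) :=
      Subgroup.orderOf_dvd_natCard _ x.1.2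
    rw [hP P] at h2
    rcases (Nat.dvd_prime hp).mp h2 with h3 | h3
    · exfalso
      apply x.2
      apply Subtype.ext
      exact orderOf_eq_one_iff.mp h3
    · exact h3
  refine Nat.card_congr ⟨fun g => ⟨⟨g.1.1, ?_⟩, ?_⟩, fun x => ⟨⟨x.1.1, hord x⟩, ?_⟩, ?_, ?_⟩
  · have h2 := hf g.1
    rw [g.2] at h2
    rw [h2]
    exact Subgroup.mem_zpowers _
  · intro h3
    have h4 : g.1.1 = 1 := congrArg Subtype.val h3
    have h5 := g.1.2
    rw [h4, orderOf_one] at h5
    exact hp.one_lt.ne h5
  · apply Sylow.ext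
    rw [hf]
    apply Subgroup.eq_of_le_of_card_ge
    · rw [Subgroup.zpowers_le]
      exact x.1.2
    · rw [Nat.card_zpowers]
      show Nat.card (P : Subgroup G) ≤ orderOf x.1.1
      rw [hord x, hP P]
  · intro g
    exact Subtype.ext (Subtype.ext rfl)
  · intro x
    exact Subtype.ext (Subtype.ext rfl)

theorem s168_count_class {G : Type*} [Group G] [Finite G] (P : G → Prop) (x : G)
    (hall : ∀ g, P g ↔ ∃ c : G, c * x * c⁻¹ = g) :
    Nat.card {g : G // P g} * Nat.card (Subgroup.centralizer ({x} : Set G)) = Nat.card G := by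
  rw [← kc_card_class x]
  congr 1
  apply Nat.card_congr
  apply Equiv.subtypeEquivRight
  intro g
  rw [hall, ConjClasses.mem_carrier_iff_mk_eq, eq_comm, ConjClasses.mk_eq_mk_iff_isConj,
    isConj_iff]

theorem s168_comm_of_mem_zpowers {G : Type*} [Group G] (x g : G)
    (hg : g ∈ Subgroup.zpowers x) : g * x = x * g := by
  obtain ⟨k, rfl⟩ := Subgroup.mem_zpowers_iff.mp hg
  exact (Commute.zpow_left (Commute.refl x) k).eq

theorem s168_cent_le_norm {G : Type*} [Group G] [Finite G] (x : G) :
    Subgroup.centralizer ({x} : Set G) ≤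
      Subgroup.normalizer ((Subgroup.zpowers x : Subgroup G) : Set G) := by
  intro g hg
  have hgx : g * x = x * g := (Subgroup.mem_centralizer_singleton_iff.mp hg)
  apply dk_mem_normalizer
  intro u hu
  obtain ⟨k, rfl⟩ := Subgroup.mem_zpowers_iff.mp hu
  have h1 : g * x * g⁻¹ = x := by rw [hgx, mul_inv_cancel_right]
  rw [← conj_zpow, h1]
  exact Subgroup.zpow_mem _ (Subgroup.mem_zpowers x) k

end General

section Basic

variable {G : Type*} [Group G] [Finite G] [IsSimpleGroup G]

theorem s168_syl7 (h : Nat.card G = 168) (P : Sylow 7 G) :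
    Nat.card (P : Subgroup G) = 7 ∧ (P : Subgroup G) ≠ ⊥ ∧ (P : Subgroup G) ≠ ⊤ ∧
      Nat.card (Subgroup.normalizer ((P : Subgroup G) : Set G)) = 21 := by
  have : Fact (Nat.Prime 7) := ⟨by norm_num⟩
  obtain ⟨h1, h2, h3, -, -, -, h4⟩ := Helper20.simple_sylow_basic 7 1 24 (h.trans (by norm_num))
    (by norm_num) (by norm_num) (by norm_num) P
  have h5 := (Cfsg.Agent.S1003.result h).2.2
  rw [h5, h] at h4
  exact ⟨by rw [h1]; norm_num, h2, h3, by omega⟩

theorem s168_syl3 (h : Nat.card G = 168) (P : Sylow 3 G) :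
    Nat.card (P : Subgroup G) = 3 ∧ (P : Subgroup G) ≠ ⊥ ∧ (P : Subgroup G) ≠ ⊤ ∧
      Nat.card (Subgroup.normalizer ((P : Subgroup G) : Set G)) = 6 := by
  have : Fact (Nat.Prime 3) := ⟨by norm_num⟩
  obtain ⟨h1, h2, h3, -, -, -, h4⟩ := Helper20.simple_sylow_basic 3 1 56 (h.trans (by norm_num))
    (by norm_num) (by norm_num) (by norm_num) P
  have h5 := (Cfsg.Agent.S1003.result h).2.1
  rw [h5, h] at h4
  exact ⟨by rw [h1]; norm_num, h2, h3, by omega⟩

theorem s168_syl2 (h : Nat.card G = 168) (P : Sylow 2 G) :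
    Nat.card (P : Subgroup G) = 8 ∧ (P : Subgroup G) ≠ ⊥ ∧ (P : Subgroup G) ≠ ⊤ ∧
      Subgroup.normalizer ((P : Subgroup G) : Set G) = (P : Subgroup G) := by
  have : Fact (Nat.Prime 2) := ⟨by norm_num⟩
  obtain ⟨h1, h2, h3, -, -, -, h4⟩ := Helper20.simple_sylow_basic 2 3 21 (h.trans (by norm_num))
    (by norm_num) (by norm_num) (by norm_num) P
  have h5 := (Cfsg.Agent.S1003.result h).1
  rw [h5, h] at h4
  have h6 : Nat.card (P : Subgroup G) = 8 := by rw [h1]; norm_num
  refine ⟨h6, h2, h3, ?_⟩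
  symm
  apply Subgroup.eq_of_le_of_card_ge Subgroup.le_normalizer
  rw [h6]
  omega

/-- every proper subgroup has index at least seven -/
theorem s168_index_ge (h : Nat.card G = 168) (H : Subgroup G) (hH : H ≠ ⊤) : 7 ≤ H.index := by
  have hcore : H.normalCore = ⊥ := by
    rcases H.normalCore_normal.eq_bot_or_eq_top with h1 | h1
    · exact h1
    · exfalso
      apply hH
      rw [eq_top_iff, ← h1]
      exact H.normalCore_le
  have h1 : H.normalCore.index ∣ H.index.factorial := by
    rw [Subgroup.normalCore_eq_ker, Subgroup.index_ker, Subgroup.index_eq_card, ← Nat.card_perm]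
    exact Subgroup.card_subgroup_dvd_card (MulAction.toPermHom G (G ⧸ H)).range
  rw [hcore, Subgroup.index_bot, h] at h1
  have h7 : 7 ∣ H.index.factorial := dvd_trans (by norm_num) h1
  exact (Nat.Prime.dvd_factorial (by norm_num)).mp h7

theorem s168_card_le (h : Nat.card G = 168) (H : Subgroup G) (hH : H ≠ ⊤) : Nat.card H ≤ 24 := by
  have h1 := s168_index_ge h H hH
  have h2 := H.card_mul_index
  rw [h] at h2
  by_contra hc
  push Not at hc
  have : 25 * 7 ≤ Nat.card H * H.index := Nat.mul_le_mul hc h1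
  omega

theorem s168_cent_gen (p q : ℕ) [Fact p.Prime] (hq : q.Prime) (P : Sylow p G)
    (hP1 : (P : Subgroup G) ≠ ⊥) (hP2 : (P : Subgroup G) ≠ ⊤)
    (hN : Nat.card (Subgroup.normalizer ((P : Subgroup G) : Set G)) = p * q)
    (x : G) (hx : Subgroup.zpowers x = (P : Subgroup G)) (hxp : orderOf x = p) :
    Subgroup.centralizer ({x} : Set G) = Subgroup.zpowers x := by
  have hp : p.Prime := Fact.out
  have hle : Subgroup.zpowers x ≤ Subgroup.centralizer ({x} : Set G) := by
    rw [Subgroup.zpowers_le]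
    exact Subgroup.mem_centralizer_singleton_iff.mpr rfl
  have hCN : Subgroup.centralizer ({x} : Set G) ≤
      Subgroup.normalizer ((P : Subgroup G) : Set G) := by
    rw [← hx]
    exact s168_cent_le_norm x
  have h1 := Subgroup.card_dvd_of_le hCN
  have h2 := Subgroup.card_dvd_of_le hle
  rw [hN] at h1
  rw [Nat.card_zpowers, hxp] at h2
  obtain ⟨m, hm⟩ := h2
  rw [hm] at h1
  have h3 : m ∣ q := Nat.dvd_of_mul_dvd_mul_left hp.pos h1
  rcases (Nat.dvd_prime hq).mp h3 with h4 | h4
  · symm
    apply Subgroup.eq_of_le_of_card_ge hle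
    rw [hm, h4, mul_one, Nat.card_zpowers, hxp]
  · exfalso
    have hCeq : Subgroup.centralizer ({x} : Set G) =
        Subgroup.normalizer ((P : Subgroup G) : Set G) := by
      apply Subgroup.eq_of_le_of_card_ge hCN
      rw [hN, hm, h4]
    apply Helper20.simple_not_burnside p P hP1 hP2
    intro g hg
    rw [← hCeq] at hg
    have hgx : g * x = x * g := Subgroup.mem_centralizer_singleton_iff.mp hg
    rw [Subgroup.mem_centralizer_iff]
    intro u hu
    rw [SetLike.mem_coe, ← hx] at hu
    obtain ⟨k, rfl⟩ := Subgroup.mem_zpowers_iff.mp hu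
    exact ((Commute.zpow_right (show Commute g x from hgx) k).eq).symm

theorem s168_zp7 (h : Nat.card G = 168) (x : G) (hx : orderOf x = 7) :
    ∃ P : Sylow 7 G, (P : Subgroup G) = Subgroup.zpowers x := by
  have : Fact (Nat.Prime 7) := ⟨by norm_num⟩
  have hpg : IsPGroup 7 (Subgroup.zpowers x) :=
    IsPGroup.of_card (n := 1) (by rw [Nat.card_zpowers, hx, pow_one])
  obtain ⟨P, hle⟩ := hpg.exists_le_sylow
  refine ⟨P, (Subgroup.eq_of_le_of_card_ge hle ?_).symm⟩
  rw [(s168_syl7 h P).1, Nat.card_zpowers, hx]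

theorem s168_zp3 (h : Nat.card G = 168) (x : G) (hx : orderOf x = 3) :
    ∃ P : Sylow 3 G, (P : Subgroup G) = Subgroup.zpowers x := by
  have : Fact (Nat.Prime 3) := ⟨by norm_num⟩
  have hpg : IsPGroup 3 (Subgroup.zpowers x) :=
    IsPGroup.of_card (n := 1) (by rw [Nat.card_zpowers, hx, pow_one])
  obtain ⟨P, hle⟩ := hpg.exists_le_sylow
  refine ⟨P, (Subgroup.eq_of_le_of_card_ge hle ?_).symm⟩
  rw [(s168_syl3 h P).1, Nat.card_zpowers, hx]

theorem s168_cent7 (h : Nat.card G = 168) (x : G) (hx : orderOf x = 7) :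
    Subgroup.centralizer ({x} : Set G) = Subgroup.zpowers x := by
  have : Fact (Nat.Prime 7) := ⟨by norm_num⟩
  obtain ⟨P, hP⟩ := s168_zp7 h x hx
  obtain ⟨-, h2, h3, h4⟩ := s168_syl7 h P
  exact s168_cent_gen 7 3 (by norm_num) P h2 h3 (by rw [h4]) x hP.symm hx

theorem s168_cent3 (h : Nat.card G = 168) (x : G) (hx : orderOf x = 3) :
    Subgroup.centralizer ({x} : Set G) = Subgroup.zpowers x := by
  have : Fact (Nat.Prime 3) := ⟨by norm_num⟩
  obtain ⟨P, hP⟩ := s168_zp3 h x hx
  obtain ⟨-, h2, h3, h4⟩ := s168_syl3 h P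
  exact s168_cent_gen 3 2 (by norm_num) P h2 h3 (by rw [h4]) x hP.symm hx

theorem s168_norm7 (h : Nat.card G = 168) (x : G) (hx : orderOf x = 7) :
    Nat.card (Subgroup.normalizer ((Subgroup.zpowers x : Subgroup G) : Set G)) = 21 := by
  obtain ⟨P, hP⟩ := s168_zp7 h x hx
  rw [← hP]
  exact (s168_syl7 h P).2.2.2

theorem s168_norm3 (h : Nat.card G = 168) (x : G) (hx : orderOf x = 3) :
    Nat.card (Subgroup.normalizer ((Subgroup.zpowers x : Subgroup G) : Set G)) = 6 := by
  obtain ⟨P, hP⟩ := s168_zp3 h x hx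
  rw [← hP]
  exact (s168_syl3 h P).2.2.2

/-- a Sylow 2-subgroup is not commutative -/
theorem s168_not_comm (h : Nat.card G = 168) (T : Sylow 2 G) :
    ¬ ∀ a ∈ (T : Subgroup G), ∀ b ∈ (T : Subgroup G), a * b = b * a := by
  have : Fact (Nat.Prime 2) := ⟨by norm_num⟩
  intro hc
  obtain ⟨-, h2, h3, h4⟩ := s168_syl2 h T
  apply Helper20.simple_not_burnside 2 T h2 h3
  rw [h4]
  intro g hg
  rw [Subgroup.mem_centralizer_iff]
  intro u hu
  exact hc u hu g hg

/-- a power trick: an element commuting with a prime-order power of itself -/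
theorem s168_order_of_dvd (g : G) (p : ℕ) (hp : p.Prime) (hd : p ∣ orderOf g)
    (hc : ∀ x : G, orderOf x = p → Subgroup.centralizer ({x} : Set G) = Subgroup.zpowers x) :
    orderOf g = p := by
  obtain ⟨m, hm⟩ := hd
  have hpos : 0 < orderOf g := orderOf_pos g
  have hm0 : m ≠ 0 := by
    rintro rfl
    rw [mul_zero] at hm
    omega
  have h1 : orderOf (g ^ m) = p := by
    rw [orderOf_pow_of_dvd hm0 (Dvd.intro_left p hm.symm), hm]
    exact Nat.mul_div_cancel _ (Nat.pos_of_ne_zero hm0)
  have h2 : g ∈ Subgroup.centralizer ({g ^ m} : Set G) := by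
    rw [Subgroup.mem_centralizer_singleton_iff]
    exact (pow_mul_comm' g m).symm
  rw [hc _ h1] at h2
  have h3 : orderOf g ∣ Nat.card (Subgroup.zpowers (g ^ m)) := Subgroup.orderOf_dvd_natCard _ h2
  rw [Nat.card_zpowers, h1] at h3
  rcases (Nat.dvd_prime hp).mp h3 with h4 | h4
  · rw [h4] at hm
    have : p = 1 := Nat.eq_one_of_mul_eq_one_right hm.symm
    exact absurd this hp.one_lt.ne'
  · exact h4

theorem s168_orders (h : Nat.card G = 168) (g : G) :
    orderOf g = 1 ∨ orderOf g = 2 ∨ orderOf g = 3 ∨ orderOf g = 4 ∨ orderOf g = 7 := by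
  have : Fact (Nat.Prime 2) := ⟨by norm_num⟩
  by_cases h7 : 7 ∣ orderOf g
  · right; right; right; right
    exact s168_order_of_dvd g 7 (by norm_num) h7 (fun x hx => s168_cent7 h x hx)
  by_cases h3 : 3 ∣ orderOf g
  · right; right; left
    exact s168_order_of_dvd g 3 (by norm_num) h3 (fun x hx => s168_cent3 h x hx)
  have hd : orderOf g ∣ 168 := h ▸ orderOf_dvd_natCard g
  have h8 : orderOf g ∣ 2 ^ 3 := by
    have hcop : Nat.Coprime (orderOf g) 21 := by
      have h21 : (21 : ℕ) = 3 * 7 := by norm_num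
      rw [h21]
      apply Nat.Coprime.mul_right
      · exact (Nat.Coprime.symm ((Nat.Prime.coprime_iff_not_dvd (by norm_num)).mpr h3))
      · exact (Nat.Coprime.symm ((Nat.Prime.coprime_iff_not_dvd (by norm_num)).mpr h7))
    have h168 : (168 : ℕ) = 2 ^ 3 * 21 := by norm_num
    rw [h168] at hd
    exact hcop.dvd_of_dvd_mul_right hd
  obtain ⟨k, hk, hk2⟩ := (Nat.dvd_prime_pow Nat.prime_two).mp h8
  interval_cases k
  · left; rw [hk2]; norm_num
  · right; left; rw [hk2]; norm_num
  · right; right; right; left; rw [hk2]; norm_num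
  · exfalso
    have hpg : IsPGroup 2 (Subgroup.zpowers g) :=
      IsPGroup.of_card (n := 3) (by rw [Nat.card_zpowers, hk2])
    obtain ⟨T, hle⟩ := hpg.exists_le_sylow
    have hT : Subgroup.zpowers g = (T : Subgroup G) := by
      apply Subgroup.eq_of_le_of_card_ge hle
      rw [(s168_syl2 h T).1, Nat.card_zpowers, hk2]
      norm_num
    apply s168_not_comm h T
    intro a ha b hb
    rw [← hT] at ha hb
    obtain ⟨i, rfl⟩ := Subgroup.mem_zpowers_iff.mp ha
    obtain ⟨j, rfl⟩ := Subgroup.mem_zpowers_iff.mp hb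
    exact (zpow_mul_comm g i j)

theorem s168_order_conj {X : Type*} [Group X] (g x : X) : orderOf (g * x * g⁻¹) = orderOf x := by
  rw [← MulAut.conj_apply, MulEquiv.orderOf_eq]

/-- the centralizer of an involution central in a Sylow 2-subgroup is that Sylow 2-subgroup -/
theorem s168_cent_invol (h : Nat.card G = 168) (T : Sylow 2 G) (z : G)
    (hzT : z ∈ (T : Subgroup G)) (hz : orderOf z = 2)
    (hc : ∀ t ∈ (T : Subgroup G), t * z = z * t) :
    Subgroup.centralizer ({z} : Set G) = (T : Subgroup G) := by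
  have : Fact (Nat.Prime 3) := ⟨by norm_num⟩
  obtain ⟨h8, -, -, -⟩ := s168_syl2 h T
  have hle : (T : Subgroup G) ≤ Subgroup.centralizer ({z} : Set G) := by
    intro t ht
    rw [Subgroup.mem_centralizer_singleton_iff]
    exact hc t ht
  have hne : Subgroup.centralizer ({z} : Set G) ≠ ⊤ := by
    intro htop
    have hn : (Subgroup.zpowers z).Normal := by
      constructor
      intro n hn g
      obtain ⟨k, rfl⟩ := Subgroup.mem_zpowers_iff.mp hn
      have hg : g ∈ Subgroup.centralizer ({z} : Set G) := htop ▸ Subgroup.mem_top g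
      have hgz : g * z = z * g := Subgroup.mem_centralizer_singleton_iff.mp hg
      have h1 : g * z * g⁻¹ = z := by rw [hgz, mul_inv_cancel_right]
      rw [← conj_zpow, h1]
      exact Subgroup.zpow_mem _ (Subgroup.mem_zpowers z) k
    rcases hn.eq_bot_or_eq_top with h1 | h1
    · have h2 := Subgroup.card_bot (G := G)
      rw [← h1, Nat.card_zpowers, hz] at h2
      omega
    · have h2 := Subgroup.card_top (G := G)
      rw [← h1, Nat.card_zpowers, hz, h] at h2
      omega
  have h24 := s168_card_le h _ hne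
  have hd1 : 8 ∣ Nat.card (Subgroup.centralizer ({z} : Set G)) :=
    h8 ▸ Subgroup.card_dvd_of_le hle
  have hd2 : Nat.card (Subgroup.centralizer ({z} : Set G)) ∣ 168 :=
    h ▸ Subgroup.card_subgroup_dvd_card _
  have hpos : 0 < Nat.card (Subgroup.centralizer ({z} : Set G)) := Nat.card_pos
  obtain ⟨m, hm⟩ := hd1
  have hm3 : m = 1 ∨ m = 3 := by
    have hm' : m ≤ 3 := by omega
    interval_cases m
    · omega
    · left; rfl
    · exfalso
      rw [hm] at hd2
      norm_num at hd2
    · right; rfl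
  rcases hm3 with rfl | rfl
  · symm
    exact Subgroup.eq_of_le_of_card_ge hle (by rw [hm, h8])
  · exfalso
    obtain ⟨y, hyC, hy⟩ := Helper20.exists_order_mem 3 (Subgroup.centralizer ({z} : Set G))
      (by rw [hm]; norm_num)
    have hyz : y * z = z * y := Subgroup.mem_centralizer_singleton_iff.mp hyC
    have hzy : z ∈ Subgroup.centralizer ({y} : Set G) := by
      rw [Subgroup.mem_centralizer_singleton_iff]
      exact hyz.symm
    rw [s168_cent3 h y hy] at hzy
    have h5 := Subgroup.orderOf_dvd_natCard _ hzy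
    rw [Nat.card_zpowers, hy, hz] at h5
    norm_num at h5

theorem s168_count7 (h : Nat.card G = 168) : Nat.card {g : G // orderOf g = 7} = 48 := by
  have : Fact (Nat.Prime 7) := ⟨by norm_num⟩
  rw [s168_count_prime 7 (fun P => (s168_syl7 h P).1), (Cfsg.Agent.S1003.result h).2.2]

theorem s168_count3 (h : Nat.card G = 168) : Nat.card {g : G // orderOf g = 3} = 56 := by
  have : Fact (Nat.Prime 3) := ⟨by norm_num⟩
  rw [s168_count_prime 3 (fun P => (s168_syl3 h P).1), (Cfsg.Agent.S1003.result h).2.1]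

theorem s168_exists_four (h : Nat.card G = 168) (T : Sylow 2 G) :
    ∃ r ∈ (T : Subgroup G), orderOf r = 4 := by
  by_contra hno
  push Not at hno
  apply s168_not_comm h T
  have hsq : ∀ t ∈ (T : Subgroup G), t * t = 1 := by
    intro t ht
    have hd := Subgroup.orderOf_dvd_natCard _ ht
    rw [(s168_syl2 h T).1] at hd
    rcases s168_orders h t with h1 | h1 | h1 | h1 | h1
    · rw [orderOf_eq_one_iff.mp h1, one_mul]
    · rw [← pow_two, ← h1]
      exact pow_orderOf_eq_one t
    · rw [h1] at hd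
      norm_num at hd
    · exact absurd h1 (hno t ht)
    · rw [h1] at hd
      norm_num at hd
  intro a ha b hb
  have h1 := hsq (a * b) (mul_mem ha hb)
  have h2 : a⁻¹ = a := inv_eq_of_mul_eq_one_right (hsq a ha)
  have h3 : b⁻¹ = b := inv_eq_of_mul_eq_one_right (hsq b hb)
  calc a * b = a⁻¹ * b⁻¹ := by rw [h2, h3]
    _ = a⁻¹ * b⁻¹ * (b * a * (b * a)) := by
        rw [hsq (b * a) (mul_mem hb ha), mul_one]
    _ = b * a := by group

theorem s168_pow_cases (r : G) (hr4 : orderOf r = 4) (u : G) (hu : u ∈ Subgroup.zpowers r) :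
    u = 1 ∨ u = r ∨ u = r ^ 2 ∨ u = r ^ 3 := by
  rw [← mem_powers_iff_mem_zpowers] at hu
  obtain ⟨n, rfl⟩ := (Submonoid.mem_powers_iff _ _).1 hu
  have h2 : r ^ n = r ^ (n % 4) := by rw [← hr4, pow_mod_orderOf]
  have h3 : n % 4 < 4 := Nat.mod_lt _ (by norm_num)
  rw [h2]
  interval_cases (n % 4)
  · left; exact pow_zero r
  · right; left; exact pow_one r
  · right; right; left; rfl
  · right; right; right; rfl

theorem s168_order_sq (r : G) (hr4 : orderOf r = 4) : orderOf (r ^ 2) = 2 := by
  rw [orderOf_pow_of_dvd (by norm_num) (by rw [hr4]; norm_num), hr4]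

theorem s168_cube (r : G) (hr4 : orderOf r = 4) : r ^ 3 = r⁻¹ := by
  rw [eq_inv_iff_mul_eq_one, ← pow_succ]
  have h1 := pow_orderOf_eq_one r
  rw [hr4] at h1
  exact h1

theorem s168_order_cube (r : G) (hr4 : orderOf r = 4) : orderOf (r ^ 3) = 4 := by
  rw [s168_cube r hr4, orderOf_inv, hr4]

theorem s168_relindex (h : Nat.card G = 168) (T : Sylow 2 G) (r : G)
    (hr : r ∈ (T : Subgroup G)) (hr4 : orderOf r = 4) :
    (Subgroup.zpowers r).relIndex (T : Subgroup G) = 2 := by
  have hzle : Subgroup.zpowers r ≤ (T : Subgroup G) := by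
    rw [Subgroup.zpowers_le]
    exact hr
  have h1 := Subgroup.relIndex_mul_index hzle
  have h2 := (Subgroup.zpowers r).card_mul_index
  have h3 := (T : Subgroup G).card_mul_index
  rw [Nat.card_zpowers, hr4, h] at h2
  rw [(s168_syl2 h T).1, h] at h3
  have h4 : (Subgroup.zpowers r).index = 42 := by omega
  have h5 : (T : Subgroup G).index = 21 := by omega
  rw [h4, h5] at h1
  omega

theorem s168_dih_of (h : Nat.card G = 168) (T : Sylow 2 G) (r s : G)
    (hr : r ∈ (T : Subgroup G)) (hs : s ∈ (T : Subgroup G)) (hr4 : orderOf r = 4)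
    (hs2 : orderOf s = 2) (hsr : s ∉ Subgroup.zpowers r) :
    Nonempty ((T : Subgroup G) ≃* DihedralGroup 4) := by
  have : Fact (Nat.Prime 2) := ⟨by norm_num⟩
  obtain ⟨h8, -, -, -⟩ := s168_syl2 h T
  have hzle : Subgroup.zpowers r ≤ (T : Subgroup G) := by
    rw [Subgroup.zpowers_le]
    exact hr
  have hrel := s168_relindex h T r hr hr4
  have hn : ((Subgroup.zpowers r).subgroupOf (T : Subgroup G)).Normal :=
    Subgroup.normal_of_index_eq_two hrel
  have hc := hn.conj_mem ⟨r, hr⟩
    (by rw [Subgroup.mem_subgroupOf]; exact Subgroup.mem_zpowers r) ⟨s, hs⟩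
  rw [Subgroup.mem_subgroupOf] at hc
  have hc' : s * r * s⁻¹ ∈ Subgroup.zpowers r := hc
  have hss : s * s = 1 := by
    rw [← pow_two, ← hs2]
    exact pow_orderOf_eq_one s
  have hsinv : s⁻¹ = s := inv_eq_of_mul_eq_one_right hss
  have hr1 : r ≠ 1 := by
    rintro rfl
    rw [orderOf_one] at hr4
    omega
  have ho : orderOf (s * r * s⁻¹) = 4 := by rw [s168_order_conj, hr4]
  have hconj : s * r * s⁻¹ = r⁻¹ := by
    rcases s168_pow_cases r hr4 _ hc' with h1 | h1 | h1 | h1
    · rw [h1, orderOf_one] at ho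
      omega
    · exfalso
      have hcomm : s * r = r * s := by
        calc s * r = s * r * s⁻¹ * s := by group
          _ = r * s := by rw [h1]
      apply s168_not_comm h T
      have hsup : Subgroup.zpowers r ⊔ Subgroup.zpowers s = (T : Subgroup G) := by
        have hle : Subgroup.zpowers r ⊔ Subgroup.zpowers s ≤ (T : Subgroup G) := by
          apply sup_le hzle
          rw [Subgroup.zpowers_le]
          exact hs
        apply Subgroup.eq_of_le_of_card_ge hle
        rw [h8]
        have hd := Subgroup.card_dvd_of_le hle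
        rw [h8] at hd
        have hgt : 4 < Nat.card (Subgroup.zpowers r ⊔ Subgroup.zpowers s : Subgroup G) := by
          by_contra hle4
          push Not at hle4
          have heq : Subgroup.zpowers r = Subgroup.zpowers r ⊔ Subgroup.zpowers s := by
            apply Subgroup.eq_of_le_of_card_ge le_sup_left
            rw [Nat.card_zpowers, hr4]
            exact hle4
          apply hsr
          rw [heq]
          exact (le_sup_right : Subgroup.zpowers s ≤ _) (Subgroup.mem_zpowers s)
        have hle8 := Nat.le_of_dvd (by norm_num) hd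
        obtain ⟨d, hd'⟩ : ∃ d, d = Nat.card (Subgroup.zpowers r ⊔ Subgroup.zpowers s : Subgroup G) :=
          ⟨_, rfl⟩
        rw [← hd'] at hd hgt hle8 ⊢
        interval_cases d <;> omega
      have hcen : ∀ a ∈ (T : Subgroup G), a * r = r * a ∧ a * s = s * a := by
        intro a ha
        have hle : Subgroup.zpowers r ⊔ Subgroup.zpowers s ≤
            Subgroup.centralizer ({r} : Set G) ⊓ Subgroup.centralizer ({s} : Set G) := by
          apply sup_le
          · rw [Subgroup.zpowers_le, Subgroup.mem_inf, Subgroup.mem_centralizer_singleton_iff,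
              Subgroup.mem_centralizer_singleton_iff]
            exact ⟨rfl, hcomm.symm⟩
          · rw [Subgroup.zpowers_le, Subgroup.mem_inf, Subgroup.mem_centralizer_singleton_iff,
              Subgroup.mem_centralizer_singleton_iff]
            exact ⟨hcomm, rfl⟩
        rw [hsup] at hle
        have h2 := hle ha
        rw [Subgroup.mem_inf, Subgroup.mem_centralizer_singleton_iff,
          Subgroup.mem_centralizer_singleton_iff] at h2
        exact h2
      intro a ha b hb
      have hle : Subgroup.zpowers r ⊔ Subgroup.zpowers s ≤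
          Subgroup.centralizer ({a} : Set G) := by
        apply sup_le
        · rw [Subgroup.zpowers_le, Subgroup.mem_centralizer_singleton_iff]
          exact ((hcen a ha).1).symm
        · rw [Subgroup.zpowers_le, Subgroup.mem_centralizer_singleton_iff]
          exact ((hcen a ha).2).symm
      rw [hsup] at hle
      have h2 := hle hb
      rw [Subgroup.mem_centralizer_singleton_iff] at h2
      exact h2.symm
    · rw [h1, s168_order_sq r hr4] at ho
      omega
    · rw [h1, s168_cube r hr4]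
  have hsr2 : orderOf (s * r) = 2 := by
    apply orderOf_eq_prime
    · rw [pow_two]
      calc s * r * (s * r) = s * r * s⁻¹ * r := by rw [hsinv]; group
        _ = 1 := by rw [hconj, inv_mul_cancel]
    · intro h1
      apply hsr
      have h2 : s = r⁻¹ := eq_inv_of_mul_eq_one_left h1
      rw [h2]
      exact Subgroup.inv_mem _ (Subgroup.mem_zpowers r)
  have hne : s ≠ s * r := by
    intro h1
    apply hr1
    exact (mul_eq_left.mp h1.symm)
  have hprod : s * (s * r) = r := by rw [← mul_assoc, hss, one_mul]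
  obtain ⟨e⟩ := Cfsg.Agent.S0206.result s (s * r) hs2 hsr2 hne
  rw [hprod, hr4] at e
  have hcl : Subgroup.closure ({s, s * r} : Set G) = (T : Subgroup G) := by
    apply Subgroup.eq_of_le_of_card_ge
    · rw [Subgroup.closure_le]
      intro x hx
      rcases hx with rfl | rfl
      · exact hs
      · exact mul_mem hs hr
    · rw [h8, Nat.card_congr e.toEquiv, DihedralGroup.nat_card]
  exact ⟨(MulEquiv.subgroupCongr hcl.symm).trans e⟩

theorem s168_sylow2_dih (h : Nat.card G = 168) (T : Sylow 2 G) :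
    Nonempty ((T : Subgroup G) ≃* DihedralGroup 4) := by
  classical
  have : Fact (Nat.Prime 2) := ⟨by norm_num⟩
  by_contra hno
  have hall : ∀ T' : Sylow 2 G, ¬ Nonempty ((T' : Subgroup G) ≃* DihedralGroup 4) := by
    rintro T' ⟨e⟩
    exact hno ⟨(Sylow.equiv T T').trans e⟩
  have huniq : ∀ T' : Sylow 2 G, ∀ s ∈ (T' : Subgroup G), ∀ s' ∈ (T' : Subgroup G),
      orderOf s = 2 → orderOf s' = 2 → s = s' := by
    intro T' s hs s' hs' hs2 hs2'
    by_contra hne
    obtain ⟨r, hr, hr4⟩ := s168_exists_four h T'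
    have key : ∀ u : G, orderOf u = 2 → u ∈ Subgroup.zpowers r → u = r ^ 2 := by
      intro u hu2 hu
      rcases s168_pow_cases r hr4 u hu with h1 | h1 | h1 | h1
      · rw [h1, orderOf_one] at hu2
        omega
      · rw [h1, hr4] at hu2
        omega
      · exact h1
      · rw [h1, s168_order_cube r hr4] at hu2
        omega
    by_cases hsz : s ∈ Subgroup.zpowers r
    · by_cases hsz' : s' ∈ Subgroup.zpowers r
      · exact hne ((key s hs2 hsz).trans (key s' hs2' hsz').symm)
      · exact hall T' (s168_dih_of h T' r s' hr hs' hr4 hs2' hsz')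
    · exact hall T' (s168_dih_of h T' r s hr hs hr4 hs2 hsz)
  have hTI : ∀ T₁ T₂ : Sylow 2 G, ∀ x : G, x ∈ (T₁ : Subgroup G) → x ∈ (T₂ : Subgroup G) →
      x ≠ 1 → T₁ = T₂ := by
    intro T₁ T₂ x hx1 hx2 hxne
    obtain ⟨w, hw1, hw2, hw⟩ : ∃ w, w ∈ (T₁ : Subgroup G) ∧ w ∈ (T₂ : Subgroup G) ∧
        orderOf w = 2 := by
      have hd := Subgroup.orderOf_dvd_natCard _ hx1
      rw [(s168_syl2 h T₁).1] at hd
      rcases s168_orders h x with h1 | h1 | h1 | h1 | h1
      · exact absurd (orderOf_eq_one_iff.mp h1) hxne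
      · exact ⟨x, hx1, hx2, h1⟩
      · rw [h1] at hd
        norm_num at hd
      · exact ⟨x ^ 2, pow_mem hx1 2, pow_mem hx2 2, s168_order_sq x h1⟩
      · rw [h1] at hd
        norm_num at hd
    have hcen : ∀ T' : Sylow 2 G, w ∈ (T' : Subgroup G) →
        Subgroup.centralizer ({w} : Set G) = (T' : Subgroup G) := by
      intro T' hwT'
      apply s168_cent_invol h T' w hwT' hw
      intro t ht
      have h1 : t * w * t⁻¹ = w :=
        huniq T' _ (mul_mem (mul_mem ht hwT') (inv_mem ht)) _ hwT'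
          (by rw [s168_order_conj, hw]) hw
      calc t * w = t * w * t⁻¹ * t := by group
        _ = w * t := by rw [h1]
    apply Sylow.ext
    rw [← hcen T₁ hw1, hcen T₂ hw2]
  have hex : ∀ a : {g : G // g ≠ 1 ∧ ∃ T' : Sylow 2 G, g ∈ (T' : Subgroup G)},
      ∃ T' : Sylow 2 G, a.1 ∈ (T' : Subgroup G) := fun a => a.2.2
  choose f hf using hex
  have hfib : ∀ T' : Sylow 2 G,
      Nat.card {a : {g : G // g ≠ 1 ∧ ∃ T' : Sylow 2 G, g ∈ (T' : Subgroup G)} // f a = T'}
        = 7 := by
    intro T'
    have h1 := s168_card_ne (1 : (T' : Subgroup G))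
    rw [(s168_syl2 h T').1] at h1
    rw [show (7 : ℕ) = 8 - 1 by norm_num, ← h1]
    refine Nat.card_congr ⟨fun a => ⟨⟨a.1.1, ?_⟩, ?_⟩,
      fun x => ⟨⟨x.1.1, fun hx1 => x.2 (Subtype.ext hx1), ⟨T', x.1.2⟩⟩, ?_⟩, ?_, ?_⟩
    · have h2 := hf a.1
      rw [a.2] at h2
      exact h2
    · intro h3
      exact a.1.2.1 (congrArg Subtype.val h3)
    · exact hTI _ _ x.1.1 (hf _) x.1.2 (fun hx1 => x.2 (Subtype.ext hx1))
    · intro a
      exact Subtype.ext (Subtype.ext rfl)
    · intro x
      exact Subtype.ext (Subtype.ext rfl)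
  have hA := s168_card_fiber f 7 hfib
  rw [(Cfsg.Agent.S1003.result h).1] at hA
  have hinj : Function.Injective
      (fun a : {g : G // g ≠ 1 ∧ ∃ T' : Sylow 2 G, g ∈ (T' : Subgroup G)} =>
        (⟨a.1, by
          obtain ⟨T', hT'⟩ := a.2.2
          have hd := Subgroup.orderOf_dvd_natCard _ hT'
          rw [(s168_syl2 h T').1] at hd
          intro h7
          rw [h7] at hd
          norm_num at hd⟩ : {g : G // ¬ orderOf g = 7})) := by
    intro a b hab
    have h1 : a.1 = b.1 := congrArg (fun y : {g : G // ¬ orderOf g = 7} => y.1) hab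
    exact Subtype.ext h1
  have hle := Nat.card_le_card_of_injective _ hinj
  have := Fintype.ofFinite G
  have hcompl : Nat.card {g : G // ¬ orderOf g = 7} = 168 - 48 := by
    rw [← h, ← s168_count7 h, Nat.card_eq_fintype_card, Nat.card_eq_fintype_card,
      Nat.card_eq_fintype_card, Fintype.card_subtype_compl]
  rw [hA, hcompl] at hle
  omega

end Basic

end Cfsg.Agent.Helper18.S168
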