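import Mathlib
import Cfsg.Agent.S1012
import Cfsg.Agent.S4304
import Cfsg.Agent.Helper18.S168A

set_option autoImplicit false
set_option linter.unusedSectionVars false
set_option linter.unusedVariables false

namespace Cfsg.Agent.Helper18.S168

open Cfsg.Agent.Helper18.KleinCount Cfsg.Agent.Helper18.KleinClass Cfsg.Agent.Helper18.DihKlein

section Dih

variable {G : Type*} [Group G] [Finite G] [IsSimpleGroup G]

theorem s168_data (h : Nat.card G = 168) (T : Sylow 2 G) :
    ∃ r s : G, DihData (T : Subgroup G) r s 1 := by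
  obtain ⟨e⟩ := s168_sylow2_dih h T
  exact ⟨_, _, dk_data (T : Subgroup G) 1 (by norm_num) e⟩

theorem s168_index_two_norm (U K : Subgroup G) (hle : U ≤ K)
    (hcard : Nat.card K = 2 * Nat.card U) : K ≤ Subgroup.normalizer (U : Set G) := by
  have h1 := Subgroup.relIndex_mul_index hle
  have h2 := U.card_mul_index
  have h3 := K.card_mul_index
  have hKpos : 0 < K.index := Nat.pos_of_ne_zero Subgroup.index_ne_zero_of_finite
  have hUpos : 0 < Nat.card U := Nat.card_pos
  have h4 : U.index = 2 * K.index := by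
    rw [hcard, ← h2] at h3
    have h5 : Nat.card U * (2 * K.index) = Nat.card U * U.index := by
      rw [← h3]; ring
    exact (Nat.eq_of_mul_eq_mul_left hUpos h5).symm
  rw [h4] at h1
  have h6 : U.relIndex K = 2 := Nat.eq_of_mul_eq_mul_right hKpos h1
  have hn : (U.subgroupOf K).Normal := Subgroup.normal_of_index_eq_two h6
  exact Subgroup.le_normalizer_of_normal_subgroupOf hle

variable {T : Sylow 2 G} {r s : G}

theorem s168_r4 (hd : DihData (T : Subgroup G) r s 1) : orderOf r = 4 := hd.order_r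

theorem s168_z2 (hd : DihData (T : Subgroup G) r s 1) : orderOf (r ^ 2) = 2 :=
  s168_order_sq r hd.order_r

theorem s168_z_central (hd : DihData (T : Subgroup G) r s 1) :
    ∀ t ∈ (T : Subgroup G), t * r ^ 2 = r ^ 2 * t := by
  intro t ht
  rcases hd.cases t ht with ⟨k, rfl⟩ | ⟨k, rfl⟩
  · rw [← pow_add, ← pow_add, add_comm]
  · exact (hd.z_comm_refl k).symm

theorem s168_cent_z (h : Nat.card G = 168) (hd : DihData (T : Subgroup G) r s 1) :
    Subgroup.centralizer ({r ^ 2} : Set G) = (T : Subgroup G) :=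
  s168_cent_invol h T (r ^ 2) (pow_mem hd.r_mem 2) (s168_z2 hd) (s168_z_central hd)

theorem s168_no_hom (h : Nat.card G = 168) (V : G →* ℤˣ) (x : G) (hx : V x = -1) : False := by
  rcases (MonoidHom.normal_ker V).eq_bot_or_eq_top with h1 | h1
  · have hinj : Function.Injective V := (MonoidHom.ker_eq_bot_iff V).mp h1
    have h2 := Nat.card_le_card_of_injective V hinj
    rw [h, Nat.card_eq_fintype_card, Fintype.card_units_int] at h2
    omega
  · have h2 : x ∈ V.ker := h1 ▸ Subgroup.mem_top x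
    rw [MonoidHom.mem_ker, hx] at h2
    exact absurd h2 (by decide)

/-- every involution is conjugate to the central involution of `T` -/
theorem s168_invol_conj (h : Nat.card G = 168) (hd : DihData (T : Subgroup G) r s 1) (x : G)
    (hx : orderOf x = 2) : ∃ g : G, g * x * g⁻¹ = r ^ 2 := by
  have hr4 := s168_r4 hd
  by_contra hno
  push Not at hno
  have hcon : ∀ g : G, g * x * g⁻¹ ∉ Subgroup.zpowers r := by
    intro g hg
    have ho : orderOf (g * x * g⁻¹) = 2 := by rw [s168_order_conj, hx]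
    rcases s168_pow_cases r hr4 _ hg with h1 | h1 | h1 | h1
    · rw [h1, orderOf_one] at ho
      omega
    · rw [h1, hr4] at ho
      omega
    · exact hno g h1
    · rw [h1, s168_order_cube r hr4] at ho
      omega
  obtain ⟨V, hV⟩ := Cfsg.Agent.Helper18.exists_hom_neg_one T (Subgroup.zpowers r)
    (s168_relindex h T r hd.r_mem hr4) 1
    (by
      intro y hy hyM
      have hy1 : y ≠ 1 := by
        rintro rfl
        exact hyM (Subgroup.one_mem _)
      have h1 : orderOf y ≠ 1 := fun h1 => hy1 (orderOf_eq_one_iff.mp h1)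
      have h2 : 0 < orderOf y := orderOf_pos y
      show 2 ^ (1 - 1) < orderOf y
      norm_num
      omega)
    x (by rw [hx, pow_one]) hcon
  exact s168_no_hom h V x hV

theorem s168_s_not_comm (hd : DihData (T : Subgroup G) r s 1) : s * r ≠ r * s := by
  intro hc
  have h1 : s * r * s⁻¹ = r := by rw [hc, mul_inv_cancel_right]
  rw [hd.s_conj] at h1
  have h2 : r * r = 1 := by
    nth_rewrite 1 [← h1]
    exact inv_mul_cancel r
  have h3 : orderOf r ∣ 2 := orderOf_dvd_of_pow_eq_one (by rw [pow_two]; exact h2)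
  rw [s168_r4 hd] at h3
  norm_num at h3

theorem s168_cent_r (h : Nat.card G = 168) (hd : DihData (T : Subgroup G) r s 1) :
    Nat.card (Subgroup.centralizer ({r} : Set G)) = 4 := by
  have hr4 := s168_r4 hd
  have h8 := (s168_syl2 h T).1
  have hle : Subgroup.zpowers r ≤ Subgroup.centralizer ({r} : Set G) := by
    rw [Subgroup.zpowers_le]
    exact Subgroup.mem_centralizer_singleton_iff.mpr rfl
  have hCT : Subgroup.centralizer ({r} : Set G) ≤ (T : Subgroup G) := by
    rw [← s168_cent_z h hd]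
    intro g hg
    have hgr : g * r = r * g := Subgroup.mem_centralizer_singleton_iff.mp hg
    rw [Subgroup.mem_centralizer_singleton_iff]
    exact ((Commute.pow_right (show Commute g r from hgr) 2).eq)
  have h1 := Subgroup.card_dvd_of_le hle
  have h2 := Subgroup.card_dvd_of_le hCT
  rw [Nat.card_zpowers, hr4] at h1
  rw [h8] at h2
  have hne : Nat.card (Subgroup.centralizer ({r} : Set G)) ≠ 8 := by
    intro h3
    have h4 : Subgroup.centralizer ({r} : Set G) = (T : Subgroup G) :=
      Subgroup.eq_of_le_of_card_ge hCT (by rw [h3, h8])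
    have h5 : s ∈ Subgroup.centralizer ({r} : Set G) := h4 ▸ hd.s_mem
    exact s168_s_not_comm hd (Subgroup.mem_centralizer_singleton_iff.mp h5)
  have hle8 := Nat.le_of_dvd (by norm_num) h2
  obtain ⟨d, hd'⟩ : ∃ d, d = Nat.card (Subgroup.centralizer ({r} : Set G)) := ⟨_, rfl⟩
  rw [← hd'] at h1 h2 hne hle8 ⊢
  interval_cases d <;> omega

/-- every element of order four is conjugate to `r` -/
theorem s168_four_conj_r (h : Nat.card G = 168) (hd : DihData (T : Subgroup G) r s 1) (x : G)
    (hx : orderOf x = 4) : ∃ g : G, g * x * g⁻¹ = r := by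
  obtain ⟨g, hg⟩ := s168_invol_conj h hd (x ^ 2) (s168_order_sq x hx)
  have hy2 : (g * x * g⁻¹) ^ 2 = r ^ 2 := by rw [conj_pow, hg]
  have hyT : g * x * g⁻¹ ∈ (T : Subgroup G) := by
    rw [← s168_cent_z h hd, Subgroup.mem_centralizer_singleton_iff, ← hy2]
    exact (pow_mul_comm' (g * x * g⁻¹) 2).symm
  have hy4 : orderOf (g * x * g⁻¹) = 4 := by rw [s168_order_conj, hx]
  rcases hd.order_four _ hyT hy4 with h1 | h1
  · exact ⟨g, by rw [h1, pow_one]⟩
  · refine ⟨s * g, ?_⟩
    have h2 : s * g * x * (s * g)⁻¹ = s * (g * x * g⁻¹) * s⁻¹ := by group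
    rw [h2, h1, pow_one]
    have h3 : s * r⁻¹ * s⁻¹ = (s * r * s⁻¹)⁻¹ := by group
    rw [h3, hd.s_conj, inv_inv]

theorem s168_r_not_comm (hd : DihData (T : Subgroup G) r s 1) (k : ℕ) :
    r * (s * r ^ k) ≠ s * r ^ k * r := by
  intro hc
  apply s168_s_not_comm hd
  have h1 : r * s = s * r := by
    calc r * s = r * (s * r ^ k) * (r ^ k)⁻¹ := by group
      _ = s * r ^ k * r * (r ^ k)⁻¹ := by rw [hc]
      _ = s * r * (r ^ k * (r ^ k)⁻¹) := by
          rw [mul_assoc s, ← pow_succ, pow_succ', ← mul_assoc s]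
          group
      _ = s * r := by rw [mul_inv_cancel, mul_one]
  exact h1.symm

theorem s168_four_add (hd : DihData (T : Subgroup G) r s 1) (k : ℕ) :
    hd.four (k + 2) = hd.four k := by
  have h1 := hd.four_conj k 1
  have h2 : r ^ 1 ∈ Subgroup.normalizer ((hd.four (k + 2) : Subgroup G) : Set G) :=
    dk_mem_normalizer _ _ (fun u hu => hd.v_norm (k + 2) u hu)
  rw [Subgroup.mem_normalizer_iff_map_conj_eq] at h2
  rw [← h1]
  exact h2.symm

theorem s168_four_cases (hd : DihData (T : Subgroup G) r s 1) (k : ℕ) :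
    hd.four k = hd.four 0 ∨ hd.four k = hd.four 1 := by
  have hall : ∀ j : ℕ, hd.four (2 * j) = hd.four 0 ∧ hd.four (2 * j + 1) = hd.four 1 := by
    intro j
    induction j with
    | zero => exact ⟨rfl, rfl⟩
    | succ j ih =>
      constructor
      · rw [show 2 * (j + 1) = 2 * j + 2 by ring, s168_four_add hd]
        exact ih.1
      · rw [show 2 * (j + 1) + 1 = 2 * j + 1 + 2 by ring, s168_four_add hd]
        exact ih.2
  rcases Nat.even_or_odd' k with ⟨j, hj | hj⟩
  · left
    rw [hj]
    exact (hall j).1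
  · right
    rw [hj]
    exact (hall j).2

theorem s168_four_ne (hd : DihData (T : Subgroup G) r s 1) : hd.four 0 ≠ hd.four 1 := by
  intro heq
  apply dk_not_conj T hd
  exact ⟨1, by rw [kk_map_one]; exact heq⟩

theorem s168_four_le (hd : DihData (T : Subgroup G) r s 1) (k : ℕ) :
    hd.four k ≤ (T : Subgroup G) := by
  intro x hx
  rcases (hd.mem_four k x).mp hx with rfl | rfl | rfl | rfl
  · exact Subgroup.one_mem _
  · exact pow_mem hd.r_mem _
  · exact mul_mem hd.s_mem (pow_mem hd.r_mem _)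
  · exact mul_mem (pow_mem hd.r_mem _) (mul_mem hd.s_mem (pow_mem hd.r_mem _))

theorem s168_refl_mem (hd : DihData (T : Subgroup G) r s 1) (k : ℕ) :
    s * r ^ k ∈ hd.four k := by
  rw [hd.mem_four]
  right; right; left
  rfl

theorem s168_z_mem (hd : DihData (T : Subgroup G) r s 1) (k : ℕ) :
    r ^ 2 ∈ hd.four k := by
  rw [hd.mem_four]
  right; left
  rfl

theorem s168_refl_order (hd : DihData (T : Subgroup G) r s 1) (k : ℕ) :
    orderOf (s * r ^ k) = 2 := by
  have : Fact (Nat.Prime 2) := ⟨by norm_num⟩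
  apply orderOf_eq_prime
  · rw [pow_two]
    exact hd.refl_sq k
  · exact hd.refl_ne_one k

theorem s168_four_cent (h : Nat.card G = 168) (hd : DihData (T : Subgroup G) r s 1) (k : ℕ) :
    Subgroup.centralizer ((hd.four k : Subgroup G) : Set G) ≤ hd.four k := by
  have h8 := (s168_syl2 h T).1
  have h4 : Nat.card (hd.four k) = 4 := (hd.four_kf k).card_four
  have hCT : Subgroup.centralizer ((hd.four k : Subgroup G) : Set G) ≤ (T : Subgroup G) := by
    refine le_of_le_of_eq ?_ (s168_cent_z h hd)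
    intro g hg
    rw [Subgroup.mem_centralizer_iff] at hg
    rw [Subgroup.mem_centralizer_singleton_iff]
    exact (hg _ (s168_z_mem hd k)).symm
  have hUC : hd.four k ≤ Subgroup.centralizer ((hd.four k : Subgroup G) : Set G) := by
    intro u hu
    rw [Subgroup.mem_centralizer_iff]
    intro v hv
    exact kc_kf_comm _ (hd.four_kf k) v u hv hu
  have h1 := Subgroup.card_dvd_of_le hUC
  have h2 := Subgroup.card_dvd_of_le hCT
  rw [h4] at h1
  rw [h8] at h2
  have hne : Nat.card (Subgroup.centralizer ((hd.four k : Subgroup G) : Set G)) ≠ 8 := by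
    intro h3
    have h5 : Subgroup.centralizer ((hd.four k : Subgroup G) : Set G) = (T : Subgroup G) :=
      Subgroup.eq_of_le_of_card_ge hCT (by rw [h3, h8])
    have h6 : r ∈ Subgroup.centralizer ((hd.four k : Subgroup G) : Set G) := by
      rw [h5]
      exact hd.r_mem
    rw [Subgroup.mem_centralizer_iff] at h6
    exact s168_r_not_comm hd k (h6 _ (s168_refl_mem hd k)).symm
  have hle8 := Nat.le_of_dvd (by norm_num) h2
  have hc4 : Nat.card (Subgroup.centralizer ((hd.four k : Subgroup G) : Set G)) = 4 := by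
    obtain ⟨d, hd'⟩ : ∃ d, d = Nat.card (Subgroup.centralizer ((hd.four k : Subgroup G) : Set G)) :=
      ⟨_, rfl⟩
    rw [← hd'] at h1 h2 hne hle8 ⊢
    interval_cases d <;> omega
  have heq : hd.four k = Subgroup.centralizer ((hd.four k : Subgroup G) : Set G) :=
    Subgroup.eq_of_le_of_card_ge hUC (by rw [hc4, h4])
  exact heq.symm.le

theorem s168_four_norm (h : Nat.card G = 168) (hd : DihData (T : Subgroup G) r s 1) (k : ℕ) :
    Nat.card (Subgroup.normalizer ((hd.four k : Subgroup G) : Set G)) = 24 := by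
  have : Fact (Nat.Prime 2) := ⟨by norm_num⟩
  have h8 := (s168_syl2 h T).1
  have h4 : Nat.card (hd.four k) = 4 := (hd.four_kf k).card_four
  have hTN : (T : Subgroup G) ≤ Subgroup.normalizer ((hd.four k : Subgroup G) : Set G) :=
    s168_index_two_norm _ _ (s168_four_le hd k) (by rw [h8, h4])
  have h24 := kk_normalizer_le _ (hd.four_kf k) (s168_four_cent h hd k)
  have h1 := Subgroup.card_dvd_of_le hTN
  rw [h8] at h1
  have h2 : Nat.card (Subgroup.normalizer ((hd.four k : Subgroup G) : Set G)) ∣ 168 :=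
    h ▸ Subgroup.card_subgroup_dvd_card _
  have hne : Nat.card (Subgroup.normalizer ((hd.four k : Subgroup G) : Set G)) ≠ 8 := by
    intro h3
    have hNT : (T : Subgroup G) = Subgroup.normalizer ((hd.four k : Subgroup G) : Set G) :=
      Subgroup.eq_of_le_of_card_ge hTN (by rw [h3, h8])
    obtain ⟨g, hg⟩ := s168_invol_conj h hd (s * r ^ k) (s168_refl_order hd k)
    have hCa : Nat.card (Subgroup.centralizer ({s * r ^ k} : Set G)) = 8 := by
      rw [← kc_card_centralizer_conj g (s * r ^ k), hg, s168_cent_z h hd, h8]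
    have hpg : IsPGroup 2 (Subgroup.centralizer ({s * r ^ k} : Set G)) :=
      IsPGroup.of_card (n := 3) (by rw [hCa]; norm_num)
    obtain ⟨T', hT'⟩ := hpg.exists_le_sylow
    have hCT' : Subgroup.centralizer ({s * r ^ k} : Set G) = (T' : Subgroup G) :=
      Subgroup.eq_of_le_of_card_ge hT' (by rw [(s168_syl2 h T').1, hCa])
    have hUle : hd.four k ≤ (T' : Subgroup G) := by
      rw [← hCT']
      intro u hu
      rw [Subgroup.mem_centralizer_singleton_iff]
      exact kc_kf_comm _ (hd.four_kf k) u _ hu (s168_refl_mem hd k)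
    have hT'N : (T' : Subgroup G) ≤ Subgroup.normalizer ((hd.four k : Subgroup G) : Set G) :=
      s168_index_two_norm _ _ hUle (by rw [(s168_syl2 h T').1, h4])
    rw [← hNT] at hT'N
    have hTT' : (T' : Subgroup G) = (T : Subgroup G) :=
      Subgroup.eq_of_le_of_card_ge hT'N (by rw [(s168_syl2 h T').1, h8])
    have hr : r ∈ Subgroup.centralizer ({s * r ^ k} : Set G) := by
      rw [hCT', hTT']
      exact hd.r_mem
    exact s168_r_not_comm hd k (Subgroup.mem_centralizer_singleton_iff.mp hr)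
  obtain ⟨d, hd'⟩ : ∃ d, d = Nat.card (Subgroup.normalizer ((hd.four k : Subgroup G) : Set G)) :=
    ⟨_, rfl⟩
  rw [← hd'] at h1 h2 hne h24 ⊢
  obtain ⟨m, rfl⟩ := h1
  have hm : m ≤ 3 := by omega
  interval_cases m
  · simp at h2
  · omega
  · norm_num at h2
  · rfl

theorem s168_klein_data (h : Nat.card G = 168) (U : Subgroup G) (hU : IsKleinFour U) :
    ∃ (T' : Sylow 2 G) (r' s' : G) (hd' : DihData (T' : Subgroup G) r' s' 1) (k : ℕ),
      U = hd'.four k := by
  have : Fact (Nat.Prime 2) := ⟨by norm_num⟩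
  have hpg : IsPGroup 2 U := IsPGroup.of_card (n := 2) (by rw [hU.card_four]; norm_num)
  obtain ⟨T', hT'⟩ := hpg.exists_le_sylow
  obtain ⟨r', s', hd'⟩ := s168_data h T'
  obtain ⟨k, hk⟩ := hd'.classify U hT' hU
  exact ⟨T', r', s', hd', k, hk⟩

theorem s168_klein_norm (h : Nat.card G = 168) (U : Subgroup G) (hU : IsKleinFour U) :
    Nat.card (Subgroup.normalizer (U : Set G)) = 24 := by
  obtain ⟨T', r', s', hd', k, hk⟩ := s168_klein_data h U hU
  rw [hk]
  exact s168_four_norm h hd' k

theorem s168_no_six (h : Nat.card G = 168) (g : G) : orderOf g ≠ 6 := by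
  rcases s168_orders h g with h1 | h1 | h1 | h1 | h1 <;> omega

theorem s168_s4_of_card (h : Nat.card G = 168) (M : Subgroup G) (hM : Nat.card M = 24) :
    Nonempty (M ≃* Equiv.Perm (Fin 4)) := by
  apply Cfsg.Agent.S1012.result hM
  intro g
  rw [← Subgroup.orderOf_coe]
  exact s168_no_six h g

theorem s168_klein_S4 (h : Nat.card G = 168) (U : Subgroup G) (hU : IsKleinFour U) :
    Nonempty (Subgroup.normalizer (U : Set G) ≃* Equiv.Perm (Fin 4)) :=
  s168_s4_of_card h _ (s168_klein_norm h U hU)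

theorem s168_klein_le (hd : DihData (T : Subgroup G) r s 1) (U : Subgroup G)
    (hU : IsKleinFour U) (hle : U ≤ (T : Subgroup G)) : U = hd.four 0 ∨ U = hd.four 1 := by
  obtain ⟨k, hk⟩ := hd.classify U hle hU
  rw [hk]
  exact s168_four_cases hd k

theorem s168_pow_cases3 (y : G) (hy : orderOf y = 3) (u : G) (hu : u ∈ Subgroup.zpowers y) :
    u = 1 ∨ u = y ∨ u = y⁻¹ := by
  rw [← mem_powers_iff_mem_zpowers] at hu
  obtain ⟨n, rfl⟩ := (Submonoid.mem_powers_iff _ _).1 hu
  have h2 : y ^ n = y ^ (n % 3) := by rw [← hy, pow_mod_orderOf]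
  have h3 : n % 3 < 3 := Nat.mod_lt _ (by norm_num)
  have hy3 : y ^ 3 = 1 := by
    have h4 := pow_orderOf_eq_one y
    rw [hy] at h4
    exact h4
  rw [h2]
  interval_cases (n % 3)
  · left; exact pow_zero y
  · right; left; exact pow_one y
  · right; right
    rw [eq_inv_iff_mul_eq_one, ← pow_succ]
    exact hy3

theorem s168_three_inv (h : Nat.card G = 168) (y : G) (hy : orderOf y = 3) :
    ∃ t : G, t * y * t⁻¹ = y⁻¹ := by
  obtain ⟨t, ht, ht2⟩ := Helper20.exists_order_two_mem
    (Subgroup.normalizer ((Subgroup.zpowers y : Subgroup G) : Set G))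
    (by rw [s168_norm3 h y hy]; norm_num)
  have h1 : t * y * t⁻¹ ∈ Subgroup.zpowers y :=
    (Subgroup.mem_normalizer_iff.mp ht y).mp (Subgroup.mem_zpowers y)
  have ho : orderOf (t * y * t⁻¹) = 3 := by rw [s168_order_conj, hy]
  rcases s168_pow_cases3 y hy _ h1 with h2 | h2 | h2
  · rw [h2, orderOf_one] at ho
    omega
  · exfalso
    have h3 : t ∈ Subgroup.centralizer ({y} : Set G) := by
      rw [Subgroup.mem_centralizer_singleton_iff]
      calc t * y = t * y * t⁻¹ * t := by group
        _ = y * t := by rw [h2]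
    rw [s168_cent3 h y hy] at h3
    have h4 := Subgroup.orderOf_dvd_natCard _ h3
    rw [Nat.card_zpowers, hy, ht2] at h4
    norm_num at h4
  · exact ⟨t, h2⟩

theorem s168_sylow_conj {X : Type*} [Group X] [Finite X] (p : ℕ) [Fact p.Prime]
    (P Q : Sylow p X) : ∃ g : X, ∀ u ∈ (P : Subgroup X), g * u * g⁻¹ ∈ (Q : Subgroup X) := by
  obtain ⟨g, hg⟩ := MulAction.exists_smul_eq X P Q
  refine ⟨g, fun u hu => ?_⟩
  rw [← hg, Cfsg.Agent.S4304.mem_smul_sylow]
  have h1 : g⁻¹ * (g * u * g⁻¹) * g = u := by group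
  rw [h1]
  exact hu

theorem s168_three_conj (h : Nat.card G = 168) (x y : G) (hx : orderOf x = 3)
    (hy : orderOf y = 3) : ∃ g : G, g * x * g⁻¹ = y := by
  have : Fact (Nat.Prime 3) := ⟨by norm_num⟩
  obtain ⟨P, hP⟩ := s168_zp3 h x hx
  obtain ⟨Q, hQ⟩ := s168_zp3 h y hy
  obtain ⟨g, hg⟩ := s168_sylow_conj 3 P Q
  have h1 : g * x * g⁻¹ ∈ Subgroup.zpowers y := by
    rw [← hQ]
    apply hg
    rw [hP]
    exact Subgroup.mem_zpowers x
  have ho : orderOf (g * x * g⁻¹) = 3 := by rw [s168_order_conj, hx]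
  rcases s168_pow_cases3 y hy _ h1 with h2 | h2 | h2
  · rw [h2, orderOf_one] at ho
    omega
  · exact ⟨g, h2⟩
  · obtain ⟨t, ht⟩ := s168_three_inv h y hy
    refine ⟨t⁻¹ * g, ?_⟩
    have h3 : t⁻¹ * g * x * (t⁻¹ * g)⁻¹ = t⁻¹ * (g * x * g⁻¹) * t := by group
    rw [h3, h2, ← ht]
    group

end Dih

end Cfsg.Agent.Helper18.S168
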