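import Mathlib
import Cfsg.Agent.Helper18.S168B

set_option autoImplicit false
set_option linter.unusedSectionVars false
set_option linter.unusedVariables false

namespace Cfsg.Agent.Helper18.S168

open Cfsg.Agent.Helper18.KleinCount Cfsg.Agent.Helper18.KleinClass Cfsg.Agent.Helper18.DihKlein

section Max

variable {G : Type*} [Group G] [Finite G] [IsSimpleGroup G]

theorem s168_seven_not_inv (h : Nat.card G = 168) (x : G) (hx : orderOf x = 7) :
    ¬ IsConj x x⁻¹ := by
  rw [isConj_iff]
  rintro ⟨g, hg⟩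
  have hgN : g ∈ Subgroup.normalizer ((Subgroup.zpowers x : Subgroup G) : Set G) := by
    apply dk_mem_normalizer
    intro u hu
    obtain ⟨k, rfl⟩ := Subgroup.mem_zpowers_iff.mp hu
    rw [← conj_zpow, hg]
    exact Subgroup.zpow_mem _ (Subgroup.inv_mem _ (Subgroup.mem_zpowers x)) k
  have hd := Subgroup.orderOf_dvd_natCard _ hgN
  rw [s168_norm7 h x hx] at hd
  have h2 : g * g * x = x * (g * g) := by
    have h1 : g * g * x * (g * g)⁻¹ = x := by
      calc g * g * x * (g * g)⁻¹ = g * (g * x * g⁻¹) * g⁻¹ := by group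
        _ = g * x⁻¹ * g⁻¹ := by rw [hg]
        _ = (g * x * g⁻¹)⁻¹ := by group
        _ = x := by rw [hg, inv_inv]
    calc g * g * x = g * g * x * (g * g)⁻¹ * (g * g) := by group
      _ = x * (g * g) := by rw [h1]
  have h3 : g * g ∈ Subgroup.zpowers x := by
    rw [← s168_cent7 h x hx, Subgroup.mem_centralizer_singleton_iff]
    exact h2
  have hodd : Odd (orderOf g) := Odd.of_dvd_nat (by decide : Odd 21) hd
  obtain ⟨m, hm⟩ := hodd
  have h4 : g = (g * g) ^ (m + 1) := by
    rw [← pow_two, ← pow_mul, show 2 * (m + 1) = orderOf g + 1 by omega, pow_succ,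
      pow_orderOf_eq_one, one_mul]
  have h5 : g ∈ Subgroup.zpowers x := by
    rw [h4]
    exact Subgroup.pow_mem _ h3 _
  have h6 := s168_comm_of_mem_zpowers x g h5
  have h7 : x⁻¹ = x := by rw [← hg, h6, mul_inv_cancel_right]
  have h8 : x * x = 1 := by
    nth_rewrite 1 [← h7]
    exact inv_mul_cancel x
  have h9 : orderOf x ∣ 2 := orderOf_dvd_of_pow_eq_one (by rw [pow_two]; exact h8)
  rw [hx] at h9
  norm_num at h9

end Max

end Cfsg.Agent.Helper18.S168
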