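import Mathlib
import Cfsg.Agent.Helper18.S168C

set_option autoImplicit false
set_option linter.unusedSectionVars false
set_option linter.unusedVariables false

namespace Cfsg.Agent.Helper18.S168

open Cfsg.Agent.Helper18.KleinCount Cfsg.Agent.Helper18.KleinClass Cfsg.Agent.Helper18.DihKlein

section Max

variable {G : Type*} [Group G] [Finite G] [IsSimpleGroup G]

theorem s168_relindex_of_card (U K : Subgroup G) (hle : U ≤ K) (m : ℕ)
    (hcard : Nat.card K = m * Nat.card U) : U.relIndex K = m := by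
  have h1 := Subgroup.relIndex_mul_index hle
  have h2 := U.card_mul_index
  have h3 := K.card_mul_index
  have hKpos : 0 < K.index := Nat.pos_of_ne_zero Subgroup.index_ne_zero_of_finite
  have hUpos : 0 < Nat.card U := Nat.card_pos
  have h4 : U.index = m * K.index := by
    rw [hcard, ← h2] at h3
    have h5 : Nat.card U * (m * K.index) = Nat.card U * U.index := by
      rw [← h3]; ring
    exact (Nat.eq_of_mul_eq_mul_left hUpos h5).symm
  rw [h4] at h1
  exact Nat.eq_of_mul_eq_mul_right hKpos h1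

theorem s168_coatom_eq (M K : Subgroup G) (hM : IsCoatom M) (hle : M ≤ K) (hK : K ≠ ⊤) :
    M = K := by
  by_contra hne
  exact hK (hM.2 K (lt_of_le_of_ne hle hne))

theorem s168_card_cases (h : Nat.card G = 168) (M : Subgroup G) (hM : M ≠ ⊤) :
    Nat.card M = 1 ∨ Nat.card M = 2 ∨ Nat.card M = 3 ∨ Nat.card M = 4 ∨ Nat.card M = 6 ∨
      Nat.card M = 7 ∨ Nat.card M = 8 ∨ Nat.card M = 12 ∨ Nat.card M = 14 ∨ Nat.card M = 21 ∨
      Nat.card M = 24 := by
  have h1 := s168_card_le h M hM
  have h2 : Nat.card M ∣ 168 := h ▸ Subgroup.card_subgroup_dvd_card M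
  have h3 : 0 < Nat.card M := Nat.card_pos
  obtain ⟨d, hd⟩ : ∃ d, d = Nat.card M := ⟨_, rfl⟩
  rw [← hd] at h1 h2 h3 ⊢
  interval_cases d <;> omega

theorem s168_ne_top_of_card (h : Nat.card G = 168) (K : Subgroup G) (hK : Nat.card K < 168) :
    K ≠ ⊤ := by
  rintro rfl
  rw [Subgroup.card_top, h] at hK
  omega

theorem s168_order21 (h : Nat.card G = 168) (M : Subgroup G) (hM : Nat.card M = 21) :
    (∃ x ∈ M, orderOf x = 7 ∧
      M = Subgroup.normalizer ((Subgroup.zpowers x : Subgroup G) : Set G)) ∧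
    ¬ IsMulCommutative M := by
  have : Fact (Nat.Prime 7) := ⟨by norm_num⟩
  have : Fact (Nat.Prime 3) := ⟨by norm_num⟩
  obtain ⟨x, hxM, hx⟩ := Helper20.exists_order_mem 7 M (by rw [hM]; norm_num)
  obtain ⟨y, hyM, hy⟩ := Helper20.exists_order_mem 3 M (by rw [hM]; norm_num)
  have hle : Subgroup.zpowers x ≤ M := by
    rw [Subgroup.zpowers_le]
    exact hxM
  constructor
  · refine ⟨x, hxM, hx, ?_⟩
    have hrel := s168_relindex_of_card (Subgroup.zpowers x) M hle 3
      (by rw [hM, Nat.card_zpowers, hx])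
    have hn : ((Subgroup.zpowers x).subgroupOf M).Normal := by
      apply Subgroup.normal_of_index_eq_minFac_card
      rw [hM]
      have h21 : (21 : ℕ).minFac = 3 := by norm_num
      rw [h21]
      exact hrel
    have hMN : M ≤ Subgroup.normalizer ((Subgroup.zpowers x : Subgroup G) : Set G) :=
      Subgroup.le_normalizer_of_normal_subgroupOf hle
    exact Subgroup.eq_of_le_of_card_ge hMN (by rw [s168_norm7 h x hx, hM])
  · intro hc
    have h1 : (⟨y, hyM⟩ : M) * ⟨x, hxM⟩ = ⟨x, hxM⟩ * ⟨y, hyM⟩ := hc.is_comm.comm _ _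
    have h2 : y * x = x * y := congrArg Subtype.val h1
    have h3 : y ∈ Subgroup.centralizer ({x} : Set G) :=
      Subgroup.mem_centralizer_singleton_iff.mpr h2
    rw [s168_cent7 h x hx] at h3
    have h4 := Subgroup.orderOf_dvd_natCard _ h3
    rw [Nat.card_zpowers, hx, hy] at h4
    norm_num at h4

theorem s168_no_order14 (h : Nat.card G = 168) (M : Subgroup G) (hM : Nat.card M = 14) :
    False := by
  have : Fact (Nat.Prime 7) := ⟨by norm_num⟩
  obtain ⟨x, hxM, hx⟩ := Helper20.exists_order_mem 7 M (by rw [hM]; norm_num)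
  obtain ⟨t, htM, ht⟩ := Helper20.exists_order_two_mem M (by rw [hM]; norm_num)
  have hle : Subgroup.zpowers x ≤ M := by
    rw [Subgroup.zpowers_le]
    exact hxM
  have hMN := s168_index_two_norm (Subgroup.zpowers x) M hle (by rw [hM, Nat.card_zpowers, hx])
  have h4 := Subgroup.orderOf_dvd_natCard _ (hMN htM)
  rw [s168_norm7 h x hx, ht] at h4
  norm_num at h4

theorem s168_order6_eq (h : Nat.card G = 168) (M : Subgroup G) (hM : Nat.card M = 6) (y : G)
    (hyM : y ∈ M) (hy : orderOf y = 3) :
    M = Subgroup.normalizer ((Subgroup.zpowers y : Subgroup G) : Set G) := by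
  have hle : Subgroup.zpowers y ≤ M := by
    rw [Subgroup.zpowers_le]
    exact hyM
  have hMN := s168_index_two_norm (Subgroup.zpowers y) M hle (by rw [hM, Nat.card_zpowers, hy])
  exact Subgroup.eq_of_le_of_card_ge hMN (by rw [s168_norm3 h y hy, hM])

theorem s168_map_normal (M : Subgroup G) (Q : Subgroup M) (hQ : Q.Normal) :
    M ≤ Subgroup.normalizer ((Q.map M.subtype : Subgroup G) : Set G) := by
  intro m hm
  apply dk_mem_normalizer
  rintro _ ⟨q, hq, rfl⟩
  exact ⟨⟨m, hm⟩ * q * ⟨m, hm⟩⁻¹, hQ.conj_mem q hq ⟨m, hm⟩, rfl⟩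

theorem s168_normal_four (h : Nat.card G = 168) (M C : Subgroup G) (hC : Nat.card C = 4)
    (hMN : M ≤ Subgroup.normalizer (C : Set G)) (h3 : 3 ∣ Nat.card M) : IsKleinFour C := by
  have : Fact (Nat.Prime 3) := ⟨by norm_num⟩
  apply kc_isKleinFour C hC
  by_contra hno
  push Not at hno
  obtain ⟨x, hxC, hxx⟩ := hno
  have hd := Subgroup.orderOf_dvd_natCard _ hxC
  rw [hC] at hd
  have hx4 : orderOf x = 4 := by
    rcases s168_orders h x with h1 | h1 | h1 | h1 | h1
    · exact absurd (by rw [orderOf_eq_one_iff.mp h1, one_mul]) hxx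
    · exfalso
      apply hxx
      rw [← pow_two, ← h1]
      exact pow_orderOf_eq_one x
    · rw [h1] at hd
      norm_num at hd
    · exact h1
    · rw [h1] at hd
      norm_num at hd
  have hzC : Subgroup.zpowers x = C := by
    apply Subgroup.eq_of_le_of_card_ge
    · rw [Subgroup.zpowers_le]
      exact hxC
    · rw [hC, Nat.card_zpowers, hx4]
  obtain ⟨y, hyM, hy⟩ := Helper20.exists_order_mem 3 M h3
  have hyN := hMN hyM
  have h1 : y * x * y⁻¹ ∈ Subgroup.zpowers x := by
    rw [hzC]
    exact (Subgroup.mem_normalizer_iff.mp hyN x).mp hxC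
  have ho : orderOf (y * x * y⁻¹) = 4 := by rw [s168_order_conj, hx4]
  have hkey : ∀ w : G, orderOf w = 3 → w * x = x * w → False := by
    intro w hw hwx
    have h2 : x ∈ Subgroup.centralizer ({w} : Set G) := by
      rw [Subgroup.mem_centralizer_singleton_iff]
      exact hwx.symm
    rw [s168_cent3 h w hw] at h2
    have h4 := Subgroup.orderOf_dvd_natCard _ h2
    rw [Nat.card_zpowers, hw, hx4] at h4
    norm_num at h4
  rcases s168_pow_cases x hx4 _ h1 with h2 | h2 | h2 | h2
  · rw [h2, orderOf_one] at ho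
    omega
  · apply hkey y hy
    calc y * x = y * x * y⁻¹ * y := by group
      _ = x * y := by rw [h2]
  · rw [h2, s168_order_sq x hx4] at ho
    omega
  · rw [s168_cube x hx4] at h2
    apply hkey (y * y)
    · rw [← pow_two, Nat.Coprime.orderOf_pow (by rw [hy]; norm_num), hy]
    · have h5 : y * y * x * (y * y)⁻¹ = x := by
        calc y * y * x * (y * y)⁻¹ = y * (y * x * y⁻¹) * y⁻¹ := by group
          _ = y * x⁻¹ * y⁻¹ := by rw [h2]
          _ = (y * x * y⁻¹)⁻¹ := by group
          _ = x := by rw [h2, inv_inv]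
      calc y * y * x = y * y * x * (y * y)⁻¹ * (y * y) := by group
        _ = x * (y * y) := by rw [h5]

theorem s168_order12 (h : Nat.card G = 168) (M : Subgroup G) (hM : Nat.card M = 12) :
    ∃ K : Subgroup G, M ≤ K ∧ Nat.card K = 24 := by
  have : Fact (Nat.Prime 2) := ⟨by norm_num⟩
  have : Fact (Nat.Prime 3) := ⟨by norm_num⟩
  obtain ⟨Q⟩ : Nonempty (Sylow 2 M) := inferInstance
  have hQ4 : Nat.card (Q : Subgroup M) = 4 := by
    have h1 := Helper20.sylow_card_eq_pow Q 2 3 (hM.trans (by norm_num)) (by norm_num)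
    rw [h1]
    norm_num
  have hdvd := Sylow.card_dvd_index Q
  have hQi : (Q : Subgroup M).index = 3 := by
    have h1 := (Q : Subgroup M).card_mul_index
    rw [hQ4, hM] at h1
    omega
  rw [hQi] at hdvd
  rcases (Nat.dvd_prime (by norm_num)).mp hdvd with h1 | h3
  · have hnorm : (Q : Subgroup M).Normal :=
      Subgroup.normalizer_eq_top_iff.mp
        (Subgroup.index_eq_one.mp ((Sylow.card_eq_index_normalizer Q).symm.trans h1))
    have hMN := s168_map_normal M (Q : Subgroup M) hnorm
    have hc4 : Nat.card ((Q : Subgroup M).map M.subtype) = 4 := by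
      rw [Subgroup.card_map_of_injective M.subtype_injective, hQ4]
    have hkf := s168_normal_four h M _ hc4 hMN (by rw [hM]; norm_num)
    exact ⟨_, hMN, s168_klein_norm h _ hkf⟩
  · exfalso
    have hNi : (Subgroup.normalizer ((Q : Subgroup M) : Set M)).index = 3 :=
      (Sylow.card_eq_index_normalizer Q).symm.trans h3
    have hNc : Nat.card (Subgroup.normalizer ((Q : Subgroup M) : Set M)) = 4 := by
      have h1 := (Subgroup.normalizer ((Q : Subgroup M) : Set M)).card_mul_index
      rw [hNi, hM] at h1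
      omega
    have hNQ : (Q : Subgroup M) = Subgroup.normalizer ((Q : Subgroup M) : Set M) :=
      Subgroup.eq_of_le_of_card_ge Subgroup.le_normalizer (by rw [hNc, hQ4])
    have hcomm : ∀ a b : (Q : Subgroup M), a * b = b * a :=
      (IsPGroup.isMulCommutative_of_card_eq_prime_sq (p := 2) (by rw [hQ4]; norm_num)).is_comm.comm
    have hle : Subgroup.normalizer ((Q : Subgroup M) : Set M) ≤
        Subgroup.centralizer ((Q : Subgroup M) : Set M) := by
      rw [← hNQ]
      intro a ha
      rw [Subgroup.mem_centralizer_iff]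
      intro b hb
      exact congrArg Subtype.val (hcomm ⟨b, hb⟩ ⟨a, ha⟩)
    have hc := MonoidHom.ker_transferSylow_isComplement' Q hle
    have hcard := hc.card_mul_card
    rw [hQ4, hM] at hcard
    have hK3 : Nat.card (MonoidHom.transferSylow Q hle).ker = 3 := by omega
    have hKn : (MonoidHom.transferSylow Q hle).ker.Normal := MonoidHom.normal_ker _
    have hMN := s168_map_normal M _ hKn
    have hc3 : Nat.card ((MonoidHom.transferSylow Q hle).ker.map M.subtype) = 3 := by
      rw [Subgroup.card_map_of_injective M.subtype_injective, hK3]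
    obtain ⟨y, hyK, hy⟩ := Helper20.exists_order_mem 3
      ((MonoidHom.transferSylow Q hle).ker.map M.subtype) (by rw [hc3])
    have hzy : Subgroup.zpowers y = (MonoidHom.transferSylow Q hle).ker.map M.subtype := by
      apply Subgroup.eq_of_le_of_card_ge
      · rw [Subgroup.zpowers_le]
        exact hyK
      · rw [hc3, Nat.card_zpowers, hy]
    rw [← hzy] at hMN
    have h5 := Subgroup.card_le_of_le hMN
    rw [hM, s168_norm3 h y hy] at h5
    omega

theorem s168_norm3_le (h : Nat.card G = 168) :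
    ∃ (y : G) (K : Subgroup G), orderOf y = 3 ∧ Nat.card K = 24 ∧
      Subgroup.normalizer ((Subgroup.zpowers y : Subgroup G) : Set G) ≤ K := by
  have : Fact (Nat.Prime 2) := ⟨by norm_num⟩
  have : Fact (Nat.Prime 3) := ⟨by norm_num⟩
  obtain ⟨T⟩ : Nonempty (Sylow 2 G) := inferInstance
  obtain ⟨r, s, hd⟩ := s168_data h T
  have hN := s168_four_norm h hd 0
  obtain ⟨N, hNdef⟩ : ∃ N : Subgroup G,
      N = Subgroup.normalizer ((hd.four 0 : Subgroup G) : Set G) := ⟨_, rfl⟩
  rw [← hNdef] at hN
  obtain ⟨P⟩ : Nonempty (Sylow 3 N) := inferInstance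
  have hP3 : Nat.card (P : Subgroup N) = 3 := by
    have h1 := Helper20.sylow_card_eq_pow P 1 8 (hN.trans (by norm_num)) (by norm_num)
    rw [h1]
    norm_num
  have hdvd := Sylow.card_dvd_index P
  have hPi : (P : Subgroup N).index = 8 := by
    have h1 := (P : Subgroup N).card_mul_index
    rw [hP3, hN] at h1
    omega
  rw [hPi] at hdvd
  have hmod := card_sylow_modEq_one 3 N
  have hcases : Nat.card (Sylow 3 N) = 1 ∨ Nat.card (Sylow 3 N) = 4 := by
    obtain ⟨d, hd'⟩ : ∃ d, d = Nat.card (Sylow 3 N) := ⟨_, rfl⟩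
    rw [← hd'] at hdvd hmod ⊢
    have hle := Nat.le_of_dvd (by norm_num) hdvd
    unfold Nat.ModEq at hmod
    interval_cases d <;> omega
  have hc3 : Nat.card ((P : Subgroup N).map N.subtype) = 3 := by
    rw [Subgroup.card_map_of_injective N.subtype_injective, hP3]
  obtain ⟨y, hyP, hy⟩ := Helper20.exists_order_mem 3 ((P : Subgroup N).map N.subtype)
    (by rw [hc3])
  have hzy : Subgroup.zpowers y = (P : Subgroup N).map N.subtype := by
    apply Subgroup.eq_of_le_of_card_ge
    · rw [Subgroup.zpowers_le]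
      exact hyP
    · rw [hc3, Nat.card_zpowers, hy]
  refine ⟨y, N, hy, hN, ?_⟩
  rcases hcases with h1 | h4
  · exfalso
    have hnorm : (P : Subgroup N).Normal :=
      Subgroup.normalizer_eq_top_iff.mp
        (Subgroup.index_eq_one.mp ((Sylow.card_eq_index_normalizer P).symm.trans h1))
    have hMN := s168_map_normal N (P : Subgroup N) hnorm
    rw [← hzy] at hMN
    have h5 := Subgroup.card_le_of_le hMN
    rw [hN, s168_norm3 h y hy] at h5
    omega
  · have hNi : (Subgroup.normalizer ((P : Subgroup N) : Set N)).index = 4 :=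
      (Sylow.card_eq_index_normalizer P).symm.trans h4
    have hNc : Nat.card (Subgroup.normalizer ((P : Subgroup N) : Set N)) = 6 := by
      have h1 := (Subgroup.normalizer ((P : Subgroup N) : Set N)).card_mul_index
      rw [hNi, hN] at h1
      omega
    have hL6 : Nat.card ((Subgroup.normalizer ((P : Subgroup N) : Set N)).map N.subtype) = 6 := by
      rw [Subgroup.card_map_of_injective N.subtype_injective, hNc]
    have hyL : y ∈ (Subgroup.normalizer ((P : Subgroup N) : Set N)).map N.subtype := by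
      obtain ⟨q, hq, rfl⟩ := hyP
      exact ⟨q, Subgroup.le_normalizer hq, rfl⟩
    have hLeq := s168_order6_eq h _ hL6 y hyL hy
    rw [← hLeq]
    rintro _ ⟨n, -, rfl⟩
    exact n.2

theorem s168_order6 (h : Nat.card G = 168) (M : Subgroup G) (hM : Nat.card M = 6) :
    ∃ K : Subgroup G, M ≤ K ∧ Nat.card K = 24 := by
  have : Fact (Nat.Prime 3) := ⟨by norm_num⟩
  obtain ⟨y, hyM, hy⟩ := Helper20.exists_order_mem 3 M (by rw [hM]; norm_num)
  have hMeq := s168_order6_eq h M hM y hyM hy
  obtain ⟨y', K, hy', hK, hle⟩ := s168_norm3_le h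
  obtain ⟨g, hg⟩ := s168_three_conj h y' y hy' hy
  refine ⟨K.map (MulAut.conj g).toMonoidHom, ?_, ?_⟩
  · rw [hMeq]
    have hz : (Subgroup.zpowers y').map (MulAut.conj g).toMonoidHom = Subgroup.zpowers y := by
      rw [MonoidHom.map_zpowers]
      show Subgroup.zpowers (g * y' * g⁻¹) = _
      rw [hg]
    rw [← hz, ← Subgroup.map_equiv_normalizer_eq]
    exact Subgroup.map_mono hle
  · rw [Subgroup.card_map_of_injective (MulAut.conj g).injective, hK]

theorem s168_s4_klein (h : Nat.card G = 168) (M : Subgroup G) (hM : Nat.card M = 24) :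
    ∃ U : Subgroup G, IsKleinFour U ∧ M = Subgroup.normalizer (U : Set G) := by
  have : Fact (Nat.Prime 2) := ⟨by norm_num⟩
  obtain ⟨Q⟩ : Nonempty (Sylow 2 M) := inferInstance
  have hQ8 : Nat.card (Q : Subgroup M) = 8 := by
    have h1 := Helper20.sylow_card_eq_pow Q 3 3 (hM.trans (by norm_num)) (by norm_num)
    rw [h1]
    norm_num
  have hQi : (Q : Subgroup M).index = 3 := by
    have h1 := (Q : Subgroup M).card_mul_index
    rw [hQ8, hM] at h1
    omega
  have hcore_dvd : (Q : Subgroup M).normalCore.index ∣ (Q : Subgroup M).index.factorial := by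
    rw [Subgroup.normalCore_eq_ker, Subgroup.index_ker, Subgroup.index_eq_card, ← Nat.card_perm]
    exact Subgroup.card_subgroup_dvd_card (MulAction.toPermHom M (M ⧸ (Q : Subgroup M))).range
  rw [hQi] at hcore_dvd
  have hfac : (3 : ℕ).factorial = 6 := rfl
  rw [hfac] at hcore_dvd
  have hcm := (Q : Subgroup M).normalCore.card_mul_index
  rw [hM] at hcm
  have hcd := Subgroup.card_dvd_of_le (Q : Subgroup M).normalCore_le
  rw [hQ8] at hcd
  have hne8 : Nat.card (Q : Subgroup M).normalCore ≠ 8 := by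
    intro h8
    have heq : (Q : Subgroup M).normalCore = (Q : Subgroup M) :=
      Subgroup.eq_of_le_of_card_ge (Q : Subgroup M).normalCore_le (by rw [h8, hQ8])
    have hnorm : (Q : Subgroup M).Normal := by
      rw [← heq]
      exact Subgroup.normalCore_normal _
    have hMN := s168_map_normal M (Q : Subgroup M) hnorm
    have hc8 : Nat.card ((Q : Subgroup M).map M.subtype) = 8 := by
      rw [Subgroup.card_map_of_injective M.subtype_injective, hQ8]
    have hpg : IsPGroup 2 ((Q : Subgroup M).map M.subtype) :=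
      IsPGroup.of_card (n := 3) (by rw [hc8]; norm_num)
    obtain ⟨T', hT'⟩ := hpg.exists_le_sylow
    have hT'eq : (Q : Subgroup M).map M.subtype = (T' : Subgroup G) :=
      Subgroup.eq_of_le_of_card_ge hT' (by rw [(s168_syl2 h T').1, hc8])
    rw [hT'eq, (s168_syl2 h T').2.2.2] at hMN
    have h5 := Subgroup.card_le_of_le hMN
    rw [hM, (s168_syl2 h T').1] at h5
    omega
  have hc4 : Nat.card (Q : Subgroup M).normalCore = 4 := by
    obtain ⟨c, hc⟩ : ∃ c, c = Nat.card (Q : Subgroup M).normalCore := ⟨_, rfl⟩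
    obtain ⟨i, hi⟩ : ∃ i, i = (Q : Subgroup M).normalCore.index := ⟨_, rfl⟩
    rw [← hc] at hcd hne8 hcm ⊢
    rw [← hi] at hcm hcore_dvd
    have hc8 := Nat.le_of_dvd (by norm_num) hcd
    have hi6 := Nat.le_of_dvd (by norm_num) hcore_dvd
    interval_cases c <;> interval_cases i <;> omega
  have hMN := s168_map_normal M _ (Q : Subgroup M).normalCore_normal
  have hc4' : Nat.card ((Q : Subgroup M).normalCore.map M.subtype) = 4 := by
    rw [Subgroup.card_map_of_injective M.subtype_injective, hc4]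
  have hkf := s168_normal_four h M _ hc4' hMN (by rw [hM]; norm_num)
  exact ⟨_, hkf, Subgroup.eq_of_le_of_card_ge hMN (by rw [s168_klein_norm h _ hkf, hM])⟩

theorem s168_coatom24 (h : Nat.card G = 168) (M : Subgroup G) (hM : Nat.card M = 24) :
    IsCoatom M := by
  refine ⟨s168_ne_top_of_card h M (by rw [hM]; norm_num), ?_⟩
  intro K hK
  have h1 := Subgroup.card_dvd_of_le hK.le
  rw [hM] at h1
  have h2 : Nat.card K ∣ 168 := h ▸ Subgroup.card_subgroup_dvd_card K
  have h3 : Nat.card K ≠ 24 := by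
    intro h24
    have h4 : M = K := Subgroup.eq_of_le_of_card_ge hK.le (by rw [h24, hM])
    exact hK.ne h4
  rw [← Subgroup.card_eq_iff_eq_top, h]
  obtain ⟨j, hj⟩ := h1
  rw [hj] at h2 h3 ⊢
  have hj7 : j ∣ 7 := Nat.dvd_of_mul_dvd_mul_left (by norm_num : 0 < 24) h2
  rcases (Nat.dvd_prime (by norm_num)).mp hj7 with rfl | rfl
  · exact absurd (by norm_num) h3
  · rfl

variable {T : Sylow 2 G} {r s : G}

theorem s168_four_sup (h : Nat.card G = 168) (hd : DihData (T : Subgroup G) r s 1) :
    hd.four 0 ⊔ hd.four 1 = (T : Subgroup G) := by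
  have h8 := (s168_syl2 h T).1
  have hle : hd.four 0 ⊔ hd.four 1 ≤ (T : Subgroup G) :=
    sup_le (s168_four_le hd 0) (s168_four_le hd 1)
  apply Subgroup.eq_of_le_of_card_ge hle
  rw [h8]
  have hd8 := Subgroup.card_dvd_of_le hle
  rw [h8] at hd8
  have hgt : 4 < Nat.card (hd.four 0 ⊔ hd.four 1 : Subgroup G) := by
    by_contra hle4
    push Not at hle4
    have heq : hd.four 0 = hd.four 0 ⊔ hd.four 1 :=
      Subgroup.eq_of_le_of_card_ge le_sup_left (by rw [(hd.four_kf 0).card_four]; exact hle4)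
    have h10 : hd.four 1 ≤ hd.four 0 := le_of_le_of_eq le_sup_right heq.symm
    have h11 : hd.four 1 = hd.four 0 :=
      Subgroup.eq_of_le_of_card_ge h10 (by rw [(hd.four_kf 0).card_four, (hd.four_kf 1).card_four])
    exact s168_four_ne hd h11.symm
  have hle8 := Nat.le_of_dvd (by norm_num) hd8
  obtain ⟨d, hd'⟩ : ∃ d, d = Nat.card (hd.four 0 ⊔ hd.four 1 : Subgroup G) := ⟨_, rfl⟩
  rw [← hd'] at hd8 hgt hle8 ⊢
  interval_cases d <;> omega

theorem s168_norm_ne (h : Nat.card G = 168) (hd : DihData (T : Subgroup G) r s 1) :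
    Subgroup.normalizer ((hd.four 0 : Subgroup G) : Set G) ≠
      Subgroup.normalizer ((hd.four 1 : Subgroup G) : Set G) := by
  intro heq
  have hsub : Subgroup.normalizer ((hd.four 0 : Subgroup G) : Set G) ≤ (T : Subgroup G) := by
    intro n hn
    have hn1 : n ∈ Subgroup.normalizer ((hd.four 1 : Subgroup G) : Set G) := by
      rw [← heq]
      exact hn
    rw [Subgroup.mem_normalizer_iff_map_conj_eq] at hn hn1
    have h2 : n ∈ Subgroup.normalizer (((T : Subgroup G)) : Set G) := by
      rw [Subgroup.mem_normalizer_iff_map_conj_eq, ← s168_four_sup h hd, Subgroup.map_sup, hn, hn1]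
    rw [(s168_syl2 h T).2.2.2] at h2
    exact h2
  have h5 := Subgroup.card_le_of_le hsub
  rw [s168_four_norm h hd 0, (s168_syl2 h T).1] at h5
  omega

theorem s168_not_conj (h : Nat.card G = 168) (hd : DihData (T : Subgroup G) r s 1) (g : G) :
    Subgroup.normalizer ((hd.four 1 : Subgroup G) : Set G) ≠
      (Subgroup.normalizer ((hd.four 0 : Subgroup G) : Set G)).map
        (MulAut.conj g).toMonoidHom := by
  have : Fact (Nat.Prime 2) := ⟨by norm_num⟩
  intro heq
  rw [Subgroup.map_equiv_normalizer_eq] at heq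
  have hVkf := kk_conj_kf (hd.four 0) (hd.four_kf 0) g
  have hTN : (T : Subgroup G) ≤ Subgroup.normalizer
      (((hd.four 0).map (MulAut.conj g).toMonoidHom : Subgroup G) : Set G) := by
    rw [← heq]
    exact s168_index_two_norm _ _ (s168_four_le hd 1)
      (by rw [(s168_syl2 h T).1, (hd.four_kf 1).card_four])
  have hVT : (hd.four 0).map (MulAut.conj g).toMonoidHom ≤ (T : Subgroup G) := by
    have hVp : IsPGroup 2 ((hd.four 0).map (MulAut.conj g).toMonoidHom) :=
      IsPGroup.of_card (n := 2) (by rw [hVkf.card_four]; norm_num)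
    have hsup := IsPGroup.to_sup_of_normal_right' T.isPGroup' hVp hTN
    have h6 := T.is_maximal' hsup le_sup_left
    exact le_of_le_of_eq le_sup_right h6
  rcases s168_klein_le hd _ hVkf hVT with h0 | h1
  · rw [h0] at heq
    exact s168_norm_ne h hd heq.symm
  · exact dk_not_conj T hd ⟨g, h1⟩

theorem s168_order21_conj (h : Nat.card G = 168) (M M' : Subgroup G) (hM : Nat.card M = 21)
    (hM' : Nat.card M' = 21) : ∃ g : G, M' = M.map (MulAut.conj g).toMonoidHom := by
  have : Fact (Nat.Prime 7) := ⟨by norm_num⟩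
  obtain ⟨⟨x, hxM, hx, hMeq⟩, -⟩ := s168_order21 h M hM
  obtain ⟨⟨x', hxM', hx', hMeq'⟩, -⟩ := s168_order21 h M' hM'
  obtain ⟨P, hP⟩ := s168_zp7 h x hx
  obtain ⟨P', hP'⟩ := s168_zp7 h x' hx'
  obtain ⟨g, hg⟩ := s168_sylow_conj 7 P P'
  refine ⟨g, ?_⟩
  have hz : (Subgroup.zpowers x).map (MulAut.conj g).toMonoidHom = Subgroup.zpowers x' := by
    apply Subgroup.eq_of_le_of_card_ge
    · rw [MonoidHom.map_zpowers, Subgroup.zpowers_le, ← hP']
      apply hg
      rw [hP]
      exact Subgroup.mem_zpowers x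
    · rw [Subgroup.card_map_of_injective (MulAut.conj g).injective, Nat.card_zpowers,
        Nat.card_zpowers, hx, hx']
  rw [hMeq', hMeq, Subgroup.map_equiv_normalizer_eq, hz]

theorem s168_coatom_cases (h : Nat.card G = 168) (M : Subgroup G) (hM : IsCoatom M) :
    Nonempty (M ≃* Equiv.Perm (Fin 4)) ∨ (Nat.card M = 21 ∧ ¬ IsMulCommutative M) := by
  have : Fact (Nat.Prime 2) := ⟨by norm_num⟩
  have : Fact (Nat.Prime 3) := ⟨by norm_num⟩
  have : Fact (Nat.Prime 7) := ⟨by norm_num⟩
  have hkey : ∀ K : Subgroup G, M ≤ K → Nat.card K < 168 → Nat.card M = Nat.card K := by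
    intro K hle hK
    rw [s168_coatom_eq M K hM hle (s168_ne_top_of_card h K hK)]
  have h2grp : ∀ j : ℕ, j ≤ 2 → Nat.card M = 2 ^ j → False := by
    intro j hj hc
    have hpg : IsPGroup 2 M := IsPGroup.of_card hc
    obtain ⟨T', hT'⟩ := hpg.exists_le_sylow
    have h5 := hkey _ hT' (by rw [(s168_syl2 h T').1]; norm_num)
    rw [hc, (s168_syl2 h T').1] at h5
    interval_cases j <;> norm_num at h5
  rcases s168_card_cases h M hM.1 with h1 | h1 | h1 | h1 | h1 | h1 | h1 | h1 | h1 | h1 | h1
  · exact (h2grp 0 (by norm_num) (by rw [h1]; norm_num)).elim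
  · exact (h2grp 1 (by norm_num) (by rw [h1]; norm_num)).elim
  · exfalso
    obtain ⟨y, hyM, hy⟩ := Helper20.exists_order_mem 3 M (by rw [h1])
    have hzy : Subgroup.zpowers y = M :=
      Subgroup.eq_of_le_of_card_ge (by rw [Subgroup.zpowers_le]; exact hyM)
        (by rw [h1, Nat.card_zpowers, hy])
    have h5 := hkey (Subgroup.normalizer ((Subgroup.zpowers y : Subgroup G) : Set G))
      (le_of_eq_of_le hzy.symm Subgroup.le_normalizer) (by rw [s168_norm3 h y hy]; norm_num)
    rw [h1, s168_norm3 h y hy] at h5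
    omega
  · exact (h2grp 2 (by norm_num) (by rw [h1]; norm_num)).elim
  · exfalso
    obtain ⟨K, hle, hK⟩ := s168_order6 h M h1
    have h5 := hkey K hle (by rw [hK]; norm_num)
    omega
  · exfalso
    obtain ⟨x, hxM, hx⟩ := Helper20.exists_order_mem 7 M (by rw [h1])
    have hzx : Subgroup.zpowers x = M :=
      Subgroup.eq_of_le_of_card_ge (by rw [Subgroup.zpowers_le]; exact hxM)
        (by rw [h1, Nat.card_zpowers, hx])
    have h5 := hkey (Subgroup.normalizer ((Subgroup.zpowers x : Subgroup G) : Set G))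
      (le_of_eq_of_le hzx.symm Subgroup.le_normalizer) (by rw [s168_norm7 h x hx]; norm_num)
    rw [h1, s168_norm7 h x hx] at h5
    omega
  · exfalso
    have hpg : IsPGroup 2 M := IsPGroup.of_card (n := 3) (by rw [h1]; norm_num)
    obtain ⟨T', hT'⟩ := hpg.exists_le_sylow
    obtain ⟨r', s', hd'⟩ := s168_data h T'
    have hTN : (T' : Subgroup G) ≤ Subgroup.normalizer ((hd'.four 0 : Subgroup G) : Set G) :=
      s168_index_two_norm _ _ (s168_four_le hd' 0)
        (by rw [(s168_syl2 h T').1, (hd'.four_kf 0).card_four])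
    have h5 := hkey _ (hT'.trans hTN) (by rw [s168_four_norm h hd' 0]; norm_num)
    rw [h1, s168_four_norm h hd' 0] at h5
    omega
  · exfalso
    obtain ⟨K, hle, hK⟩ := s168_order12 h M h1
    have h5 := hkey K hle (by rw [hK]; norm_num)
    omega
  · exact (s168_no_order14 h M h1).elim
  · right
    exact ⟨h1, (s168_order21 h M h1).2⟩
  · left
    exact s168_s4_of_card h M h1

end Max

end Cfsg.Agent.Helper18.S168
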