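import Mathlib

set_option autoImplicit false
set_option linter.unusedVariables false
set_option linter.unusedSimpArgs false

namespace Cfsg.Agent.Helper18.SL25Pres

theorem ex10 {G : Type*} [Group G] {x y z : G} (t : G) :
    x * (x * (y * (y * (x * (x * (y * (x * (x * t)))))))) = x * (x * (y * (y * (x * (x * (y * (x * (x * t)))))))) := rfl

theorem ex0 {G : Type*} [Group G] {x y z : G} (t : G) :
    x * t = x * t := rfl

theorem ex3 {G : Type*} [Group G] {x y z : G} (t : G) :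
    x * (y * (x * (x * t))) = x * (y * (x * (x * t))) := rfl

theorem ex9 {G : Type*} [Group G] {x y z : G} (t : G) :
    x * (y * (y * (x * (x * (y * (x * (x * t))))))) = x * (y * (y * (x * (x * (y * (x * (x * t))))))) := rfl

theorem ey3 {G : Type*} [Group G] {x y z : G} (t : G) :
    y * (y * (x * (x * t))) = y * (y * (x * (x * t))) := rfl

theorem ey6 {G : Type*} [Group G] {x y z : G} (t : G) :
    y * (x * (x * (y * (x * (x * t))))) = y * (x * (x * (y * (x * (x * t))))) := rfl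

theorem ex5 {G : Type*} [Group G] {x y z : G} (t : G) :
    x * (y * (y * (x * (x * t)))) = x * (y * (y * (x * (x * t)))) := rfl

theorem ey2 {G : Type*} [Group G] {x y z : G} (t : G) :
    y * (x * (x * t)) = y * (x * (x * t)) := rfl

theorem ex1 {G : Type*} [Group G] {x y z : G} (t : G) :
    x * (x * t) = x * (x * t) := rfl

theorem ex4 {G : Type*} [Group G] {x y z : G} (t : G) :
    x * (x * (y * (x * (x * t)))) = x * (x * (y * (x * (x * t)))) := rfl

theorem ey8 {G : Type*} [Group G] {x y z : G} (t : G) :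
    y * (y * (x * (x * (y * (x * (x * t)))))) = y * (y * (x * (x * (y * (x * (x * t)))))) := rfl

theorem ey0 {G : Type*} [Group G] {x y z : G} (t : G) :
    y * t = y * t := rfl

theorem ex2 {G : Type*} [Group G] {x y z : G} (hx : ∀ t : G, x * (x * (x * t)) = t) (hy : ∀ t : G, y * (y * (y * (y * (y * t)))) = t) (hxy : ∀ t : G, x * (y * (x * (y * t))) = z * t) (hyx : ∀ t : G, y * (x * (y * (x * t))) = z * t) (hzx : ∀ t : G, z * (x * t) = x * (z * t)) (hzy : ∀ t : G, z * (y * t) = y * (z * t)) (hzz : ∀ t : G, z * (z * t) = t) (t : G) :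
    x * (x * (x * t)) = t := by
  have hT : t = t := by simp only [hzy, hzz, hy]
  have hch : x * (x * t) = x * (x * t) := rfl
  have hZ : t = t := rfl
  exact ((congrArg (fun q => x * (x * (x * q))) hT).symm.trans (congrArg (fun q => x * q) hch).symm).trans ((hx (t)).trans hZ)

theorem ex6 {G : Type*} [Group G] {x y z : G} (hx : ∀ t : G, x * (x * (x * t)) = t) (hy : ∀ t : G, y * (y * (y * (y * (y * t)))) = t) (hxy : ∀ t : G, x * (y * (x * (y * t))) = z * t) (hyx : ∀ t : G, y * (x * (y * (x * t))) = z * t) (hzx : ∀ t : G, z * (x * t) = x * (z * t)) (hzy : ∀ t : G, z * (y * t) = y * (z * t)) (hzz : ∀ t : G, z * (z * t) = t) (t : G) :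
    x * (x * (x * (y * (x * (x * t))))) = y * (x * (x * t)) := by
  have hT : t = t := by simp only [hzy, hzz, hy]
  have hch : x * (x * (y * (x * (x * t)))) = x * (x * (y * (x * (x * t)))) := rfl
  have hZ : y * (x * (x * t)) = y * (x * (x * t)) := rfl
  exact ((congrArg (fun q => x * (x * (x * (y * (x * (x * q)))))) hT).symm.trans (congrArg (fun q => x * q) hch).symm).trans ((hx (y * (x * (x * t)))).trans hZ)

theorem ex11 {G : Type*} [Group G] {x y z : G} (hx : ∀ t : G, x * (x * (x * t)) = t) (hy : ∀ t : G, y * (y * (y * (y * (y * t)))) = t) (hxy : ∀ t : G, x * (y * (x * (y * t))) = z * t) (hyx : ∀ t : G, y * (x * (y * (x * t))) = z * t) (hzx : ∀ t : G, z * (x * t) = x * (z * t)) (hzy : ∀ t : G, z * (y * t) = y * (z * t)) (hzz : ∀ t : G, z * (z * t) = t) (t : G) :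
    x * (x * (x * (y * (y * (x * (x * (y * (x * (x * t))))))))) = y * (y * (x * (x * (y * (x * (x * t)))))) := by
  have hT : t = t := by simp only [hzy, hzz, hy]
  have hch : x * (x * (y * (y * (x * (x * (y * (x * (x * t)))))))) = x * (x * (y * (y * (x * (x * (y * (x * (x * t)))))))) := rfl
  have hZ : y * (y * (x * (x * (y * (x * (x * t)))))) = y * (y * (x * (x * (y * (x * (x * t)))))) := rfl
  exact ((congrArg (fun q => x * (x * (x * (y * (y * (x * (x * (y * (x * (x * q)))))))))) hT).symm.trans (congrArg (fun q => x * q) hch).symm).trans ((hx (y * (y * (x * (x * (y * (x * (x * t)))))))).trans hZ)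

theorem ey4 {G : Type*} [Group G] {x y z : G} (hx : ∀ t : G, x * (x * (x * t)) = t) (hy : ∀ t : G, y * (y * (y * (y * (y * t)))) = t) (hxy : ∀ t : G, x * (y * (x * (y * t))) = z * t) (hyx : ∀ t : G, y * (x * (y * (x * t))) = z * t) (hzx : ∀ t : G, z * (x * t) = x * (z * t)) (hzy : ∀ t : G, z * (y * t) = y * (z * t)) (hzz : ∀ t : G, z * (z * t) = t) (t : G) :
    y * (x * (y * (x * (x * t)))) = x * (z * t) := by
  have hT : t = t := by simp only [hzy, hzz, hy]
  have hch : x * (y * (x * (x * t))) = x * (y * (x * (x * t))) := rfl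
  have hZ : z * (x * t) = x * (z * t) := by simp only [hzx, hzy, hzz]
  exact ((congrArg (fun q => y * (x * (y * (x * (x * q))))) hT).symm.trans (congrArg (fun q => y * q) hch).symm).trans ((hyx (x * t)).trans hZ)

theorem ey1 {G : Type*} [Group G] {x y z : G} (hx : ∀ t : G, x * (x * (x * t)) = t) (hy : ∀ t : G, y * (y * (y * (y * (y * t)))) = t) (hxy : ∀ t : G, x * (y * (x * (y * t))) = z * t) (hyx : ∀ t : G, y * (x * (y * (x * t))) = z * t) (hzx : ∀ t : G, z * (x * t) = x * (z * t)) (hzy : ∀ t : G, z * (y * t) = y * (z * t)) (hzz : ∀ t : G, z * (z * t) = t) (t : G) :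
    y * (x * t) = x * (x * (y * (y * (y * (y * (z * t)))))) := by
  have hT : y * (y * (y * (y * (y * t)))) = t := by simp only [hzy, hzz, hy]
  have hch : x * (y * (x * (x * (x * (y * (y * (y * (y * t)))))))) = x * (y * (y * (y * (y * (y * t))))) :=
    ((congrArg (fun q => x * (y * q)) (ex2 hx hy hxy hyx hzx hzy hzz (y * (y * (y * (y * t))))))).trans (congrArg (fun q => x * q) (ey0 (x := x) (y := y) (z := z) (y * (y * (y * (y * t))))))
  have hZ : z * (x * (x * (y * (y * (y * (y * t)))))) = x * (x * (y * (y * (y * (y * (z * t)))))) := by simp only [hzx, hzy, hzz]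
  exact ((congrArg (fun q => y * (x * q)) hT).symm.trans (congrArg (fun q => y * q) hch).symm).trans ((hyx (x * (x * (y * (y * (y * (y * t))))))).trans hZ)

theorem ey7 {G : Type*} [Group G] {x y z : G} (hx : ∀ t : G, x * (x * (x * t)) = t) (hy : ∀ t : G, y * (y * (y * (y * (y * t)))) = t) (hxy : ∀ t : G, x * (y * (x * (y * t))) = z * t) (hyx : ∀ t : G, y * (x * (y * (x * t))) = z * t) (hzx : ∀ t : G, z * (x * t) = x * (z * t)) (hzy : ∀ t : G, z * (y * t) = y * (z * t)) (hzz : ∀ t : G, z * (z * t) = t) (t : G) :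
    y * (x * (y * (y * (x * (x * t))))) = x * (x * (y * (x * (x * (z * t))))) := by
  have hT : t = t := by simp only [hzy, hzz, hy]
  have hch : x * (y * (x * (x * (x * (y * (x * (x * t))))))) = x * (y * (y * (x * (x * t)))) :=
    (congrArg (fun q => x * (y * q)) (ex6 hx hy hxy hyx hzx hzy hzz (t)))
  have hZ : z * (x * (x * (y * (x * (x * t))))) = x * (x * (y * (x * (x * (z * t))))) := by simp only [hzx, hzy, hzz]
  exact ((congrArg (fun q => y * (x * (y * (y * (x * (x * q)))))) hT).symm.trans (congrArg (fun q => y * q) hch).symm).trans ((hyx (x * (x * (y * (x * (x * t)))))).trans hZ)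

theorem ey5 {G : Type*} [Group G] {x y z : G} (hx : ∀ t : G, x * (x * (x * t)) = t) (hy : ∀ t : G, y * (y * (y * (y * (y * t)))) = t) (hxy : ∀ t : G, x * (y * (x * (y * t))) = z * t) (hyx : ∀ t : G, y * (x * (y * (x * t))) = z * t) (hzx : ∀ t : G, z * (x * t) = x * (z * t)) (hzy : ∀ t : G, z * (y * t) = y * (z * t)) (hzz : ∀ t : G, z * (z * t) = t) (t : G) :
    y * (y * (y * (x * (x * t)))) = x * (y * (x * (x * (y * t)))) := by
  have hT : y * (y * (y * (y * (z * (z * (y * t)))))) = t := by simp only [hzy, hzz, hy]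
  have hch : y * (y * (y * (y * (x * (y * (x * (x * (y * t)))))))) = y * (y * (x * (x * (y * (y * (y * (y * (z * (z * (y * t)))))))))) :=
    ((congrArg (fun q => y * (y * (y * q))) (ey4 hx hy hxy hyx hzx hzy hzz (y * t)))).trans (congrArg (fun q => y * (y * q)) (ey1 hx hy hxy hyx hzx hzy hzz (z * (y * t))))
  have hZ : x * (y * (x * (x * (y * t)))) = x * (y * (x * (x * (y * t)))) := rfl
  exact ((congrArg (fun q => y * (y * (y * (x * (x * q))))) hT).symm.trans (congrArg (fun q => y * q) hch).symm).trans ((hy (x * (y * (x * (x * (y * t)))))).trans hZ)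

theorem ex8 {G : Type*} [Group G] {x y z : G} (hx : ∀ t : G, x * (x * (x * t)) = t) (hy : ∀ t : G, y * (y * (y * (y * (y * t)))) = t) (hxy : ∀ t : G, x * (y * (x * (y * t))) = z * t) (hyx : ∀ t : G, y * (x * (y * (x * t))) = z * t) (hzx : ∀ t : G, z * (x * t) = x * (z * t)) (hzy : ∀ t : G, z * (y * t) = y * (z * t)) (hzz : ∀ t : G, z * (z * t) = t) (t : G) :
    x * (y * (x * (x * (y * (x * (x * t)))))) = y * (y * (x * (x * (y * (y * (y * (y * (z * t)))))))) := by
  have hT : y * (y * (y * (y * (y * t)))) = t := by simp only [hzy, hzz, hy]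
  have hch : y * (x * (y * (y * (y * (x * (x * (y * (y * (y * (y * t)))))))))) = y * (x * (x * (y * (x * (x * (y * (y * (y * (y * (y * t)))))))))) :=
    (congrArg (fun q => y * (x * q)) (ey5 hx hy hxy hyx hzx hzy hzz (y * (y * (y * (y * t))))))
  have hZ : z * (y * (y * (x * (x * (y * (y * (y * (y * t)))))))) = y * (y * (x * (x * (y * (y * (y * (y * (z * t)))))))) := by simp only [hzx, hzy, hzz]
  exact ((congrArg (fun q => x * (y * (x * (x * (y * (x * (x * q))))))) hT).symm.trans (congrArg (fun q => x * q) hch).symm).trans ((hxy (y * (y * (x * (x * (y * (y * (y * (y * t))))))))).trans hZ)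

theorem ex7 {G : Type*} [Group G] {x y z : G} (hx : ∀ t : G, x * (x * (x * t)) = t) (hy : ∀ t : G, y * (y * (y * (y * (y * t)))) = t) (hxy : ∀ t : G, x * (y * (x * (y * t))) = z * t) (hyx : ∀ t : G, y * (x * (y * (x * t))) = z * t) (hzx : ∀ t : G, z * (x * t) = x * (z * t)) (hzy : ∀ t : G, z * (y * t) = y * (z * t)) (hzz : ∀ t : G, z * (z * t) = t) (t : G) :
    x * (x * (y * (y * (x * (x * t))))) = y * (x * (x * (y * (x * (x * (y * (z * t))))))) := by
  have hT : y * (y * (y * (y * (z * (y * (z * t)))))) = t := by simp only [hzy, hzz, hy]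
  have hch : x * (x * (y * (x * (x * (y * (x * (x * (y * (z * t))))))))) = x * (y * (y * (x * (x * (y * (y * (y * (y * (z * (y * (z * t))))))))))) :=
    (congrArg (fun q => x * q) (ex8 hx hy hxy hyx hzx hzy hzz (y * (z * t))))
  have hZ : y * (x * (x * (y * (x * (x * (y * (z * t))))))) = y * (x * (x * (y * (x * (x * (y * (z * t))))))) := rfl
  exact ((congrArg (fun q => x * (x * (y * (y * (x * (x * q)))))) hT).symm.trans (congrArg (fun q => x * q) hch).symm).trans ((hx (y * (x * (x * (y * (x * (x * (y * (z * t))))))))).trans hZ)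

theorem ey10 {G : Type*} [Group G] {x y z : G} (hx : ∀ t : G, x * (x * (x * t)) = t) (hy : ∀ t : G, y * (y * (y * (y * (y * t)))) = t) (hxy : ∀ t : G, x * (y * (x * (y * t))) = z * t) (hyx : ∀ t : G, y * (x * (y * (x * t))) = z * t) (hzx : ∀ t : G, z * (x * t) = x * (z * t)) (hzy : ∀ t : G, z * (y * t) = y * (z * t)) (hzz : ∀ t : G, z * (z * t) = t) (t : G) :
    y * (x * (y * (y * (x * (x * (y * (x * (x * t)))))))) = x * (y * (y * (x * (x * (y * (y * (y * (y * t)))))))) := by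
  have hT : y * (z * (y * (y * (y * (y * (z * t)))))) = t := by simp only [hzy, hzz, hy]
  have hch : x * (y * (x * (x * (y * (y * (x * (x * (y * (y * (y * (y * (z * t)))))))))))) = x * (y * (y * (x * (x * (y * (x * (x * (y * (z * (y * (y * (y * (y * (z * t)))))))))))))) :=
    (congrArg (fun q => x * (y * q)) (ex7 hx hy hxy hyx hzx hzy hzz (y * (y * (y * (y * (z * t)))))))
  have hZ : z * (x * (y * (y * (x * (x * (y * (y * (y * (y * (z * t)))))))))) = x * (y * (y * (x * (x * (y * (y * (y * (y * t)))))))) := by simp only [hzx, hzy, hzz]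
  exact ((congrArg (fun q => y * (x * (y * (y * (x * (x * (y * (x * (x * q))))))))) hT).symm.trans (congrArg (fun q => y * q) hch).symm).trans ((hyx (x * (y * (y * (x * (x * (y * (y * (y * (y * (z * t))))))))))).trans hZ)

theorem ey9 {G : Type*} [Group G] {x y z : G} (hx : ∀ t : G, x * (x * (x * t)) = t) (hy : ∀ t : G, y * (y * (y * (y * (y * t)))) = t) (hxy : ∀ t : G, x * (y * (x * (y * t))) = z * t) (hyx : ∀ t : G, y * (x * (y * (x * t))) = z * t) (hzx : ∀ t : G, z * (x * t) = x * (z * t)) (hzy : ∀ t : G, z * (y * t) = y * (z * t)) (hzz : ∀ t : G, z * (z * t) = t) (t : G) :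
    y * (y * (y * (x * (x * (y * (x * (x * t))))))) = x * (y * (y * (x * (x * (y * (x * (x * (y * (z * t))))))))) := by
  have hT : z * (y * (y * (y * (y * (y * (z * t)))))) = t := by simp only [hzy, hzz, hy]
  have hch : y * (y * (y * (y * (x * (y * (y * (x * (x * (y * (x * (x * (y * (z * t))))))))))))) = y * (y * (x * (x * (y * (x * (x * (z * (y * (y * (y * (y * (y * (z * t))))))))))))) :=
    ((congrArg (fun q => y * (y * (y * q))) (ey10 hx hy hxy hyx hzx hzy hzz (y * (z * t))))).trans (congrArg (fun q => y * (y * q)) (ey7 hx hy hxy hyx hzx hzy hzz (y * (y * (y * (y * (y * (z * t))))))))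
  have hZ : x * (y * (y * (x * (x * (y * (x * (x * (y * (z * t))))))))) = x * (y * (y * (x * (x * (y * (x * (x * (y * (z * t))))))))) := rfl
  exact ((congrArg (fun q => y * (y * (y * (x * (x * (y * (x * (x * q)))))))) hT).symm.trans (congrArg (fun q => y * q) hch).symm).trans ((hy (x * (y * (y * (x * (x * (y * (x * (x * (y * (z * t))))))))))).trans hZ)

theorem ey11 {G : Type*} [Group G] {x y z : G} (hx : ∀ t : G, x * (x * (x * t)) = t) (hy : ∀ t : G, y * (y * (y * (y * (y * t)))) = t) (hxy : ∀ t : G, x * (y * (x * (y * t))) = z * t) (hyx : ∀ t : G, y * (x * (y * (x * t))) = z * t) (hzx : ∀ t : G, z * (x * t) = x * (z * t)) (hzy : ∀ t : G, z * (y * t) = y * (z * t)) (hzz : ∀ t : G, z * (z * t) = t) (t : G) :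
    y * (x * (x * (y * (y * (x * (x * (y * (x * (x * t))))))))) = x * (x * (y * (y * (x * (x * (y * (x * (x * (y * (y * (y * (y * t)))))))))))) := by
  have hT : y * (z * (y * (y * (y * (y * (z * t)))))) = t := by simp only [hzy, hzz, hy]
  have hch : x * (y * (x * (x * (x * (y * (y * (x * (x * (y * (x * (x * (y * (y * (y * (y * (z * t)))))))))))))))) = x * (x * (y * (y * (x * (x * (y * (x * (x * (y * (z * (y * (y * (y * (y * (z * t))))))))))))))) :=
    ((congrArg (fun q => x * (y * q)) (ex11 hx hy hxy hyx hzx hzy hzz (y * (y * (y * (y * (z * t)))))))).trans (congrArg (fun q => x * q) (ey9 hx hy hxy hyx hzx hzy hzz (y * (y * (y * (y * (z * t)))))))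
  have hZ : z * (x * (x * (y * (y * (x * (x * (y * (x * (x * (y * (y * (y * (y * (z * t)))))))))))))) = x * (x * (y * (y * (x * (x * (y * (x * (x * (y * (y * (y * (y * t)))))))))))) := by simp only [hzx, hzy, hzz]
  exact ((congrArg (fun q => y * (x * (x * (y * (y * (x * (x * (y * (x * (x * q)))))))))) hT).symm.trans (congrArg (fun q => y * q) hch).symm).trans ((hyx (x * (x * (y * (y * (x * (x * (y * (x * (x * (y * (y * (y * (y * (z * t))))))))))))))).trans hZ)

/-- The twelve coset representatives, as left multiplications. -/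
def W {G : Type*} [Group G] (x y : G) : Fin 12 → G → G
  | ⟨0, _⟩, t => t
  | ⟨1, _⟩, t => x * t
  | ⟨2, _⟩, t => x * (x * t)
  | ⟨3, _⟩, t => y * (x * (x * t))
  | ⟨4, _⟩, t => x * (y * (x * (x * t)))
  | ⟨5, _⟩, t => y * (y * (x * (x * t)))
  | ⟨6, _⟩, t => x * (x * (y * (x * (x * t))))
  | ⟨7, _⟩, t => x * (y * (y * (x * (x * t))))
  | ⟨8, _⟩, t => y * (x * (x * (y * (x * (x * t)))))
  | ⟨9, _⟩, t => y * (y * (x * (x * (y * (x * (x * t))))))
  | ⟨10, _⟩, t => x * (y * (y * (x * (x * (y * (x * (x * t)))))))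
  | ⟨11, _⟩, t => x * (x * (y * (y * (x * (x * (y * (x * (x * t))))))))

theorem step_x {G : Type*} [Group G] {x y z : G} (hx : ∀ t : G, x * (x * (x * t)) = t) (hy : ∀ t : G, y * (y * (y * (y * (y * t)))) = t) (hxy : ∀ t : G, x * (y * (x * (y * t))) = z * t) (hyx : ∀ t : G, y * (x * (y * (x * t))) = z * t) (hzx : ∀ t : G, z * (x * t) = x * (z * t)) (hzy : ∀ t : G, z * (y * t) = y * (z * t)) (hzz : ∀ t : G, z * (z * t) = t)
    (lemY : ∀ k e : ℕ, y * (y ^ k * z ^ e) = y ^ (k + 1) * z ^ e)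
    (lemZ : ∀ k e : ℕ, z * (y ^ k * z ^ e) = y ^ k * z ^ (e + 1)) (c : Fin 12) (k e : ℕ) :
    ∃ c' : Fin 12, ∃ k' e' : ℕ, x * W x y c (y ^ k * z ^ e) = W x y c' (y ^ k' * z ^ e') := by
  fin_cases c
  · exact ⟨⟨1, by norm_num⟩, k, e, ex0 (x := x) (y := y) (z := z) (y ^ k * z ^ e)⟩
  · exact ⟨⟨2, by norm_num⟩, k, e, ex1 (x := x) (y := y) (z := z) (y ^ k * z ^ e)⟩
  · exact ⟨⟨0, by norm_num⟩, k, e, ex2 hx hy hxy hyx hzx hzy hzz (y ^ k * z ^ e)⟩
  · exact ⟨⟨4, by norm_num⟩, k, e, ex3 (x := x) (y := y) (z := z) (y ^ k * z ^ e)⟩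
  · exact ⟨⟨6, by norm_num⟩, k, e, ex4 (x := x) (y := y) (z := z) (y ^ k * z ^ e)⟩
  · exact ⟨⟨7, by norm_num⟩, k, e, ex5 (x := x) (y := y) (z := z) (y ^ k * z ^ e)⟩
  · exact ⟨⟨3, by norm_num⟩, k, e, ex6 hx hy hxy hyx hzx hzy hzz (y ^ k * z ^ e)⟩
  · have htail : y * (z * (y ^ k * z ^ e)) = y ^ (k + 1) * z ^ (e + 1) := by simp only [lemY, lemZ]
    exact ⟨⟨8, by norm_num⟩, k + 1, e + 1, (ex7 hx hy hxy hyx hzx hzy hzz (y ^ k * z ^ e)).trans (congrArg (fun q => y * (x * (x * (y * (x * (x * q)))))) htail)⟩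
  · have htail : y * (y * (y * (y * (z * (y ^ k * z ^ e))))) = y ^ (k + 1 + 1 + 1 + 1) * z ^ (e + 1) := by simp only [lemY, lemZ]
    exact ⟨⟨5, by norm_num⟩, k + 1 + 1 + 1 + 1, e + 1, (ex8 hx hy hxy hyx hzx hzy hzz (y ^ k * z ^ e)).trans (congrArg (fun q => y * (y * (x * (x * q)))) htail)⟩
  · exact ⟨⟨10, by norm_num⟩, k, e, ex9 (x := x) (y := y) (z := z) (y ^ k * z ^ e)⟩
  · exact ⟨⟨11, by norm_num⟩, k, e, ex10 (x := x) (y := y) (z := z) (y ^ k * z ^ e)⟩
  · exact ⟨⟨9, by norm_num⟩, k, e, ex11 hx hy hxy hyx hzx hzy hzz (y ^ k * z ^ e)⟩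

theorem step_y {G : Type*} [Group G] {x y z : G} (hx : ∀ t : G, x * (x * (x * t)) = t) (hy : ∀ t : G, y * (y * (y * (y * (y * t)))) = t) (hxy : ∀ t : G, x * (y * (x * (y * t))) = z * t) (hyx : ∀ t : G, y * (x * (y * (x * t))) = z * t) (hzx : ∀ t : G, z * (x * t) = x * (z * t)) (hzy : ∀ t : G, z * (y * t) = y * (z * t)) (hzz : ∀ t : G, z * (z * t) = t)
    (lemY : ∀ k e : ℕ, y * (y ^ k * z ^ e) = y ^ (k + 1) * z ^ e)
    (lemZ : ∀ k e : ℕ, z * (y ^ k * z ^ e) = y ^ k * z ^ (e + 1)) (c : Fin 12) (k e : ℕ) :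
    ∃ c' : Fin 12, ∃ k' e' : ℕ, y * W x y c (y ^ k * z ^ e) = W x y c' (y ^ k' * z ^ e') := by
  fin_cases c
  · have htail : y * (y ^ k * z ^ e) = y ^ (k + 1) * z ^ (e) := by simp only [lemY, lemZ]
    exact ⟨⟨0, by norm_num⟩, k + 1, e, (ey0 (x := x) (y := y) (z := z) (y ^ k * z ^ e)).trans (congrArg (fun q => q) htail)⟩
  · have htail : y * (y * (y * (y * (z * (y ^ k * z ^ e))))) = y ^ (k + 1 + 1 + 1 + 1) * z ^ (e + 1) := by simp only [lemY, lemZ]
    exact ⟨⟨2, by norm_num⟩, k + 1 + 1 + 1 + 1, e + 1, (ey1 hx hy hxy hyx hzx hzy hzz (y ^ k * z ^ e)).trans (congrArg (fun q => x * (x * q)) htail)⟩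
  · exact ⟨⟨3, by norm_num⟩, k, e, ey2 (x := x) (y := y) (z := z) (y ^ k * z ^ e)⟩
  · exact ⟨⟨5, by norm_num⟩, k, e, ey3 (x := x) (y := y) (z := z) (y ^ k * z ^ e)⟩
  · have htail : z * (y ^ k * z ^ e) = y ^ (k) * z ^ (e + 1) := by simp only [lemY, lemZ]
    exact ⟨⟨1, by norm_num⟩, k, e + 1, (ey4 hx hy hxy hyx hzx hzy hzz (y ^ k * z ^ e)).trans (congrArg (fun q => x * q) htail)⟩
  · have htail : y * (y ^ k * z ^ e) = y ^ (k + 1) * z ^ (e) := by simp only [lemY, lemZ]
    exact ⟨⟨4, by norm_num⟩, k + 1, e, (ey5 hx hy hxy hyx hzx hzy hzz (y ^ k * z ^ e)).trans (congrArg (fun q => x * (y * (x * (x * q)))) htail)⟩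
  · exact ⟨⟨8, by norm_num⟩, k, e, ey6 (x := x) (y := y) (z := z) (y ^ k * z ^ e)⟩
  · have htail : z * (y ^ k * z ^ e) = y ^ (k) * z ^ (e + 1) := by simp only [lemY, lemZ]
    exact ⟨⟨6, by norm_num⟩, k, e + 1, (ey7 hx hy hxy hyx hzx hzy hzz (y ^ k * z ^ e)).trans (congrArg (fun q => x * (x * (y * (x * (x * q))))) htail)⟩
  · exact ⟨⟨9, by norm_num⟩, k, e, ey8 (x := x) (y := y) (z := z) (y ^ k * z ^ e)⟩
  · have htail : y * (z * (y ^ k * z ^ e)) = y ^ (k + 1) * z ^ (e + 1) := by simp only [lemY, lemZ]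
    exact ⟨⟨10, by norm_num⟩, k + 1, e + 1, (ey9 hx hy hxy hyx hzx hzy hzz (y ^ k * z ^ e)).trans (congrArg (fun q => x * (y * (y * (x * (x * (y * (x * (x * q)))))))) htail)⟩
  · have htail : y * (y * (y * (y * (y ^ k * z ^ e)))) = y ^ (k + 1 + 1 + 1 + 1) * z ^ (e) := by simp only [lemY, lemZ]
    exact ⟨⟨7, by norm_num⟩, k + 1 + 1 + 1 + 1, e, (ey10 hx hy hxy hyx hzx hzy hzz (y ^ k * z ^ e)).trans (congrArg (fun q => x * (y * (y * (x * (x * q))))) htail)⟩
  · have htail : y * (y * (y * (y * (y ^ k * z ^ e)))) = y ^ (k + 1 + 1 + 1 + 1) * z ^ (e) := by simp only [lemY, lemZ]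
    exact ⟨⟨11, by norm_num⟩, k + 1 + 1 + 1 + 1, e, (ey11 hx hy hxy hyx hzx hzy hzz (y ^ k * z ^ e)).trans (congrArg (fun q => x * (x * (y * (y * (x * (x * (y * (x * (x * q))))))))) htail)⟩


/-- A group generated by `x`, `y` with `x ^ 3 = 1`, `y ^ 5 = 1`, and `(x * y) ^ 2` a central
element of order dividing two has at most 120 elements. -/
theorem card_le {G : Type*} [Group G] (x y z : G) (hx : x ^ 3 = 1) (hy : y ^ 5 = 1)
    (hz : z ^ 2 = 1) (hzx : z * x = x * z) (hzy : z * y = y * z) (hxy : (x * y) ^ 2 = z)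
    (hgen : Subgroup.closure ({x, y} : Set G) = ⊤) : Finite G ∧ Nat.card G ≤ 120 := by
  have h3 : x * x * x = 1 := by simpa [pow_succ] using hx
  have h5 : y * y * y * y * y = 1 := by simpa [pow_succ] using hy
  have h2 : x * y * x * y = z := by simpa [pow_succ, mul_assoc] using hxy
  have h2' : y * x * y * x = z := by
    have e : y * x * y * x = x⁻¹ * (x * y * x * y) * x := by group
    rw [e, h2, mul_assoc, hzx, ← mul_assoc, inv_mul_cancel, one_mul]
  have hz2 : z * z = 1 := by rw [← pow_two]; exact hz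
  have rx : ∀ t : G, x * (x * (x * t)) = t := by
    intro t; simp only [← mul_assoc]; rw [h3, one_mul]
  have ry : ∀ t : G, y * (y * (y * (y * (y * t)))) = t := by
    intro t; simp only [← mul_assoc]; rw [h5, one_mul]
  have rxy : ∀ t : G, x * (y * (x * (y * t))) = z * t := by
    intro t; simp only [← mul_assoc]; rw [h2]
  have ryx : ∀ t : G, y * (x * (y * (x * t))) = z * t := by
    intro t; simp only [← mul_assoc]; rw [h2']
  have rzx : ∀ t : G, z * (x * t) = x * (z * t) := by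
    intro t; rw [← mul_assoc, hzx, mul_assoc]
  have rzy : ∀ t : G, z * (y * t) = y * (z * t) := by
    intro t; rw [← mul_assoc, hzy, mul_assoc]
  have rzz : ∀ t : G, z * (z * t) = t := by
    intro t; rw [← mul_assoc, hz2, one_mul]
  have lemY : ∀ k e : ℕ, y * (y ^ k * z ^ e) = y ^ (k + 1) * z ^ e := by
    intro k e; rw [← mul_assoc, ← pow_succ']
  have lemZ : ∀ k e : ℕ, z * (y ^ k * z ^ e) = y ^ k * z ^ (e + 1) := by
    intro k e
    have hc : Commute z (y ^ k) := (show Commute z y from hzy).pow_right k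
    rw [← mul_assoc, hc.eq, mul_assoc, ← pow_succ']
  have key : ∀ g : G, (∀ c : Fin 12, ∀ k e : ℕ, ∃ c' : Fin 12, ∃ k' e' : ℕ,
        g * W x y c (y ^ k * z ^ e) = W x y c' (y ^ k' * z ^ e')) ∧
      (∀ c : Fin 12, ∀ k e : ℕ, ∃ c' : Fin 12, ∃ k' e' : ℕ,
        g⁻¹ * W x y c (y ^ k * z ^ e) = W x y c' (y ^ k' * z ^ e')) := by
    intro g
    have hg : g ∈ Subgroup.closure ({x, y} : Set G) := by rw [hgen]; exact Subgroup.mem_top g
    refine Subgroup.closure_induction (p := fun g _ => (∀ c : Fin 12, ∀ k e : ℕ, ∃ c' : Fin 12,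
        ∃ k' e' : ℕ, g * W x y c (y ^ k * z ^ e) = W x y c' (y ^ k' * z ^ e')) ∧
      (∀ c : Fin 12, ∀ k e : ℕ, ∃ c' : Fin 12, ∃ k' e' : ℕ,
        g⁻¹ * W x y c (y ^ k * z ^ e) = W x y c' (y ^ k' * z ^ e'))) ?_ ?_ ?_ ?_ hg
    · intro s hs
      rw [Set.mem_insert_iff, Set.mem_singleton_iff] at hs
      rcases hs with hs | hs
      · rw [hs]
        refine ⟨step_x rx ry rxy ryx rzx rzy rzz lemY lemZ, ?_⟩
        intro c k e
        obtain ⟨c1, k1, e1, q1⟩ := step_x rx ry rxy ryx rzx rzy rzz lemY lemZ c k e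
        obtain ⟨c2, k2, e2, q2⟩ := step_x rx ry rxy ryx rzx rzy rzz lemY lemZ c1 k1 e1
        refine ⟨c2, k2, e2, ?_⟩
        rw [inv_mul_eq_iff_eq_mul, ← q2, ← q1]
        exact (rx _).symm
      · rw [hs]
        refine ⟨step_y rx ry rxy ryx rzx rzy rzz lemY lemZ, ?_⟩
        intro c k e
        obtain ⟨c1, k1, e1, q1⟩ := step_y rx ry rxy ryx rzx rzy rzz lemY lemZ c k e
        obtain ⟨c2, k2, e2, q2⟩ := step_y rx ry rxy ryx rzx rzy rzz lemY lemZ c1 k1 e1
        obtain ⟨c3, k3, e3, q3⟩ := step_y rx ry rxy ryx rzx rzy rzz lemY lemZ c2 k2 e2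
        obtain ⟨c4, k4, e4, q4⟩ := step_y rx ry rxy ryx rzx rzy rzz lemY lemZ c3 k3 e3
        refine ⟨c4, k4, e4, ?_⟩
        rw [inv_mul_eq_iff_eq_mul, ← q4, ← q3, ← q2, ← q1]
        exact (ry _).symm
    · exact ⟨fun c k e => ⟨c, k, e, one_mul _⟩, fun c k e => ⟨c, k, e, by rw [inv_one, one_mul]⟩⟩
    · intro a b _ _ ha hb
      refine ⟨?_, ?_⟩
      · intro c k e
        obtain ⟨c1, k1, e1, q1⟩ := hb.1 c k e
        obtain ⟨c2, k2, e2, q2⟩ := ha.1 c1 k1 e1
        exact ⟨c2, k2, e2, by rw [mul_assoc, q1, q2]⟩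
      · intro c k e
        obtain ⟨c1, k1, e1, q1⟩ := ha.2 c k e
        obtain ⟨c2, k2, e2, q2⟩ := hb.2 c1 k1 e1
        exact ⟨c2, k2, e2, by rw [mul_inv_rev, mul_assoc, q1, q2]⟩
    · intro a _ ha
      exact ⟨ha.2, by rw [inv_inv]; exact ha.1⟩
  have hall : ∀ g : G, ∃ c : Fin 12, ∃ k e : ℕ, g = W x y c (y ^ k * z ^ e) := by
    intro g
    obtain ⟨c', k', e', q⟩ := (key g).1 ⟨0, by norm_num⟩ 0 0
    refine ⟨c', k', e', ?_⟩
    rw [← q]
    show g = g * (y ^ 0 * z ^ 0)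
    rw [pow_zero, pow_zero, mul_one, mul_one]
  let f : Fin 12 × Fin 5 × Fin 2 → G :=
    fun p => W x y p.1 (y ^ (p.2.1 : ℕ) * z ^ (p.2.2 : ℕ))
  have hf : Function.Surjective f := by
    intro g
    obtain ⟨c, k, e, q⟩ := hall g
    refine ⟨(c, ⟨k % 5, Nat.mod_lt _ (by norm_num)⟩, ⟨e % 2, Nat.mod_lt _ (by norm_num)⟩), ?_⟩
    show W x y c (y ^ (k % 5) * z ^ (e % 2)) = g
    rw [q, pow_eq_pow_mod k hy, pow_eq_pow_mod e hz]
  have hfin : Finite G := Finite.of_surjective f hf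
  refine ⟨hfin, ?_⟩
  have h120 := Nat.card_le_card_of_surjective f hf
  simpa [Nat.card_prod] using h120

end Cfsg.Agent.Helper18.SL25Pres
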