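import Mathlib
import Cfsg.Agent.Helper18.SL25Pres
import Cfsg.Agent.Helper25.SL2
import Cfsg.Agent.S2301

set_option autoImplicit false

/-!
# The presentation `⟨x, y, z | x³, y⁵, z², [z,x], [z,y], (xy)² = z⟩` of `SL(2,5)`
-/

namespace Cfsg.Agent.Helper18.SL25Iso

open Cfsg.Agent.Helper25

/-- The relators of the presentation. -/
def rels : Set (FreeGroup (Fin 3)) :=
  {FreeGroup.of (0 : Fin 3) ^ 3, FreeGroup.of (1 : Fin 3) ^ 5, FreeGroup.of (2 : Fin 3) ^ 2,
    (FreeGroup.of (2 : Fin 3))⁻¹ * FreeGroup.of 0 * FreeGroup.of 2 * (FreeGroup.of (0 : Fin 3))⁻¹,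
    (FreeGroup.of (2 : Fin 3))⁻¹ * FreeGroup.of 1 * FreeGroup.of 2 * (FreeGroup.of (1 : Fin 3))⁻¹,
    (FreeGroup.of (0 : Fin 3) * FreeGroup.of 1) ^ 2 * (FreeGroup.of (2 : Fin 3))⁻¹}

/-- The presented group. -/
abbrev P : Type := PresentedGroup rels

/-- The first generator. -/
def px : P := PresentedGroup.of 0
/-- The second generator. -/
def py : P := PresentedGroup.of 1
/-- The third generator. -/
def pz : P := PresentedGroup.of 2

theorem px3 : px ^ 3 = 1 := by
  have h : (PresentedGroup.mk rels) (FreeGroup.of (0 : Fin 3) ^ 3) = 1 :=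
    PresentedGroup.one_of_mem (Or.inl rfl)
  rw [map_pow] at h
  exact h

theorem py5 : py ^ 5 = 1 := by
  have h : (PresentedGroup.mk rels) (FreeGroup.of (1 : Fin 3) ^ 5) = 1 :=
    PresentedGroup.one_of_mem (Or.inr (Or.inl rfl))
  rw [map_pow] at h
  exact h

theorem pz2 : pz ^ 2 = 1 := by
  have h : (PresentedGroup.mk rels) (FreeGroup.of (2 : Fin 3) ^ 2) = 1 :=
    PresentedGroup.one_of_mem (Or.inr (Or.inr (Or.inl rfl)))
  rw [map_pow] at h
  exact h

theorem pzx : pz * px = px * pz := by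
  have h : (PresentedGroup.mk rels) ((FreeGroup.of (2 : Fin 3))⁻¹ * FreeGroup.of 0 *
      FreeGroup.of 2 * (FreeGroup.of (0 : Fin 3))⁻¹) = 1 :=
    PresentedGroup.one_of_mem (Or.inr (Or.inr (Or.inr (Or.inl rfl))))
  rw [map_mul, map_mul, map_mul, map_inv, map_inv] at h
  have h' : pz⁻¹ * px * pz * px⁻¹ = 1 := h
  calc pz * px = pz * (pz⁻¹ * px * pz * px⁻¹) * px := by rw [h', mul_one]
    _ = px * pz := by group

theorem pzy : pz * py = py * pz := by
  have h : (PresentedGroup.mk rels) ((FreeGroup.of (2 : Fin 3))⁻¹ * FreeGroup.of 1 *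
      FreeGroup.of 2 * (FreeGroup.of (1 : Fin 3))⁻¹) = 1 :=
    PresentedGroup.one_of_mem (Or.inr (Or.inr (Or.inr (Or.inr (Or.inl rfl)))))
  rw [map_mul, map_mul, map_mul, map_inv, map_inv] at h
  have h' : pz⁻¹ * py * pz * py⁻¹ = 1 := h
  calc pz * py = pz * (pz⁻¹ * py * pz * py⁻¹) * py := by rw [h', mul_one]
    _ = py * pz := by group

theorem pxy : (px * py) ^ 2 = pz := by
  have h : (PresentedGroup.mk rels) ((FreeGroup.of (0 : Fin 3) * FreeGroup.of 1) ^ 2 *
      (FreeGroup.of (2 : Fin 3))⁻¹) = 1 :=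
    PresentedGroup.one_of_mem (Or.inr (Or.inr (Or.inr (Or.inr (Or.inr rfl)))))
  rw [map_mul, map_pow, map_mul, map_inv] at h
  have h' : (px * py) ^ 2 * pz⁻¹ = 1 := h
  exact mul_inv_eq_one.1 h'

theorem pgen : Subgroup.closure ({px, py} : Set P) = ⊤ := by
  rw [eq_top_iff, ← PresentedGroup.closure_range_of rels, Subgroup.closure_le]
  rintro _ ⟨i, rfl⟩
  have hx : px ∈ Subgroup.closure ({px, py} : Set P) := Subgroup.subset_closure (Or.inl rfl)
  have hy : py ∈ Subgroup.closure ({px, py} : Set P) := Subgroup.subset_closure (Or.inr rfl)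
  fin_cases i
  · exact hx
  · exact hy
  · show pz ∈ Subgroup.closure ({px, py} : Set P)
    rw [← pxy]
    exact Subgroup.pow_mem _ (Subgroup.mul_mem _ hx hy) 2

theorem finite_P : Finite P :=
  (SL25Pres.card_le px py pz px3 py5 pz2 pzx pzy pxy pgen).1

theorem card_P_le : Nat.card P ≤ 120 :=
  (SL25Pres.card_le px py pz px3 py5 pz2 pzx pzy pxy pgen).2

/-- The universal property of the presentation. -/
theorem exists_hom {G : Type*} [Group G] (a b c : G) (ha : a ^ 3 = 1) (hb : b ^ 5 = 1)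
    (hc : c ^ 2 = 1) (hca : c * a = a * c) (hcb : c * b = b * c) (hab : (a * b) ^ 2 = c) :
    ∃ φ : P →* G, φ px = a ∧ φ py = b ∧ φ pz = c := by
  have hrel : ∀ r ∈ rels, FreeGroup.lift ![a, b, c] r = 1 := by
    intro r hr
    rcases hr with rfl | rfl | rfl | rfl | rfl | rfl
    · rw [map_pow, FreeGroup.lift_apply_of]; exact ha
    · rw [map_pow, FreeGroup.lift_apply_of]; exact hb
    · rw [map_pow, FreeGroup.lift_apply_of]; exact hc
    · simp only [map_mul, map_inv, FreeGroup.lift_apply_of]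
      show c⁻¹ * a * c * a⁻¹ = 1
      have e : c⁻¹ * a * c * a⁻¹ = c⁻¹ * (a * c) * a⁻¹ := by group
      rw [e, ← hca]; group
    · simp only [map_mul, map_inv, FreeGroup.lift_apply_of]
      show c⁻¹ * b * c * b⁻¹ = 1
      have e : c⁻¹ * b * c * b⁻¹ = c⁻¹ * (b * c) * b⁻¹ := by group
      rw [e, ← hcb]; group
    · simp only [map_mul, map_pow, map_inv, FreeGroup.lift_apply_of]
      show (a * b) ^ 2 * c⁻¹ = 1
      rw [hab, mul_inv_cancel]
  exact ⟨PresentedGroup.toGroup hrel, PresentedGroup.toGroup.of hrel,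
    PresentedGroup.toGroup.of hrel, PresentedGroup.toGroup.of hrel⟩

local notation "S25" => Matrix.SpecialLinearGroup (Fin 2) (ZMod 5)

/-- Five is prime. -/
theorem fact5 : Fact (Nat.Prime 5) := ⟨by norm_num⟩

attribute [local instance] fact5

/-- An element of order three. -/
def mX : S25 := ⟨!![0, -1; 1, -1], by rw [Matrix.det_fin_two_of]; decide⟩
/-- An element of order five. -/
def mY : S25 := ⟨!![1, 1; 0, 1], by rw [Matrix.det_fin_two_of]; decide⟩
/-- The central involution. -/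
def mZ : S25 := ⟨!![-1, 0; 0, -1], by rw [Matrix.det_fin_two_of]; decide⟩

theorem mX3 : mX ^ 3 = 1 := by decide
theorem mY5 : mY ^ 5 = 1 := by decide
theorem mZ2 : mZ ^ 2 = 1 := by decide
theorem mZX : mZ * mX = mX * mZ := by decide
theorem mZY : mZ * mY = mY * mZ := by decide
theorem mXY : (mX * mY) ^ 2 = mZ := by decide

theorem upper_eq : ∀ s : ZMod 5, upperElt s = mY ^ s.val := by decide

theorem lower_eq : ∀ s : ZMod 5,
    lowerElt s = (mX * mY) * mY ^ (-s).val * (mX * mY)⁻¹ := by decide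

theorem card_S25 : Nat.card S25 = 120 := by
  rw [Cfsg.Agent.S2301.card_SL2, ZMod.card]
  norm_num

theorem closure_mXY : Subgroup.closure ({mX, mY} : Set S25) = ⊤ := by
  have hx : mX ∈ Subgroup.closure ({mX, mY} : Set S25) := Subgroup.subset_closure (Or.inl rfl)
  have hy : mY ∈ Subgroup.closure ({mX, mY} : Set S25) := Subgroup.subset_closure (Or.inr rfl)
  rw [eq_top_iff, ← sl2_gen (ZMod 5), sup_le_iff]
  constructor
  · intro g hg
    rw [eq_lowerElt hg, lower_eq]
    exact Subgroup.mul_mem _ (Subgroup.mul_mem _ (Subgroup.mul_mem _ hx hy)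
      (Subgroup.pow_mem _ hy _)) (Subgroup.inv_mem _ (Subgroup.mul_mem _ hx hy))
  · intro g hg
    rw [eq_upperElt hg, upper_eq]
    exact Subgroup.pow_mem _ hy _

/-- Any homomorphism from the presented group onto a group with at least 120 elements is
bijective. -/
theorem bijective_of_surjective {G : Type*} [Group G] (φ : P →* G)
    (hs : Function.Surjective φ) (hG : 120 ≤ Nat.card G) : Function.Bijective φ := by
  have := finite_P
  exact hs.bijective_of_nat_card_le (le_trans card_P_le hG)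

/-- The presented group is isomorphic to `SL(2,5)`. -/
theorem exists_iso : ∃ e : P ≃* S25, e px = mX ∧ e py = mY ∧ e pz = mZ := by
  obtain ⟨φ, h1, h2, h3⟩ := exists_hom mX mY mZ mX3 mY5 mZ2 mZX mZY mXY
  have hs : Function.Surjective φ := by
    rw [← MonoidHom.range_eq_top, eq_top_iff, ← closure_mXY, Subgroup.closure_le]
    rintro g (rfl | rfl)
    · exact ⟨px, h1⟩
    · exact ⟨py, h2⟩
  have hb := bijective_of_surjective φ hs (by rw [card_S25])
  exact ⟨MulEquiv.ofBijective φ hb, h1, h2, h3⟩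

theorem card_P : Nat.card P = 120 := by
  obtain ⟨e, -⟩ := exists_iso
  rw [Nat.card_congr e.toEquiv, card_S25]

end Cfsg.Agent.Helper18.SL25Iso
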