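import Mathlib

/-!
# One-point extensions of permutation groups (Witt's lemma)

`Pkg H G x O` records that `H` is the stabilizer of the point `x` in the permutation group `G`
and that `O` is the `G`-orbit of `x`.  `Pkg.extend` is Witt's lemma: under the usual hypotheses
the group generated by `G` and an involution `h` exchanging `x` with a new point `p` has `G` as
the stabilizer of `p`.
-/

namespace Cfsg.Agent.Helper18.WittExt

open Equiv

variable {Ω : Type*}

/-- `H` is the stabilizer of `x` in `G`, and `O` is the `G`-orbit of `x` -/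
structure Pkg (H G : Subgroup (Perm Ω)) (x : Ω) (O : Finset Ω) : Prop where
  le : H ≤ G
  stab : ∀ a ∈ G, a x = x → a ∈ H
  fix : ∀ η ∈ H, η x = x
  orb : ∀ a ∈ G, a x ∈ O
  trans : ∀ y ∈ O, ∃ a ∈ G, a x = y

theorem Pkg.two_trans {H G : Subgroup (Perm Ω)} {x : Ω} {O : Finset Ω} (hP : Pkg H G x O)
    (y : Ω) (hy : y ∈ O) (y' : Ω) (hy' : y' ∈ O) : ∃ a ∈ G, a y = y' := by
  obtain ⟨a, ha, rfl⟩ := hP.trans y hy
  obtain ⟨b, hb, rfl⟩ := hP.trans y' hy'
  refine ⟨b * a⁻¹, G.mul_mem hb (G.inv_mem ha), ?_⟩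
  simp

theorem Pkg.card {H G : Subgroup (Perm Ω)} {x : Ω} {O : Finset Ω} (hP : Pkg H G x O) :
    Nat.card G = O.card * Nat.card H := by
  have h1 : MulAction.stabilizer G x = H.subgroupOf G := by
    ext ⟨a, ha⟩
    rw [MulAction.mem_stabilizer_iff, Subgroup.mem_subgroupOf]
    constructor
    · intro hax; exact hP.stab a ha hax
    · intro haH; exact hP.fix a haH
  have h2 : MulAction.orbit G x = (O : Set Ω) := by
    ext y
    constructor
    · rintro ⟨⟨a, ha⟩, rfl⟩; exact hP.orb a ha
    · intro hy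
      obtain ⟨a, ha, rfl⟩ := hP.trans y hy
      exact ⟨⟨a, ha⟩, rfl⟩
  have h3 := MulAction.index_stabilizer G x
  rw [h1, h2, Set.ncard_coe_finset] at h3
  have h4 := Subgroup.index_mul_card (H.subgroupOf G)
  rw [h3] at h4
  rw [← h4, Nat.card_congr (Subgroup.subgroupOfEquivOfLe hP.le).toEquiv]

/-- an element of a group generated by elements of finite order satisfies every predicate
stable under left multiplication by the generators -/
theorem closure_induction_pos {G : Type*} [Group G] [Finite G] (S : Set G) (P : G → Prop)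
    (h1 : P 1) (hmul : ∀ g ∈ S, ∀ y, P y → P (g * y)) : ∀ y ∈ Subgroup.closure S, P y := by
  have hpow : ∀ g ∈ S, ∀ k : ℕ, ∀ y, P y → P (g ^ k * y) := by
    intro g hg k
    induction k with
    | zero => intro y hy; simpa using hy
    | succ k ih =>
      intro y hy
      rw [pow_succ', mul_assoc]
      exact hmul g hg _ (ih y hy)
  have hinv : ∀ g ∈ S, ∀ y, P y → P (g⁻¹ * y) := by
    intro g hg y hy
    have h2 : g⁻¹ = g ^ (orderOf g - 1) := by
      apply inv_eq_of_mul_eq_one_left
      rw [← pow_succ, Nat.sub_add_cancel (orderOf_pos g), pow_orderOf_eq_one]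
    rw [h2]
    exact hpow g hg _ y hy
  intro y hy
  induction hy using Subgroup.closure_induction_left with
  | one => exact h1
  | mul_left x hx y _ ih => exact hmul x hx y ih
  | inv_mul_cancel x hx y _ ih => exact hinv x hx y ih

/-- generators fixing a point -/
theorem fix_of_closure (S : Set (Perm Ω)) (p : Ω) (hS : ∀ g ∈ S, g p = p) :
    ∀ a ∈ Subgroup.closure S, a p = p := by
  have h : Subgroup.closure S ≤ MulAction.stabilizer (Perm Ω) p := by
    rw [Subgroup.closure_le]
    intro g hg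
    exact hS g hg
  intro a ha
  exact h ha

/-- conjugation by an involution maps a closure into a subgroup as soon as it does so on the
generators -/
theorem conj_closure {G : Type*} [Group G] (S : Set G) (h : G) (hh : h * h = 1) (H : Subgroup G)
    (hS : ∀ g ∈ S, h * g * h ∈ H) : ∀ η ∈ Subgroup.closure S, h * η * h ∈ H := by
  have hinv : h⁻¹ = h := inv_eq_of_mul_eq_one_left hh
  have hle : Subgroup.closure S ≤ H.comap (MulAut.conj h).toMonoidHom := by
    rw [Subgroup.closure_le]
    intro g hg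
    have := hS g hg
    simpa [hinv] using this
  intro η hη
  have := hle hη
  simpa [hinv] using this

/-- **Witt's lemma.** -/
theorem Pkg.extend [DecidableEq Ω] {H G : Subgroup (Perm Ω)} {x : Ω} {O : Finset Ω}
    (hP : Pkg H G x O)
    (p : Ω) (hGp : ∀ a ∈ G, a p = p) (hxp : x ≠ p)
    (h : Perm Ω) (hh : h * h = 1) (hhp : h p = x)
    (hnorm : ∀ η ∈ H, h * η * h ∈ H)
    (g : Perm Ω) (hg : g ∈ G) (hgx : g x ≠ x) (hgh : g * h * g * h * g * h = 1)
    (htr : ∀ y ∈ O, y ≠ x → ∀ y' ∈ O, y' ≠ x → ∃ η ∈ H, η y = y')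
    (K : Subgroup (Perm Ω)) (hK : K = G ⊔ Subgroup.closure {h}) :
    Pkg G K p (insert p O) := by
  have hinv : h⁻¹ = h := inv_eq_of_mul_eq_one_left hh
  have hghg : h * g * h = g⁻¹ * h * g⁻¹ := by
    have h1 : g * h * g * h = (g * h)⁻¹ := by
      apply eq_inv_of_mul_eq_one_left
      rw [← hgh]; group
    calc h * g * h = g⁻¹ * (g * h * g * h) := by group
      _ = g⁻¹ * (g * h)⁻¹ := by rw [h1]
      _ = g⁻¹ * h * g⁻¹ := by rw [mul_inv_rev, hinv, mul_assoc]
  -- the key claim
  have key : ∀ e ∈ G, h * e * h ∈ G ∨ ∃ a ∈ G, ∃ b ∈ G, h * e * h = a * h * b := by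
    intro e he
    by_cases hex : e x = x
    · exact Or.inl (hP.le (hnorm e (hP.stab e he hex)))
    · right
      obtain ⟨η, hη, hηe⟩ := htr (g x) (hP.orb g hg) hgx (e x) (hP.orb e he) hex
      have hηG := hP.le hη
      set η₂ := g⁻¹ * η⁻¹ * e with hη₂
      have hη₂G : η₂ ∈ G := G.mul_mem (G.mul_mem (G.inv_mem hg) (G.inv_mem hηG)) he
      have hη₂x : η₂ x = x := by
        rw [hη₂, Perm.mul_apply, Perm.mul_apply, ← hηe]
        simp
      have hη₂H : η₂ ∈ H := hP.stab _ hη₂G hη₂x
      have he' : e = η * g * η₂ := by rw [hη₂]; group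
      refine ⟨h * η * h * g⁻¹, G.mul_mem (hP.le (hnorm η hη)) (G.inv_mem hg),
        g⁻¹ * (h * η₂ * h), G.mul_mem (G.inv_mem hg) (hP.le (hnorm η₂ hη₂H)), ?_⟩
      calc h * e * h = (h * η * h) * (h * g * h) * (h * η₂ * h) := by
            rw [he']
            have : (h * η * h) * (h * g * h) * (h * η₂ * h)
                = h * η * (h * h) * g * (h * h) * η₂ * h := by group
            rw [this, hh]; group
        _ = (h * η * h) * (g⁻¹ * h * g⁻¹) * (h * η₂ * h) := by rw [hghg]
        _ = h * η * h * g⁻¹ * h * (g⁻¹ * (h * η₂ * h)) := by group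
  -- the subgroup `G ∪ G h G`
  let S : Subgroup (Perm Ω) :=
    { carrier := {k | k ∈ G ∨ ∃ a ∈ G, ∃ b ∈ G, k = a * h * b}
      mul_mem' := by
        rintro k k' (hk | ⟨a, ha, b, hb, rfl⟩) (hk' | ⟨c, hc, d, hd, rfl⟩)
        · exact Or.inl (G.mul_mem hk hk')
        · exact Or.inr ⟨k * c, G.mul_mem hk hc, d, hd, by group⟩
        · exact Or.inr ⟨a, ha, b * k', G.mul_mem hb hk', by group⟩
        · rcases key (b * c) (G.mul_mem hb hc) with h1 | ⟨a', ha', b', hb', h1⟩
          · left
            have : a * h * b * (c * h * d) = a * (h * (b * c) * h) * d := by group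
            rw [this]
            exact G.mul_mem (G.mul_mem ha h1) hd
          · right
            refine ⟨a * a', G.mul_mem ha ha', b' * d, G.mul_mem hb' hd, ?_⟩
            have : a * h * b * (c * h * d) = a * (h * (b * c) * h) * d := by group
            rw [this, h1]; group
      one_mem' := Or.inl G.one_mem
      inv_mem' := by
        rintro k (hk | ⟨a, ha, b, hb, rfl⟩)
        · exact Or.inl (G.inv_mem hk)
        · refine Or.inr ⟨b⁻¹, G.inv_mem hb, a⁻¹, G.inv_mem ha, ?_⟩
          rw [mul_inv_rev, mul_inv_rev, hinv, mul_assoc] }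
  have hKS : ∀ k ∈ K, k ∈ G ∨ ∃ a ∈ G, ∃ b ∈ G, k = a * h * b := by
    have hle : K ≤ S := by
      rw [hK]
      apply sup_le
      · intro k hk; exact Or.inl hk
      · rw [Subgroup.closure_le]
        intro k hk
        rw [Set.mem_singleton_iff] at hk
        exact Or.inr ⟨1, G.one_mem, 1, G.one_mem, by rw [hk]; group⟩
    intro k hk
    exact hle hk
  have hGK : G ≤ K := by rw [hK]; exact le_sup_left
  have hhK : h ∈ K := by
    rw [hK]
    exact (le_sup_right : Subgroup.closure {h} ≤ _) (Subgroup.subset_closure rfl)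
  have hval : ∀ a ∈ G, ∀ b ∈ G, (a * h * b) p = a x := by
    intro a _ b hb
    rw [Perm.mul_apply, Perm.mul_apply, hGp b hb, hhp]
  refine ⟨hGK, ?_, hGp, ?_, ?_⟩
  · intro k hk hkp
    rcases hKS k hk with h1 | ⟨a, ha, b, hb, rfl⟩
    · exact h1
    · exfalso
      rw [hval a ha b hb] at hkp
      have := hGp a ha
      exact hxp (a.injective (hkp.trans this.symm))
  · intro k hk
    rcases hKS k hk with h1 | ⟨a, ha, b, hb, rfl⟩
    · rw [hGp k h1]; exact Finset.mem_insert_self _ _
    · rw [hval a ha b hb]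
      exact Finset.mem_insert_of_mem (hP.orb a ha)
  · intro y hy
    rcases Finset.mem_insert.mp hy with rfl | hy
    · exact ⟨1, K.one_mem, rfl⟩
    · obtain ⟨a, ha, rfl⟩ := hP.trans y hy
      refine ⟨a * h, K.mul_mem (hGK ha) hhK, ?_⟩
      rw [Perm.mul_apply, hhp]

end Cfsg.Agent.Helper18.WittExt
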