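import Mathlib
import Cfsg.Agent.Helper18.WittExt

/-!
# Tools for sharply multiply transitive permutation groups

* `sylow_frattini_count`: Sylow counting for a prime `p` dividing the group order exactly once,
  when elements of order `p` are self-centralizing.
* `cent_of_prime_cycle`: the centralizer of an element of prime order `p` acting on at most
  `p + 1` points.
* `normal_level`: a normal subgroup meets a 2-transitive stabilizer trivially or transitively.
-/

namespace Cfsg.Agent.Helper18.SharpTrans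

open Equiv Cfsg.Agent.Helper18.WittExt

/-- Sylow counting when elements of order `p` are self-centralizing and `p ∥ |Γ|`. -/
theorem sylow_frattini_count {Γ : Type*} [Group Γ] [Finite Γ] (p : ℕ) [Fact p.Prime]
    (hcent : ∀ c : Γ, orderOf c = p → ∀ z : Γ, Commute z c → z ∈ Subgroup.zpowers c)
    (hp2 : ¬ p ^ 2 ∣ Nat.card Γ)
    (N : Subgroup Γ) [N.Normal] (hN : p ∣ Nat.card N) :
    ∃ k d : ℕ, k ∣ p - 1 ∧ p * k ∣ Nat.card Γ ∧ (Nat.card Γ / (p * k)) % p = 1 ∧ p ∣ d ∧
      d ∣ p * k ∧ Nat.card N * (p * k) = Nat.card Γ * d := by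
  have hp := (Fact.out : p.Prime)
  obtain ⟨c', hc'⟩ := exists_prime_orderOf_dvd_card' p hN
  set c : Γ := c'.1 with hcdef
  have hc : orderOf c = p := by rw [hcdef, Subgroup.orderOf_coe]; exact hc'
  have hcN : c ∈ N := c'.2
  have hZcard : Nat.card (Subgroup.zpowers c) = p := by rw [Nat.card_zpowers, hc]
  have hfac : (Nat.card Γ).factorization p = 1 := by
    have h1 : p ∣ Nat.card Γ := hN.trans (Subgroup.card_subgroup_dvd_card N)
    have h3 := Nat.Prime.factorization_pos_of_dvd hp Nat.card_pos.ne' h1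
    have h2 : ¬ 2 ≤ (Nat.card Γ).factorization p := by
      intro h
      exact hp2 ((hp.pow_dvd_iff_le_factorization Nat.card_pos.ne').mpr h)
    omega
  let P : Sylow p Γ := Sylow.ofCard (Subgroup.zpowers c) (by rw [hZcard, hfac, pow_one])
  have hPN : (P : Subgroup Γ) ≤ N := by
    show Subgroup.zpowers c ≤ N
    rw [Subgroup.zpowers_le]; exact hcN
  have hC : Subgroup.centralizer ((Subgroup.zpowers c : Subgroup Γ) : Set Γ)
      = Subgroup.zpowers c := by
    apply le_antisymm
    · intro z hz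
      apply hcent c hc z
      exact (hz c (Subgroup.mem_zpowers c)).symm
    · intro z hz
      rw [Subgroup.mem_centralizer_iff]
      intro y hy
      obtain ⟨i, rfl⟩ := Subgroup.mem_zpowers_iff.mp hz
      obtain ⟨j, rfl⟩ := Subgroup.mem_zpowers_iff.mp hy
      rw [← zpow_add, ← zpow_add, add_comm]
  set K : Subgroup Γ := Subgroup.normalizer ((Subgroup.zpowers c : Subgroup Γ) : Set Γ) with hK
  have hZK : Subgroup.zpowers c ≤ K := Subgroup.le_normalizer
  have hker := Subgroup.normalizerMonoidHom_ker (Subgroup.zpowers c)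
  have hkercard : Nat.card (Subgroup.zpowers c).normalizerMonoidHom.ker = p := by
    rw [hker, hC, Nat.card_congr (Subgroup.subgroupOfEquivOfLe hZK).toEquiv, hZcard]
  have hidx : (Subgroup.zpowers c).normalizerMonoidHom.ker.index ∣ p - 1 := by
    rw [Subgroup.index_ker]
    have h1 := Subgroup.card_subgroup_dvd_card (Subgroup.zpowers c).normalizerMonoidHom.range
    rw [IsCyclic.card_mulAut, hZcard, Nat.totient_prime hp] at h1
    exact h1
  have hKcard : Nat.card K = p * (Subgroup.zpowers c).normalizerMonoidHom.ker.index := by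
    rw [← Subgroup.index_mul_card (Subgroup.zpowers c).normalizerMonoidHom.ker, hkercard, mul_comm]
  set k := (Subgroup.zpowers c).normalizerMonoidHom.ker.index with hk
  have hKdvd : p * k ∣ Nat.card Γ := by rw [← hKcard]; exact Subgroup.card_subgroup_dvd_card K
  have hsyl : (Nat.card Γ / (p * k)) % p = 1 := by
    have h1 := card_sylow_modEq_one p Γ
    rw [Sylow.card_eq_index_normalizer P] at h1
    have h2 : K.index = Nat.card Γ / (p * k) := by
      have h3 := Subgroup.index_mul_card K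
      rw [hKcard] at h3
      rw [← h3, Nat.mul_div_cancel _ (Nat.pos_of_ne_zero (by
        rw [← hKcard]; exact Nat.card_pos.ne'))]
    have h1' : K.index ≡ 1 [MOD p] := h1
    rw [h2] at h1'
    have h1 := h1'
    have h4 : (1 : ℕ) % p = 1 := Nat.mod_eq_of_lt hp.one_lt
    rw [Nat.ModEq, h4] at h1
    exact h1
  have hfrat : K ⊔ N = ⊤ := Sylow.normalizer_sup_eq_top' P hPN
  refine ⟨k, Nat.card (N ⊓ K : Subgroup Γ), hidx, hKdvd, hsyl, ?_, ?_, ?_⟩
  · have h1 : Subgroup.zpowers c ≤ N ⊓ K := le_inf hPN hZK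
    have h2 := Subgroup.card_dvd_of_le h1
    rwa [hZcard] at h2
  · rw [← hKcard]
    exact Subgroup.card_dvd_of_le inf_le_right
  · have h1 : N.relIndex (K ⊔ N) = N.relIndex K := Subgroup.relIndex_sup_right K N
    rw [hfrat, Subgroup.relIndex_top_right] at h1
    have h2 := Subgroup.index_mul_card (N.subgroupOf K)
    have h3 : Nat.card (N.subgroupOf K) = Nat.card (N ⊓ K : Subgroup Γ) := by
      rw [← Subgroup.inf_subgroupOf_right]
      exact Nat.card_congr (Subgroup.subgroupOfEquivOfLe inf_le_right).toEquiv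
    rw [h3] at h2
    have h4 : (N.subgroupOf K).index = N.index := h1.symm
    rw [h4, hKcard] at h2
    rw [← h2, ← Subgroup.index_mul_card N]
    ring


/-- the centralizer of an element of prime order `p` acting on at most `p + 1` points -/
theorem cent_of_prime_cycle {α : Type*} [Fintype α] [DecidableEq α] (c : Perm α) (p : ℕ)
    (hp : p.Prime) (hc : orderOf c = p) (hα : Fintype.card α ≤ p + 1)
    (z : Perm α) (hz : Commute z c) : z ∈ Subgroup.zpowers c := by
  have hcyc : c.IsCycle := Equiv.Perm.isCycle_of_prime_order' (by rw [hc]; exact hp)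
    (by rw [hc]; have := hp.two_le; omega)
  have hsupp : c.support.card = p := by rw [← hcyc.orderOf, hc]
  obtain ⟨b, hb⟩ : ∃ b, c b ≠ b := by
    obtain ⟨b, hb, _⟩ := hcyc
    exact ⟨b, hb⟩
  have hzb : c (z b) ≠ z b := by
    intro h
    apply hb
    have h1 : z (c b) = c (z b) := by
      have := congrArg (fun f : Perm α => f b) hz.eq
      simpa using this
    rw [h] at h1
    exact z.injective h1
  obtain ⟨i, hi⟩ := hcyc.exists_zpow_eq hb hzb
  set w := (c ^ i)⁻¹ * z with hw
  have hwc : Commute w c := by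
    have h1 : Commute (c ^ i)⁻¹ c := ((Commute.refl c).zpow_left i).inv_left
    exact h1.mul_left hz
  have hwb : w b = b := by
    rw [hw, Perm.mul_apply, ← hi]; simp
  have hwsupp : ∀ y, c y ≠ y → w y = y := by
    intro y hy
    obtain ⟨j, hj⟩ := hcyc.exists_zpow_eq hb hy
    rw [← hj]
    have h1 : Commute w (c ^ j) := hwc.zpow_right j
    have := congrArg (fun f : Perm α => f b) h1.eq
    simp only [Perm.mul_apply] at this
    rw [this, hwb]
  have hw1 : w = 1 := by
    ext y
    by_cases hy : c y = y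
    · by_cases hwy : c (w y) = w y
      · have hcard : (Finset.univ \ c.support).card ≤ 1 := by
          rw [Finset.card_sdiff_of_subset (Finset.subset_univ _), Finset.card_univ, hsupp]; omega
        have h1 : y ∈ Finset.univ \ c.support := by simp [hy]
        have h2 : w y ∈ Finset.univ \ c.support := by simp [hwy]
        exact Finset.card_le_one.mp hcard _ h2 _ h1
      · have := hwsupp (w y) hwy
        exact w.injective this
    · exact hwsupp y hy
  rw [Subgroup.mem_zpowers_iff]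
  refine ⟨i, ?_⟩
  have : z = c ^ i * w := by rw [hw]; group
  rw [this, hw1, mul_one]

/-- a subgroup `N` normalized by a subgroup `S` that is 2-transitive on `Δ` and fixes the
complement of `Δ` pointwise: if `N ⊓ S` is nontrivial it is transitive on `Δ` -/
theorem normal_level {α : Type*} [DecidableEq α] (N S : Subgroup (Perm α)) (Δ : Finset α)
    (hnorm : ∀ g ∈ S, ∀ n ∈ N, g * n * g⁻¹ ∈ N)
    (hSΔ : ∀ g ∈ S, ∀ x, x ∉ Δ → g x = x)
    (h2 : ∀ b ∈ Δ, ∀ c ∈ Δ, b ≠ c → ∀ b' ∈ Δ, ∀ c' ∈ Δ, b' ≠ c' → ∃ g ∈ S, g b = b' ∧ g c = c')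
    (hne : N ⊓ S ≠ ⊥) (b : α) (hb : b ∈ Δ) :
    Pkg (N ⊓ S ⊓ MulAction.stabilizer (Perm α) b) (N ⊓ S) b Δ := by
  obtain ⟨n, hn, hn1⟩ : ∃ n ∈ N ⊓ S, n ≠ 1 := by
    by_contra h
    push Not at h
    exact hne ((Subgroup.eq_bot_iff_forall _).mpr h)
  obtain ⟨b₀, hb₀⟩ : ∃ b₀, n b₀ ≠ b₀ := by
    by_contra h
    push Not at h
    exact hn1 (Perm.ext h)
  have hinv : ∀ a ∈ N ⊓ S, ∀ x ∈ Δ, a x ∈ Δ := by
    intro a ha x hx
    by_contra h
    have h1 := hSΔ a ha.2 (a x) h
    have h2 := a.injective h1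
    rw [h2] at h
    exact h hx
  have hb₀Δ : b₀ ∈ Δ := by
    by_contra h
    exact hb₀ (hSΔ n hn.2 b₀ h)
  have hnb₀Δ : n b₀ ∈ Δ := hinv n hn b₀ hb₀Δ
  have htr : ∀ y ∈ Δ, ∀ y' ∈ Δ, y ≠ y' → ∃ a ∈ N ⊓ S, a y = y' := by
    intro y hy y' hy' hyy'
    obtain ⟨g, hg, hg1, hg2⟩ := h2 b₀ hb₀Δ (n b₀) hnb₀Δ (Ne.symm hb₀) y hy y' hy' hyy'
    refine ⟨g * n * g⁻¹, ⟨hnorm g hg n hn.1, S.mul_mem (S.mul_mem hg hn.2) (S.inv_mem hg)⟩, ?_⟩
    rw [Perm.mul_apply, Perm.mul_apply, ← hg1]
    simp [hg2]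
  refine ⟨inf_le_left, fun a ha h => ⟨ha, h⟩, fun η hη => hη.2, fun a ha => hinv a ha b hb, ?_⟩
  intro y hy
  by_cases hyb : b = y
  · exact ⟨1, Subgroup.one_mem _, by rw [← hyb]; rfl⟩
  · exact htr b hb y hy hyb

/-- pointwise form of multiple transitivity -/
theorem ptrans {α : Type*} [Fintype α] (G : Subgroup (Perm α)) (k : ℕ)
    [MulAction.IsMultiplyPretransitive G α k] (hk : k ≤ Fintype.card α) (m : ℕ) (hm : m ≤ k)
    (v v' : Fin m → α) (hv : Function.Injective v) (hv' : Function.Injective v') :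
    ∃ g ∈ G, ∀ i, g (v i) = v' i := by
  have : MulAction.IsMultiplyPretransitive G α m :=
    MulAction.isMultiplyPretransitive_of_le hm (by rw [Nat.card_eq_fintype_card]; exact hk)
  obtain ⟨g, hg⟩ := MulAction.exists_smul_eq G (⟨v, hv⟩ : Fin m ↪ α) ⟨v', hv'⟩
  exact ⟨g.1, g.2, fun i => congrArg (fun f : Fin m ↪ α => f i) hg⟩

/-- pointwise form of sharpness -/
theorem psharp {α : Type*} (G : Subgroup (Perm α)) (k : ℕ)
    (hsharp : ∀ x : Fin k ↪ α, MulAction.stabilizer G x = ⊥) (v : Fin k → α)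
    (hv : Function.Injective v) (g : Perm α) (hg : g ∈ G) (h : ∀ i, g (v i) = v i) : g = 1 := by
  have h1 : (⟨g, hg⟩ : G) ∈ MulAction.stabilizer G (⟨v, hv⟩ : Fin k ↪ α) := by
    rw [MulAction.mem_stabilizer_iff]
    ext i
    exact h i
  rw [hsharp] at h1
  exact congrArg Subtype.val (Subgroup.mem_bot.mp h1)

/-- the order of a sharply `k`-transitive group -/
theorem card_of_sharp {α : Type*} [Fintype α] (G : Subgroup (Perm α)) (k : ℕ)
    [MulAction.IsMultiplyPretransitive G α k]
    (hsharp : ∀ x : Fin k ↪ α, MulAction.stabilizer G x = ⊥) (hk : k ≤ Fintype.card α) :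
    Nat.card G = (Fintype.card α).descFactorial k := by
  obtain ⟨x₀⟩ : Nonempty (Fin k ↪ α) :=
    Function.Embedding.nonempty_of_card_le (by rw [Fintype.card_fin]; exact hk)
  have hidx := MulAction.index_stabilizer G x₀
  rw [hsharp, Subgroup.index_bot] at hidx
  rw [hidx]
  have key : ∀ (s : Set (Fin k ↪ α)), (∀ y, y ∈ s) →
      s.ncard = (Fintype.card α).descFactorial k := by
    intro s hs
    rw [Set.eq_univ_of_forall hs, Set.ncard_univ, Nat.card_eq_fintype_card,
      Fintype.card_embedding_eq, Fintype.card_fin]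
  apply key
  intro y
  obtain ⟨g, hg⟩ := MulAction.exists_smul_eq G x₀ y
  refine ⟨g, ?_⟩
  ext i
  exact congrArg (fun f : Fin k ↪ α => f i) hg

theorem inj2 {α : Type*} {b c : α} (h : b ≠ c) : Function.Injective ![b, c] := by
  intro i j hij
  fin_cases i <;> fin_cases j <;> simp_all

theorem inj3 {α : Type*} {a b c : α} (hab : a ≠ b) (hac : a ≠ c) (hbc : b ≠ c) :
    Function.Injective ![a, b, c] := by
  intro i j hij
  fin_cases i <;> fin_cases j <;> simp_all

theorem inj4 {α : Type*} {a b c d : α} (hab : a ≠ b) (hac : a ≠ c) (had : a ≠ d) (hbc : b ≠ c)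
    (hbd : b ≠ d) (hcd : c ≠ d) : Function.Injective ![a, b, c, d] := by
  intro i j hij
  fin_cases i <;> fin_cases j <;> simp_all

/-- a normal subgroup of a subgroup `G` of a permutation group, as a subgroup of the
permutation group -/
theorem map_normal {α : Type*} (G : Subgroup (Perm α)) (N : Subgroup G) [hN : N.Normal] :
    (N.map G.subtype ≤ G) ∧ (∀ g ∈ G, ∀ n ∈ N.map G.subtype, g * n * g⁻¹ ∈ N.map G.subtype) ∧
      Nat.card (N.map G.subtype) = Nat.card N ∧ (N ≠ ⊥ → N.map G.subtype ≠ ⊥) := by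
  refine ⟨?_, ?_, Subgroup.card_map_of_injective G.subtype_injective, ?_⟩
  · rintro _ ⟨m, _, rfl⟩
    exact m.2
  · rintro g hg _ ⟨m, hm, rfl⟩
    exact ⟨⟨g, hg⟩ * m * ⟨g, hg⟩⁻¹, hN.conj_mem m hm ⟨g, hg⟩, rfl⟩
  · intro h h'
    exact h ((Subgroup.map_eq_bot_iff_of_injective N G.subtype_injective).mp h')

end Cfsg.Agent.Helper18.SharpTrans
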