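import Mathlib
import Cfsg.Agent.Helper18.SharpTrans
import Cfsg.Agent.S0708

/-!
# Degrees of sharply multiply transitive groups

Abstract forms (a group acting on a finite type) of the theorems on the possible degrees of
sharply `k`-transitive groups for `k ≥ 4`, deduced from the bound of S0708 and Sylow counting.
-/

namespace Cfsg.Agent.Helper18.SharpDeg

open Equiv Cfsg.Agent.Helper18.SharpTrans

/-- the image of a sharply `k`-transitive action in the symmetric group is sharply
`k`-transitive -/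
theorem range_sharp {Γ : Type*} [Group Γ] {Ω : Type*} [MulAction Γ Ω] (k : ℕ)
    (hk : MulAction.IsMultiplyPretransitive Γ Ω k)
    (hsharp : ∀ x : Fin k ↪ Ω, MulAction.stabilizer Γ x = ⊥) :
    MulAction.IsMultiplyPretransitive (MulAction.toPermHom Γ Ω).range Ω k ∧
    ∀ x : Fin k ↪ Ω, MulAction.stabilizer (MulAction.toPermHom Γ Ω).range x = ⊥ := by
  constructor
  · rw [MulAction.isMultiplyPretransitive_iff]
    intro x y
    obtain ⟨g, hg⟩ := hk.exists_smul_eq x y
    refine ⟨⟨MulAction.toPermHom Γ Ω g, ⟨g, rfl⟩⟩, ?_⟩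
    ext i
    have := congrArg (fun f : Fin k ↪ Ω => f i) hg
    exact this
  · intro x
    rw [Subgroup.eq_bot_iff_forall]
    rintro ⟨_, ⟨g, rfl⟩⟩ hg
    rw [MulAction.mem_stabilizer_iff] at hg
    have h1 : g ∈ MulAction.stabilizer Γ x := by
      rw [MulAction.mem_stabilizer_iff]
      ext i
      have := congrArg (fun f : Fin k ↪ Ω => f i) hg
      exact this
    rw [hsharp, Subgroup.mem_bot] at h1
    subst h1
    exact Subtype.ext (map_one _)

/-- a point stabilizer of a sharply `(k+1)`-transitive action is sharply `k`-transitive on the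
remaining points -/
theorem stab_sharp {Γ : Type*} [Group Γ] {Ω : Type*} [MulAction Γ Ω] [Finite Ω] (k : ℕ)
    (hk : MulAction.IsMultiplyPretransitive Γ Ω (k + 1))
    (hsharp : ∀ x : Fin (k + 1) ↪ Ω, MulAction.stabilizer Γ x = ⊥)
    (hcard : k + 1 ≤ Nat.card Ω) (a : Ω) :
    MulAction.IsMultiplyPretransitive (MulAction.stabilizer Γ a)
      (SubMulAction.ofStabilizer Γ a) k ∧
    (∀ x : Fin k ↪ SubMulAction.ofStabilizer Γ a,
      MulAction.stabilizer (MulAction.stabilizer Γ a) x = ⊥) ∧
    Nat.card (SubMulAction.ofStabilizer Γ a) + 1 = Nat.card Ω := by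
  have h1 : MulAction.IsMultiplyPretransitive Γ Ω 1 :=
    MulAction.isMultiplyPretransitive_of_le (n := k + 1) (by omega) hcard
  have hpre : MulAction.IsPretransitive Γ Ω := MulAction.is_one_pretransitive_iff.mp h1
  refine ⟨SubMulAction.ofStabilizer.isMultiplyPretransitive.mp hk, ?_,
    SubMulAction.nat_card_ofStabilizer_add_one_eq Γ a⟩
  intro x
  rw [Subgroup.eq_bot_iff_forall]
  intro g hg
  rw [MulAction.mem_stabilizer_iff] at hg
  have h2 : (g : Γ) ∈ MulAction.stabilizer Γ (SubMulAction.ofStabilizer.snoc x) := by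
    rw [MulAction.mem_stabilizer_iff]
    ext i
    rcases Fin.eq_castSucc_or_eq_last i with ⟨j, rfl⟩ | rfl
    · have := congrArg (fun f : Fin k ↪ SubMulAction.ofStabilizer Γ a => (f j : Ω)) hg
      simp only [Function.Embedding.smul_apply, SubMulAction.ofStabilizer.snoc_castSucc]
      exact this
    · simp only [Function.Embedding.smul_apply, SubMulAction.ofStabilizer.snoc_last]
      exact g.2
  rw [hsharp, Subgroup.mem_bot] at h2
  exact Subtype.ext h2

/-- in a sharply `k`-transitive permutation group, an element of prime order `p ≥ k` on fewer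
than `2p` points is self-centralizing -/
theorem cent_of_prime_sharp {α : Type*} [Fintype α] [DecidableEq α] (G : Subgroup (Perm α))
    (k : ℕ) (hsharp : ∀ x : Fin k ↪ α, MulAction.stabilizer G x = ⊥) (p : ℕ) (hp : p.Prime)
    (hkp : k ≤ p) (hα : Fintype.card α < 2 * p) (c : G) (hc : orderOf c = p) (z : G)
    (hz : Commute z c) : z ∈ Subgroup.zpowers c := by
  have hc' : orderOf (c : Perm α) = p := by rw [Subgroup.orderOf_coe]; exact hc
  have hz' : Commute (z : Perm α) (c : Perm α) := by
    have := congrArg Subtype.val hz.eq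
    exact this
  have hcyc : (c : Perm α).IsCycle := Equiv.Perm.isCycle_of_prime_order' (by rw [hc']; exact hp)
    (by rw [hc']; exact hα)
  have hsupp : (c : Perm α).support.card = p := by rw [← hcyc.orderOf, hc']
  obtain ⟨b, hb⟩ : ∃ b, (c : Perm α) b ≠ b := by
    obtain ⟨b, hb, _⟩ := hcyc
    exact ⟨b, hb⟩
  have hzb : (c : Perm α) ((z : Perm α) b) ≠ (z : Perm α) b := by
    intro h
    apply hb
    have h1 : (z : Perm α) ((c : Perm α) b) = (c : Perm α) ((z : Perm α) b) := by
      have := congrArg (fun f : Perm α => f b) hz'.eq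
      simpa using this
    rw [h] at h1
    exact (z : Perm α).injective h1
  obtain ⟨i, hi⟩ := hcyc.exists_zpow_eq hb hzb
  set w : Perm α := ((c : Perm α) ^ i)⁻¹ * (z : Perm α) with hw
  have hwG : w ∈ G := G.mul_mem (G.inv_mem (G.zpow_mem c.2 i)) z.2
  have hwc : Commute w (c : Perm α) := by
    have h1 : Commute ((c : Perm α) ^ i)⁻¹ (c : Perm α) :=
      ((Commute.refl (c : Perm α)).zpow_left i).inv_left
    exact h1.mul_left hz'
  have hwb : w b = b := by
    rw [hw, Perm.mul_apply, ← hi]; simp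
  have hwsupp : ∀ y, (c : Perm α) y ≠ y → w y = y := by
    intro y hy
    obtain ⟨j, hj⟩ := hcyc.exists_zpow_eq hb hy
    rw [← hj]
    have h1 : Commute w ((c : Perm α) ^ j) := hwc.zpow_right j
    have := congrArg (fun f : Perm α => f b) h1.eq
    simp only [Perm.mul_apply] at this
    rw [this, hwb]
  have hw1 : w = 1 := by
    obtain ⟨e⟩ : Nonempty (Fin k ↪ {x // x ∈ (c : Perm α).support}) :=
      Function.Embedding.nonempty_of_card_le (by
        rw [Fintype.card_fin, Fintype.card_coe, hsupp]; exact hkp)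
    apply psharp G k hsharp (fun i => ((e i : {x // x ∈ (c : Perm α).support}) : α))
      (fun i j hij => e.injective (Subtype.ext hij)) w hwG
    intro i
    apply hwsupp
    exact Perm.mem_support.mp (e i).2
  rw [Subgroup.mem_zpowers_iff]
  refine ⟨i, ?_⟩
  apply Subtype.ext
  have : (z : Perm α) = (c : Perm α) ^ i * w := by rw [hw]; group
  rw [this, hw1, mul_one]
  simp

/-- Sylow counting in a sharply `k`-transitive permutation group for a prime `p ≥ k` with
`p ≤ n < 2p` -/
theorem sharp_sylow {α : Type*} [Fintype α] [DecidableEq α] (G : Subgroup (Perm α))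
    (k : ℕ) (hsharp : ∀ x : Fin k ↪ α, MulAction.stabilizer G x = ⊥) (p : ℕ) (hp : p.Prime)
    (hkp : k ≤ p) (hα : Fintype.card α < 2 * p) (hdvd : p ∣ Nat.card G)
    (hp2 : ¬ p ^ 2 ∣ Nat.card G) :
    ∃ m : ℕ, m ∣ p - 1 ∧ p * m ∣ Nat.card G ∧ (Nat.card G / (p * m)) % p = 1 := by
  have : Fact p.Prime := ⟨hp⟩
  obtain ⟨m, d, h1, h2, h3, -⟩ := sylow_frattini_count (Γ := G) p
    (fun c hc z hz => cent_of_prime_sharp G k hsharp p hp hkp hα c hc z hz) hp2 ⊤
    (by rw [Subgroup.card_top]; exact hdvd)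
  exact ⟨m, h1, h2, h3⟩

/-- sharply 4-transitive actions have degree 4, 5, 6 or 11 -/
theorem abstract4 {Γ : Type*} [Group Γ] {Ω : Type*} [Finite Ω] [MulAction Γ Ω]
    (h4 : MulAction.IsMultiplyPretransitive Γ Ω 4)
    (hsharp : ∀ x : Fin 4 ↪ Ω, MulAction.stabilizer Γ x = ⊥) (hcard : 4 ≤ Nat.card Ω) :
    Nat.card Ω = 4 ∨ Nat.card Ω = 5 ∨ Nat.card Ω = 6 ∨ Nat.card Ω = 11 := by
  classical
  have := Fintype.ofFinite Ω
  have hne : Nonempty (Fin 4 ↪ Ω) :=
    Function.Embedding.nonempty_of_card_le (by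
      rw [Fintype.card_fin, ← Nat.card_eq_fintype_card]; exact hcard)
  obtain ⟨-, h11, hev⟩ := Cfsg.Agent.S0708.result h4 hsharp hne
  obtain ⟨hG4, hGs⟩ := range_sharp 4 h4 hsharp
  set G := (MulAction.toPermHom Γ Ω).range with hG
  have hord := card_of_sharp G 4 hGs (by rw [← Nat.card_eq_fintype_card]; exact hcard)
  rw [← Nat.card_eq_fintype_card] at hord
  have hlt : ∀ p : ℕ, Nat.card Ω < 2 * p → Fintype.card Ω < 2 * p := by
    intro p h; rw [← Nat.card_eq_fintype_card]; exact h
  by_cases h7 : Nat.card Ω = 7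
  · exfalso
    rw [h7] at hord
    have hord' : Nat.card G = 840 := by rw [hord]; decide
    obtain ⟨m, h1, h2, h3⟩ := sharp_sylow G 4 hGs 5 (by norm_num) (by norm_num)
      (hlt 5 (by rw [h7]; norm_num)) (by rw [hord']; norm_num) (by rw [hord']; norm_num)
    rw [hord'] at h2 h3
    have hm : m ≤ 4 := Nat.le_of_dvd (by norm_num) h1
    interval_cases m <;> omega
  by_cases h9 : Nat.card Ω = 9
  · exfalso
    rw [h9] at hord
    have hord' : Nat.card G = 3024 := by rw [hord]; decide
    obtain ⟨m, h1, h2, h3⟩ := sharp_sylow G 4 hGs 7 (by norm_num) (by norm_num)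
      (hlt 7 (by rw [h9]; norm_num)) (by rw [hord']; norm_num) (by rw [hord']; norm_num)
    rw [hord'] at h2 h3
    have hm : m ≤ 6 := Nat.le_of_dvd (by norm_num) h1
    interval_cases m <;> omega
  have hev' : Nat.card Ω % 2 = 1 ∨ Nat.card Ω ≤ 6 := by
    by_cases h : Even (Nat.card Ω)
    · exact Or.inr (hev h)
    · exact Or.inl (Nat.odd_iff.mp (Nat.not_even_iff_odd.mp h))
  omega

/-- sharply 5-transitive actions have degree 5, 6, 7 or 12 -/
theorem abstract5 {Γ : Type*} [Group Γ] {Ω : Type*} [Finite Ω] [MulAction Γ Ω]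
    (h5 : MulAction.IsMultiplyPretransitive Γ Ω 5)
    (hsharp : ∀ x : Fin 5 ↪ Ω, MulAction.stabilizer Γ x = ⊥) (hcard : 5 ≤ Nat.card Ω) :
    Nat.card Ω = 5 ∨ Nat.card Ω = 6 ∨ Nat.card Ω = 7 ∨ Nat.card Ω = 12 := by
  obtain ⟨a⟩ : Nonempty Ω := by
    by_contra h
    rw [not_nonempty_iff] at h
    rw [Nat.card_of_isEmpty] at hcard
    omega
  obtain ⟨h4, hs, hc⟩ := stab_sharp 4 h5 hsharp hcard a
  have := abstract4 h4 hs (by omega)
  omega

/-- sharply `k`-transitive actions with `k ≥ 6` have degree `k`, `k + 1` or `k + 2` -/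
theorem abstractk.{u, v} (k : ℕ) (hk : 6 ≤ k) :
    ∀ (Γ : Type u) [Group Γ] (Ω : Type v) [Finite Ω] [MulAction Γ Ω],
      MulAction.IsMultiplyPretransitive Γ Ω k →
      (∀ x : Fin k ↪ Ω, MulAction.stabilizer Γ x = ⊥) → k ≤ Nat.card Ω →
      Nat.card Ω = k ∨ Nat.card Ω = k + 1 ∨ Nat.card Ω = k + 2 := by
  induction k, hk using Nat.le_induction with
  | base =>
    intro Γ _ Ω _ _ h6 hsharp hcard
    classical
    have := Fintype.ofFinite Ω
    obtain ⟨a⟩ : Nonempty Ω := by
      by_contra h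
      rw [not_nonempty_iff] at h
      rw [Nat.card_of_isEmpty] at hcard
      omega
    obtain ⟨h5, hs, hc⟩ := stab_sharp 5 h6 hsharp hcard a
    have h := abstract5 h5 hs (by omega)
    by_cases h13 : Nat.card Ω = 13
    · exfalso
      obtain ⟨hG6, hGs⟩ := range_sharp 6 h6 hsharp
      set G := (MulAction.toPermHom Γ Ω).range with hG
      have hord := card_of_sharp G 6 hGs (by rw [← Nat.card_eq_fintype_card]; exact hcard)
      rw [← Nat.card_eq_fintype_card, h13] at hord
      have hord' : Nat.card G = 1235520 := by rw [hord]; decide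
      obtain ⟨m, h1, h2, h3⟩ := sharp_sylow G 6 hGs 13 (by norm_num) (by norm_num)
        (by rw [← Nat.card_eq_fintype_card, h13]; norm_num) (by rw [hord']; norm_num)
        (by rw [hord']; norm_num)
      rw [hord'] at h2 h3
      have hm : m ≤ 12 := Nat.le_of_dvd (by norm_num) h1
      interval_cases m <;> omega
    · omega
  | succ k hk ih =>
    intro Γ _ Ω _ _ hk1 hsharp hcard
    obtain ⟨a⟩ : Nonempty Ω := by
      by_contra h
      rw [not_nonempty_iff] at h
      rw [Nat.card_of_isEmpty] at hcard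
      omega
    obtain ⟨hk', hs, hc⟩ := stab_sharp k hk1 hsharp hcard a
    have h := ih (MulAction.stabilizer Γ a) (SubMulAction.ofStabilizer Γ a) hk' hs (by omega)
    omega

end Cfsg.Agent.Helper18.SharpDeg
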