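import Mathlib
import Cfsg.Prelude.Def_GeometricClasses
import Cfsg.Agent.Helper28.Transv
import Cfsg.Agent.Helper2.SLGen
import Cfsg.Agent.S5631
import Cfsg.Agent.Helper18.SlSp

set_option autoImplicit false

namespace Cfsg.Agent.Helper18.SlU

open scoped Matrix

open scoped MatrixGroups

open Cfsg.Agent.Helper28

variable {F : Type*} [Field F] {n : ℕ}

theorem exists_c0 (σ : F ≃+* F) (hinv : ∀ a, σ (σ a) = a) (hne : σ ≠ RingEquiv.refl F) :
    ∃ c : F, c ≠ 0 ∧ σ c = -c := by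
  obtain ⟨θ, hθ⟩ : ∃ θ, σ θ ≠ θ := by
    by_contra hcon
    push Not at hcon
    exact hne (RingEquiv.ext hcon)
  refine ⟨θ - σ θ, fun h => hθ (sub_eq_zero.1 h).symm, ?_⟩
  rw [map_sub, hinv]
  ring

theorem trace_surj (σ : F ≃+* F) (hinv : ∀ a, σ (σ a) = a) (hne : σ ≠ RingEquiv.refl F)
    (α : F) (hα : σ α = α) : ∃ μ : F, μ + σ μ = α := by
  obtain ⟨θ, hθ⟩ : ∃ θ : F, θ + σ θ ≠ 0 := by
    by_cases h2 : (2 : F) = 0
    · obtain ⟨θ, hθ⟩ : ∃ θ, σ θ ≠ θ := by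
        by_contra hcon
        push Not at hcon
        exact hne (RingEquiv.ext hcon)
      refine ⟨θ, fun h => hθ ?_⟩
      linear_combination h - θ * h2
    · refine ⟨1, ?_⟩
      rw [map_one]
      intro h
      apply h2
      linear_combination h
  have ht : σ (θ + σ θ) = θ + σ θ := by
    rw [map_add, hinv]
    ring
  refine ⟨α * θ / (θ + σ θ), ?_⟩
  rw [map_div₀, map_mul, ht, hα]
  field_simp

theorem norm_surj [Fintype F] (σ : F ≃+* F) (hinv : ∀ a, σ (σ a) = a)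
    (hne : σ ≠ RingEquiv.refl F) (α : F) (hα : σ α = α) (hα0 : α ≠ 0) :
    ∃ l : F, l * σ l = α := by
  classical
  obtain ⟨s, hsdef⟩ : ∃ s : Fˣ →* Fˣ, ∀ x : Fˣ, ((s x : Fˣ) : F) = σ (x : F) :=
    ⟨Units.map (σ : F →* F), fun x => rfl⟩
  have hs : ∀ x : Fˣ, s (s x) = x := by
    intro x
    apply Units.ext
    rw [hsdef, hsdef, hinv]
  obtain ⟨N, hN⟩ : ∃ N : Fˣ →* Fˣ, ∀ x, N x = x * s x :=
    ⟨MonoidHom.mk' (fun x => x * s x) (by
      intro a b
      show a * b * s (a * b) = a * s a * (b * s b)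
      rw [map_mul]
      exact mul_mul_mul_comm a b (s a) (s b)), fun x => rfl⟩
  obtain ⟨Dm, hD⟩ : ∃ Dm : Fˣ →* Fˣ, ∀ x, Dm x = x * (s x)⁻¹ :=
    ⟨MonoidHom.mk' (fun x => x * (s x)⁻¹) (by
      intro a b
      show a * b * (s (a * b))⁻¹ = a * (s a)⁻¹ * (b * (s b)⁻¹)
      rw [map_mul, mul_inv]
      exact mul_mul_mul_comm a b (s a)⁻¹ (s b)⁻¹), fun x => rfl⟩
  have h1 : N.range ≤ Dm.ker := by
    rintro _ ⟨x, rfl⟩
    rw [MonoidHom.mem_ker, hD, hN, map_mul, hs, mul_comm (s x) x, mul_inv_cancel]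
  have h2 : Dm.range = N.ker := by
    apply le_antisymm
    · rintro _ ⟨y, rfl⟩
      rw [MonoidHom.mem_ker, hN, hD, map_mul, map_inv, hs]
      group
    · intro x hx
      rw [MonoidHom.mem_ker, hN] at hx
      have hx' : (x : F) * σ (x : F) = 1 := by
        have h3 := congrArg Units.val hx
        rw [Units.val_mul, hsdef, Units.val_one] at h3
        exact h3
      obtain ⟨θ, hθ⟩ : ∃ θ : F, θ + x * σ θ ≠ 0 := by
        by_contra hcon
        push Not at hcon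
        have e1 := hcon 1
        rw [map_one, mul_one] at e1
        apply hne
        apply RingEquiv.ext
        intro θ
        have e2 := hcon θ
        have hx1 : (x : F) = -1 := by linear_combination e1
        rw [hx1] at e2
        show σ θ = θ
        linear_combination -e2
      refine ⟨Units.mk0 _ hθ, ?_⟩
      rw [hD]
      apply Units.ext
      rw [Units.val_mul, Units.val_inv_eq_inv_val, hsdef, Units.val_mk0]
      have hy : (x : F) * σ (θ + x * σ θ) = θ + x * σ θ := by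
        rw [map_add, map_mul, hinv]
        linear_combination θ * hx'
      have hσy : σ (θ + x * σ θ) ≠ 0 := by
        intro h0
        rw [h0, mul_zero] at hy
        exact hθ hy.symm
      field_simp
      linear_combination -hy
  have c1 : Nat.card Dm.ker * Nat.card Dm.range = Nat.card Fˣ := by
    rw [← Subgroup.index_ker, Subgroup.card_mul_index]
  have c2 : Nat.card N.ker * Nat.card N.range = Nat.card Fˣ := by
    rw [← Subgroup.index_ker, Subgroup.card_mul_index]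
  rw [h2] at c1
  have c3 : Nat.card Dm.ker = Nat.card N.range := by
    have hpos : 0 < Nat.card N.ker := Nat.card_pos
    have h4 : Nat.card N.ker * Nat.card Dm.ker = Nat.card N.ker * Nat.card N.range := by
      rw [mul_comm, c1, c2]
    exact Nat.eq_of_mul_eq_mul_left hpos h4
  have h3 : N.range = Dm.ker := Subgroup.eq_of_le_of_card_ge h1 (le_of_eq c3)
  have hmem : Units.mk0 α hα0 ∈ Dm.ker := by
    rw [MonoidHom.mem_ker, hD]
    have h5 : s (Units.mk0 α hα0) = Units.mk0 α hα0 := by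
      apply Units.ext
      rw [hsdef, Units.val_mk0, hα]
    rw [h5, mul_inv_cancel]
  rw [← h3] at hmem
  obtain ⟨x, hx⟩ := hmem
  refine ⟨x, ?_⟩
  have h6 := congrArg Units.val hx
  rw [hN, Units.val_mul, hsdef, Units.val_mk0] at h6
  exact h6

/-- The working configuration for the unitary case. -/
structure UCfg (σ : F ≃+* F) (f : (Fin n → F) → (Fin n → F) → F)
    (M : Subgroup (GL (Fin n) F)) (c₀ : F) : Prop where
  inv : ∀ a, σ (σ a) = a
  al : ∀ x y v, f (x + y) v = f x v + f y v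
  sl : ∀ (c : F) (x v : Fin n → F), f (c • x) v = c * f x v
  herm : ∀ v w, f v w = σ (f w v)
  nd : ∀ v, v ≠ 0 → ∃ x, f x v ≠ 0
  c0 : c₀ ≠ 0
  c0' : σ c₀ = -c₀
  tr : ∀ α, σ α = α → ∃ μ : F, μ + σ μ = α
  nm : ∀ α, σ α = α → α ≠ 0 → ∃ l : F, l * σ l = α
  par : Cfsg.Geo.similarityGroup f ⊓ Cfsg.Geo.specialLinear (Fin n) F ≤ M
  dim : 13 ≤ n

section cfg

variable {σ : F ≃+* F} {f : (Fin n → F) → (Fin n → F) → F} {M : Subgroup (GL (Fin n) F)}
  {c₀ : F}

theorem ar (hC : UCfg σ f M c₀) (v x y : Fin n → F) : f v (x + y) = f v x + f v y := by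
  rw [hC.herm, hC.al, map_add, ← hC.herm, ← hC.herm]

theorem sr (hC : UCfg σ f M c₀) (c : F) (v x : Fin n → F) : f v (c • x) = σ c * f v x := by
  rw [hC.herm, hC.sl, map_mul, ← hC.herm]

theorem zl (hC : UCfg σ f M c₀) (v : Fin n → F) : f 0 v = 0 := by
  have h := hC.sl 0 0 v
  rwa [zero_smul, zero_mul] at h

theorem zr (hC : UCfg σ f M c₀) (v : Fin n → F) : f v 0 = 0 := by
  rw [hC.herm, zl hC, map_zero]

theorem nl (hC : UCfg σ f M c₀) (x v : Fin n → F) : f (-x) v = - f x v := by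
  have h := hC.sl (-1) x v
  rwa [neg_smul, one_smul, neg_mul, one_mul] at h

theorem nr (hC : UCfg σ f M c₀) (v x : Fin n → F) : f v (-x) = - f v x := by
  rw [hC.herm, nl hC, map_neg, ← hC.herm]

theorem subl (hC : UCfg σ f M c₀) (x y v : Fin n → F) : f (x - y) v = f x v - f y v := by
  rw [sub_eq_add_neg, hC.al, nl hC, ← sub_eq_add_neg]

theorem subr (hC : UCfg σ f M c₀) (v x y : Fin n → F) : f v (x - y) = f v x - f v y := by
  rw [sub_eq_add_neg, ar hC, nr hC, ← sub_eq_add_neg]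

theorem nd' (hC : UCfg σ f M c₀) (v : Fin n → F) (hv : v ≠ 0) : ∃ x, f v x ≠ 0 := by
  obtain ⟨x, hx⟩ := hC.nd v hv
  refine ⟨x, fun h => hx ?_⟩
  rw [hC.herm, h, map_zero]

theorem h0 (hC : UCfg σ f M c₀) (x y : Fin n → F) (h : f x y = 0) : f y x = 0 := by
  rw [hC.herm, h, map_zero]

theorem h1 (hC : UCfg σ f M c₀) (x y : Fin n → F) (h : f x y ≠ 0) : f y x ≠ 0 :=
  fun hc => h (h0 hC _ _ hc)

theorem fixd (hC : UCfg σ f M c₀) (x : Fin n → F) : σ (f x x) = f x x := (hC.herm x x).symm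

/-- The functional `x ↦ f x u`. -/
def fl (hC : UCfg σ f M c₀) (u : Fin n → F) : (Fin n → F) →ₗ[F] F where
  toFun x := f x u
  map_add' x y := hC.al x y u
  map_smul' c x := by rw [hC.sl, RingHom.id_apply, smul_eq_mul]

theorem fl_apply (hC : UCfg σ f M c₀) (u x : Fin n → F) : fl hC u x = f x u := rfl

theorem utv (hC : UCfg σ f M c₀) (z : Fin n → F) (hz : f z z = 0) :
    ∃ A ∈ M, (∀ x y, f (A.1 *ᵥ x) (A.1 *ᵥ y) = f x y) ∧
      ∀ x, A.1 *ᵥ x = x + (c₀ * f x z) • z := by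
  have hφ : (c₀ • fl hC z) z = 0 := by
    rw [LinearMap.smul_apply, fl_apply, hz, smul_zero]
  have hact : ∀ x, (transvGL z (c₀ • fl hC z) hφ).1 *ᵥ x = x + (c₀ * f x z) • z := by
    intro x
    rw [transvGL_mulVec, LinearMap.smul_apply, fl_apply, smul_eq_mul]
  have hiso : ∀ x y, f ((transvGL z (c₀ • fl hC z) hφ).1 *ᵥ x)
      ((transvGL z (c₀ • fl hC z) hφ).1 *ᵥ y) = f x y := by
    intro x y
    rw [hact, hact]
    simp only [hC.al, ar hC, hC.sl, sr hC, hz, mul_zero, add_zero, map_mul, hC.c0']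
    rw [← hC.herm z y]
    ring
  refine ⟨_, hC.par ⟨⟨1, fun u v => ?_⟩, transvGL_mem_specialLinear _ _ _⟩, hiso, hact⟩
  rw [hiso, Units.val_one, one_mul]

/-- The map `x ↦ x + f x u • v` lies in `M`. -/
def memT (M : Subgroup (GL (Fin n) F)) (f : (Fin n → F) → (Fin n → F) → F)
    (v u : Fin n → F) : Prop :=
  ∃ A ∈ M, ∀ x : Fin n → F, A.1 *ᵥ x = x + f x u • v

theorem memT_add (hC : UCfg σ f M c₀) (v u u' : Fin n → F) (h : memT M f v u)
    (h' : memT M f v u') (hv : f v u = 0) : memT M f v (u + u') := by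
  obtain ⟨A, hA, hAx⟩ := h
  obtain ⟨A', hA', hAx'⟩ := h'
  refine ⟨A * A', M.mul_mem hA hA', fun x => ?_⟩
  rw [Units.val_mul, ← Matrix.mulVec_mulVec, hAx', hAx, hC.al, hC.sl, hv, mul_zero, add_zero,
    ar hC]
  module

theorem memT_neg (hC : UCfg σ f M c₀) (v u : Fin n → F) (h : memT M f v u)
    (hv : f v u = 0) : memT M f v (-u) := by
  obtain ⟨A, hA, hAx⟩ := h
  refine ⟨A⁻¹, M.inv_mem hA, fun x => ?_⟩
  have e : A.1 *ᵥ (x + f x (-u) • v) = x := by
    rw [hAx, hC.al, hC.sl, hv, mul_zero, add_zero, nr hC]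
    module
  have e2 : (A⁻¹).1 *ᵥ (A.1 *ᵥ (x + f x (-u) • v)) = (A⁻¹).1 *ᵥ x := by rw [e]
  rw [SlSp.inv_act] at e2
  exact e2.symm

theorem memT_smul (hC : UCfg σ f M c₀) (c : F) (v u : Fin n → F)
    (h : memT M f v (σ c • u)) : memT M f (c • v) u := by
  obtain ⟨A, hA, hAx⟩ := h
  refine ⟨A, hA, fun x => ?_⟩
  rw [hAx, sr hC, hC.inv, smul_smul, mul_comm]

theorem memT_conj (hC : UCfg σ f M c₀) (g : GL (Fin n) F) (hg : g ∈ M)
    (hiso : ∀ x y, f (g.1 *ᵥ x) (g.1 *ᵥ y) = f x y) (v u : Fin n → F) (h : memT M f v u) :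
    memT M f (g.1 *ᵥ v) (g.1 *ᵥ u) := by
  obtain ⟨A, hA, hAx⟩ := h
  refine ⟨g * A * g⁻¹, M.mul_mem (M.mul_mem hg hA) (M.inv_mem hg), fun x => ?_⟩
  rw [Units.val_mul, Units.val_mul, ← Matrix.mulVec_mulVec, ← Matrix.mulVec_mulVec, hAx,
    Matrix.mulVec_add, Matrix.mulVec_smul, SlSp.act_inv]
  have e : f ((g⁻¹).1 *ᵥ x) u = f x (g.1 *ᵥ u) := by
    have e1 := hiso ((g⁻¹).1 *ᵥ x) u
    rw [SlSp.act_inv] at e1
    exact e1.symm
  rw [e]

theorem experp (hC : UCfg σ f M c₀) (v u : Fin n → F) (hu : ∀ c : F, u ≠ c • v) :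
    ∃ x, f x v = 0 ∧ f x u ≠ 0 := by
  by_contra hcon
  push Not at hcon
  have hu0 : u ≠ 0 := fun h0 => hu 0 (by rw [h0, zero_smul])
  by_cases hv0 : v = 0
  · obtain ⟨x, hx⟩ := hC.nd u hu0
    exact hx (hcon x (by rw [hv0, zr hC]))
  · obtain ⟨y, hy⟩ := hC.nd v hv0
    apply hu (σ (f y u / f y v))
    rw [← sub_eq_zero]
    by_contra hne
    obtain ⟨x, hx⟩ := hC.nd _ hne
    apply hx
    have h1 := hcon (x - (f x v / f y v) • y) (by
      rw [subl hC, hC.sl, div_mul_cancel₀ _ hy, sub_self])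
    rw [subl hC, hC.sl] at h1
    rw [subr hC, sr hC, hC.inv]
    linear_combination h1

theorem conn (hC : UCfg σ f M c₀) (p q x₁ x₂ : Fin n → F) (h1 : f x₁ p ≠ 0)
    (h2 : f x₂ q ≠ 0) :
    ∃ x, f x p ≠ 0 ∧ f x q ≠ 0 ∧ (x = x₁ ∨ x = x₂ ∨ x = x₁ + x₂) := by
  by_cases h3 : f x₁ q = 0
  · by_cases h4 : f x₂ p = 0
    · refine ⟨x₁ + x₂, ?_, ?_, Or.inr (Or.inr rfl)⟩
      · rw [hC.al, h4, add_zero]
        exact h1
      · rw [hC.al, h3, zero_add]
        exact h2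
    · exact ⟨x₂, h4, h2, Or.inr (Or.inl rfl)⟩
  · exact ⟨x₁, h1, h3, Or.inl rfl⟩

theorem isoadd (hC : UCfg σ f M c₀) (z x : Fin n → F) (hz : f z z = 0) (hzx : f z x ≠ 0) :
    ∃ l : F, f (x + l • z) (x + l • z) = 0 := by
  obtain ⟨μ, hμ⟩ := hC.tr (- f x x) (by rw [map_neg, fixd hC])
  refine ⟨μ / f z x, ?_⟩
  simp only [hC.al, ar hC, hC.sl, sr hC, hz, mul_zero, add_zero]
  rw [map_div₀, ← hC.herm x z]
  have hxz : f x z ≠ 0 := h1 hC _ _ hzx
  field_simp
  linear_combination hμ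

theorem iso_ex (hC : UCfg σ f M c₀) (k : ℕ) (hk : k + 2 ≤ n) (y : Fin k → Fin n → F) :
    ∃ z, z ≠ 0 ∧ f z z = 0 ∧ ∀ i, f z (y i) = 0 := by
  obtain ⟨x, hx0, hxy⟩ : ∃ x : Fin n → F, x ≠ 0 ∧ ∀ i, f x (y i) = 0 := by
    have hlt : Module.finrank F (Fin k → F) < Module.finrank F (Fin n → F) := by
      rw [Module.finrank_fintype_fun_eq_card, Module.finrank_fintype_fun_eq_card,
        Fintype.card_fin, Fintype.card_fin]
      omega
    obtain ⟨x, hx, hx0⟩ := Submodule.exists_mem_ne_zero_of_ne_bot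
      (LinearMap.ker_ne_bot_of_finrank_lt (f := LinearMap.pi (fun i => fl hC (y i))) hlt)
    have h1 : (LinearMap.pi (fun i => fl hC (y i))) x = 0 := LinearMap.mem_ker.1 hx
    exact ⟨x, hx0, fun i => congrFun h1 i⟩
  by_cases hxx : f x x = 0
  · exact ⟨x, hx0, hxx, hxy⟩
  obtain ⟨y', hy0, hyy, hyx⟩ : ∃ y' : Fin n → F, y' ≠ 0 ∧ (∀ i, f y' (y i) = 0) ∧
      f y' x = 0 := by
    have hlt : Module.finrank F ((Fin k → F) × F) < Module.finrank F (Fin n → F) := by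
      rw [Module.finrank_prod, Module.finrank_self, Module.finrank_fintype_fun_eq_card,
        Module.finrank_fintype_fun_eq_card, Fintype.card_fin, Fintype.card_fin]
      omega
    obtain ⟨x', hx', hx0'⟩ := Submodule.exists_mem_ne_zero_of_ne_bot
      (LinearMap.ker_ne_bot_of_finrank_lt
        (f := (LinearMap.pi (fun i => fl hC (y i))).prod (fl hC x)) hlt)
    have h1 : ((LinearMap.pi (fun i => fl hC (y i))).prod (fl hC x)) x' = 0 :=
      LinearMap.mem_ker.1 hx'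
    rw [LinearMap.prod_apply] at h1
    exact ⟨x', hx0', fun i => congrFun (congrArg Prod.fst h1) i, congrArg Prod.snd h1⟩
  by_cases hyy' : f y' y' = 0
  · exact ⟨y', hy0, hyy', hyy⟩
  obtain ⟨l, hl⟩ := hC.nm (-(f x x / f y' y'))
    (by rw [map_neg, map_div₀, fixd hC, fixd hC])
    (by
      rw [neg_ne_zero]
      exact div_ne_zero hxx hyy')
  refine ⟨x + l • y', ?_, ?_, fun i => ?_⟩
  · intro h0'
    have h2 : f (x + l • y') x = 0 := by rw [h0', zl hC]
    rw [hC.al, hC.sl, hyx, mul_zero, add_zero] at h2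
    exact hxx h2
  · simp only [hC.al, ar hC, hC.sl, sr hC, hyx, h0 hC _ _ hyx, mul_zero, add_zero, zero_add]
    have h2 : l * σ l * f y' y' = - f x x := by
      rw [hl]
      field_simp
    linear_combination h2
  · rw [hC.al, hC.sl, hxy, hyy, mul_zero, add_zero]

theorem riesz [Fintype F] (hC : UCfg σ f M c₀) (φ : (Fin n → F) →ₗ[F] F) :
    ∃ u, ∀ x, φ x = f x u := by
  have hinj : Function.Injective (fun u : Fin n → F => fl hC u) := by
    intro u u' h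
    by_contra hne
    obtain ⟨x, hx⟩ := hC.nd (u - u') (sub_ne_zero.2 hne)
    apply hx
    rw [subr hC]
    have h2 : fl hC u x = fl hC u' x := by
      have h3 : fl hC u = fl hC u' := h
      rw [h3]
    rw [fl_apply, fl_apply] at h2
    rw [h2, sub_self]
  have hsurj := (Finite.injective_iff_surjective_of_equiv
    ((Pi.basisFun F (Fin n)).toDualEquiv).toEquiv).1 hinj
  obtain ⟨u, hu⟩ := hsurj φ
  refine ⟨u, fun x => ?_⟩
  rw [← hu]
  rfl

/-- All transvections with direction `v` lie in `M`. -/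
def inD (M : Subgroup (GL (Fin n) F)) (f : (Fin n → F) → (Fin n → F) → F)
    (v : Fin n → F) : Prop :=
  ∀ u, f v u = 0 → memT M f v u

theorem inD_smul (hC : UCfg σ f M c₀) (c : F) (v : Fin n → F) (h : inD M f v) :
    inD M f (c • v) := by
  intro u hu
  by_cases hc : c = 0
  · rw [hc, zero_smul]
    exact ⟨1, M.one_mem, fun x => by
      rw [smul_zero, add_zero, Units.val_one, Matrix.one_mulVec]⟩
  · apply memT_smul hC
    apply h
    rw [hC.sl] at hu
    rw [sr hC, hC.inv]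
    rcases mul_eq_zero.1 hu with h1 | h1
    · exact absurd h1 hc
    · rw [h1, mul_zero]

theorem inD_iso (hC : UCfg σ f M c₀) (g : GL (Fin n) F) (hg : g ∈ M)
    (hiso : ∀ x y, f (g.1 *ᵥ x) (g.1 *ᵥ y) = f x y) (v : Fin n → F) (h : inD M f v) :
    inD M f (g.1 *ᵥ v) := by
  intro u hu
  have e : f v ((g⁻¹).1 *ᵥ u) = 0 := by
    have e1 := hiso v ((g⁻¹).1 *ᵥ u)
    rw [SlSp.act_inv, hu] at e1
    exact e1.symm
  have h2 := memT_conj hC g hg hiso v _ (h _ e)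
  rwa [SlSp.act_inv] at h2

theorem inD_add (hC : UCfg σ f M c₀) (v v' : Fin n → F) (h : inD M f v)
    (h' : inD M f v') : inD M f (v + v') := by
  by_cases hprop : ∃ c : F, v = c • v'
  · obtain ⟨c, rfl⟩ := hprop
    have e : c • v' + v' = (c + 1) • v' := by module
    rw [e]
    exact inD_smul hC _ _ h'
  · push Not at hprop
    obtain ⟨x, hx0, hx⟩ := experp hC v' v hprop
    obtain ⟨u₀, hu1, hu2⟩ : ∃ u₀, f v u₀ = 1 ∧ f v' u₀ = 0 := by
      refine ⟨(f x v)⁻¹ • x, ?_, ?_⟩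
      · rw [sr hC, map_inv₀, ← hC.herm v x]
        exact inv_mul_cancel₀ (h1 hC _ _ hx)
      · rw [sr hC, h0 hC _ _ hx0, mul_zero]
    intro u hu
    obtain ⟨A₁, hA₁, hA₁x⟩ := h' u₀ hu2
    obtain ⟨A₂, hA₂, hA₂x⟩ := memT_neg hC v' u₀ (h' u₀ hu2) hu2
    have hu' : f v (u - f u v • u₀) = 0 := by
      rw [subr hC, sr hC, hu1, mul_one, ← hC.herm v u, sub_self]
    obtain ⟨A₃, hA₃, hA₃x⟩ := h _ hu'
    refine ⟨A₁ * A₃ * A₂, M.mul_mem (M.mul_mem hA₁ hA₃) hA₂, fun x => ?_⟩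
    rw [Units.val_mul, Units.val_mul, ← Matrix.mulVec_mulVec, ← Matrix.mulVec_mulVec, hA₂x,
      hA₃x, hA₁x]
    have hvu : f v' u = - f v u := by
      rw [hC.al] at hu
      linear_combination hu
    simp only [hC.al, ar hC, hC.sl, sr hC, subl hC, subr hC, nl hC, nr hC, hu1, hu2, mul_zero,
      mul_one, add_zero, sub_zero, ← hC.herm v u, hvu]
    module

theorem inD_iso_vec (hC : UCfg σ f M c₀) (v y : Fin n → F) (hv : inD M f v)
    (hy : f y y = 0) (hvy : f v y ≠ 0) : inD M f y := by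
  obtain ⟨A, hA, hiso, hAx⟩ := utv hC y hy
  have h2 := inD_iso hC A hA hiso v hv
  rw [hAx] at h2
  have h3 := inD_add hC _ _ h2 (inD_smul hC (-1) v hv)
  have e : v + (c₀ * f v y) • y + (-1 : F) • v = (c₀ * f v y) • y := by module
  rw [e] at h3
  have h4 := inD_smul hC (c₀ * f v y)⁻¹ _ h3
  rwa [smul_smul, inv_mul_cancel₀ (mul_ne_zero hC.c0 hvy), one_smul] at h4

theorem inD_all (hC : UCfg σ f M c₀) (a : Fin n → F) (ha : a ≠ 0) (haD : inD M f a) :
    ∀ x, inD M f x := by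
  have hn := hC.dim
  obtain ⟨z₀, hz₀, hzz, -⟩ := iso_ex hC 0 (by omega) (fun i => i.elim0)
  obtain ⟨y₀, hy₀, hyy, hay⟩ : ∃ y₀, y₀ ≠ 0 ∧ f y₀ y₀ = 0 ∧ f a y₀ ≠ 0 := by
    by_cases h : f a z₀ = 0
    · obtain ⟨x₁, hx₁⟩ := hC.nd z₀ hz₀
      obtain ⟨x₂, hx₂⟩ := hC.nd a ha
      obtain ⟨x, hx1, hx2, -⟩ := conn hC z₀ a x₁ x₂ hx₁ hx₂
      obtain ⟨l, hl⟩ := isoadd hC z₀ x hzz (h1 hC _ _ hx1)
      have e : f a (x + l • z₀) ≠ 0 := by
        rw [ar hC, sr hC, h, mul_zero, add_zero]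
        exact h1 hC _ _ hx2
      refine ⟨x + l • z₀, ?_, hl, e⟩
      intro h0'
      rw [h0', zr hC] at e
      exact e rfl
    · exact ⟨z₀, hz₀, hzz, h⟩
  have hy₀D : inD M f y₀ := inD_iso_vec hC a y₀ haD hyy hay
  have key : ∀ x, f y₀ x ≠ 0 → inD M f x := by
    intro x hx
    obtain ⟨l, hl⟩ := isoadd hC y₀ x hyy hx
    have e : f y₀ (x + l • y₀) ≠ 0 := by
      rw [ar hC, sr hC, hyy, mul_zero, add_zero]
      exact hx
    have h2 := inD_iso_vec hC y₀ _ hy₀D hl e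
    have h3 := inD_add hC _ _ h2 (inD_smul hC (-l) y₀ hy₀D)
    have e2 : x + l • y₀ + (-l) • y₀ = x := by module
    rwa [e2] at h3
  intro x
  by_cases hx : f y₀ x = 0
  · obtain ⟨x₁, hx₁⟩ := nd' hC y₀ hy₀
    have h2 := key (x + x₁) (by
      rw [ar hC, hx, zero_add]
      exact hx₁)
    have h3 := inD_add hC _ _ h2 (inD_smul hC (-1) x₁ (key x₁ hx₁))
    have e2 : x + x₁ + (-1 : F) • x₁ = x := by module
    rwa [e2] at h3
  · exact key x hx

theorem tvstep (hC : UCfg σ f M c₀) (a u y : Fin n → F) (hu : memT M f a u)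
    (hau : f a u = 0) (hy : f y y = 0) (hay : f a y = 0) :
    memT M f a ((c₀ * f u y) • y) := by
  obtain ⟨A, hA, hiso, hAx⟩ := utv hC y hy
  have h2 := memT_conj hC A hA hiso a u hu
  rw [hAx a, hAx u, hay, mul_zero, zero_smul, add_zero] at h2
  have h3 := memT_add hC a (-u) _ (memT_neg hC a u hu hau) h2 (by rw [nr hC, hau, neg_zero])
  have e : -u + (u + (c₀ * f u y) • y) = (c₀ * f u y) • y := by module
  rwa [e] at h3

theorem step2 (hC : UCfg σ f M c₀) (a b : Fin n → F) (ha : a ≠ 0) (hab : f a b = 0)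
    (hb : ∀ c : F, b ≠ c • a) (hT : memT M f a b) : inD M f a := by
  have hn := hC.dim
  have hc0 := hC.c0
  obtain ⟨y₀, hy₀⟩ := nd' hC a ha
  obtain ⟨z₁, hz₁0, hz₁z, hz₁⟩ := iso_ex hC 2 (by omega) ![a, y₀]
  have hz₁a : f z₁ a = 0 := hz₁ 0
  have hz₁y : f z₁ y₀ = 0 := hz₁ 1
  have hz₁na : ∀ c : F, z₁ ≠ c • a := by
    intro c hc
    have h2 := hz₁y
    rw [hc, hC.sl] at h2
    rcases mul_eq_zero.1 h2 with h | h
    · exact hz₁0 (by rw [hc, h, zero_smul])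
    · exact hy₀ h
  obtain ⟨z'', hz''z, hz''a, hbz''⟩ : ∃ z'', f z'' z'' = 0 ∧ f z'' a = 0 ∧ f b z'' ≠ 0 := by
    by_cases h : f b z₁ = 0
    · obtain ⟨x₁, hx₁a, hx₁⟩ := experp hC a z₁ hz₁na
      obtain ⟨x₂, hx₂a, hx₂⟩ := experp hC a b hb
      obtain ⟨x, hx1, hx2, hx⟩ := conn hC z₁ b x₁ x₂ hx₁ hx₂
      have hxa : f x a = 0 := by
        rcases hx with rfl | rfl | rfl
        · exact hx₁a
        · exact hx₂a
        · rw [hC.al, hx₁a, hx₂a, add_zero]
      obtain ⟨l, hl⟩ := isoadd hC z₁ x hz₁z (h1 hC _ _ hx1)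
      refine ⟨x + l • z₁, hl, ?_, ?_⟩
      · rw [hC.al, hC.sl, hxa, hz₁a, mul_zero, add_zero]
      · rw [ar hC, sr hC, h, mul_zero, add_zero]
        exact h1 hC _ _ hx2
    · exact ⟨z₁, hz₁z, hz₁a, h⟩
  have haz'' : ∀ c : F, a ≠ c • z'' := by
    intro c hc
    have h2 := h0 hC _ _ hab
    rw [hc, sr hC] at h2
    rcases mul_eq_zero.1 h2 with h | h
    · have hc0' : c = 0 := by
        have h3 := congrArg σ h
        rwa [hC.inv, map_zero] at h3
      exact ha (by rw [hc, hc0', zero_smul])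
    · exact hbz'' h
  obtain ⟨y₁, hy₁z, hy₁a⟩ := experp hC z'' a haz''
  have hz''0 : z'' ≠ 0 := by
    intro h
    rw [h, zr hC] at hbz''
    exact hbz'' rfl
  obtain ⟨y₂, hy₂⟩ := hC.nd z'' hz''0
  obtain ⟨z, hz0, hzz, hz⟩ := iso_ex hC 4 (by omega) ![a, z'', y₁, y₂]
  have hza : f z a = 0 := hz 0
  have hzz'' : f z z'' = 0 := hz 1
  have hzy₁ : f z y₁ = 0 := hz 2
  have hzy₂ : f z y₂ = 0 := hz 3
  have hzna : ∀ c : F, z ≠ c • a := by
    intro c hc
    have h2 := hzy₁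
    rw [hc, hC.sl] at h2
    rcases mul_eq_zero.1 h2 with h | h
    · exact hz0 (by rw [hc, h, zero_smul])
    · exact hy₁a (h0 hC _ _ h)
  obtain ⟨x₄, hx₄⟩ := hC.nd z hz0
  obtain ⟨x₃, hx₃a, hx₃z'', hx₃z⟩ : ∃ x₃, f x₃ a = 0 ∧ f x₃ z'' = 0 ∧ f x₃ z ≠ 0 := by
    refine ⟨x₄ - (f x₄ z'' / f y₂ z'') • y₂
      - ((f x₄ a - f x₄ z'' / f y₂ z'' * f y₂ a) / f y₁ a) • y₁, ?_, ?_, ?_⟩
    · simp only [subl hC, hC.sl]
      field_simp
      ring
    · simp only [subl hC, hC.sl, hy₁z, mul_zero, sub_zero]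
      field_simp
      ring
    · simp only [subl hC, hC.sl, h0 hC _ _ hzy₁, h0 hC _ _ hzy₂, mul_zero, sub_zero]
      exact hx₄
  obtain ⟨l', hl'⟩ := isoadd hC z x₃ hzz (h1 hC _ _ hx₃z)
  obtain ⟨z', hz'z', hz'a, hz'z'', hz'z⟩ :
      ∃ z', f z' z' = 0 ∧ f z' a = 0 ∧ f z' z'' = 0 ∧ f z' z ≠ 0 := by
    refine ⟨x₃ + l' • z, hl', ?_, ?_, ?_⟩
    · rw [hC.al, hC.sl, hx₃a, hza, mul_zero, add_zero]
    · rw [hC.al, hC.sl, hx₃z'', hzz'', mul_zero, add_zero]
    · rw [hC.al, hC.sl, hzz, mul_zero, add_zero]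
      exact hx₃z
  have hline : ∀ r : F, memT M f a (r • z) := by
    intro r
    obtain ⟨ω, hω⟩ : ∃ ω : F, c₀ * (c₀ * ω * f z' z) = r :=
      ⟨r / (c₀ * c₀ * f z' z), by field_simp⟩
    obtain ⟨ρ, hρ⟩ : ∃ ρ : F, f b z' + σ ρ * f b z'' = ω := by
      refine ⟨σ ((ω - f b z') / f b z''), ?_⟩
      rw [hC.inv]
      field_simp
      ring
    have hzρ : f (z' + ρ • z'') (z' + ρ • z'') = 0 := by
      simp only [hC.al, ar hC, hC.sl, sr hC, hz'z', hz'z'', h0 hC _ _ hz'z'', hz''z, mul_zero,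
        add_zero]
    have hzρa : f a (z' + ρ • z'') = 0 := by
      rw [ar hC, sr hC, h0 hC _ _ hz'a, h0 hC _ _ hz''a, mul_zero, add_zero]
    have s1 := tvstep hC a b (z' + ρ • z'') hT hab hzρ hzρa
    have e1 : f b (z' + ρ • z'') = ω := by
      rw [ar hC, sr hC]
      exact hρ
    rw [e1] at s1
    have hau1 : f a ((c₀ * ω) • (z' + ρ • z'')) = 0 := by rw [sr hC, hzρa, mul_zero]
    have s2 := tvstep hC a _ z s1 hau1 hzz (h0 hC _ _ hza)
    have e2 : f ((c₀ * ω) • (z' + ρ • z'')) z = c₀ * ω * f z' z := by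
      rw [hC.sl, hC.al, hC.sl, h0 hC _ _ hzz'', mul_zero, add_zero]
    rw [e2, hω] at s2
    exact s2
  have subA : ∀ y, f y y = 0 → f y a = 0 → f z y ≠ 0 → memT M f a y := by
    intro y hyy hya hzy
    have s := tvstep hC a ((c₀ * f z y)⁻¹ • z) y (hline _)
      (by rw [sr hC, h0 hC _ _ hza, mul_zero]) hyy (h0 hC _ _ hya)
    rw [hC.sl] at s
    have e : c₀ * ((c₀ * f z y)⁻¹ * f z y) = 1 := by
      field_simp
    rwa [e, one_smul] at s
  have subB : ∀ u, f a u = 0 → f z u ≠ 0 → memT M f a u := by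
    intro u hau hzu
    obtain ⟨l, hl⟩ := isoadd hC z u hzz hzu
    have s := subA (u + l • z) hl
      (by rw [hC.al, hC.sl, h0 hC _ _ hau, hza, mul_zero, add_zero])
      (by
        rw [ar hC, sr hC, hzz, mul_zero, add_zero]
        exact hzu)
    have s2 := memT_add hC a _ _ s (hline (-l))
      (by rw [ar hC, sr hC, hau, h0 hC _ _ hza, mul_zero, add_zero])
    have e : u + l • z + (-l) • z = u := by module
    rwa [e] at s2
  intro u hau
  by_cases hzu : f z u = 0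
  · obtain ⟨x₁, hx₁a, hx₁z⟩ := experp hC a z hzna
    have s1 := subB (u + x₁) (by rw [ar hC, hau, h0 hC _ _ hx₁a, add_zero])
      (by
        rw [ar hC, hzu, zero_add]
        exact h1 hC _ _ hx₁z)
    have s2 := subB x₁ (h0 hC _ _ hx₁a) (h1 hC _ _ hx₁z)
    have s3 := memT_add hC a _ _ s1 (memT_neg hC a x₁ s2 (h0 hC _ _ hx₁a))
      (by rw [ar hC, hau, h0 hC _ _ hx₁a, add_zero])
    have e : u + x₁ + -x₁ = u := by abel
    rwa [e] at s3
  · exact subB u hau hzu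

theorem step1 [Fintype F] (hC : UCfg σ f M c₀) (h : GL (Fin n) F) (hh : h ∈ M)
    (hhP : h ∉ Cfsg.Geo.similarityGroup f) :
    ∃ a b, a ≠ 0 ∧ f a b = 0 ∧ (∀ c : F, b ≠ c • a) ∧ memT M f a b := by
  by_contra hcon
  have hcon' : ∀ a b, a ≠ 0 → f a b = 0 → memT M f a b → ∃ c : F, b = c • a := by
    intro a b h1 h2 h3
    by_contra h4
    push Not at h4
    exact hcon ⟨a, b, h1, h2, h4, h3⟩
  have hn := hC.dim
  have hc0 := hC.c0
  have hinj : ∀ z, z ≠ 0 → h.1 *ᵥ z ≠ 0 := by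
    intro z hz0 h0'
    apply hz0
    have h2 := SlSp.inv_act h z
    rw [h0', Matrix.mulVec_zero] at h2
    exact h2.symm
  have key : ∀ z, f z z = 0 → z ≠ 0 →
      ∃ lam : F, ∀ x, f (h.1 *ᵥ x) (h.1 *ᵥ z) = lam * f x z := by
    intro z hzz hz0
    obtain ⟨A, hA, -, hAx⟩ := utv hC z hzz
    obtain ⟨u, hu⟩ := riesz hC ((fl hC z).comp (Matrix.toLin' (h⁻¹).1))
    have hu' : ∀ x, f ((h⁻¹).1 *ᵥ x) z = f x u := by
      intro x
      rw [← hu, LinearMap.comp_apply, Matrix.toLin'_apply, fl_apply]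
    have hT : memT M f (c₀ • (h.1 *ᵥ z)) u := by
      refine ⟨h * A * h⁻¹, M.mul_mem (M.mul_mem hh hA) (M.inv_mem hh), fun x => ?_⟩
      rw [Units.val_mul, Units.val_mul, ← Matrix.mulVec_mulVec, ← Matrix.mulVec_mulVec, hAx,
        Matrix.mulVec_add, Matrix.mulVec_smul, SlSp.act_inv, hu']
      module
    have ha0 : c₀ • (h.1 *ᵥ z) ≠ 0 := smul_ne_zero hc0 (hinj z hz0)
    have hau : f (c₀ • (h.1 *ᵥ z)) u = 0 := by
      rw [← hu', Matrix.mulVec_smul, SlSp.inv_act, hC.sl, hzz, mul_zero]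
    obtain ⟨μ, hμ⟩ := hcon' _ u ha0 hau hT
    have e1 : ∀ x, f x z = σ μ * σ c₀ * f (h.1 *ᵥ x) (h.1 *ᵥ z) := by
      intro x
      have h2 := hu' (h.1 *ᵥ x)
      rw [SlSp.inv_act, hμ, sr hC, sr hC] at h2
      rw [h2]
      ring
    have hne : σ μ * σ c₀ ≠ 0 := by
      intro h0'
      obtain ⟨x, hx⟩ := hC.nd z hz0
      apply hx
      rw [e1, h0', zero_mul]
    refine ⟨(σ μ * σ c₀)⁻¹, fun x => ?_⟩
    rw [e1 x, ← mul_assoc, inv_mul_cancel₀ hne, one_mul]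
  choose! lam hlam using key
  have cl1 : ∀ z z', f z z = 0 → f z' z' = 0 → f z z' ≠ 0 → lam z' = σ (lam z) := by
    intro z z' hz hz' hzz'
    have hz0 : z ≠ 0 := by
      rintro rfl
      exact hzz' (zl hC _)
    have hz'0 : z' ≠ 0 := by
      rintro rfl
      exact hzz' (zr hC _)
    have e1 := hlam z' hz' hz'0 z
    have e2 := hlam z hz hz0 z'
    rw [hC.herm (h.1 *ᵥ z) (h.1 *ᵥ z'), e2, map_mul, ← hC.herm z z'] at e1
    exact (mul_right_cancel₀ hzz' e1).symm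
  have cl2 : ∀ z z', f z z = 0 → f z' z' = 0 → f z z' ≠ 0 → lam z' = lam z := by
    intro z z' hz hz' hzz'
    have hz'z := h1 hC _ _ hzz'
    have hz₃ : f (z + (c₀ / f z' z) • z') (z + (c₀ / f z' z) • z') = 0 := by
      simp only [hC.al, ar hC, hC.sl, sr hC, hz, hz', mul_zero, add_zero, zero_add, map_div₀,
        hC.c0', ← hC.herm z z']
      field_simp
      ring
    have e3 : f z (z + (c₀ / f z' z) • z') ≠ 0 := by
      rw [ar hC, sr hC, hz, zero_add, map_div₀, hC.c0', ← hC.herm z z',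
        div_mul_cancel₀ _ hzz']
      exact neg_ne_zero.2 hc0
    have e4 : f (z + (c₀ / f z' z) • z') z' ≠ 0 := by
      rw [hC.al, hC.sl, hz', mul_zero, add_zero]
      exact hzz'
    have a1 := cl1 z z' hz hz' hzz'
    have a2 := cl1 z _ hz hz₃ e3
    have a3 := cl1 _ z' hz₃ hz' e4
    rw [a3, a2, hC.inv]
  have cl3 : ∀ z z', f z z = 0 → f z' z' = 0 → z ≠ 0 → z' ≠ 0 → lam z = lam z' := by
    intro z z' hz hz' hz0 hz'0
    by_cases hzz' : f z z' = 0
    · obtain ⟨x₁, hx₁⟩ := hC.nd z hz0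
      obtain ⟨x₂, hx₂⟩ := hC.nd z' hz'0
      obtain ⟨x, hx1, hx2, -⟩ := conn hC z z' x₁ x₂ hx₁ hx₂
      obtain ⟨l, hl⟩ := isoadd hC z x hz (h1 hC _ _ hx1)
      have e1 : f z (x + l • z) ≠ 0 := by
        rw [ar hC, sr hC, hz, mul_zero, add_zero]
        exact h1 hC _ _ hx1
      have e2 : f z' (x + l • z) ≠ 0 := by
        rw [ar hC, sr hC, h0 hC _ _ hzz', mul_zero, add_zero]
        exact h1 hC _ _ hx2
      rw [← cl2 z _ hz hl e1, ← cl2 z' _ hz' hl e2]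
    · exact (cl2 z z' hz hz' hzz').symm
  obtain ⟨z₀, hz₀, hz₀z, -⟩ := iso_ex hC 0 (by omega) (fun i => i.elim0)
  have hI : ∀ z, f z z = 0 → ∀ x, f (h.1 *ᵥ x) (h.1 *ᵥ z) = lam z₀ * f x z := by
    intro z hz x
    by_cases hz0 : z = 0
    · rw [hz0, Matrix.mulVec_zero, zr hC, zr hC, mul_zero]
    · rw [hlam z hz hz0 x, cl3 z z₀ hz hz₀z hz0 hz₀]
  have hsub : ∀ (y₁ y₂ : Fin n → F) (c : F),
      (∀ x, f (h.1 *ᵥ x) (h.1 *ᵥ y₁) = lam z₀ * f x y₁) →
      (∀ x, f (h.1 *ᵥ x) (h.1 *ᵥ y₂) = lam z₀ * f x y₂) →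
      ∀ x, f (h.1 *ᵥ x) (h.1 *ᵥ (y₁ + c • y₂)) = lam z₀ * f x (y₁ + c • y₂) := by
    intro y₁ y₂ c e1 e2 x
    rw [Matrix.mulVec_add, Matrix.mulVec_smul, ar hC, sr hC, e1, e2, ar hC, sr hC]
    ring
  have key2 : ∀ y, f z₀ y ≠ 0 → ∀ x, f (h.1 *ᵥ x) (h.1 *ᵥ y) = lam z₀ * f x y := by
    intro y hy
    obtain ⟨l, hl⟩ := isoadd hC z₀ y hz₀z hy
    have h2 := hsub (y + l • z₀) z₀ (-l) (hI _ hl) (hI _ hz₀z)
    have e : y + l • z₀ + (-l) • z₀ = y := by module
    rwa [e] at h2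
  have hall : ∀ y x, f (h.1 *ᵥ x) (h.1 *ᵥ y) = lam z₀ * f x y := by
    intro y
    by_cases hy : f z₀ y = 0
    · obtain ⟨x₁, hx₁⟩ := nd' hC z₀ hz₀
      have h2 := hsub (y + x₁) x₁ (-1) (key2 _ (by
        rw [ar hC, hy, zero_add]
        exact hx₁)) (key2 _ hx₁)
      have e : y + x₁ + (-1 : F) • x₁ = y := by module
      rwa [e] at h2
    · exact key2 y hy
  have hl0 : lam z₀ ≠ 0 := by
    intro hl
    obtain ⟨x, hx⟩ := hC.nd (h.1 *ᵥ z₀) (hinj z₀ hz₀)
    apply hx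
    have h2 := hall z₀ ((h⁻¹).1 *ᵥ x)
    rw [SlSp.act_inv, hl, zero_mul] at h2
    exact h2
  exact hhP ⟨Units.mk0 _ hl0, fun u v => by
    rw [Units.val_mk0]
    exact hall v u⟩

end cfg

theorem main [Fintype F] (n : ℕ) (hn : 13 ≤ n) (σ : F ≃+* F)
    (f : (Fin n → F) → (Fin n → F) → F) (hf : Cfsg.Geo.IsUnitaryForm σ f) :
    Cfsg.Geo.IsMaximalIn (Cfsg.Geo.specialLinear (Fin n) F)
      (Cfsg.Geo.similarityGroup f ⊓ Cfsg.Geo.specialLinear (Fin n) F) := by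
  classical
  obtain ⟨c₀, hc0, hc0'⟩ := exists_c0 σ hf.involutive hf.ne_refl
  have mk : ∀ M : Subgroup (GL (Fin n) F),
      Cfsg.Geo.similarityGroup f ⊓ Cfsg.Geo.specialLinear (Fin n) F ≤ M → UCfg σ f M c₀ :=
    fun M h2 =>
      { inv := hf.involutive
        al := hf.add_left
        sl := hf.smul_left
        herm := hf.herm
        nd := fun v hv => (hf.nondegenerate v hv).1
        c0 := hc0
        c0' := hc0'
        tr := trace_surj σ hf.involutive hf.ne_refl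
        nm := norm_surj σ hf.involutive hf.ne_refl
        par := h2
        dim := hn }
  constructor
  · refine lt_of_le_of_ne inf_le_right ?_
    intro heq
    have hC := mk _ le_rfl
    obtain ⟨v, hv0, hvv, -⟩ := iso_ex hC 0 (by omega) (fun i => i.elim0)
    obtain ⟨c₁, hc₁⟩ := hC.tr 1 (map_one σ)
    obtain ⟨y, hy⟩ := nd' hC v hv0
    have hφ : (fl hC (c₁ • v)) v = 0 := by rw [fl_apply, sr hC, hvv, mul_zero]
    have hT : transvGL v (fl hC (c₁ • v)) hφ ∈ Cfsg.Geo.specialLinear (Fin n) F :=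
      transvGL_mem_specialLinear _ _ _
    have hT' := (le_of_eq heq.symm) hT
    obtain ⟨c, hc⟩ := hT'.1
    have hTx : ∀ x, (transvGL v (fl hC (c₁ • v)) hφ).1 *ᵥ x = x + (σ c₁ * f x v) • v := by
      intro x
      rw [transvGL_mulVec, fl_apply, sr hC]
    have e1 := hc v y
    rw [hTx, hTx, hvv, mul_zero, zero_smul, add_zero, ar hC, sr hC, hvv, mul_zero, add_zero]
      at e1
    have hc1 : (c : F) = 1 := by
      have h3 : ((c : F) - 1) * f v y = 0 := by linear_combination -e1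
      rcases mul_eq_zero.1 h3 with h | h
      · exact sub_eq_zero.1 h
      · exact absurd h hy
    have e2 := hc y y
    rw [hTx, hc1, one_mul] at e2
    simp only [hC.al, ar hC, hC.sl, sr hC, hvv, mul_zero, add_zero, map_mul, hC.inv,
      ← hC.herm v y] at e2
    have hyv := h1 hC _ _ hy
    have h4 : (c₁ + σ c₁) * (f v y * f y v) = 0 := by linear_combination e2
    rw [hc₁, one_mul] at h4
    exact mul_ne_zero hy hyv h4
  · intro M hPM hMK
    by_cases hMP : M = Cfsg.Geo.similarityGroup f ⊓ Cfsg.Geo.specialLinear (Fin n) F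
    · exact Or.inl hMP
    right
    have hC := mk M hPM
    apply le_antisymm hMK
    obtain ⟨h, hhM, hhP⟩ : ∃ h ∈ M, h ∉ Cfsg.Geo.similarityGroup f := by
      by_contra hcon
      push Not at hcon
      exact hMP (le_antisymm (fun x hx => ⟨hcon x hx, hMK hx⟩) hPM)
    obtain ⟨a, b, ha, hab, hb, hT⟩ := step1 hC h hhM hhP
    have hD := inD_all hC a ha (step2 hC a b ha hab hb hT)
    have htr : ∀ (a : Fin n → F) (φ : (Fin n → F) →ₗ[F] F) (hfa : φ a = 0),
        transvGL a φ hfa ∈ M := by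
      intro a φ hfa
      obtain ⟨u, hu⟩ := riesz hC φ
      obtain ⟨A, hA, hAx⟩ := hD a u (by
        rw [← hu]
        exact hfa)
      have e2 : transvGL a φ hfa = A := by
        apply Cfsg.Agent.S5631.gl_ext_mulVec
        intro x
        rw [transvGL_mulVec, hAx, hu]
      rw [e2]
      exact hA
    intro g hg
    have hdet : (g : Matrix (Fin n) (Fin n) F).det = 1 := by
      have h1 := hg
      rw [Cfsg.Geo.specialLinear, MonoidHom.mem_ker] at h1
      have h2 := congrArg Units.val h1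
      rwa [Matrix.GeneralLinearGroup.val_det_apply, Units.val_one] at h2
    have : Nontrivial (Fin n) := Fin.nontrivial_iff_two_le.mpr (by omega)
    have key : ∀ A : Matrix.SpecialLinearGroup (Fin n) F,
        Matrix.SpecialLinearGroup.toGL A ∈ M := by
      intro A
      refine Cfsg.Agent.Helper2.transvection_induction
        (fun A => Matrix.SpecialLinearGroup.toGL A ∈ M) ?_ ?_ A
      · intro i j hij c
        obtain ⟨φ, hφ, e⟩ := Cfsg.Agent.S5631.toGL_transvection_eq (F := F) hij c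
        show Matrix.SpecialLinearGroup.toGL (Matrix.SpecialLinearGroup.transvection hij c) ∈ M
        rw [e]
        exact htr _ φ hφ
      · intro A B' hA hB'
        show Matrix.SpecialLinearGroup.toGL (A * B') ∈ M
        rw [map_mul]
        exact M.mul_mem hA hB'
    have h3 := key ⟨(g : Matrix (Fin n) (Fin n) F), hdet⟩
    have e : Matrix.SpecialLinearGroup.toGL ⟨(g : Matrix (Fin n) (Fin n) F), hdet⟩ = g :=
      Units.ext rfl
    rwa [e] at h3

end Cfsg.Agent.Helper18.SlU
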