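import Mathlib
import Cfsg.Prelude.Def_GeometricClasses
import Cfsg.Prelude.Def_ClassicalGeometry
import Cfsg.Agent.Helper5.SympGen
import Cfsg.Agent.S0768

set_option autoImplicit false

namespace Cfsg.Agent.Helper18.SpPar

open Matrix

open scoped MatrixGroups

open Cfsg.Agent.Helper5

variable {F : Type*} [Field F] (m : ℕ)

theorem tv_ex (w : Fin m ⊕ Fin m → F) (c : F) :
    ∃ s : GL (Fin m ⊕ Fin m) F, s ∈ Cfsg.spGL m F ∧ ∀ x : Fin m ⊕ Fin m → F,
      (s : Matrix (Fin m ⊕ Fin m) (Fin m ⊕ Fin m) F) *ᵥ x = x + (c * sB m x w) • w := by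
  obtain ⟨s, hs⟩ := Cfsg.Agent.S0768.IT_to_spGL m _ (IT_transv m c w)
  exact ⟨s.1, s.2, fun x => hs x⟩

theorem gl_ext (g₁ g₂ : GL (Fin m ⊕ Fin m) F)
    (h : ∀ x : Fin m ⊕ Fin m → F, (g₁ : Matrix (Fin m ⊕ Fin m) (Fin m ⊕ Fin m) F) *ᵥ x =
      (g₂ : Matrix (Fin m ⊕ Fin m) (Fin m ⊕ Fin m) F) *ᵥ x) : g₁ = g₂ := by
  apply Units.ext
  apply Matrix.toLin'.injective
  apply LinearMap.ext
  intro x
  rw [Matrix.toLin'_apply, Matrix.toLin'_apply]
  exact h x

theorem sp_isom (g : GL (Fin m ⊕ Fin m) F) (hg : g ∈ Cfsg.spGL m F) (u v : Fin m ⊕ Fin m → F) :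
    sB m ((g : Matrix (Fin m ⊕ Fin m) (Fin m ⊕ Fin m) F) *ᵥ u)
      ((g : Matrix (Fin m ⊕ Fin m) (Fin m ⊕ Fin m) F) *ᵥ v) = sB m u v := by
  rw [sB_apply, sB_apply]
  exact hg u v

theorem inv_act (g : GL (Fin m ⊕ Fin m) F) (x : Fin m ⊕ Fin m → F) :
    (g : Matrix (Fin m ⊕ Fin m) (Fin m ⊕ Fin m) F) *ᵥ
      (((g⁻¹ : GL (Fin m ⊕ Fin m) F) : Matrix (Fin m ⊕ Fin m) (Fin m ⊕ Fin m) F) *ᵥ x) = x := by
  rw [Matrix.mulVec_mulVec, ← Units.val_mul, mul_inv_cancel, Units.val_one, Matrix.one_mulVec]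

theorem inv_act' (g : GL (Fin m ⊕ Fin m) F) (x : Fin m ⊕ Fin m → F) :
    ((g⁻¹ : GL (Fin m ⊕ Fin m) F) : Matrix (Fin m ⊕ Fin m) (Fin m ⊕ Fin m) F) *ᵥ
      ((g : Matrix (Fin m ⊕ Fin m) (Fin m ⊕ Fin m) F) *ᵥ x) = x := by
  rw [Matrix.mulVec_mulVec, ← Units.val_mul, inv_mul_cancel, Units.val_one, Matrix.one_mulVec]

/-- All transvections along `w` lie in `M`. -/
def memT (M : Subgroup (GL (Fin m ⊕ Fin m) F)) (w : Fin m ⊕ Fin m → F) : Prop :=
  ∀ c : F, ∃ A ∈ M, ∀ x : Fin m ⊕ Fin m → F,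
    (A : Matrix (Fin m ⊕ Fin m) (Fin m ⊕ Fin m) F) *ᵥ x = x + (c * sB m x w) • w

theorem memT_map (M : Subgroup (GL (Fin m ⊕ Fin m) F)) (hM : M ≤ Cfsg.spGL m F)
    (h : GL (Fin m ⊕ Fin m) F) (hh : h ∈ M) (w : Fin m ⊕ Fin m → F) (hw : memT m M w) :
    memT m M ((h : Matrix (Fin m ⊕ Fin m) (Fin m ⊕ Fin m) F) *ᵥ w) := by
  intro c
  obtain ⟨A, hA, hAx⟩ := hw c
  refine ⟨h * A * h⁻¹, M.mul_mem (M.mul_mem hh hA) (M.inv_mem hh), fun x => ?_⟩
  have e1 : sB m (((h⁻¹ : GL (Fin m ⊕ Fin m) F) : Matrix (Fin m ⊕ Fin m) (Fin m ⊕ Fin m) F) *ᵥ x)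
      w = sB m x ((h : Matrix (Fin m ⊕ Fin m) (Fin m ⊕ Fin m) F) *ᵥ w) := by
    have e := sp_isom m h (hM hh)
      (((h⁻¹ : GL (Fin m ⊕ Fin m) F) : Matrix (Fin m ⊕ Fin m) (Fin m ⊕ Fin m) F) *ᵥ x) w
    rw [inv_act] at e
    exact e.symm
  rw [Units.val_mul, Units.val_mul, ← Matrix.mulVec_mulVec, ← Matrix.mulVec_mulVec, hAx,
    Matrix.mulVec_add, Matrix.mulVec_smul, inv_act, e1]

theorem memT_smul (M : Subgroup (GL (Fin m ⊕ Fin m) F)) (a : F) (w : Fin m ⊕ Fin m → F)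
    (hw : memT m M w) : memT m M (a • w) := by
  intro c
  obtain ⟨A, hA, hAx⟩ := hw (c * a ^ 2)
  refine ⟨A, hA, fun x => ?_⟩
  rw [hAx, map_smul, smul_eq_mul, smul_smul]
  congr 2
  ring

theorem memT_add_of_ne (M : Subgroup (GL (Fin m ⊕ Fin m) F)) (hM : M ≤ Cfsg.spGL m F)
    (u v : Fin m ⊕ Fin m → F) (hu : memT m M u) (hv : memT m M v) (h : sB m v u ≠ 0) :
    memT m M (v + u) := by
  obtain ⟨A, hA, hAx⟩ := hu (sB m v u)⁻¹
  have e := memT_map m M hM A hA v hv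
  rw [hAx, inv_mul_cancel₀ h, one_smul] at e
  exact e

theorem memT_perp (M : Subgroup (GL (Fin m ⊕ Fin m) F)) (W : Submodule F (Fin m ⊕ Fin m → F))
    (hP : Cfsg.Geo.subspaceStabilizer W ⊓ Cfsg.spGL m F ≤ M) (u : Fin m ⊕ Fin m → F)
    (hu : ∀ w ∈ W, sB m w u = 0) : memT m M u := by
  intro c
  obtain ⟨s, hs, hsx⟩ := tv_ex m u c
  refine ⟨s, hP ⟨?_, hs⟩, hsx⟩
  intro v
  show v ∈ W ↔ (s : Matrix (Fin m ⊕ Fin m) (Fin m ⊕ Fin m) F) *ᵥ v ∈ W
  rw [hsx]
  constructor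
  · intro hv
    rw [hu v hv, mul_zero, zero_smul, add_zero]
    exact hv
  · intro hv
    have h0 := hu _ hv
    rw [map_add, LinearMap.add_apply, map_smul, LinearMap.smul_apply, (sB_alt m) u, smul_zero,
      add_zero] at h0
    rw [h0, mul_zero, zero_smul, add_zero] at hv
    exact hv

theorem eich_ex (u v : Fin m ⊕ Fin m → F) (huv : sB m u v = 0) :
    ∃ E : GL (Fin m ⊕ Fin m) F, E ∈ Cfsg.spGL m F ∧ ∀ t : Fin m ⊕ Fin m → F,
      (E : Matrix (Fin m ⊕ Fin m) (Fin m ⊕ Fin m) F) *ᵥ t = t + sB m t u • v + sB m t v • u := by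
  obtain ⟨s₁, h₁, h₁x⟩ := tv_ex m (u + v) (1 : F)
  obtain ⟨s₂, h₂, h₂x⟩ := tv_ex m u (-1 : F)
  obtain ⟨s₃, h₃, h₃x⟩ := tv_ex m v (-1 : F)
  refine ⟨s₁ * s₂ * s₃, (Cfsg.spGL m F).mul_mem ((Cfsg.spGL m F).mul_mem h₁ h₂) h₃, fun t => ?_⟩
  have hvu : sB m v u = 0 := by rw [← (sB_alt m).neg_eq u v, huv, neg_zero]
  have huu : sB m u u = 0 := (sB_alt m) u
  have hvv : sB m v v = 0 := (sB_alt m) v
  rw [Units.val_mul, Units.val_mul, ← Matrix.mulVec_mulVec, ← Matrix.mulVec_mulVec, h₃x, h₂x, h₁x]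
  simp only [map_add, map_smul, LinearMap.add_apply, LinearMap.smul_apply, smul_eq_mul, hvu, huv,
    huu, hvv, mul_zero, add_zero, zero_add, one_mul, neg_mul, mul_neg, mul_one]
  module

theorem eich_stab (W : Submodule F (Fin m ⊕ Fin m → F))
    (hW : ∀ a ∈ W, ∀ b ∈ W, sB m a b = 0) (u v : Fin m ⊕ Fin m → F) (hu : u ∈ W)
    (huv : sB m u v = 0) (E : GL (Fin m ⊕ Fin m) F)
    (hE : ∀ t : Fin m ⊕ Fin m → F,
      (E : Matrix (Fin m ⊕ Fin m) (Fin m ⊕ Fin m) F) *ᵥ t = t + sB m t u • v + sB m t v • u) :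
    E ∈ Cfsg.Geo.subspaceStabilizer W := by
  intro t
  show t ∈ W ↔ (E : Matrix (Fin m ⊕ Fin m) (Fin m ⊕ Fin m) F) *ᵥ t ∈ W
  rw [hE]
  have hvu : sB m v u = 0 := by rw [← (sB_alt m).neg_eq u v, huv, neg_zero]
  constructor
  · intro ht
    rw [hW t ht u hu, zero_smul, add_zero]
    exact W.add_mem ht (W.smul_mem _ hu)
  · intro ht
    have h0 := hW _ ht u hu
    rw [map_add, map_add, LinearMap.add_apply, LinearMap.add_apply, map_smul, map_smul,
      LinearMap.smul_apply, LinearMap.smul_apply, hvu, (sB_alt m) u, smul_zero, smul_zero,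
      add_zero, add_zero] at h0
    rw [h0, zero_smul, add_zero] at ht
    have h1 := W.sub_mem ht (W.smul_mem (sB m t v) hu)
    rwa [add_sub_cancel_right] at h1

theorem main (W : Submodule F (Fin m ⊕ Fin m → F)) (hW0 : W ≠ ⊥)
    (hW : Cfsg.Geo.IsTotallySingularFor (Cfsg.sympForm m F) W) :
    Cfsg.Geo.IsMaximalIn (Cfsg.spGL m F) (Cfsg.Geo.subspaceStabilizer W ⊓ Cfsg.spGL m F) := by
  classical
  have hWi : ∀ a ∈ W, ∀ b ∈ W, sB m a b = 0 := by
    intro a ha b hb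
    rw [sB_apply]
    exact hW a ha b hb
  have halt := sB_alt (F := F) m
  have hnd := sB_nondeg (F := F) m
  have hsk : ∀ a b : Fin m ⊕ Fin m → F, sB m a b = 0 → sB m b a = 0 := by
    intro a b h
    rw [← halt.neg_eq a b, h, neg_zero]
  constructor
  · refine lt_of_le_of_ne inf_le_right ?_
    intro heq
    obtain ⟨w, hw, hw0⟩ := Submodule.exists_mem_ne_zero_of_ne_bot hW0
    obtain ⟨y, hy⟩ : ∃ y, sB m w y ≠ 0 := by
      by_contra hcon
      push Not at hcon
      exact hw0 (hnd.1 w hcon)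
    obtain ⟨s, hs, hsx⟩ := tv_ex m y (1 : F)
    rw [← heq] at hs
    have h1 : (s : Matrix (Fin m ⊕ Fin m) (Fin m ⊕ Fin m) F) *ᵥ w ∈ W := (hs.1 w).1 hw
    rw [hsx, one_mul] at h1
    have h2 : sB m w y • y ∈ W := by
      have h := W.sub_mem h1 hw
      rwa [add_sub_cancel_left] at h
    have h3 : y ∈ W := by
      have h := W.smul_mem (sB m w y)⁻¹ h2
      rwa [smul_smul, inv_mul_cancel₀ hy, one_smul] at h
    exact hy (hWi w hw y h3)
  · intro M hPM hMsp
    by_cases hMP : M ≤ Cfsg.Geo.subspaceStabilizer W ⊓ Cfsg.spGL m F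
    · exact Or.inl (le_antisymm hMP hPM)
    · right
      refine le_antisymm hMsp ?_
      obtain ⟨h₀, hh₀, hh₀P⟩ := SetLike.not_le_iff_exists.1 hMP
      obtain ⟨h, hh, w₁, hw₁, hw₁'⟩ : ∃ h ∈ M, ∃ w₁ ∈ W,
          (h : Matrix (Fin m ⊕ Fin m) (Fin m ⊕ Fin m) F) *ᵥ w₁ ∉ W := by
        have hns : h₀ ∉ Cfsg.Geo.subspaceStabilizer W := fun hs => hh₀P ⟨hs, hMsp hh₀⟩
        have hns' : ¬ ∀ v, v ∈ W ↔ (h₀ : Matrix (Fin m ⊕ Fin m) (Fin m ⊕ Fin m) F) *ᵥ v ∈ W := hns
        obtain ⟨v, hv⟩ := not_forall.1 hns'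
        by_cases hvW : v ∈ W
        · exact ⟨h₀, hh₀, v, hvW, fun hc => hv ⟨fun _ => hc, fun _ => hvW⟩⟩
        · have hc : (h₀ : Matrix (Fin m ⊕ Fin m) (Fin m ⊕ Fin m) F) *ᵥ v ∈ W := by
            by_contra hc
            exact hv ⟨fun a => absurd a hvW, fun a => absurd a hc⟩
          refine ⟨h₀⁻¹, M.inv_mem hh₀, _, hc, ?_⟩
          rw [inv_act']
          exact hvW
      have memP := memT_perp m M W hPM
      have hWT : ∀ w ∈ W, memT m M w := fun w hw => memP w (fun w' hw' => hWi w' hw' w hw)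
      -- a vector outside the perp
      obtain ⟨y, hyT, u, hu, hyu⟩ : ∃ y, memT m M y ∧ ∃ u ∈ W, sB m y u ≠ 0 := by
        by_contra hcon
        push Not at hcon
        have hstab : ∀ g ∈ M, ∀ x : Fin m ⊕ Fin m → F, (∀ w ∈ W, sB m w x = 0) → ∀ w ∈ W,
            sB m w ((g : Matrix (Fin m ⊕ Fin m) (Fin m ⊕ Fin m) F) *ᵥ x) = 0 := by
          intro g hg x hx w hw
          exact hsk _ _ (hcon _ (memT_map m M hMsp g hg x (memP x hx)) w hw)
        apply hw₁'
        rw [← LinearMap.BilinForm.orthogonal_orthogonal hnd halt.isRefl W,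
          LinearMap.BilinForm.mem_orthogonal_iff]
        intro n hn
        rw [LinearMap.BilinForm.mem_orthogonal_iff] at hn
        have hn' : ∀ w ∈ W, sB m w n = 0 := fun w hw => hn w hw
        have h1 := hstab h⁻¹ (M.inv_mem hh) n hn' w₁ hw₁
        have h2 := sp_isom m h (hMsp hh) w₁
          (((h⁻¹ : GL (Fin m ⊕ Fin m) F) : Matrix (Fin m ⊕ Fin m) (Fin m ⊕ Fin m) F) *ᵥ n)
        rw [inv_act, h1] at h2
        exact hsk _ _ h2
      -- adding perp vectors
      have hA : ∀ z, memT m M z → (∃ w ∈ W, sB m w z ≠ 0) → ∀ u', (∀ w ∈ W, sB m w u' = 0) →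
          memT m M (z + u') := by
        intro z hz ⟨w, hw, hwz⟩ u' hu'
        by_cases h0 : sB m z u' = 0
        · have e1 : memT m M (z + w) :=
            memT_add_of_ne m M hMsp w z (hWT w hw) hz (fun hc => hwz (hsk _ _ hc))
          have e2 : memT m M (u' - w) :=
            memP _ (fun w' hw' => by rw [map_sub, hu' w' hw', hWi w' hw' w hw, sub_zero])
          have e3 : sB m (z + w) (u' - w) ≠ 0 := by
            have e : sB m (z + w) (u' - w) = - sB m z w := by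
              rw [map_add, LinearMap.add_apply, map_sub, map_sub, h0, hu' w hw, halt w]
              ring
            rw [e]
            exact neg_ne_zero.2 (fun hc => hwz (hsk _ _ hc))
          have e4 := memT_add_of_ne m M hMsp (u' - w) (z + w) e2 e1 e3
          have e5 : z + w + (u' - w) = z + u' := by abel
          rw [e5] at e4
          exact e4
        · exact memT_add_of_ne m M hMsp u' z (memP u' hu') hz h0
      -- closure under addition
      have hB : ∀ z₁ z₂, memT m M z₁ → memT m M z₂ → memT m M (z₁ + z₂) := by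
        intro z₁ z₂ h₁ h₂
        by_cases p₁ : ∀ w ∈ W, sB m w z₁ = 0
        · by_cases p₂ : ∀ w ∈ W, sB m w z₂ = 0
          · exact memP _ (fun w hw => by rw [map_add, p₁ w hw, p₂ w hw, add_zero])
          · push Not at p₂
            rw [add_comm]
            exact hA z₂ h₂ p₂ z₁ p₁
        · push Not at p₁
          by_cases p₂ : ∀ w ∈ W, sB m w z₂ = 0
          · exact hA z₁ h₁ p₁ z₂ p₂
          · push Not at p₂
            by_cases h0 : sB m z₁ z₂ = 0
            · obtain ⟨w, hw, hwz⟩ := p₁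
              have hwp : ∀ w' ∈ W, sB m w' w = 0 := fun w' hw' => hWi w' hw' w hw
              have e1 : memT m M (z₂ + w) := hA z₂ h₂ p₂ w hwp
              have e2 : sB m z₁ (z₂ + w) ≠ 0 := by
                rw [map_add, h0, zero_add]
                exact fun hc => hwz (hsk _ _ hc)
              have e3 : memT m M (z₁ + (z₂ + w)) :=
                memT_add_of_ne m M hMsp (z₂ + w) z₁ e1 h₁ e2
              by_cases p₃ : ∀ w' ∈ W, sB m w' (z₁ + (z₂ + w)) = 0
              · refine memP _ (fun w' hw' => ?_)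
                have h3 := p₃ w' hw'
                rw [map_add, map_add, hwp w' hw', add_zero] at h3
                rw [map_add]
                exact h3
              · push Not at p₃
                have e4 := hA _ e3 p₃ (-w)
                  (fun w' hw' => by rw [map_neg, hwp w' hw', neg_zero])
                have e5 : z₁ + (z₂ + w) + -w = z₁ + z₂ := by abel
                rw [e5] at e4
                exact e4
            · exact memT_add_of_ne m M hMsp z₂ z₁ h₂ h₁ h0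
      -- everything
      have hall : ∀ x, memT m M x := by
        intro x
        obtain ⟨c, hc⟩ : ∃ c, c = sB m x u / sB m y u := ⟨_, rfl⟩
        obtain ⟨v, hv⟩ : ∃ v, v = x - c • y := ⟨_, rfl⟩
        have hvu : sB m v u = 0 := by
          have hd : sB m x u / sB m y u * sB m y u = sB m x u := div_mul_cancel₀ _ hyu
          rw [hv, map_sub, LinearMap.sub_apply, map_smul, LinearMap.smul_apply, smul_eq_mul, hc, hd,
            sub_self]
        have huv : sB m u v = 0 := hsk _ _ hvu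
        obtain ⟨E, hE, hEx⟩ := eich_ex m u v huv
        have hEM : E ∈ M := hPM ⟨eich_stab m W hWi u v hu huv E hEx, hE⟩
        have e1 := memT_map m M hMsp E hEM y hyT
        rw [hEx] at e1
        have e2 : memT m M (sB m y u • v) := by
          have e3 := hB _ _ (hB _ _ e1 (memT_smul m M (-1) y hyT))
            (memT_smul m M (-(sB m y v)) u (hWT u hu))
          have e4 : y + sB m y u • v + sB m y v • u + (-1 : F) • y + (-(sB m y v)) • u =
              sB m y u • v := by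
            module
          rw [e4] at e3
          exact e3
        have e5 : memT m M v := by
          have h := memT_smul m M (sB m y u)⁻¹ _ e2
          rwa [smul_smul, inv_mul_cancel₀ hyu, one_smul] at h
        have e6 := hB _ _ e5 (memT_smul m M c y hyT)
        have e7 : v + c • y = x := by
          rw [hv]
          abel
        rw [e7] at e6
        exact e6
      -- generation
      intro g₀ hg₀
      obtain ⟨g, ⟨A, hA', hAx⟩, hg⟩ := sp_gen (sB m) hnd halt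
        (fun g => ∃ A ∈ M, ∀ x : Fin m ⊕ Fin m → F,
          (A : Matrix (Fin m ⊕ Fin m) (Fin m ⊕ Fin m) F) *ᵥ x = g x)
        ⟨1, M.one_mem, fun x => by rw [Units.val_one, Matrix.one_mulVec]; rfl⟩
        (fun g₁ g₂ ⟨A₁, hA₁, h1⟩ ⟨A₂, hA₂, h2⟩ => ⟨A₂ * A₁, M.mul_mem hA₂ hA₁, fun x => by
          rw [Units.val_mul, ← Matrix.mulVec_mulVec, h1, h2]; rfl⟩)
        (fun c w => by
          obtain ⟨A, hA', hAx⟩ := hall w c
          exact ⟨A, hA', fun x => hAx x⟩)
        (fun g ⟨A, hA', hAx⟩ u v => by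
          rw [← hAx u, ← hAx v]
          exact sp_isom m A (hMsp hA') u v)
        (Matrix.toLin' (g₀ : Matrix (Fin m ⊕ Fin m) (Fin m ⊕ Fin m) F))
        (fun u v => by
          rw [Matrix.toLin'_apply, Matrix.toLin'_apply]
          exact sp_isom m g₀ hg₀ u v)
      have hAg : A = g₀ := gl_ext m A g₀ (fun x => by rw [hAx, hg, Matrix.toLin'_apply])
      rw [← hAg]
      exact hA'

end Cfsg.Agent.Helper18.SpPar
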