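import Mathlib
import Cfsg.Prelude.Def_GeometricClasses
import Cfsg.Prelude.Def_ClassicalGeometry
import Cfsg.Agent.Helper5.SympGen
import Cfsg.Agent.S0768
import Cfsg.Agent.Helper18.SpPar

set_option autoImplicit false

namespace Cfsg.Agent.Helper18.SpNd

open Matrix

open scoped MatrixGroups

open Cfsg.Agent.Helper5

open Cfsg.Agent.Helper18.SpPar

variable {F : Type*} [Field F] (m : ℕ)

theorem gen_of_all (M : Subgroup (GL (Fin m ⊕ Fin m) F)) (hMsp : M ≤ Cfsg.spGL m F)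
    (hall : ∀ x, memT m M x) : Cfsg.spGL m F ≤ M := by
  have halt := sB_alt (F := F) m
  have hnd := sB_nondeg (F := F) m
  intro g₀ hg₀
  obtain ⟨g, ⟨A, hA', hAx⟩, hg⟩ := sp_gen (sB m) hnd halt
    (fun g => ∃ A ∈ M, ∀ x : Fin m ⊕ Fin m → F,
      (A : Matrix (Fin m ⊕ Fin m) (Fin m ⊕ Fin m) F) *ᵥ x = g x)
    ⟨1, M.one_mem, fun x => by rw [Units.val_one, Matrix.one_mulVec]; rfl⟩
    (fun g₁ g₂ ⟨A₁, hA₁, h1⟩ ⟨A₂, hA₂, h2⟩ => ⟨A₂ * A₁, M.mul_mem hA₂ hA₁, fun x => by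
      rw [Units.val_mul, ← Matrix.mulVec_mulVec, h1, h2]; rfl⟩)
    (fun c w => by
      obtain ⟨A, hA', hAx⟩ := hall w c
      exact ⟨A, hA', fun x => hAx x⟩)
    (fun g ⟨A, hA', hAx⟩ u v => by
      rw [← hAx u, ← hAx v]
      exact sp_isom m A (hMsp hA') u v)
    (Matrix.toLin' (g₀ : Matrix (Fin m ⊕ Fin m) (Fin m ⊕ Fin m) F))
    (fun u v => by
      rw [Matrix.toLin'_apply, Matrix.toLin'_apply]
      exact sp_isom m g₀ hg₀ u v)
  have hAg : A = g₀ := gl_ext m A g₀ (fun x => by rw [hAx, hg, Matrix.toLin'_apply])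
  rw [← hAg]
  exact hA'

theorem trans1 (M : Subgroup (GL (Fin m ⊕ Fin m) F)) (N : Submodule F (Fin m ⊕ Fin m → F))
    (hN : ∀ n ∈ N, memT m M n) (a a' : Fin m ⊕ Fin m → F) (ha : a ∈ N) (ha' : a' ∈ N)
    (h : sB m a a' ≠ 0) :
    ∃ g ∈ M, (g : Matrix (Fin m ⊕ Fin m) (Fin m ⊕ Fin m) F) *ᵥ a = a' ∧
      ∀ t : Fin m ⊕ Fin m → F, (∀ n ∈ N, sB m n t = 0) →
        (g : Matrix (Fin m ⊕ Fin m) (Fin m ⊕ Fin m) F) *ᵥ t = t := by
  obtain ⟨A, hA, hAx⟩ := hN (a - a') (N.sub_mem ha ha') (sB m a a')⁻¹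
  refine ⟨A, hA, ?_, fun t ht => ?_⟩
  · rw [hAx, map_sub, (sB_alt m) a, zero_sub, mul_neg, inv_mul_cancel₀ h]
    module
  · have h0 : sB m t (a - a') = 0 := by
      rw [← (sB_alt m).neg_eq (a - a') t, ht _ (N.sub_mem ha ha'), neg_zero]
    rw [hAx, h0, mul_zero, zero_smul, add_zero]

theorem trans2 (M : Subgroup (GL (Fin m ⊕ Fin m) F)) (N : Submodule F (Fin m ⊕ Fin m → F))
    (hN : ∀ n ∈ N, memT m M n) (hnd : ∀ n ∈ N, n ≠ 0 → ∃ x ∈ N, sB m x n ≠ 0)
    (a a' : Fin m ⊕ Fin m → F) (ha : a ∈ N) (ha' : a' ∈ N) (ha0 : a ≠ 0) (ha0' : a' ≠ 0) :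
    ∃ g ∈ M, (g : Matrix (Fin m ⊕ Fin m) (Fin m ⊕ Fin m) F) *ᵥ a = a' ∧
      ∀ t : Fin m ⊕ Fin m → F, (∀ n ∈ N, sB m n t = 0) →
        (g : Matrix (Fin m ⊕ Fin m) (Fin m ⊕ Fin m) F) *ᵥ t = t := by
  have hsk : ∀ p q : Fin m ⊕ Fin m → F, sB m p q = 0 → sB m q p = 0 := by
    intro p q h
    rw [← (sB_alt m).neg_eq p q, h, neg_zero]
  by_cases h : sB m a a' = 0
  · obtain ⟨x, hx, hxa⟩ := hnd a ha ha0
    obtain ⟨x', hx', hxa'⟩ := hnd a' ha' ha0'
    obtain ⟨z, hz, hz1, hz2⟩ : ∃ z ∈ N, sB m a z ≠ 0 ∧ sB m z a' ≠ 0 := by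
      by_cases h1 : sB m x a' = 0
      · by_cases h2 : sB m x' a = 0
        · refine ⟨x + x', N.add_mem hx hx', ?_, ?_⟩
          · rw [map_add, hsk _ _ h2, add_zero]
            exact fun hc => hxa (hsk _ _ hc)
          · rw [map_add, LinearMap.add_apply, h1, zero_add]
            exact hxa'
        · exact ⟨x', hx', fun hc => h2 (hsk _ _ hc), hxa'⟩
      · exact ⟨x, hx, fun hc => hxa (hsk _ _ hc), h1⟩
    obtain ⟨g₁, hg₁, e₁, f₁⟩ := trans1 m M N hN a z ha hz hz1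
    obtain ⟨g₂, hg₂, e₂, f₂⟩ := trans1 m M N hN z a' hz ha' hz2
    refine ⟨g₂ * g₁, M.mul_mem hg₂ hg₁, ?_, fun t ht => ?_⟩
    · rw [Units.val_mul, ← Matrix.mulVec_mulVec, e₁, e₂]
    · rw [Units.val_mul, ← Matrix.mulVec_mulVec, f₁ t ht, f₂ t ht]
  · exact trans1 m M N hN a a' ha ha' h

theorem memT_in (M : Subgroup (GL (Fin m ⊕ Fin m) F)) (W : Submodule F (Fin m ⊕ Fin m → F))
    (hP : Cfsg.Geo.subspaceStabilizer W ⊓ Cfsg.spGL m F ≤ M) (u : Fin m ⊕ Fin m → F)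
    (hu : u ∈ W) : memT m M u := by
  intro c
  obtain ⟨s, hs, hsx⟩ := tv_ex m u c
  refine ⟨s, hP ⟨?_, hs⟩, hsx⟩
  intro v
  show v ∈ W ↔ (s : Matrix (Fin m ⊕ Fin m) (Fin m ⊕ Fin m) F) *ᵥ v ∈ W
  rw [hsx]
  constructor
  · intro hv
    exact W.add_mem hv (W.smul_mem _ hu)
  · intro hv
    have h1 := W.sub_mem hv (W.smul_mem (c * sB m v u) hu)
    rwa [add_sub_cancel_right] at h1

theorem main (W : Submodule F (Fin m ⊕ Fin m → F)) (hW0 : W ≠ ⊥)
    (hW : Cfsg.Geo.IsNondegenerateOn (Cfsg.sympForm m F) W) (hdim : Module.finrank F W < m) :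
    Cfsg.Geo.IsMaximalIn (Cfsg.spGL m F) (Cfsg.Geo.subspaceStabilizer W ⊓ Cfsg.spGL m F) := by
  classical
  have halt := sB_alt (F := F) m
  have hnd := sB_nondeg (F := F) m
  have hsk : ∀ a b : Fin m ⊕ Fin m → F, sB m a b = 0 → sB m b a = 0 := by
    intro a b h
    rw [← halt.neg_eq a b, h, neg_zero]
  have hWnd : ∀ w ∈ W, w ≠ 0 → ∃ x ∈ W, sB m x w ≠ 0 := by
    intro w hw hw0
    obtain ⟨⟨x, hx, hxw⟩, -⟩ := hW w hw hw0
    exact ⟨x, hx, by rw [sB_apply]; exact hxw⟩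
  obtain ⟨Wp, hWp⟩ : ∃ Wp, Wp = (sB (F := F) m).orthogonal W := ⟨_, rfl⟩
  have hmemp : ∀ x, x ∈ Wp ↔ ∀ w ∈ W, sB m w x = 0 := by
    intro x
    rw [hWp, LinearMap.BilinForm.mem_orthogonal_iff]
  have hdisj : ∀ x, x ∈ W → x ∈ Wp → x = 0 := by
    intro x hx hxp
    by_contra h0
    obtain ⟨x', hx', hne⟩ := hWnd x hx h0
    exact hne ((hmemp x).1 hxp x' hx')
  have hres : ((sB (F := F) m).restrict W).Nondegenerate := by
    refine ⟨fun x hx => ?_, fun y hy => ?_⟩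
    · by_contra h0
      have h0' : (x : Fin m ⊕ Fin m → F) ≠ 0 := fun hc => h0 (Subtype.ext hc)
      obtain ⟨-, x', hx', hne⟩ := hW x.1 x.2 h0'
      apply hne
      rw [← sB_apply]
      exact hx ⟨x', hx'⟩
    · by_contra h0
      have h0' : (y : Fin m ⊕ Fin m → F) ≠ 0 := fun hc => h0 (Subtype.ext hc)
      obtain ⟨⟨x', hx', hne⟩, -⟩ := hW y.1 y.2 h0'
      apply hne
      rw [← sB_apply]
      exact hy ⟨x', hx'⟩
  have hdec : ∀ x, ∃ a ∈ W, ∃ b ∈ Wp, a + b = x := by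
    have hc := LinearMap.BilinForm.isCompl_orthogonal_of_restrict_nondegenerate halt.isRefl hres
    intro x
    have hx : x ∈ W ⊔ (sB (F := F) m).orthogonal W := by
      rw [hc.sup_eq_top]
      exact Submodule.mem_top
    rw [← hWp] at hx
    exact Submodule.mem_sup.1 hx
  have hPnd : ∀ n ∈ Wp, n ≠ 0 → ∃ x ∈ Wp, sB m x n ≠ 0 := by
    intro n hn hn0
    obtain ⟨v, hv⟩ : ∃ v, sB m v n ≠ 0 := by
      by_contra hcon
      push Not at hcon
      exact hn0 (hnd.2 n hcon)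
    obtain ⟨a, ha, b, hb, hab⟩ := hdec v
    refine ⟨b, hb, ?_⟩
    rw [← hab, map_add, LinearMap.add_apply, (hmemp n).1 hn a ha, zero_add] at hv
    exact hv
  have hfr3 := LinearMap.BilinForm.finrank_orthogonal hnd W
  rw [← hWp, Module.finrank_fintype_fun_eq_card, Fintype.card_sum, Fintype.card_fin] at hfr3
  constructor
  · refine lt_of_le_of_ne inf_le_right ?_
    intro heq
    obtain ⟨a, ha, ha0⟩ := Submodule.exists_mem_ne_zero_of_ne_bot hW0
    obtain ⟨x, hx, hxa⟩ := hWnd a ha ha0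
    have hWp0 : Wp ≠ ⊥ := by
      intro hc
      rw [hc, finrank_bot] at hfr3
      omega
    obtain ⟨b, hb, hb0⟩ := Submodule.exists_mem_ne_zero_of_ne_bot hWp0
    obtain ⟨s, hs, hsx⟩ := tv_ex m (a + b) (1 : F)
    rw [← heq] at hs
    have h1 : (s : Matrix (Fin m ⊕ Fin m) (Fin m ⊕ Fin m) F) *ᵥ x ∈ W := (hs.1 x).1 hx
    rw [hsx, one_mul, map_add, (hmemp b).1 hb x hx, add_zero] at h1
    have h2 : sB m x a • (a + b) ∈ W := by
      have h := W.sub_mem h1 hx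
      rwa [add_sub_cancel_left] at h
    have h3 : a + b ∈ W := by
      have h := W.smul_mem (sB m x a)⁻¹ h2
      rwa [smul_smul, inv_mul_cancel₀ hxa, one_smul] at h
    have h4 : b ∈ W := by
      have h := W.sub_mem h3 ha
      rwa [add_sub_cancel_left] at h
    exact hb0 (hdisj b h4 hb)
  · intro M hPM hMsp
    by_cases hMP : M ≤ Cfsg.Geo.subspaceStabilizer W ⊓ Cfsg.spGL m F
    · exact Or.inl (le_antisymm hMP hPM)
    · right
      refine le_antisymm hMsp ?_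
      obtain ⟨h₀, hh₀, hh₀P⟩ := SetLike.not_le_iff_exists.1 hMP
      obtain ⟨h, hh, w₁, hw₁, hw₁'⟩ : ∃ h ∈ M, ∃ w₁ ∈ W,
          (h : Matrix (Fin m ⊕ Fin m) (Fin m ⊕ Fin m) F) *ᵥ w₁ ∉ W := by
        have hns : h₀ ∉ Cfsg.Geo.subspaceStabilizer W := fun hs => hh₀P ⟨hs, hMsp hh₀⟩
        have hns' : ¬ ∀ v, v ∈ W ↔ (h₀ : Matrix (Fin m ⊕ Fin m) (Fin m ⊕ Fin m) F) *ᵥ v ∈ W := hns
        obtain ⟨v, hv⟩ := not_forall.1 hns'
        by_cases hvW : v ∈ W
        · exact ⟨h₀, hh₀, v, hvW, fun hc => hv ⟨fun _ => hc, fun _ => hvW⟩⟩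
        · have hc : (h₀ : Matrix (Fin m ⊕ Fin m) (Fin m ⊕ Fin m) F) *ᵥ v ∈ W := by
            by_contra hc
            exact hv ⟨fun a => absurd a hvW, fun a => absurd a hc⟩
          refine ⟨h₀⁻¹, M.inv_mem hh₀, _, hc, ?_⟩
          rw [inv_act']
          exact hvW
      have memP : ∀ b ∈ Wp, memT m M b :=
        fun b hb => memT_perp m M W hPM b ((hmemp b).1 hb)
      have memIn := memT_in m M W hPM
      -- a mixed vector
      obtain ⟨y, hyT, hyW, hyP⟩ : ∃ y, memT m M y ∧ y ∉ W ∧ y ∉ Wp := by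
        by_contra hcon
        push Not at hcon
        have hTW : ∀ w ∈ W,
            memT m M ((h : Matrix (Fin m ⊕ Fin m) (Fin m ⊕ Fin m) F) *ᵥ w) :=
          fun w hw => memT_map m M hMsp h hh w (memIn w hw)
        have hTP : ∀ b ∈ Wp,
            memT m M ((h : Matrix (Fin m ⊕ Fin m) (Fin m ⊕ Fin m) F) *ᵥ b) :=
          fun b hb => memT_map m M hMsp h hh b (memP b hb)
        have hw₁p : (h : Matrix (Fin m ⊕ Fin m) (Fin m ⊕ Fin m) F) *ᵥ w₁ ∈ Wp :=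
          hcon _ (hTW w₁ hw₁) hw₁'
        have h1 : ∀ w ∈ W, (h : Matrix (Fin m ⊕ Fin m) (Fin m ⊕ Fin m) F) *ᵥ w ∈ Wp := by
          intro w hw
          by_contra hwp
          have hwW : (h : Matrix (Fin m ⊕ Fin m) (Fin m ⊕ Fin m) F) *ᵥ w ∈ W := by
            by_contra hc
            exact hwp (hcon _ (hTW w hw) hc)
          have hs := hTW (w + w₁) (W.add_mem hw hw₁)
          rw [Matrix.mulVec_add] at hs
          have hsW : (h : Matrix (Fin m ⊕ Fin m) (Fin m ⊕ Fin m) F) *ᵥ w +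
              (h : Matrix (Fin m ⊕ Fin m) (Fin m ⊕ Fin m) F) *ᵥ w₁ ∉ W := by
            intro hc
            have h' := W.sub_mem hc hwW
            rw [add_sub_cancel_left] at h'
            exact hw₁' h'
          have hsP := hcon _ hs hsW
          have h' := Wp.sub_mem hsP hw₁p
          rw [add_sub_cancel_right] at h'
          exact hwp h'
        have h2 : ∀ b ∈ Wp, (h : Matrix (Fin m ⊕ Fin m) (Fin m ⊕ Fin m) F) *ᵥ b ∈ W := by
          by_contra hc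
          push Not at hc
          obtain ⟨b₀, hb₀, hb₀W⟩ := hc
          have hb₀P : (h : Matrix (Fin m ⊕ Fin m) (Fin m ⊕ Fin m) F) *ᵥ b₀ ∈ Wp :=
            hcon _ (hTP b₀ hb₀) hb₀W
          have h3 : ∀ b ∈ Wp, (h : Matrix (Fin m ⊕ Fin m) (Fin m ⊕ Fin m) F) *ᵥ b ∈ Wp := by
            intro b hb
            by_contra hbp
            have hbW : (h : Matrix (Fin m ⊕ Fin m) (Fin m ⊕ Fin m) F) *ᵥ b ∈ W := by
              by_contra hc'
              exact hbp (hcon _ (hTP b hb) hc')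
            have hs := hTP (b + b₀) (Wp.add_mem hb hb₀)
            rw [Matrix.mulVec_add] at hs
            have hsW : (h : Matrix (Fin m ⊕ Fin m) (Fin m ⊕ Fin m) F) *ᵥ b +
                (h : Matrix (Fin m ⊕ Fin m) (Fin m ⊕ Fin m) F) *ᵥ b₀ ∉ W := by
              intro hc'
              have h' := W.sub_mem hc' hbW
              rw [add_sub_cancel_left] at h'
              exact hb₀W h'
            have hsP := hcon _ hs hsW
            have h' := Wp.sub_mem hsP hb₀P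
            rw [add_sub_cancel_right] at h'
            exact hbp h'
          obtain ⟨w₂, hw₂, hw₂0⟩ := Submodule.exists_mem_ne_zero_of_ne_bot hW0
          obtain ⟨a, ha, b, hb, hab⟩ := hdec
            (((h⁻¹ : GL (Fin m ⊕ Fin m) F) : Matrix (Fin m ⊕ Fin m) (Fin m ⊕ Fin m) F) *ᵥ w₂)
          have e : (h : Matrix (Fin m ⊕ Fin m) (Fin m ⊕ Fin m) F) *ᵥ a +
              (h : Matrix (Fin m ⊕ Fin m) (Fin m ⊕ Fin m) F) *ᵥ b = w₂ := by
            rw [← Matrix.mulVec_add, hab, inv_act]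
          have hw₂p : w₂ ∈ Wp := by
            rw [← e]
            exact Wp.add_mem (h1 a ha) (h3 b hb)
          exact hw₂0 (hdisj w₂ hw₂ hw₂p)
        have hinj : Function.Injective
            (Matrix.toLin' (h : Matrix (Fin m ⊕ Fin m) (Fin m ⊕ Fin m) F)) := by
          intro p q hpq
          rw [Matrix.toLin'_apply, Matrix.toLin'_apply] at hpq
          have e' : ((h⁻¹ : GL (Fin m ⊕ Fin m) F) : Matrix (Fin m ⊕ Fin m) (Fin m ⊕ Fin m) F) *ᵥ
              ((h : Matrix (Fin m ⊕ Fin m) (Fin m ⊕ Fin m) F) *ᵥ p) =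
              ((h⁻¹ : GL (Fin m ⊕ Fin m) F) : Matrix (Fin m ⊕ Fin m) (Fin m ⊕ Fin m) F) *ᵥ
              ((h : Matrix (Fin m ⊕ Fin m) (Fin m ⊕ Fin m) F) *ᵥ q) := by
            rw [hpq]
          rw [inv_act', inv_act'] at e'
          exact e'
        have hle : Wp.map (Matrix.toLin' (h : Matrix (Fin m ⊕ Fin m) (Fin m ⊕ Fin m) F)) ≤ W := by
          rintro _ ⟨b, hb, rfl⟩
          rw [Matrix.toLin'_apply]
          exact h2 b hb
        have hfr1 := Submodule.finrank_mono hle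
        have hfr2 := (Submodule.equivMapOfInjective _ hinj Wp).finrank_eq
        omega
      have hall : ∀ x, memT m M x := by
        intro x
        obtain ⟨a, ha, b, hb, hab⟩ := hdec x
        by_cases ha0 : a = 0
        · rw [← hab, ha0, zero_add]
          exact memP b hb
        · by_cases hb0 : b = 0
          · rw [← hab, hb0, add_zero]
            exact memIn a ha
          · obtain ⟨a₀, ha₀, b₀, hb₀, hab₀⟩ := hdec y
            have ha₀0 : a₀ ≠ 0 := by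
              intro hc
              rw [hc, zero_add] at hab₀
              rw [← hab₀] at hyP
              exact hyP hb₀
            have hb₀0 : b₀ ≠ 0 := by
              intro hc
              rw [hc, add_zero] at hab₀
              rw [← hab₀] at hyW
              exact hyW ha₀
            obtain ⟨g₁, hg₁, e₁, f₁⟩ := trans2 m M W memIn hWnd a₀ a ha₀ ha ha₀0 ha0
            obtain ⟨g₂, hg₂, e₂, f₂⟩ := trans2 m M Wp memP hPnd b₀ b hb₀ hb hb₀0 hb0
            have s1 := memT_map m M hMsp g₁ hg₁ y hyT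
            rw [← hab₀, Matrix.mulVec_add, e₁, f₁ b₀ ((hmemp b₀).1 hb₀)] at s1
            have s2 := memT_map m M hMsp g₂ hg₂ _ s1
            rw [Matrix.mulVec_add, e₂, f₂ a (fun n hn => hsk _ _ ((hmemp n).1 hn a ha)), hab] at s2
            exact s2
      exact gen_of_all m M hMsp hall

end Cfsg.Agent.Helper18.SpNd
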