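import Mathlib
import Cfsg.Prelude.Def_GeometricClasses
import Cfsg.Prelude.Def_ClassicalGeometry
import Cfsg.Agent.Helper5.SympGen
import Cfsg.Agent.S0768
import Cfsg.Agent.Helper18.SpPar
import Cfsg.Agent.Helper18.SpNd

set_option autoImplicit false

namespace Cfsg.Agent.Helper18.SpDec

open Matrix

open scoped MatrixGroups

open Cfsg.Agent.Helper5

open Cfsg.Agent.Helper18.SpPar

open Cfsg.Agent.Helper18.SpNd

variable {F : Type*} [Field F] (m : ℕ)

/-- The working configuration: pairwise orthogonal nondegenerate blocks spanning the space, and a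
subgroup between the block stabilizer and the symplectic group. -/
structure Cfg {t : ℕ} (k : ℕ) (D : Fin t → Submodule F (Fin m ⊕ Fin m → F))
    (M : Subgroup (GL (Fin m ⊕ Fin m) F)) : Prop where
  orth : ∀ i j, i ≠ j → ∀ u ∈ D i, ∀ v ∈ D j, sB m u v = 0
  nd : ∀ i, ∀ w ∈ D i, w ≠ 0 → ∃ x ∈ D i, sB m x w ≠ 0
  rk : ∀ i, Module.finrank F (D i) = k
  kpos : 0 < k
  two : 2 ≤ t
  top : iSup D = ⊤
  sp : M ≤ Cfsg.spGL m F
  par : Cfsg.Geo.decompositionStabilizer D ⊓ Cfsg.spGL m F ≤ M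

theorem sk (a b : Fin m ⊕ Fin m → F) (h : sB m a b = 0) : sB m b a = 0 := by
  rw [← (sB_alt m).neg_eq a b, h, neg_zero]

theorem sk' (a b : Fin m ⊕ Fin m → F) (h : sB m a b ≠ 0) : sB m b a ≠ 0 :=
  fun hc => h (sk m b a hc)

theorem gl_inj (g : GL (Fin m ⊕ Fin m) F) : Function.Injective (Matrix.toLin' g.1) := by
  intro x y hxy
  rw [Matrix.toLin'_apply, Matrix.toLin'_apply] at hxy
  have h := congrArg (fun z => (g⁻¹).1 *ᵥ z) hxy
  beta_reduce at h
  rw [inv_act', inv_act'] at h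
  exact h

theorem map_eq (g : GL (Fin m ⊕ Fin m) F) (A A' : Submodule F (Fin m ⊕ Fin m → F))
    (h : ∀ x ∈ A, g.1 *ᵥ x ∈ A') (hr : Module.finrank F A = Module.finrank F A') :
    A.map (Matrix.toLin' g.1) = A' := by
  apply Submodule.eq_of_le_of_finrank_eq
  · rintro y ⟨x, hx, rfl⟩
    rw [Matrix.toLin'_apply]
    exact h x hx
  · rw [← hr]
    exact (Submodule.equivMapOfInjective _ (gl_inj m g) A).finrank_eq.symm

theorem tv_move (a a' : Fin m ⊕ Fin m → F) (h : sB m a a' ≠ 0) :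
    ∃ s ∈ Cfsg.spGL m F, s.1 *ᵥ a = a' ∧ ∀ x, sB m x (a - a') = 0 → s.1 *ᵥ x = x := by
  obtain ⟨s, hs, hsx⟩ := tv_ex m (a - a') (sB m a a')⁻¹
  refine ⟨s, hs, ?_, fun x hx => ?_⟩
  · rw [hsx, map_sub, (sB_alt m) a, zero_sub, mul_neg, inv_mul_cancel₀ h]
    module
  · rw [hsx, hx, mul_zero, zero_smul, add_zero]

theorem hyp_move (u v a' b' : Fin m ⊕ Fin m → F) (hβ : sB m u v = sB m a' b')
    (hne : sB m u v ≠ 0) :
    ∃ s ∈ Cfsg.spGL m F, s.1 *ᵥ u = a' ∧ s.1 *ᵥ v = b' ∧
      ∀ x, sB m x u = 0 → sB m x v = 0 → sB m x a' = 0 → sB m x b' = 0 → s.1 *ᵥ x = x := by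
  have hne' : sB m a' b' ≠ 0 := hβ ▸ hne
  obtain ⟨g1, hg1, e1, f1⟩ : ∃ g ∈ Cfsg.spGL m F, g.1 *ᵥ u = a' ∧
      ∀ x, sB m x u = 0 → sB m x v = 0 → sB m x a' = 0 → sB m x b' = 0 → g.1 *ᵥ x = x := by
    by_cases h : sB m u a' = 0
    · obtain ⟨z, hz1, hz2, hzx⟩ : ∃ z, sB m u z ≠ 0 ∧ sB m z a' ≠ 0 ∧
          ∀ x, sB m x v = 0 → sB m x b' = 0 → sB m x z = 0 := by
        by_cases h1 : sB m v a' = 0
        · by_cases h2 : sB m u b' = 0
          · refine ⟨v + b', ?_, ?_, fun x hxv hxb => ?_⟩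
            · rw [map_add, h2, add_zero]
              exact hne
            · rw [map_add, LinearMap.add_apply, h1, zero_add]
              exact sk' m _ _ hne'
            · rw [map_add, hxv, hxb, add_zero]
          · exact ⟨b', h2, sk' m _ _ hne', fun x _ hxb => hxb⟩
        · exact ⟨v, hne, h1, fun x hxv _ => hxv⟩
      obtain ⟨s1, hs1, es1, fs1⟩ := tv_move m u z hz1
      obtain ⟨s2, hs2, es2, fs2⟩ := tv_move m z a' hz2
      refine ⟨s2 * s1, (Cfsg.spGL m F).mul_mem hs2 hs1, ?_, fun x hxu hxv hxa hxb => ?_⟩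
      · rw [Units.val_mul, ← Matrix.mulVec_mulVec, es1, es2]
      · have hxz := hzx x hxv hxb
        rw [Units.val_mul, ← Matrix.mulVec_mulVec, fs1 x (by rw [map_sub, hxu, hxz, sub_zero]),
          fs2 x (by rw [map_sub, hxz, hxa, sub_zero])]
    · obtain ⟨s1, hs1, es1, fs1⟩ := tv_move m u a' h
      exact ⟨s1, hs1, es1, fun x hxu _ hxa _ => fs1 x (by rw [map_sub, hxu, hxa, sub_zero])⟩
  obtain ⟨v1, hv1⟩ : ∃ v1, v1 = g1.1 *ᵥ v := ⟨_, rfl⟩
  have hav1 : sB m a' v1 = sB m a' b' := by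
    have h := sp_isom m g1 hg1 u v
    rw [e1, ← hv1] at h
    exact h.trans hβ
  have hav1' : sB m a' v1 ≠ 0 := by
    rw [hav1]
    exact hne'
  have haa : sB m a' a' = 0 := (sB_alt m) a'
  obtain ⟨g2, hg2, e2, e2', f2⟩ : ∃ g ∈ Cfsg.spGL m F, g.1 *ᵥ a' = a' ∧ g.1 *ᵥ v1 = b' ∧
      ∀ x, sB m x a' = 0 → sB m x b' = 0 → sB m x v1 = 0 → g.1 *ᵥ x = x := by
    by_cases h : sB m v1 b' = 0
    · have h1 : sB m v1 (v1 + a') ≠ 0 := by
        rw [map_add, (sB_alt m) v1, zero_add]
        exact sk' m _ _ hav1'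
      have h2 : sB m (v1 + a') b' ≠ 0 := by
        rw [map_add, LinearMap.add_apply, h, zero_add]
        exact hne'
      obtain ⟨s1, hs1, es1, fs1⟩ := tv_move m v1 (v1 + a') h1
      obtain ⟨s2, hs2, es2, fs2⟩ := tv_move m (v1 + a') b' h2
      refine ⟨s2 * s1, (Cfsg.spGL m F).mul_mem hs2 hs1, ?_, ?_, fun x hxa hxb hxv => ?_⟩
      · rw [Units.val_mul, ← Matrix.mulVec_mulVec,
          fs1 a' (by rw [map_sub, map_add, haa, add_zero, sub_self]),
          fs2 a' (by rw [map_sub, map_add, haa, add_zero, hav1, sub_self])]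
      · rw [Units.val_mul, ← Matrix.mulVec_mulVec, es1, es2]
      · rw [Units.val_mul, ← Matrix.mulVec_mulVec,
          fs1 x (by rw [map_sub, map_add, hxv, hxa, add_zero, sub_zero]),
          fs2 x (by rw [map_sub, map_add, hxv, hxa, hxb, add_zero, sub_zero])]
    · obtain ⟨s1, hs1, es1, fs1⟩ := tv_move m v1 b' h
      exact ⟨s1, hs1, fs1 a' (by rw [map_sub, hav1, sub_self]), es1,
        fun x _ hxb hxv => fs1 x (by rw [map_sub, hxv, hxb, sub_zero])⟩
  refine ⟨g2 * g1, (Cfsg.spGL m F).mul_mem hg2 hg1, ?_, ?_, fun x hxu hxv hxa hxb => ?_⟩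
  · rw [Units.val_mul, ← Matrix.mulVec_mulVec, e1, e2]
  · rw [Units.val_mul, ← Matrix.mulVec_mulVec, ← hv1, e2']
  · have hx1 := f1 x hxu hxv hxa hxb
    have hxv1 : sB m x v1 = 0 := by
      have h := sp_isom m g1 hg1 x v
      rw [hx1, ← hv1] at h
      rw [h]
      exact hxv
    rw [Units.val_mul, ← Matrix.mulVec_mulVec, hx1, f2 x hxa hxb hxv1]

theorem split (W : Submodule F (Fin m ⊕ Fin m → F))
    (hW : ∀ w ∈ W, w ≠ 0 → ∃ x ∈ W, sB m x w ≠ 0) (x : Fin m ⊕ Fin m → F) :
    ∃ w ∈ W, ∃ p, (∀ n ∈ W, sB m n p = 0) ∧ x = w + p := by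
  have halt := sB_alt (F := F) m
  have hres : ((sB (F := F) m).restrict W).Nondegenerate := by
    refine ⟨fun x hx => ?_, fun y hy => ?_⟩
    · by_contra h0
      have h0' : (x : Fin m ⊕ Fin m → F) ≠ 0 := fun hc => h0 (Subtype.ext hc)
      obtain ⟨x', hx', hne⟩ := hW x.1 x.2 h0'
      apply sk' m _ _ hne
      exact hx ⟨x', hx'⟩
    · by_contra h0
      have h0' : (y : Fin m ⊕ Fin m → F) ≠ 0 := fun hc => h0 (Subtype.ext hc)
      obtain ⟨x', hx', hne⟩ := hW y.1 y.2 h0'
      apply hne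
      exact hy ⟨x', hx'⟩
  have hc := LinearMap.BilinForm.isCompl_orthogonal_of_restrict_nondegenerate halt.isRefl hres
  have hx : x ∈ W ⊔ (sB (F := F) m).orthogonal W := by
    rw [hc.sup_eq_top]
    exact Submodule.mem_top
  obtain ⟨w, hw, p, hp, hwp⟩ := Submodule.mem_sup.1 hx
  exact ⟨w, hw, p, fun n hn => (LinearMap.BilinForm.mem_orthogonal_iff.1 hp) n hn, hwp.symm⟩

theorem hyp_in (A W : Submodule F (Fin m ⊕ Fin m → F)) (hWA : W ≤ A)
    (hW : ∀ w ∈ W, w ≠ 0 → ∃ x ∈ W, sB m x w ≠ 0)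
    (hA : ∀ w ∈ A, w ≠ 0 → ∃ x ∈ A, sB m x w ≠ 0) (hne : W ≠ A) :
    ∃ a ∈ A, ∃ b ∈ A, (∀ n ∈ W, sB m n a = 0) ∧ (∀ n ∈ W, sB m n b = 0) ∧ sB m a b ≠ 0 := by
  obtain ⟨x, hxA, hxW⟩ := SetLike.exists_of_lt (lt_of_le_of_ne hWA hne)
  obtain ⟨w, hw, a, ha, hxa⟩ := split m W hW x
  have haA : a ∈ A := by
    have e : a = x - w := by
      rw [hxa]
      abel
    rw [e]
    exact A.sub_mem hxA (hWA hw)
  have ha0 : a ≠ 0 := by
    rintro rfl
    apply hxW
    rw [hxa, add_zero]
    exact hw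
  obtain ⟨b0, hb0, hb0a⟩ := hA a haA ha0
  obtain ⟨w0, hw0, b, hb, hb0b⟩ := split m W hW b0
  have hbA : b ∈ A := by
    have e : b = b0 - w0 := by
      rw [hb0b]
      abel
    rw [e]
    exact A.sub_mem hb0 (hWA hw0)
  refine ⟨a, haA, b, hbA, ha, hb, ?_⟩
  rw [hb0b, map_add, LinearMap.add_apply, ha w0 hw0, zero_add] at hb0a
  exact sk' m _ _ hb0a

theorem sub_move (A A' : Submodule F (Fin m ⊕ Fin m → F))
    (hA : ∀ w ∈ A, w ≠ 0 → ∃ x ∈ A, sB m x w ≠ 0)
    (hA' : ∀ w ∈ A', w ≠ 0 → ∃ x ∈ A', sB m x w ≠ 0)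
    (hr : Module.finrank F A = Module.finrank F A') :
    ∃ g ∈ Cfsg.spGL m F, (∀ x ∈ A, g.1 *ᵥ x ∈ A') ∧
      ∀ r, (∀ a ∈ A, sB m a r = 0) → (∀ a ∈ A', sB m a r = 0) → g.1 *ᵥ r = r := by
  have key : ∀ d : ℕ, ∀ (W : Submodule F (Fin m ⊕ Fin m → F)) (g : GL (Fin m ⊕ Fin m) F),
      W ≤ A → (∀ w ∈ W, w ≠ 0 → ∃ x ∈ W, sB m x w ≠ 0) → g ∈ Cfsg.spGL m F →
      (∀ w ∈ W, g.1 *ᵥ w ∈ A') →
      (∀ r, (∀ a ∈ A, sB m a r = 0) → (∀ a ∈ A', sB m a r = 0) → g.1 *ᵥ r = r) →
      Module.finrank F W + d = Module.finrank F A →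
      ∃ g ∈ Cfsg.spGL m F, (∀ x ∈ A, g.1 *ᵥ x ∈ A') ∧
        ∀ r, (∀ a ∈ A, sB m a r = 0) → (∀ a ∈ A', sB m a r = 0) → g.1 *ᵥ r = r := by
    intro d
    induction d using Nat.strong_induction_on with
    | _ d ih =>
      intro W g hWA hW hg hgW hgR hd
      by_cases hWeq : W = A
      · rw [hWeq] at hgW
        exact ⟨g, hg, hgW, hgR⟩
      · obtain ⟨a, haA, b, hbA, haW, hbW, hab⟩ := hyp_in m A W hWA hW hA hWeq
        obtain ⟨W', hW'⟩ : ∃ W', W' = W.map (Matrix.toLin' g.1) := ⟨_, rfl⟩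
        have hmemW' : ∀ w ∈ W, g.1 *ᵥ w ∈ W' := by
          intro w hw
          rw [hW', ← Matrix.toLin'_apply]
          exact Submodule.mem_map_of_mem hw
        have hW'A : W' ≤ A' := by
          rw [hW']
          rintro y ⟨w, hw, rfl⟩
          rw [Matrix.toLin'_apply]
          exact hgW w hw
        have hW'nd : ∀ w ∈ W', w ≠ 0 → ∃ x ∈ W', sB m x w ≠ 0 := by
          intro y hy hy0
          rw [hW'] at hy
          obtain ⟨w, hw, rfl⟩ := hy
          rw [Matrix.toLin'_apply] at hy0 ⊢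
          have hw0 : w ≠ 0 := by
            rintro rfl
            exact hy0 (Matrix.mulVec_zero _)
          obtain ⟨x, hx, hxw⟩ := hW w hw hw0
          exact ⟨g.1 *ᵥ x, hmemW' x hx, by rw [sp_isom m g hg]; exact hxw⟩
        have hlt : Module.finrank F W < Module.finrank F A :=
          Submodule.finrank_lt_finrank_of_lt (lt_of_le_of_ne hWA hWeq)
        have hW'ne : W' ≠ A' := by
          intro heq
          have h1 : Module.finrank F W' = Module.finrank F W := by
            rw [hW']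
            exact (Submodule.equivMapOfInjective _ (gl_inj m g) W).finrank_eq.symm
          rw [heq] at h1
          omega
        obtain ⟨a0, ha0A, b', hb'A, ha0W, hb'W, hab'⟩ := hyp_in m A' W' hW'A hW'nd hA' hW'ne
        obtain ⟨a', ha'A, ha'W, hab''⟩ : ∃ a' ∈ A', (∀ n ∈ W', sB m n a' = 0) ∧
            sB m a' b' = sB m a b := by
          refine ⟨(sB m a b / sB m a0 b') • a0, A'.smul_mem _ ha0A, fun n hn => ?_, ?_⟩
          · rw [map_smul, smul_eq_mul, ha0W n hn, mul_zero]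
          · rw [map_smul, LinearMap.smul_apply, smul_eq_mul, div_mul_cancel₀ _ hab']
        have hiso : sB m (g.1 *ᵥ a) (g.1 *ᵥ b) = sB m a' b' := by
          rw [sp_isom m g hg, hab'']
        have hne2 : sB m (g.1 *ᵥ a) (g.1 *ᵥ b) ≠ 0 := by
          rw [sp_isom m g hg]
          exact hab
        obtain ⟨s, hs, es1, es2, fs⟩ := hyp_move m (g.1 *ᵥ a) (g.1 *ᵥ b) a' b' hiso hne2
        obtain ⟨W1, hW1⟩ : ∃ W1, W1 = W ⊔ Submodule.span F ({a, b} : Set (Fin m ⊕ Fin m → F)) :=
          ⟨_, rfl⟩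
        have hW1mem : ∀ x ∈ W1, ∃ w ∈ W, ∃ α β : F, x = w + (α • a + β • b) := by
          intro x hx
          rw [hW1] at hx
          obtain ⟨w, hw, y, hy, rfl⟩ := Submodule.mem_sup.1 hx
          obtain ⟨α, β, rfl⟩ := Submodule.mem_span_pair.1 hy
          exact ⟨w, hw, α, β, rfl⟩
        have hWW1 : W ≤ W1 := by
          rw [hW1]
          exact le_sup_left
        have haW1 : a ∈ W1 := by
          rw [hW1]
          exact Submodule.mem_sup_right (Submodule.subset_span (by simp))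
        have hbW1 : b ∈ W1 := by
          rw [hW1]
          exact Submodule.mem_sup_right (Submodule.subset_span (by simp))
        have hW1A : W1 ≤ A := by
          rw [hW1]
          refine sup_le hWA ?_
          rw [Submodule.span_le]
          intro x hx
          rcases hx with rfl | rfl
          · exact haA
          · exact hbA
        have ha0' : a ≠ 0 := by
          rintro rfl
          apply hab
          rw [map_zero, LinearMap.zero_apply]
        have haW' : a ∉ W := by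
          intro haw
          obtain ⟨x, hx, hxa⟩ := hW a haw ha0'
          exact hxa (haW x hx)
        have hlt1 : Module.finrank F W < Module.finrank F W1 :=
          Submodule.finrank_lt_finrank_of_lt (lt_of_le_of_ne hWW1 (fun h => haW' (h ▸ haW1)))
        have hle1 : Module.finrank F W1 ≤ Module.finrank F A := Submodule.finrank_mono hW1A
        have hW1nd : ∀ w ∈ W1, w ≠ 0 → ∃ x ∈ W1, sB m x w ≠ 0 := by
          intro x hx hx0
          obtain ⟨w, hw, α, β, rfl⟩ := hW1mem x hx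
          by_contra hcon
          push Not at hcon
          have hw0 : w = 0 := by
            by_contra hw0
            obtain ⟨x', hx', hne⟩ := hW w hw hw0
            apply hne
            have h := hcon x' (hWW1 hx')
            rw [map_add, map_add, map_smul, map_smul, haW x' hx', hbW x' hx'] at h
            simpa using h
          have hβ : β = 0 := by
            have h := hcon a haW1
            rw [hw0, zero_add, map_add, map_smul, map_smul, (sB_alt m) a] at h
            simpa [hab] using h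
          have hα : α = 0 := by
            have h := hcon b hbW1
            rw [hw0, zero_add, map_add, map_smul, map_smul, (sB_alt m) b] at h
            simpa [sk' m _ _ hab] using h
          apply hx0
          rw [hw0, hα, hβ]
          simp
        have hg1 : s * g ∈ Cfsg.spGL m F := (Cfsg.spGL m F).mul_mem hs hg
        have hsfix : ∀ w ∈ W, s.1 *ᵥ (g.1 *ᵥ w) = g.1 *ᵥ w := by
          intro w hw
          apply fs
          · rw [sp_isom m g hg]
            exact haW w hw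
          · rw [sp_isom m g hg]
            exact hbW w hw
          · exact ha'W _ (hmemW' w hw)
          · exact hb'W _ (hmemW' w hw)
        have hg1W : ∀ x ∈ W1, (s * g).1 *ᵥ x ∈ A' := by
          intro x hx
          obtain ⟨w, hw, α, β, rfl⟩ := hW1mem x hx
          rw [Units.val_mul, ← Matrix.mulVec_mulVec]
          simp only [Matrix.mulVec_add, Matrix.mulVec_smul]
          rw [hsfix w hw, es1, es2]
          exact A'.add_mem (hgW w hw) (A'.add_mem (A'.smul_mem _ ha'A) (A'.smul_mem _ hb'A))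
        have hg1R : ∀ r, (∀ a ∈ A, sB m a r = 0) → (∀ a ∈ A', sB m a r = 0) →
            (s * g).1 *ᵥ r = r := by
          intro r hrA hrA'
          have h1 := hgR r hrA hrA'
          rw [Units.val_mul, ← Matrix.mulVec_mulVec, h1]
          apply fs
          · have h2 := sp_isom m g hg r a
            rw [h1] at h2
            rw [h2]
            exact sk m _ _ (hrA a haA)
          · have h2 := sp_isom m g hg r b
            rw [h1] at h2
            rw [h2]
            exact sk m _ _ (hrA b hbA)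
          · exact sk m _ _ (hrA' a' ha'A)
          · exact sk m _ _ (hrA' b' hb'A)
        exact ih (Module.finrank F A - Module.finrank F W1) (by omega) W1 (s * g) hW1A hW1nd
          hg1 hg1W hg1R (by omega)
  exact key (Module.finrank F A) ⊥ 1 bot_le
    (fun w hw hw0 => absurd ((Submodule.mem_bot F).1 hw) hw0) (Cfsg.spGL m F).one_mem
    (fun w hw => by
      rw [(Submodule.mem_bot F).1 hw, Matrix.mulVec_zero]
      exact A'.zero_mem)
    (fun r _ _ => by rw [Units.val_one, Matrix.one_mulVec]) (by rw [finrank_bot, zero_add])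

section cfg

variable {t : ℕ} {k : ℕ} {D : Fin t → Submodule F (Fin m ⊕ Fin m → F)}
  {M : Subgroup (GL (Fin m ⊕ Fin m) F)}

theorem dec (hC : Cfg m k D M) (x : Fin m ⊕ Fin m → F) :
    ∃ c : Fin t → (Fin m ⊕ Fin m → F), (∀ l, c l ∈ D l) ∧ ∑ l, c l = x := by
  have hx : x ∈ iSup D := by rw [hC.top]; exact Submodule.mem_top
  obtain ⟨f, hf, hfx⟩ := (Submodule.mem_iSup_iff_exists_finsupp D x).1 hx
  refine ⟨fun l => f l, hf, ?_⟩
  rw [← hfx, Finsupp.sum_fintype]
  intro i
  rfl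

theorem sum_l (hC : Cfg m k D M) (c : Fin t → (Fin m ⊕ Fin m → F)) (hc : ∀ l, c l ∈ D l)
    (S : Finset (Fin t)) (i : Fin t) (e : Fin m ⊕ Fin m → F) (he : e ∈ D i) :
    sB m (∑ l ∈ S, c l) e = if i ∈ S then sB m (c i) e else 0 := by
  rw [map_sum, LinearMap.sum_apply]
  split_ifs with hi
  · exact Finset.sum_eq_single_of_mem i hi (fun l _ hli => hC.orth l i hli (c l) (hc l) e he)
  · exact Finset.sum_eq_zero
      (fun l hl => hC.orth l i (by rintro rfl; exact hi hl) (c l) (hc l) e he)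

theorem sum_r (hC : Cfg m k D M) (c : Fin t → (Fin m ⊕ Fin m → F)) (hc : ∀ l, c l ∈ D l)
    (S : Finset (Fin t)) (i : Fin t) (e : Fin m ⊕ Fin m → F) (he : e ∈ D i) :
    sB m e (∑ l ∈ S, c l) = if i ∈ S then sB m e (c i) else 0 := by
  rw [map_sum]
  split_ifs with hi
  · exact Finset.sum_eq_single_of_mem i hi
      (fun l _ hli => hC.orth i l (fun hh => hli hh.symm) e he (c l) (hc l))
  · exact Finset.sum_eq_zero
      (fun l hl => hC.orth i l (by rintro rfl; exact hi hl) e he (c l) (hc l))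

theorem memD (hC : Cfg m k D M) (i : Fin t) (w : Fin m ⊕ Fin m → F) (hw : w ∈ D i) :
    memT m M w := by
  intro c
  obtain ⟨s, hs, hsx⟩ := tv_ex m w c
  refine ⟨s, hC.par ⟨?_, hs⟩, hsx⟩
  refine ⟨1, fun n => ?_⟩
  rw [Equiv.Perm.one_apply]
  apply map_eq m s (D n) (D n) _ rfl
  intro x hx
  rw [hsx]
  by_cases hn : n = i
  · subst hn
    exact (D n).add_mem hx ((D n).smul_mem _ hw)
  · rw [hC.orth n i hn x hx w hw, mul_zero, zero_smul, add_zero]
    exact hx

theorem notin (hC : Cfg m k D M) (i j : Fin t) (hij : i ≠ j) (a b : Fin m ⊕ Fin m → F)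
    (ha : a ∈ D i) (hb : b ∈ D j) (ha0 : a ≠ 0) (hb0 : b ≠ 0) (n : Fin t) : a + b ∉ D n := by
  intro hn
  obtain ⟨a', ha', hne⟩ := hC.nd i a ha ha0
  obtain ⟨b', hb', hne'⟩ := hC.nd j b hb hb0
  have e1 : n = i := by
    by_contra hni
    apply hne
    have h0 := hC.orth i n (fun hh => hni hh.symm) a' ha' (a + b) hn
    rw [map_add, hC.orth i j hij a' ha' b hb, add_zero] at h0
    exact h0
  have e2 : n = j := by
    by_contra hnj
    apply hne'
    have h0 := hC.orth j n (fun hh => hnj hh.symm) b' hb' (a + b) hn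
    rw [map_add, hC.orth j i (fun hh => hij hh.symm) b' hb' a ha, zero_add] at h0
    exact h0
  exact hij (e1.symm.trans e2)

theorem conn (hC : Cfg m k D M) (i : Fin t) (w w' : Fin m ⊕ Fin m → F) (hw : w ∈ D i)
    (hw' : w' ∈ D i) (hw0 : w ≠ 0) (hw0' : w' ≠ 0) :
    ∃ z ∈ D i, sB m w z ≠ 0 ∧ sB m w' z ≠ 0 := by
  obtain ⟨x, hx, hxa⟩ := hC.nd i w hw hw0
  obtain ⟨x', hx', hxa'⟩ := hC.nd i w' hw' hw0'
  by_cases h1 : sB m w' x = 0
  · by_cases h2 : sB m w x' = 0
    · refine ⟨x + x', (D i).add_mem hx hx', ?_, ?_⟩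
      · rw [map_add, h2, add_zero]
        exact sk' m _ _ hxa
      · rw [map_add, h1, zero_add]
        exact sk' m _ _ hxa'
    · exact ⟨x', hx', h2, sk' m _ _ hxa'⟩
  · exact ⟨x, hx, sk' m _ _ hxa, h1⟩

theorem ne_bot (hC : Cfg m k D M) (i : Fin t) : ∃ w ∈ D i, w ≠ 0 := by
  have h : D i ≠ ⊥ := by
    intro hb
    have h1 := hC.rk i
    have h2 := hC.kpos
    rw [hb, finrank_bot] at h1
    omega
  exact Submodule.exists_mem_ne_zero_of_ne_bot h

theorem D_inj (hC : Cfg m k D M) : Function.Injective D := by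
  intro i j hij
  by_contra hne
  obtain ⟨w, hw, hw0⟩ := ne_bot m hC i
  obtain ⟨x, hx, hxw⟩ := hC.nd i w hw hw0
  apply hxw
  have hw' : w ∈ D j := by rw [← hij]; exact hw
  exact hC.orth i j hne x hx w hw'

theorem stab_of_U (hC : Cfg m k D M) (hU : ∀ y, memT m M y → ∃ l, y ∈ D l)
    (h : GL (Fin m ⊕ Fin m) F) (hh : h ∈ M) : h ∈ Cfsg.Geo.decompositionStabilizer D := by
  classical
  choose w hw hw0 using ne_bot m hC
  have himg : ∀ i, ∀ x ∈ D i, ∃ l, h.1 *ᵥ x ∈ D l := fun i x hx =>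
    hU _ (memT_map m M hC.sp h hh x (memD m hC i x hx))
  choose σ hσ using fun i => himg i (w i) (hw i)
  have key : ∀ i, ∀ x ∈ D i, h.1 *ᵥ x ∈ D (σ i) := by
    intro i x hx
    by_cases hx0 : x = 0
    · rw [hx0, Matrix.mulVec_zero]
      exact (D _).zero_mem
    obtain ⟨z, hz, hz1, hz2⟩ := conn m hC i (w i) x (hw i) hx (hw0 i) hx0
    obtain ⟨l1, hl1⟩ := himg i z hz
    obtain ⟨l2, hl2⟩ := himg i x hx
    have e1 : σ i = l1 := by
      by_contra hne
      apply hz1
      rw [← sp_isom m h (hC.sp hh)]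
      exact hC.orth _ _ hne _ (hσ i) _ hl1
    have e2 : l2 = l1 := by
      by_contra hne
      apply hz2
      rw [← sp_isom m h (hC.sp hh)]
      exact hC.orth _ _ hne _ hl2 _ hl1
    rw [e1, ← e2]
    exact hl2
  have hmap : ∀ i, (D i).map (Matrix.toLin' h.1) = D (σ i) := fun i =>
    map_eq m h (D i) (D (σ i)) (key i) (by rw [hC.rk, hC.rk])
  have hσinj : Function.Injective σ := by
    intro i j hij
    apply D_inj m hC
    have e : (D i).map (Matrix.toLin' h.1) = (D j).map (Matrix.toLin' h.1) := by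
      rw [hmap, hmap, hij]
    exact Submodule.map_injective_of_injective (gl_inj m h) e
  exact ⟨Equiv.ofBijective σ (Finite.injective_iff_bijective.1 hσinj), fun i => by
    rw [Equiv.ofBijective_apply]; exact hmap i⟩

theorem exb [Fintype F] (hC : Cfg m k D M) (hex : ¬ (k = 2 ∧ Fintype.card F = 2)) (j : Fin t)
    (y : Fin m ⊕ Fin m → F) (hy : y ∈ D j) (hy0 : y ≠ 0) :
    ∃ b ∈ D j, b ≠ 0 ∧ b ≠ y ∧ sB m y b = 0 := by
  classical
  by_cases hq : Fintype.card F = 2
  · have hk2 : k ≠ 2 := fun hk => hex ⟨hk, hq⟩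
    obtain ⟨x, hx, hxy⟩ := hC.nd j y hy hy0
    have hyx : sB m y x ≠ 0 := sk' m _ _ hxy
    have hz : ∃ z ∈ D j, z ∉ Submodule.span F ({y, x} : Set (Fin m ⊕ Fin m → F)) := by
      by_contra hcon
      push Not at hcon
      have hle : D j ≤ Submodule.span F ({y, x} : Set (Fin m ⊕ Fin m → F)) := hcon
      have h1 : Module.finrank F (D j) ≤ 2 := by
        have h2 := Submodule.finrank_mono hle
        have h3 : Module.finrank F (Submodule.span F ({y, x} : Set (Fin m ⊕ Fin m → F))) ≤ 2 := by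
          have h5 := finrank_span_finset_le_card (R := F) ({y, x} : Finset (Fin m ⊕ Fin m → F))
          rw [Finset.coe_pair] at h5
          exact h5.trans Finset.card_le_two
        omega
      have h4 := hC.rk j
      have hk1 : k = 1 := by
        have := hC.kpos
        omega
      rw [hk1] at h4
      obtain ⟨c, hc⟩ := (finrank_eq_one_iff_of_nonzero' (⟨y, hy⟩ : D j)
        (fun h0 => hy0 (congrArg Subtype.val h0))).1 h4 ⟨x, hx⟩
      have hc' : c • y = x := congrArg Subtype.val hc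
      apply hyx
      rw [← hc', map_smul, smul_eq_mul, (sB_alt m) y, mul_zero]
    obtain ⟨z, hz, hzn⟩ := hz
    refine ⟨z - (sB m y z / sB m y x) • x, (D j).sub_mem hz ((D j).smul_mem _ hx), ?_, ?_, ?_⟩
    · intro h0
      apply hzn
      have e : z = (sB m y z / sB m y x) • x := sub_eq_zero.1 h0
      rw [e]
      exact Submodule.smul_mem _ _ (Submodule.subset_span (by simp))
    · intro h0
      apply hzn
      have e : z = y + (sB m y z / sB m y x) • x := eq_add_of_sub_eq h0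
      rw [e]
      exact Submodule.add_mem _ (Submodule.subset_span (by simp))
        (Submodule.smul_mem _ _ (Submodule.subset_span (by simp)))
    · rw [map_sub, map_smul, smul_eq_mul, div_mul_cancel₀ _ hyx, sub_self]
  · have hc : ∃ c : F, c ≠ 0 ∧ c ≠ 1 := by
      by_contra hcon
      push Not at hcon
      have h1 : (Finset.univ : Finset F) ⊆ {0, 1} := by
        intro c _
        by_cases hc0 : c = 0
        · simp [hc0]
        · simp [hcon c hc0]
      have h2 := Finset.card_le_card h1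
      have h3 : ({0, 1} : Finset F).card ≤ 2 := Finset.card_le_two
      have h4 : 1 < Fintype.card F := Fintype.one_lt_card
      rw [Finset.card_univ] at h2
      omega
    obtain ⟨c, hc0, hc1⟩ := hc
    refine ⟨c • y, (D j).smul_mem c hy, smul_ne_zero hc0 hy0, ?_, ?_⟩
    · intro h0
      have e : (c - 1) • y = 0 := by rw [sub_smul, one_smul, h0, sub_self]
      rcases smul_eq_zero.1 e with h | h
      · exact hc1 (sub_eq_zero.1 h)
      · exact hy0 h
    · rw [map_smul, smul_eq_mul, (sB_alt m) y, mul_zero]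

theorem reduce [Fintype F] (hC : Cfg m k D M) (hex : ¬ (k = 2 ∧ Fintype.card F = 2))
    (y : Fin m ⊕ Fin m → F) (hy : memT m M y) (i j : Fin t) (hij : i ≠ j)
    (yi yj r : Fin m ⊕ Fin m → F) (hyi : yi ∈ D i) (hyj : yj ∈ D j) (hyi0 : yi ≠ 0)
    (hyj0 : yj ≠ 0) (hri : ∀ n ∈ D i, sB m n r = 0) (hrj : ∀ n ∈ D j, sB m n r = 0)
    (hyy : y = yi + yj + r) :
    ∃ zi ∈ D i, ∃ zj ∈ D j, zi ≠ 0 ∧ zj ≠ 0 ∧ memT m M (zi + zj) := by
  obtain ⟨a', ha', hne⟩ := hC.nd i yi hyi hyi0
  have ha'0 : a' ≠ 0 := by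
    rintro rfl
    apply hne
    rw [map_zero, LinearMap.zero_apply]
  obtain ⟨b', hb', hb'0, hb'y, hb'o⟩ := exb m hC hex j yj hyj hyj0
  obtain ⟨gi, hgi, egi, fgi⟩ := trans2 m M (D i) (memD m hC i) (hC.nd i) yi a' hyi ha' hyi0 ha'0
  obtain ⟨gj, hgj, egj, fgj⟩ := trans2 m M (D j) (memD m hC j) (hC.nd j) yj b' hyj hb' hyj0 hb'0
  have e1 : gi.1 *ᵥ y = a' + yj + r := by
    rw [hyy, Matrix.mulVec_add, Matrix.mulVec_add, egi,
      fgi yj (fun n hn => hC.orth i j hij n hn yj hyj), fgi r hri]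
  have e2 : gj.1 *ᵥ (gi.1 *ᵥ y) = a' + b' + r := by
    rw [e1, Matrix.mulVec_add, Matrix.mulVec_add, egj,
      fgj a' (fun n hn => hC.orth j i (fun hh => hij hh.symm) n hn a' ha'), fgj r hrj]
  have hm : memT m M (a' + b' + r) := by
    rw [← e2]
    exact memT_map m M hC.sp gj hgj _ (memT_map m M hC.sp gi hgi y hy)
  have hm' := memT_smul m M (-1) _ hm
  have hB : sB m y ((-1 : F) • (a' + b' + r)) ≠ 0 := by
    have h1 : sB m yi b' = 0 := hC.orth i j hij yi hyi b' hb'
    have h2 : sB m yi r = 0 := hri yi hyi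
    have h3 : sB m yj a' = 0 := hC.orth j i (fun hh => hij hh.symm) yj hyj a' ha'
    have h4 : sB m yj r = 0 := hrj yj hyj
    have h5 : sB m r a' = 0 := sk m _ _ (hri a' ha')
    have h6 : sB m r b' = 0 := sk m _ _ (hrj b' hb')
    have h7 : sB m r r = 0 := (sB_alt m) r
    have h8 : sB m yi a' ≠ 0 := sk' m _ _ hne
    rw [hyy]
    simp only [map_add, map_smul, LinearMap.add_apply, smul_eq_mul, h1, h2, h3, h4, h5, h6, h7,
      hb'o, add_zero, zero_add]
    intro hc
    apply h8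
    linear_combination (-1 : F) * hc
  have hfin := memT_add_of_ne m M hC.sp _ _ hm' hy hB
  refine ⟨yi - a', (D i).sub_mem hyi ha', yj - b', (D j).sub_mem hyj hb', ?_, ?_, ?_⟩
  · intro h0
    apply hne
    rw [sub_eq_zero.1 h0]
    exact (sB_alt m) a'
  · intro h0
    exact hb'y (sub_eq_zero.1 h0).symm
  · have e : y + (-1 : F) • (a' + b' + r) = yi - a' + (yj - b') := by
      rw [hyy]
      module
    rw [← e]
    exact hfin

theorem pairU (hC : Cfg m k D M) (i j : Fin t) (hij : i ≠ j) (zi zj : Fin m ⊕ Fin m → F)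
    (hzi : zi ∈ D i) (hzj : zj ∈ D j) (hzi0 : zi ≠ 0) (hzj0 : zj ≠ 0)
    (hz : memT m M (zi + zj)) : ∀ a ∈ D i, ∀ b ∈ D j, memT m M (a + b) := by
  intro a ha b hb
  by_cases ha0 : a = 0
  · rw [ha0, zero_add]
    exact memD m hC j b hb
  by_cases hb0 : b = 0
  · rw [hb0, add_zero]
    exact memD m hC i a ha
  obtain ⟨gi, hgi, egi, fgi⟩ := trans2 m M (D i) (memD m hC i) (hC.nd i) zi a hzi ha hzi0 ha0
  obtain ⟨gj, hgj, egj, fgj⟩ := trans2 m M (D j) (memD m hC j) (hC.nd j) zj b hzj hb hzj0 hb0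
  have e1 : gi.1 *ᵥ (zi + zj) = a + zj := by
    rw [Matrix.mulVec_add, egi, fgi zj (fun n hn => hC.orth i j hij n hn zj hzj)]
  have e2 : gj.1 *ᵥ (a + zj) = a + b := by
    rw [Matrix.mulVec_add, egj,
      fgj a (fun n hn => hC.orth j i (fun hh => hij hh.symm) n hn a ha)]
  rw [← e2, ← e1]
  exact memT_map m M hC.sp gj hgj _ (memT_map m M hC.sp gi hgi _ hz)

theorem mem_of_perp (hC : Cfg m k D M) (i : Fin t) (y : Fin m ⊕ Fin m → F)
    (h : ∀ n, n ≠ i → ∀ e ∈ D n, sB m e y = 0) : y ∈ D i := by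
  classical
  obtain ⟨c, hc, hcy⟩ := dec m hC y
  have h0 : ∀ n, n ≠ i → c n = 0 := by
    intro n hn
    by_contra hcn
    obtain ⟨e, he, hne⟩ := hC.nd n (c n) (hc n) hcn
    apply hne
    have h1 := h n hn e he
    rw [← hcy, sum_r m hC c hc Finset.univ n e he, if_pos (Finset.mem_univ n)] at h1
    exact h1
  rw [← hcy, Finset.sum_eq_single i (fun n _ hn => h0 n hn)
    (fun hi => absurd (Finset.mem_univ i) hi)]
  exact hc i

theorem swap_ex (hC : Cfg m k D M) (l l' : Fin t) (hll : l ≠ l') :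
    ∃ s ∈ M, (∀ x ∈ D l, s.1 *ᵥ x ∈ D l') ∧ (∀ x ∈ D l', s.1 *ᵥ x ∈ D l) ∧
      ∀ n, n ≠ l → n ≠ l' → ∀ x ∈ D n, s.1 *ᵥ x = x := by
  classical
  obtain ⟨g, hg, hgA, hgR⟩ := sub_move m (D l) (D l') (hC.nd l) (hC.nd l')
    (by rw [hC.rk, hC.rk])
  have hfix : ∀ n, n ≠ l → n ≠ l' → ∀ x ∈ D n, g.1 *ᵥ x = x := by
    intro n hn hn' x hx
    exact hgR x (fun a ha => hC.orth l n (fun hh => hn hh.symm) a ha x hx)
      (fun a ha => hC.orth l' n (fun hh => hn' hh.symm) a ha x hx)
  have hmapl : (D l).map (Matrix.toLin' g.1) = D l' :=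
    map_eq m g (D l) (D l') hgA (by rw [hC.rk, hC.rk])
  have hback : ∀ x ∈ D l', g.1 *ᵥ x ∈ D l := by
    intro x hx
    apply mem_of_perp m hC l
    intro n hn e he
    by_cases hn' : n = l'
    · rw [hn', ← hmapl] at he
      obtain ⟨e0, he0, rfl⟩ := he
      rw [Matrix.toLin'_apply, sp_isom m g hg]
      exact hC.orth l l' hll e0 he0 x hx
    · rw [← hfix n hn hn' e he, sp_isom m g hg]
      exact hC.orth n l' hn' e he x hx
  refine ⟨g, hC.par ⟨?_, hg⟩, hgA, hback, hfix⟩
  refine ⟨Equiv.swap l l', fun n => ?_⟩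
  apply map_eq m g (D n) _ _ (by rw [hC.rk, hC.rk])
  intro x hx
  by_cases hn : n = l
  · rw [hn, Equiv.swap_apply_left]
    rw [hn] at hx
    exact hgA x hx
  by_cases hn' : n = l'
  · rw [hn', Equiv.swap_apply_right]
    rw [hn'] at hx
    exact hback x hx
  rw [Equiv.swap_apply_of_ne_of_ne hn hn', hfix n hn hn' x hx]
  exact hx

theorem pair_move (hC : Cfg m k D M) (i j b : Fin t) (hij : i ≠ j) (hbi : b ≠ i) (hbj : b ≠ j)
    (hg : ∀ x ∈ D i, ∀ y ∈ D j, memT m M (x + y)) :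
    ∀ x ∈ D i, ∀ y ∈ D b, memT m M (x + y) := by
  obtain ⟨s, hs, h1, h2, h3⟩ := swap_ex m hC j b (fun hh => hbj hh.symm)
  intro x hx y hy
  have hsx : s.1 *ᵥ x = x := h3 i hij (fun hh => hbi hh.symm) x hx
  have hsy : s.1 *ᵥ y ∈ D j := h2 y hy
  have h4 := memT_map m M hC.sp s⁻¹ (M.inv_mem hs) _ (hg x hx _ hsy)
  have hsx' : (s⁻¹).1 *ᵥ x = x := by
    have h5 := inv_act' m s x
    rw [hsx] at h5
    exact h5
  rw [Matrix.mulVec_add, inv_act', hsx'] at h4
  exact h4

theorem pair_all (hC : Cfg m k D M) (i j : Fin t) (hij : i ≠ j)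
    (hg : ∀ x ∈ D i, ∀ y ∈ D j, memT m M (x + y)) :
    ∀ p q : Fin t, p ≠ q → ∀ x ∈ D p, ∀ y ∈ D q, memT m M (x + y) := by
  have hsymm : ∀ a b : Fin t, (∀ x ∈ D a, ∀ y ∈ D b, memT m M (x + y)) →
      ∀ x ∈ D b, ∀ y ∈ D a, memT m M (x + y) := by
    intro a b h x hx y hy
    rw [add_comm]
    exact h y hy x hx
  have step1 : ∀ q, q ≠ i → ∀ x ∈ D i, ∀ y ∈ D q, memT m M (x + y) := by
    intro q hq
    by_cases hqj : q = j
    · rw [hqj]
      exact hg
    · exact pair_move m hC i j q hij hq hqj hg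
  intro p q hpq
  by_cases hp : p = i
  · rw [hp]
    exact step1 q (fun hh => hpq (hp.trans hh.symm))
  by_cases hq : q = i
  · rw [hq]
    exact hsymm _ _ (step1 p hp)
  have h1 := hsymm _ _ (step1 q hq)
  have h2 := pair_move m hC q i p hq hpq hp h1
  exact hsymm _ _ h2

theorem all_U (hC : Cfg m k D M)
    (hg : ∀ p q : Fin t, p ≠ q → ∀ x ∈ D p, ∀ y ∈ D q, memT m M (x + y)) :
    ∀ x, memT m M x := by
  classical
  have key : ∀ S : Finset (Fin t), ∀ c : Fin t → (Fin m ⊕ Fin m → F), (∀ l, c l ∈ D l) →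
      memT m M (∑ l ∈ S, c l) := by
    intro S
    induction S using Finset.induction_on with
    | empty =>
      intro c hc
      rw [Finset.sum_empty]
      have h2 := hC.two
      exact memD m hC ⟨0, by omega⟩ 0 (Submodule.zero_mem _)
    | insert n S hn ih =>
      intro c hc
      rw [Finset.sum_insert hn]
      by_cases hw0 : ∑ l ∈ S, c l = 0
      · rw [hw0, add_zero]
        exact memD m hC n _ (hc n)
      by_cases hd0 : c n = 0
      · rw [hd0, zero_add]
        exact ih c hc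
      obtain ⟨i, hi, e, he, hne⟩ : ∃ i ∈ S, ∃ e ∈ D i, sB m e (∑ l ∈ S, c l) ≠ 0 := by
        by_contra hcon
        push Not at hcon
        apply hw0
        apply Finset.sum_eq_zero
        intro l hl
        by_contra hcl
        obtain ⟨e, he, hne⟩ := hC.nd l (c l) (hc l) hcl
        apply hne
        have h5 := hcon l hl e he
        rw [sum_r m hC c hc S l e he, if_pos hl] at h5
        exact h5
      have hni : n ≠ i := by
        rintro rfl
        exact hn hi
      have hu : memT m M (∑ l ∈ S, c l + e) := by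
        have h1 := ih (fun l => c l + (if l = i then e else 0)) (fun l => by
          by_cases hl : l = i
          · rw [if_pos hl, hl]
            exact (D i).add_mem (hc i) he
          · rw [if_neg hl, add_zero]
            exact hc l)
        rw [Finset.sum_add_distrib, Finset.sum_ite_eq' S i (fun _ => e), if_pos hi] at h1
        exact h1
      have hv : memT m M (c n + (-1 : F) • e) :=
        hg n i hni (c n) (hc n) _ ((D i).smul_mem _ he)
      have hB : sB m (c n + (-1 : F) • e) (∑ l ∈ S, c l + e) ≠ 0 := by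
        have h1 : sB m (c n) (∑ l ∈ S, c l) = 0 := by
          rw [sum_r m hC c hc S n (c n) (hc n), if_neg hn]
        have h2 : sB m (c n) e = 0 := hC.orth n i hni _ (hc n) e he
        have h3 : sB m e e = 0 := (sB_alt m) e
        simp only [map_add, map_smul, LinearMap.add_apply, LinearMap.smul_apply, smul_eq_mul,
          h1, h2, h3, add_zero, zero_add, mul_zero]
        intro hc'
        apply hne
        linear_combination (-1 : F) * hc'
      have hfin := memT_add_of_ne m M hC.sp _ _ hu hv hB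
      have e1 : c n + (-1 : F) • e + (∑ l ∈ S, c l + e) = c n + ∑ l ∈ S, c l := by
        module
      rw [e1] at hfin
      exact hfin
  intro x
  obtain ⟨c, hc, hcx⟩ := dec m hC x
  rw [← hcx]
  exact key Finset.univ c hc

end cfg

theorem main [Fintype F] {t : ℕ} (k : ℕ) (D : Fin t → Submodule F (Fin m ⊕ Fin m → F))
    (hD : Cfsg.Geo.IsNondegenerateMDecomposition (Cfsg.sympForm m F) k D)
    (hex : ¬ (k = 2 ∧ Fintype.card F = 2)) :
    Cfsg.Geo.IsMaximalIn (Cfsg.spGL m F)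
      (Cfsg.Geo.decompositionStabilizer D ⊓ Cfsg.spGL m F) := by
  classical
  have mk : ∀ M : Subgroup (GL (Fin m ⊕ Fin m) F), M ≤ Cfsg.spGL m F →
      Cfsg.Geo.decompositionStabilizer D ⊓ Cfsg.spGL m F ≤ M → Cfg m k D M := by
    intro M h1 h2
    exact {
      orth := fun i j hij u hu v hv => by
        rw [sB_apply]
        exact hD.orthogonal i j hij u hu v hv
      nd := fun i w hw hw0 => by
        obtain ⟨⟨x, hx, hxw⟩, -⟩ := hD.nondegenerate i w hw hw0
        exact ⟨x, hx, by rw [sB_apply]; exact hxw⟩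
      rk := hD.decomp.finrank_eq
      kpos := hD.decomp.pos
      two := hD.decomp.two_le
      top := hD.decomp.iSup_eq_top
      sp := h1
      par := h2 }
  have ht2 := hD.decomp.two_le
  constructor
  · refine lt_of_le_of_ne inf_le_right ?_
    intro heq
    have hC := mk (Cfsg.spGL m F) le_rfl inf_le_right
    obtain ⟨i0, hi0⟩ : ∃ i0 : Fin t, i0.val = 0 := ⟨⟨0, by omega⟩, rfl⟩
    obtain ⟨i1, hi1⟩ : ∃ i1 : Fin t, i1.val = 1 := ⟨⟨1, by omega⟩, rfl⟩
    have h01 : i0 ≠ i1 := by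
      intro h
      rw [h] at hi0
      omega
    obtain ⟨a, ha, ha0⟩ := ne_bot m hC i0
    obtain ⟨b, hb, hb0⟩ := ne_bot m hC i1
    have hab : a + b ≠ 0 := by
      intro h0
      exact notin m hC i0 i1 h01 a b ha hb ha0 hb0 i0 (by rw [h0]; exact (D i0).zero_mem)
    obtain ⟨g, hg, eg, -⟩ := trans2 m (Cfsg.spGL m F) ⊤ (fun n _ c => tv_ex m n c)
      (fun n _ hn0 => by
        by_contra hcon
        push Not at hcon
        exact hn0 ((sB_nondeg (F := F) m).2 n (fun x => hcon x Submodule.mem_top)))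
      a (a + b) Submodule.mem_top Submodule.mem_top ha0 hab
    rw [← heq] at hg
    obtain ⟨σ, hσ⟩ := hg.1
    have h5 : g.1 *ᵥ a ∈ D (σ i0) := by
      rw [← hσ i0, ← Matrix.toLin'_apply]
      exact Submodule.mem_map_of_mem ha
    rw [eg] at h5
    exact notin m hC i0 i1 h01 a b ha hb ha0 hb0 _ h5
  · intro M hPM hMsp
    by_cases hMP : M = Cfsg.Geo.decompositionStabilizer D ⊓ Cfsg.spGL m F
    · exact Or.inl hMP
    right
    have hC := mk M hMsp hPM
    apply le_antisymm hMsp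
    apply gen_of_all m M hMsp
    obtain ⟨y, hy, hyD⟩ : ∃ y, memT m M y ∧ ∀ l, y ∉ D l := by
      by_contra hcon
      push Not at hcon
      apply hMP
      refine le_antisymm ?_ hPM
      intro h hh
      exact ⟨stab_of_U m hC hcon h hh, hMsp hh⟩
    obtain ⟨c, hc, hcy⟩ := dec m hC y
    obtain ⟨i, hi⟩ : ∃ i, c i ≠ 0 := by
      by_contra hcon
      push Not at hcon
      apply hyD ⟨0, by omega⟩
      rw [← hcy, Finset.sum_eq_zero (fun l _ => hcon l)]
      exact Submodule.zero_mem _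
    obtain ⟨j, hji, hj⟩ : ∃ j, j ≠ i ∧ c j ≠ 0 := by
      by_contra hcon
      push Not at hcon
      apply hyD i
      rw [← hcy, Finset.sum_eq_single i (fun l _ hl => hcon l hl)
        (fun hi' => absurd (Finset.mem_univ i) hi')]
      exact hc i
    have hij : i ≠ j := fun hh => hji hh.symm
    obtain ⟨zi, hzi, zj, hzj, hzi0, hzj0, hz⟩ := reduce m hC hex y hy i j hij (c i) (c j)
      (y - c i - c j) (hc i) (hc j) hi hj
      (fun n hn => by
        rw [map_sub, map_sub, ← hcy, sum_r m hC c hc Finset.univ i n hn,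
          if_pos (Finset.mem_univ i), hC.orth i j hij n hn (c j) (hc j)]
        simp)
      (fun n hn => by
        rw [map_sub, map_sub, ← hcy, sum_r m hC c hc Finset.univ j n hn,
          if_pos (Finset.mem_univ j), hC.orth j i hji n hn (c i) (hc i)]
        simp)
      (by abel)
    exact all_U m hC (pair_all m hC i j hij (pairU m hC i j hij zi zj hzi hzj hzi0 hzj0 hz))

end Cfsg.Agent.Helper18.SpDec
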