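import Mathlib
import Cfsg.Prelude.Def_GeometricClasses
import Cfsg.Prelude.Def_ClassicalGeometry
import Cfsg.Agent.Helper5.SympGen
import Cfsg.Agent.S0768
import Cfsg.Agent.Helper18.SpPar
import Cfsg.Agent.Helper18.SpNd
import Cfsg.Agent.Helper18.SpDec

set_option autoImplicit false

namespace Cfsg.Agent.Helper18.SpLag

open Matrix

open scoped MatrixGroups

open Cfsg.Agent.Helper5

open Cfsg.Agent.Helper18.SpPar

open Cfsg.Agent.Helper18.SpNd

open Cfsg.Agent.Helper18.SpDec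

variable {F : Type*} [Field F] (m : ℕ)

/-- All Eichler maps with the two directions `a`, `b` lie in `M`. -/
def memE (M : Subgroup (GL (Fin m ⊕ Fin m) F)) (a b : Fin m ⊕ Fin m → F) : Prop :=
  ∀ c : F, ∃ A ∈ M, ∀ t : Fin m ⊕ Fin m → F,
    A.1 *ᵥ t = t + (c * sB m t a) • b + (c * sB m t b) • a

theorem memE_symm (M : Subgroup (GL (Fin m ⊕ Fin m) F)) (a b : Fin m ⊕ Fin m → F)
    (h : memE m M a b) : memE m M b a := by
  intro c
  obtain ⟨A, hA, hAt⟩ := h c
  exact ⟨A, hA, fun t => by rw [hAt, add_right_comm]⟩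

theorem memE_map (M : Subgroup (GL (Fin m ⊕ Fin m) F)) (hM : M ≤ Cfsg.spGL m F)
    (g : GL (Fin m ⊕ Fin m) F) (hg : g ∈ M) (a b : Fin m ⊕ Fin m → F) (h : memE m M a b) :
    memE m M (g.1 *ᵥ a) (g.1 *ᵥ b) := by
  intro c
  obtain ⟨A, hA, hAt⟩ := h c
  refine ⟨g * A * g⁻¹, M.mul_mem (M.mul_mem hg hA) (M.inv_mem hg), fun t => ?_⟩
  have e1 : ∀ w, sB m ((g⁻¹).1 *ᵥ t) w = sB m t (g.1 *ᵥ w) := by
    intro w
    have e := sp_isom m g (hM hg) ((g⁻¹).1 *ᵥ t) w
    rw [inv_act] at e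
    exact e.symm
  rw [Units.val_mul, Units.val_mul, ← Matrix.mulVec_mulVec, ← Matrix.mulVec_mulVec, hAt,
    Matrix.mulVec_add, Matrix.mulVec_add, Matrix.mulVec_smul, Matrix.mulVec_smul, inv_act, e1, e1]

theorem memE_add (M : Subgroup (GL (Fin m ⊕ Fin m) F)) (a b b' : Fin m ⊕ Fin m → F)
    (hab : sB m a b = 0) (hab' : sB m a b' = 0) (hbb : sB m b' b = 0)
    (h : memE m M a b) (h' : memE m M a b') : memE m M a (b + b') := by
  intro c
  obtain ⟨A₁, hA₁, h1⟩ := h c
  obtain ⟨A₂, hA₂, h2⟩ := h' c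
  refine ⟨A₁ * A₂, M.mul_mem hA₁ hA₂, fun t => ?_⟩
  have haa : sB m a a = 0 := (sB_alt m) a
  have hb'a : sB m b' a = 0 := sk m _ _ hab'
  rw [Units.val_mul, ← Matrix.mulVec_mulVec, h2, h1]
  simp only [map_add, map_smul, LinearMap.add_apply, LinearMap.smul_apply, smul_eq_mul, haa,
    hb'a, hbb, hab, hab', mul_zero, add_zero]
  module

theorem memE_K1 (M : Subgroup (GL (Fin m ⊕ Fin m) F)) (h2 : (2 : F) ≠ 0)
    (a b b' : Fin m ⊕ Fin m → F) (hab : sB m a b = 0) (hab' : sB m a b' = 0)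
    (hbb : sB m b' b ≠ 0) (h : memE m M a b) (h' : memE m M a b') : memT m M a := by
  intro γ
  obtain ⟨c, hc⟩ : ∃ c : F, 2 * c * sB m b' b = γ := ⟨γ / (2 * sB m b' b), by field_simp⟩
  obtain ⟨A₁, hA₁, h1⟩ := h c
  obtain ⟨A₂, hA₂, h2'⟩ := h' 1
  obtain ⟨T, hT, hTt⟩ := tv_ex m a γ
  have haa : sB m a a = 0 := (sB_alt m) a
  have hba : sB m b a = 0 := sk m _ _ hab
  have hb'a : sB m b' a = 0 := sk m _ _ hab'
  have hbb' : sB m b b' = - sB m b' b := ((sB_alt m).neg_eq b' b).symm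
  have key : A₁ * A₂ = T * (A₂ * A₁) := by
    apply gl_ext m
    intro t
    simp only [Units.val_mul, ← Matrix.mulVec_mulVec, h1, h2', hTt, map_add, map_smul,
      LinearMap.add_apply, LinearMap.smul_apply, smul_eq_mul, haa, hba, hb'a, hab, hab', hbb',
      mul_zero, add_zero, one_mul]
    rw [← hc]
    module
  have hT' : T = A₁ * A₂ * (A₂ * A₁)⁻¹ := by
    rw [key]
    group
  refine ⟨T, ?_, hTt⟩
  rw [hT']
  exact M.mul_mem (M.mul_mem hA₁ hA₂) (M.inv_mem (M.mul_mem hA₂ hA₁))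

theorem memE_self (M : Subgroup (GL (Fin m ⊕ Fin m) F)) (h2 : (2 : F) ≠ 0)
    (a : Fin m ⊕ Fin m → F) (lam : F) (hl : lam ≠ 0) (h : memE m M a (lam • a)) :
    memT m M a := by
  intro γ
  obtain ⟨A, hA, hAt⟩ := h (γ / (2 * lam))
  refine ⟨A, hA, fun t => ?_⟩
  rw [hAt]
  simp only [map_smul, smul_eq_mul]
  have e : γ / (2 * lam) * sB m t a * lam + γ / (2 * lam) * (lam * sB m t a) = γ * sB m t a := by
    field_simp
    ring
  rw [smul_smul, add_assoc, ← add_smul, e]

/-- The working configuration: two complementary totally isotropic subspaces, and a subgroup of the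
symplectic group containing the Eichler maps adapted to them. -/
structure Lag (X Y : Submodule F (Fin m ⊕ Fin m → F))
    (M : Subgroup (GL (Fin m ⊕ Fin m) F)) : Prop where
  isoX : ∀ u ∈ X, ∀ v ∈ X, sB m u v = 0
  isoY : ∀ u ∈ Y, ∀ v ∈ Y, sB m u v = 0
  span : ∀ t : Fin m ⊕ Fin m → F, ∃ x ∈ X, ∃ y ∈ Y, t = x + y
  rkX : 4 ≤ Module.finrank F X
  rkY : 4 ≤ Module.finrank F Y
  sp : M ≤ Cfsg.spGL m F
  supE : ∀ u ∈ X, ∀ v ∈ Y, sB m u v = 0 → memE m M u v
  two : (2 : F) ≠ 0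

section lag

variable {X Y : Submodule F (Fin m ⊕ Fin m → F)} {M : Subgroup (GL (Fin m ⊕ Fin m) F)}

theorem lag_symm (hL : Lag m X Y M) : Lag m Y X M where
  isoX := hL.isoY
  isoY := hL.isoX
  span := fun t => by
    obtain ⟨x, hx, y, hy, h⟩ := hL.span t
    exact ⟨y, hy, x, hx, by rw [h, add_comm]⟩
  rkX := hL.rkY
  rkY := hL.rkX
  sp := hL.sp
  supE := fun u hu v hv huv => memE_symm m M _ _ (hL.supE v hv u hu (sk m _ _ huv))
  two := hL.two

theorem perpXY (hL : Lag m X Y M) (z : Fin m ⊕ Fin m → F) (hX : ∀ x ∈ X, sB m x z = 0)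
    (hY : ∀ y ∈ Y, sB m y z = 0) : z = 0 := by
  apply (sB_nondeg (F := F) m).2 z
  intro v
  obtain ⟨x, hx, y, hy, h⟩ := hL.span v
  rw [h, map_add, LinearMap.add_apply, hX x hx, hY y hy, add_zero]

theorem disj (hL : Lag m X Y M) (z : Fin m ⊕ Fin m → F) (hzX : z ∈ X) (hzY : z ∈ Y) : z = 0 :=
  perpXY m hL z (fun x hx => hL.isoX x hx z hzX) (fun y hy => hL.isoY y hy z hzY)

theorem exY (hL : Lag m X Y M) (a : Fin m ⊕ Fin m → F) (haX : a ∈ X) (ha0 : a ≠ 0) :
    ∃ y ∈ Y, sB m y a ≠ 0 := by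
  by_contra hcon
  push Not at hcon
  exact ha0 (perpXY m hL a (fun x hx => hL.isoX x hx a haX) hcon)

theorem prop (hL : Lag m X Y M) (a z : Fin m ⊕ Fin m → F) (haX : a ∈ X) (ha0 : a ≠ 0)
    (hzX : z ∈ X) (h : ∀ y ∈ Y, sB m y a = 0 → sB m y z = 0) : ∃ lam : F, z = lam • a := by
  obtain ⟨y1, hy1, hy1a⟩ := exY m hL a haX ha0
  refine ⟨sB m y1 z / sB m y1 a, ?_⟩
  rw [← sub_eq_zero]
  apply perpXY m hL
  · intro x hx
    rw [map_sub, map_smul, hL.isoX x hx z hzX, hL.isoX x hx a haX, smul_zero, sub_zero]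
  · intro y hy
    have h1 := h (y - (sB m y a / sB m y1 a) • y1) (Y.sub_mem hy (Y.smul_mem _ hy1)) (by
      rw [map_sub, LinearMap.sub_apply, map_smul, LinearMap.smul_apply, smul_eq_mul,
        div_mul_cancel₀ _ hy1a, sub_self])
    rw [map_sub, LinearMap.sub_apply, map_smul, LinearMap.smul_apply, smul_eq_mul] at h1
    rw [map_sub, map_smul, smul_eq_mul]
    have e : sB m y1 z / sB m y1 a * sB m y a = sB m y a / sB m y1 a * sB m y1 z := by ring
    rw [e]
    exact h1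

theorem lemA (hL : Lag m X Y M) (a b' : Fin m ⊕ Fin m → F) (haX : a ∈ X) (ha0 : a ≠ 0)
    (hab : sB m a b' = 0) (hE : memE m M a b') (hbY : b' ∉ Y) : memT m M a := by
  by_cases hcase : ∃ y ∈ Y, sB m y a = 0 ∧ sB m y b' ≠ 0
  · obtain ⟨y, hy, hya, hyb⟩ := hcase
    exact memE_K1 m M hL.two a y b' (sk m _ _ hya) hab (sk' m _ _ hyb)
      (hL.supE a haX y hy (sk m _ _ hya)) hE
  · push Not at hcase
    obtain ⟨p, hp, r, hr, hpr⟩ := hL.span b'
    have hp1 : ∀ y ∈ Y, sB m y a = 0 → sB m y p = 0 := by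
      intro y hy hya
      have h1 := hcase y hy hya
      rw [hpr, map_add, hL.isoY y hy r hr, add_zero] at h1
      exact h1
    obtain ⟨lam, hlam⟩ := prop m hL a p haX ha0 hp hp1
    have hl0 : lam ≠ 0 := by
      rintro rfl
      apply hbY
      rw [hpr, hlam, zero_smul, zero_add]
      exact hr
    have har : sB m a r = 0 := by
      have h1 := hab
      rw [hpr, hlam, map_add, map_smul, (sB_alt m) a, smul_zero, zero_add] at h1
      exact h1
    have hEr : memE m M a (-r) :=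
      hL.supE a haX (-r) (Y.neg_mem hr) (by rw [map_neg, har, neg_zero])
    have hsum := memE_add m M a b' (-r) hab (by rw [map_neg, har, neg_zero]) (by
      rw [hpr, hlam, map_neg, LinearMap.neg_apply, map_add, map_smul, (sB_alt m) r,
        sk m _ _ har, smul_zero, add_zero, neg_zero]) hE hEr
    have e : b' + -r = lam • a := by
      rw [hpr, hlam]
      abel
    rw [e] at hsum
    exact memE_self m M hL.two a lam hl0 hsum

theorem lemB (hL : Lag m X Y M) (g : GL (Fin m ⊕ Fin m) F) (hg : g ∈ M)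
    (a y : Fin m ⊕ Fin m → F) (haX : a ∈ X) (ha0 : a ≠ 0) (hga : g.1 *ᵥ a = a) (hy : y ∈ Y)
    (hay : sB m a y = 0) (hgy : g.1 *ᵥ y ∉ Y) : memT m M a := by
  have h1 := memE_map m M hL.sp g hg a y (hL.supE a haX y hy hay)
  rw [hga] at h1
  refine lemA m hL a _ haX ha0 ?_ h1 hgy
  have h2 := sp_isom m g (hL.sp hg) a y
  rw [hga] at h2
  rw [h2]
  exact hay

theorem ker3 (X : Submodule F (Fin m ⊕ Fin m → F)) (hX : 4 ≤ Module.finrank F X)
    (f₁ f₂ f₃ : (Fin m ⊕ Fin m → F) →ₗ[F] F) :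
    ∃ a ∈ X, a ≠ 0 ∧ f₁ a = 0 ∧ f₂ a = 0 ∧ f₃ a = 0 := by
  obtain ⟨L, hL⟩ : ∃ L : X →ₗ[F] (F × F) × F, ∀ a : X, L a = ((f₁ a.1, f₂ a.1), f₃ a.1) :=
    ⟨((f₁.prod f₂).prod f₃).comp X.subtype, fun a => rfl⟩
  have h : Module.finrank F ((F × F) × F) < Module.finrank F X := by
    rw [Module.finrank_prod, Module.finrank_prod, Module.finrank_self]
    omega
  obtain ⟨a, ha, ha0⟩ := Submodule.exists_mem_ne_zero_of_ne_bot
    (LinearMap.ker_ne_bot_of_finrank_lt (f := L) h)
  have h1 : L a = 0 := LinearMap.mem_ker.1 ha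
  rw [hL] at h1
  refine ⟨a.1, a.2, fun hc => ha0 (Subtype.ext hc), ?_, ?_, ?_⟩
  · exact congrArg (fun z : (F × F) × F => z.1.1) h1
  · exact congrArg (fun z : (F × F) × F => z.1.2) h1
  · exact congrArg (fun z : (F × F) × F => z.2) h1

theorem claim1 (hL : Lag m X Y M) (hno : ∀ a ∈ X, a ≠ 0 → ¬ memT m M a)
    (a' b' : Fin m ⊕ Fin m → F) (hE : memE m M a' b') :
    ∀ y ∈ Y, sB m y a' • b' + sB m y b' • a' ∈ Y := by
  intro y hy
  obtain ⟨A, hA, hAt⟩ := hE 1
  by_contra hcon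
  have hAy : A.1 *ᵥ y ∉ Y := by
    intro h1
    apply hcon
    rw [hAt, one_mul, one_mul, add_assoc] at h1
    have h2 := Y.sub_mem h1 hy
    rwa [add_sub_cancel_left] at h2
  obtain ⟨a, haX, ha0, h1, h2, h3⟩ := ker3 m X hL.rkX ((sB m).flip a') ((sB m).flip b')
    ((sB m).flip y)
  have h1' : sB m a a' = 0 := h1
  have h2' : sB m a b' = 0 := h2
  have h3' : sB m a y = 0 := h3
  have hAa : A.1 *ᵥ a = a := by
    rw [hAt, h1', h2', mul_zero, zero_smul, zero_smul, add_zero, add_zero]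
  exact hno a haX ha0 (lemB m hL A hA a y haX ha0 hAa hy h3' hAy)

theorem claim3a (hL : Lag m X Y M) (hnoX : ∀ a ∈ X, a ≠ 0 → ¬ memT m M a)
    (hnoY : ∀ a ∈ Y, a ≠ 0 → ¬ memT m M a) (h : GL (Fin m ⊕ Fin m) F) (hh : h ∈ M)
    (x1 : Fin m ⊕ Fin m → F) (hx1 : x1 ∈ X) : h.1 *ᵥ x1 ∈ X ∨ h.1 *ᵥ x1 ∈ Y := by
  obtain ⟨p, hp, r, hr, hpr⟩ := hL.span (h.1 *ᵥ x1)
  by_cases hp0 : p = 0
  · right
    rw [hpr, hp0, zero_add]
    exact hr
  by_cases hr0 : r = 0
  · left
    rw [hpr, hr0, add_zero]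
    exact hp
  exfalso
  obtain ⟨tY, htY, htYp⟩ := exY m hL p hp hp0
  obtain ⟨tX, htX, htXr⟩ := exY m (lag_symm m hL) r hr hr0
  obtain ⟨y1, hy1, hy10, k1, k2, k3⟩ := ker3 m Y hL.rkY ((sB m).flip x1)
    (((sB m).flip tY).comp (Matrix.toLin' h.1)) (((sB m).flip tX).comp (Matrix.toLin' h.1))
  have k1' : sB m y1 x1 = 0 := k1
  have k2' : sB m (h.1 *ᵥ y1) tY = 0 := by
    have h5 := k2
    rw [LinearMap.comp_apply, Matrix.toLin'_apply] at h5
    exact h5
  have k3' : sB m (h.1 *ᵥ y1) tX = 0 := by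
    have h5 := k3
    rw [LinearMap.comp_apply, Matrix.toLin'_apply] at h5
    exact h5
  have hE : memE m M (h.1 *ᵥ x1) (h.1 *ᵥ y1) :=
    memE_map m M hL.sp h hh x1 y1 (hL.supE x1 hx1 y1 hy1 (sk m _ _ k1'))
  have c1 := claim1 m hL hnoX _ _ hE tY htY
  have c2 := claim1 m (lag_symm m hL) hnoY _ _ hE tX htX
  rw [sk m _ _ k2', zero_smul, add_zero] at c1
  rw [sk m _ _ k3', zero_smul, add_zero] at c2
  have e1 : sB m tY (h.1 *ᵥ x1) ≠ 0 := by
    rw [hpr, map_add, hL.isoY tY htY r hr, add_zero]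
    exact htYp
  have e2 : sB m tX (h.1 *ᵥ x1) ≠ 0 := by
    rw [hpr, map_add, hL.isoX tX htX p hp, zero_add]
    exact htXr
  have b1 : h.1 *ᵥ y1 ∈ Y := by
    have h6 := Y.smul_mem (sB m tY (h.1 *ᵥ x1))⁻¹ c1
    rwa [smul_smul, inv_mul_cancel₀ e1, one_smul] at h6
  have b2 : h.1 *ᵥ y1 ∈ X := by
    have h6 := X.smul_mem (sB m tX (h.1 *ᵥ x1))⁻¹ c2
    rwa [smul_smul, inv_mul_cancel₀ e2, one_smul] at h6
  have b0 := disj m hL _ b2 b1
  apply hy10
  have h7 := inv_act' m h y1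
  rw [b0, Matrix.mulVec_zero] at h7
  exact h7.symm

theorem sub_union (h : GL (Fin m ⊕ Fin m) F) (X X1 X2 : Submodule F (Fin m ⊕ Fin m → F))
    (hu : ∀ x ∈ X, h.1 *ᵥ x ∈ X1 ∨ h.1 *ᵥ x ∈ X2) :
    (∀ x ∈ X, h.1 *ᵥ x ∈ X1) ∨ (∀ x ∈ X, h.1 *ᵥ x ∈ X2) := by
  by_contra hcon
  push Not at hcon
  obtain ⟨⟨x1, hx1, h1⟩, ⟨x2, hx2, h2⟩⟩ := hcon
  have h1' : h.1 *ᵥ x1 ∈ X2 := (hu x1 hx1).resolve_left h1
  have h2' : h.1 *ᵥ x2 ∈ X1 := (hu x2 hx2).resolve_right h2
  rcases hu (x1 + x2) (X.add_mem hx1 hx2) with h3 | h3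
  · rw [Matrix.mulVec_add] at h3
    apply h1
    have h4 := X1.sub_mem h3 h2'
    rwa [add_sub_cancel_right] at h4
  · rw [Matrix.mulVec_add] at h3
    apply h2
    have h4 := X2.sub_mem h3 h1'
    rwa [add_sub_cancel_left] at h4

theorem swap_ex (hL : Lag m X Y M) :
    ∃ g ∈ Cfsg.spGL m F, (∀ x ∈ X, g.1 *ᵥ x ∈ Y) ∧ (∀ y ∈ Y, g.1 *ᵥ y ∈ X) := by
  have key : ∀ d : ℕ, ∀ (WX WY : Submodule F (Fin m ⊕ Fin m → F)) (g : GL (Fin m ⊕ Fin m) F),
      WX ≤ X → WY ≤ Y →
      (∀ w ∈ WX ⊔ WY, w ≠ 0 → ∃ x ∈ WX ⊔ WY, sB m x w ≠ 0) →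
      g ∈ Cfsg.spGL m F →
      (∀ x ∈ WX, g.1 *ᵥ x ∈ Y) → (∀ y ∈ WY, g.1 *ᵥ y ∈ X) →
      (∀ r, (∀ w ∈ WX ⊔ WY, sB m w r = 0) → g.1 *ᵥ r = r) →
      Module.finrank F (WX ⊔ WY : Submodule F (Fin m ⊕ Fin m → F)) + d =
        Module.finrank F (Fin m ⊕ Fin m → F) →
      ∃ g ∈ Cfsg.spGL m F, (∀ x ∈ X, g.1 *ᵥ x ∈ Y) ∧ (∀ y ∈ Y, g.1 *ᵥ y ∈ X) := by
    intro d
    induction d using Nat.strong_induction_on with
    | _ d ih =>
      intro WX WY g hWX hWY hW hg hgX hgY hgR hd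
      obtain ⟨W, hWdef⟩ : ∃ W, W = WX ⊔ WY := ⟨_, rfl⟩
      rw [← hWdef] at hW hgR hd
      have hWmem : ∀ w ∈ W, ∃ x ∈ WX, ∃ y ∈ WY, w = x + y := by
        intro w hw
        rw [hWdef] at hw
        obtain ⟨x, hx, y, hy, hxy⟩ := Submodule.mem_sup.1 hw
        exact ⟨x, hx, y, hy, hxy.symm⟩
      have hWXW : WX ≤ W := by
        rw [hWdef]
        exact le_sup_left
      have hWYW : WY ≤ W := by
        rw [hWdef]
        exact le_sup_right
      by_cases hWtop : W = ⊤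
      · refine ⟨g, hg, fun x hx => ?_, fun y hy => ?_⟩
        · obtain ⟨xw, hxw, yw, hyw, hxy⟩ := hWmem x (by rw [hWtop]; exact Submodule.mem_top)
          have h0 : yw = 0 := by
            apply disj m hL yw _ (hWY hyw)
            have e : yw = x - xw := by
              rw [hxy]
              abel
            rw [e]
            exact X.sub_mem hx (hWX hxw)
          rw [hxy, h0, add_zero]
          exact hgX xw hxw
        · obtain ⟨xw, hxw, yw, hyw, hxy⟩ := hWmem y (by rw [hWtop]; exact Submodule.mem_top)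
          have h0 : xw = 0 := by
            apply disj m hL xw (hWX hxw)
            have e : xw = y - yw := by
              rw [hxy]
              abel
            rw [e]
            exact Y.sub_mem hy (hWY hyw)
          rw [hxy, h0, zero_add]
          exact hgY yw hyw
      · have hperp : ∀ p, (∀ w ∈ W, sB m w p = 0) → ∀ pX ∈ X, ∀ pY ∈ Y, p = pX + pY →
            (∀ w ∈ W, sB m w pX = 0) ∧ (∀ w ∈ W, sB m w pY = 0) := by
          intro p hp pX hpX pY hpY hpp
          have h1 : ∀ w ∈ W, sB m w pX = 0 := by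
            intro w hw
            obtain ⟨x, hx, y, hy, hwxy⟩ := hWmem w hw
            have h2 := hp y (hWYW hy)
            rw [hpp, map_add, hL.isoY y (hWY hy) pY hpY, add_zero] at h2
            rw [hwxy, map_add, LinearMap.add_apply, hL.isoX x (hWX hx) pX hpX, h2, add_zero]
          refine ⟨h1, fun w hw => ?_⟩
          have h3 := hp w hw
          rw [hpp, map_add, h1 w hw, zero_add] at h3
          exact h3
        have partner : ∀ q, q ≠ 0 → (∀ w ∈ W, sB m w q = 0) →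
            ∃ vX ∈ X, ∃ vY ∈ Y, (∀ w ∈ W, sB m w vX = 0) ∧ (∀ w ∈ W, sB m w vY = 0) ∧
              sB m (vX + vY) q ≠ 0 := by
          intro q hq0 hqW
          obtain ⟨v0, hv0⟩ : ∃ v0, sB m v0 q ≠ 0 := by
            by_contra hcon
            push Not at hcon
            exact hq0 ((sB_nondeg (F := F) m).2 q hcon)
          obtain ⟨w', hw', p', hp', hv0p⟩ := split m W hW v0
          obtain ⟨vX, hvX, vY, hvY, hpp⟩ := hL.span p'
          obtain ⟨h1, h2⟩ := hperp p' hp' vX hvX vY hvY hpp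
          refine ⟨vX, hvX, vY, hvY, h1, h2, ?_⟩
          rw [← hpp]
          rw [hv0p, map_add, LinearMap.add_apply, hqW w' hw', zero_add] at hv0
          exact hv0
        obtain ⟨t, -, htW⟩ := SetLike.exists_of_lt (lt_top_iff_ne_top.2 hWtop)
        obtain ⟨w, hw, p, hp, htp⟩ := split m W hW t
        have hp0 : p ≠ 0 := by
          rintro rfl
          apply htW
          rw [htp, add_zero]
          exact hw
        obtain ⟨pX, hpX, pY, hpY, hpp⟩ := hL.span p
        obtain ⟨hpXW, hpYW⟩ := hperp p hp pX hpX pY hpY hpp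
        obtain ⟨x0, hx0, y0, hy0, hx0W, hy0W, hxy⟩ : ∃ x0 ∈ X, ∃ y0 ∈ Y,
            (∀ w ∈ W, sB m w x0 = 0) ∧ (∀ w ∈ W, sB m w y0 = 0) ∧ sB m x0 y0 ≠ 0 := by
          by_cases hpX0 : pX = 0
          · have hpY0 : pY ≠ 0 := by
              intro h0
              apply hp0
              rw [hpp, hpX0, h0, add_zero]
            obtain ⟨vX, hvX, vY, hvY, h1, h2, h3⟩ := partner pY hpY0 hpYW
            refine ⟨vX, hvX, pY, hpY, h1, hpYW, ?_⟩
            rw [map_add, LinearMap.add_apply, hL.isoY vY hvY pY hpY, add_zero] at h3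
            exact h3
          · obtain ⟨vX, hvX, vY, hvY, h1, h2, h3⟩ := partner pX hpX0 hpXW
            refine ⟨pX, hpX, vY, hvY, hpXW, h2, ?_⟩
            rw [map_add, LinearMap.add_apply, hL.isoX vX hvX pX hpX, zero_add] at h3
            exact sk' m _ _ h3
        have hx00 : x0 ≠ 0 := by
          rintro rfl
          apply hxy
          rw [map_zero, LinearMap.zero_apply]
        have hβ : sB m x0 y0 = sB m y0 (-x0) := by
          rw [map_neg, (sB_alt m).neg_eq]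
        obtain ⟨s, hs, es1, es2, fs⟩ := hyp_move m x0 y0 y0 (-x0) hβ hxy
        have hsfix : ∀ r, sB m r x0 = 0 → sB m r y0 = 0 → s.1 *ᵥ r = r := by
          intro r h1 h2
          exact fs r h1 h2 h2 (by rw [map_neg, h1, neg_zero])
        have hgx0 : g.1 *ᵥ x0 = x0 := hgR x0 hx0W
        have hgy0 : g.1 *ᵥ y0 = y0 := hgR y0 hy0W
        obtain ⟨WX1, hWX1⟩ : ∃ WX1, WX1 = WX ⊔ Submodule.span F ({x0} : Set (Fin m ⊕ Fin m → F)) :=
          ⟨_, rfl⟩
        obtain ⟨WY1, hWY1⟩ : ∃ WY1, WY1 = WY ⊔ Submodule.span F ({y0} : Set (Fin m ⊕ Fin m → F)) :=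
          ⟨_, rfl⟩
        have hWX1mem : ∀ x ∈ WX1, ∃ xw ∈ WX, ∃ α : F, x = xw + α • x0 := by
          intro x hx
          rw [hWX1] at hx
          obtain ⟨xw, hxw, z, hz, rfl⟩ := Submodule.mem_sup.1 hx
          obtain ⟨α, rfl⟩ := Submodule.mem_span_singleton.1 hz
          exact ⟨xw, hxw, α, rfl⟩
        have hWY1mem : ∀ y ∈ WY1, ∃ yw ∈ WY, ∃ β : F, y = yw + β • y0 := by
          intro y hy
          rw [hWY1] at hy
          obtain ⟨yw, hyw, z, hz, rfl⟩ := Submodule.mem_sup.1 hy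
          obtain ⟨β, rfl⟩ := Submodule.mem_span_singleton.1 hz
          exact ⟨yw, hyw, β, rfl⟩
        have hx0W1 : x0 ∈ WX1 := by
          rw [hWX1]
          exact Submodule.mem_sup_right (Submodule.mem_span_singleton_self x0)
        have hy0W1 : y0 ∈ WY1 := by
          rw [hWY1]
          exact Submodule.mem_sup_right (Submodule.mem_span_singleton_self y0)
        have hWX1X : WX1 ≤ X := by
          rw [hWX1]
          refine sup_le hWX ?_
          rw [Submodule.span_le]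
          intro z hz
          rw [Set.mem_singleton_iff.1 hz]
          exact hx0
        have hWY1Y : WY1 ≤ Y := by
          rw [hWY1]
          refine sup_le hWY ?_
          rw [Submodule.span_le]
          intro z hz
          rw [Set.mem_singleton_iff.1 hz]
          exact hy0
        have hWXle : WX ≤ WX1 := by
          rw [hWX1]
          exact le_sup_left
        have hWYle : WY ≤ WY1 := by
          rw [hWY1]
          exact le_sup_left
        have hWW1 : W ≤ WX1 ⊔ WY1 := by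
          rw [hWdef]
          exact sup_le_sup hWXle hWYle
        have hW1mem : ∀ w1 ∈ WX1 ⊔ WY1, ∃ w ∈ W, ∃ α β : F, w1 = w + (α • x0 + β • y0) := by
          intro w1 hw1
          obtain ⟨x, hx, y, hy, rfl⟩ := Submodule.mem_sup.1 hw1
          obtain ⟨xw, hxw, α, rfl⟩ := hWX1mem x hx
          obtain ⟨yw, hyw, β, rfl⟩ := hWY1mem y hy
          refine ⟨xw + yw, W.add_mem (hWXW hxw) (hWYW hyw), α, β, ?_⟩
          abel
        have hx0in : x0 ∈ WX1 ⊔ WY1 := Submodule.mem_sup_left hx0W1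
        have hy0in : y0 ∈ WX1 ⊔ WY1 := Submodule.mem_sup_right hy0W1
        have hW1nd : ∀ w ∈ WX1 ⊔ WY1, w ≠ 0 → ∃ x ∈ WX1 ⊔ WY1, sB m x w ≠ 0 := by
          intro x hx hx0'
          obtain ⟨w, hw, α, β, rfl⟩ := hW1mem x hx
          by_contra hcon
          push Not at hcon
          have hw0 : w = 0 := by
            by_contra hw0
            obtain ⟨x', hx', hne⟩ := hW w hw hw0
            apply hne
            have h := hcon x' (hWW1 hx')
            rw [map_add, map_add, map_smul, map_smul, hx0W x' hx', hy0W x' hx'] at h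
            simpa using h
          have hβ0 : β = 0 := by
            have h := hcon x0 hx0in
            rw [hw0, zero_add, map_add, map_smul, map_smul, (sB_alt m) x0] at h
            simpa [hxy] using h
          have hα0 : α = 0 := by
            have h := hcon y0 hy0in
            rw [hw0, zero_add, map_add, map_smul, map_smul, (sB_alt m) y0] at h
            simpa [sk' m _ _ hxy] using h
          apply hx0'
          rw [hw0, hα0, hβ0]
          simp
        have hg1 : s * g ∈ Cfsg.spGL m F := (Cfsg.spGL m F).mul_mem hs hg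
        have hsg : ∀ w ∈ W, s.1 *ᵥ (g.1 *ᵥ w) = g.1 *ᵥ w := by
          intro w hw
          apply hsfix
          · have h1 := sp_isom m g hg w x0
            rw [hgx0] at h1
            rw [h1]
            exact hx0W w hw
          · have h1 := sp_isom m g hg w y0
            rw [hgy0] at h1
            rw [h1]
            exact hy0W w hw
        have hg1X : ∀ x ∈ WX1, (s * g).1 *ᵥ x ∈ Y := by
          intro x hx
          obtain ⟨xw, hxw, α, rfl⟩ := hWX1mem x hx
          rw [Units.val_mul, ← Matrix.mulVec_mulVec]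
          simp only [Matrix.mulVec_add, Matrix.mulVec_smul]
          rw [hsg xw (hWXW hxw), hgx0, es1]
          exact Y.add_mem (hgX xw hxw) (Y.smul_mem _ hy0)
        have hg1Y : ∀ y ∈ WY1, (s * g).1 *ᵥ y ∈ X := by
          intro y hy
          obtain ⟨yw, hyw, β, rfl⟩ := hWY1mem y hy
          rw [Units.val_mul, ← Matrix.mulVec_mulVec]
          simp only [Matrix.mulVec_add, Matrix.mulVec_smul]
          rw [hsg yw (hWYW hyw), hgy0, es2]
          exact X.add_mem (hgY yw hyw) (X.smul_mem _ (X.neg_mem hx0))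
        have hg1R : ∀ r, (∀ w ∈ WX1 ⊔ WY1, sB m w r = 0) → (s * g).1 *ᵥ r = r := by
          intro r hr
          have h1 := hgR r (fun w hw => hr w (hWW1 hw))
          rw [Units.val_mul, ← Matrix.mulVec_mulVec, h1]
          exact hsfix r (sk m _ _ (hr x0 hx0in)) (sk m _ _ (hr y0 hy0in))
        have hx0nW : x0 ∉ W := by
          intro hx0W'
          obtain ⟨x', hx', hne⟩ := hW x0 hx0W' hx00
          exact hne (hx0W x' hx')
        have hlt1 : Module.finrank F W <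
            Module.finrank F (WX1 ⊔ WY1 : Submodule F (Fin m ⊕ Fin m → F)) :=
          Submodule.finrank_lt_finrank_of_lt
            (lt_of_le_of_ne hWW1 (fun h => hx0nW (h ▸ hx0in)))
        have hle1 : Module.finrank F (WX1 ⊔ WY1 : Submodule F (Fin m ⊕ Fin m → F)) ≤
            Module.finrank F (Fin m ⊕ Fin m → F) := Submodule.finrank_le _
        exact ih (Module.finrank F (Fin m ⊕ Fin m → F) -
            Module.finrank F (WX1 ⊔ WY1 : Submodule F (Fin m ⊕ Fin m → F))) (by omega) WX1 WY1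
          (s * g) hWX1X hWY1Y hW1nd hg1 hg1X hg1Y hg1R (by omega)
  have hbot : ((⊥ : Submodule F (Fin m ⊕ Fin m → F)) ⊔ ⊥) = ⊥ := sup_bot_eq _
  refine key (Module.finrank F (Fin m ⊕ Fin m → F)) ⊥ ⊥ 1 bot_le bot_le ?_
    (Cfsg.spGL m F).one_mem ?_ ?_ (fun r _ => by rw [Units.val_one, Matrix.one_mulVec]) ?_
  · intro w hw hw0
    rw [hbot] at hw
    exact absurd ((Submodule.mem_bot F).1 hw) hw0
  · intro x hx
    rw [(Submodule.mem_bot F).1 hx, Matrix.mulVec_zero]
    exact Y.zero_mem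
  · intro y hy
    rw [(Submodule.mem_bot F).1 hy, Matrix.mulVec_zero]
    exact X.zero_mem
  · rw [hbot, finrank_bot, zero_add]

theorem allX (hL : Lag m X Y M) (a : Fin m ⊕ Fin m → F) (haX : a ∈ X) (ha0 : a ≠ 0)
    (hTa : memT m M a) : ∀ x ∈ X, memT m M x := by
  intro x hx
  by_cases hprop : ∃ lam : F, x = lam • a
  · obtain ⟨lam, rfl⟩ := hprop
    exact memT_smul m M lam a hTa
  · obtain ⟨v2, hv2, hv2a, hv2x⟩ : ∃ v2 ∈ Y, sB m v2 a = 0 ∧ sB m v2 x ≠ 0 := by
      by_contra hcon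
      push Not at hcon
      exact hprop (prop m hL a x haX ha0 hx hcon)
    obtain ⟨v1, hv1, hv1a⟩ := exY m hL a haX ha0
    have hav1 : sB m a v1 ≠ 0 := sk' m _ _ hv1a
    have hxv2 : sB m x v2 ≠ 0 := sk' m _ _ hv2x
    have hav2 : sB m a v2 = 0 := sk m _ _ hv2a
    obtain ⟨v, hv, hva, hvx⟩ : ∃ v ∈ Y, sB m a v = 1 ∧ sB m x v = 1 := by
      refine ⟨(sB m a v1)⁻¹ • v1 - ((sB m x ((sB m a v1)⁻¹ • v1) - 1) / sB m x v2) • v2,
        Y.sub_mem (Y.smul_mem _ hv1) (Y.smul_mem _ hv2), ?_, ?_⟩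
      · rw [map_sub, map_smul, map_smul, smul_eq_mul, smul_eq_mul, hav2, mul_zero, sub_zero,
          inv_mul_cancel₀ hav1]
      · rw [map_sub, map_smul (sB m x) _ v2, smul_eq_mul, div_mul_cancel₀ _ hxv2]
        ring
    have huv : sB m (x - a) v = 0 := by
      rw [map_sub, LinearMap.sub_apply, hva, hvx, sub_self]
    obtain ⟨A, hA, hAt⟩ := hL.supE (x - a) (X.sub_mem hx haX) v hv huv 1
    have e : A.1 *ᵥ a = x := by
      rw [hAt, one_mul, one_mul, hva, one_smul, map_sub, hL.isoX a haX x hx, hL.isoX a haX a haX,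
        sub_zero, zero_smul, add_zero, add_sub_cancel]
    rw [← e]
    exact memT_map m M hL.sp A hA a hTa

theorem allV (hL : Lag m X Y M) (hX : ∀ x ∈ X, memT m M x) (hY : ∀ y ∈ Y, memT m M y) :
    ∀ t, memT m M t := by
  intro t
  obtain ⟨x, hx, y, hy, rfl⟩ := hL.span t
  by_cases hx0 : x = 0
  · rw [hx0, zero_add]
    exact hY y hy
  by_cases hxy : sB m x y = 0
  · obtain ⟨y', hy', hy'x⟩ := exY m hL x hx hx0
    have h1 : memT m M (x + y') := memT_add_of_ne m M hL.sp y' x (hY y' hy') (hX x hx)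
      (sk' m _ _ hy'x)
    have h2 : memT m M (y - y') := hY _ (Y.sub_mem hy hy')
    have hB : sB m (x + y') (y - y') ≠ 0 := by
      rw [map_add, LinearMap.add_apply, map_sub, map_sub, hxy, hL.isoY y' hy' y hy,
        hL.isoY y' hy' y' hy', zero_sub, sub_zero, add_zero, neg_ne_zero]
      exact sk' m _ _ hy'x
    have h3 := memT_add_of_ne m M hL.sp _ _ h2 h1 hB
    have e : x + y' + (y - y') = x + y := by abel
    rw [e] at h3
    exact h3
  · exact memT_add_of_ne m M hL.sp y x (hY y hy) (hX x hx) hxy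

end lag

theorem main [Fintype F] (hm : 7 ≤ m) (hodd : Odd (Fintype.card F))
    (D : Fin 2 → Submodule F (Fin m ⊕ Fin m → F)) (hD : Cfsg.Geo.IsMDecomposition m D)
    (hts : ∀ i, Cfsg.Geo.IsTotallySingularFor (Cfsg.sympForm m F) (D i)) :
    Cfsg.Geo.IsMaximalIn (Cfsg.spGL m F)
      (Cfsg.Geo.decompositionStabilizer D ⊓ Cfsg.spGL m F) := by
  classical
  have h2 : (2 : F) ≠ 0 := by
    intro h2
    have hc : ringChar F = 2 :=
      CharP.ringChar_of_prime_eq_zero Nat.prime_two (by exact_mod_cast h2)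
    have h3 := FiniteField.even_card_of_char_two hc
    obtain ⟨k, hk⟩ := hodd
    omega
  have hspan : ∀ t : Fin m ⊕ Fin m → F, ∃ x ∈ D 0, ∃ y ∈ D 1, t = x + y := by
    intro t
    have ht : t ∈ iSup D := by
      rw [hD.iSup_eq_top]
      exact Submodule.mem_top
    obtain ⟨f, hf, hft⟩ := (Submodule.mem_iSup_iff_exists_finsupp D t).1 ht
    refine ⟨f 0, hf 0, f 1, hf 1, ?_⟩
    rw [← hft, Finsupp.sum_fintype _ _ (fun i => rfl), Fin.sum_univ_two]
  have hiso : ∀ i, ∀ u ∈ D i, ∀ v ∈ D i, sB m u v = 0 := by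
    intro i u hu v hv
    rw [sB_apply]
    exact hts i u hu v hv
  have hstab : ∀ g : GL (Fin m ⊕ Fin m) F, (∀ x ∈ D 0, g.1 *ᵥ x ∈ D 0) →
      (∀ y ∈ D 1, g.1 *ᵥ y ∈ D 1) → g ∈ Cfsg.Geo.decompositionStabilizer D := by
    intro g h0 h1
    refine ⟨1, ?_⟩
    rw [Fin.forall_fin_two]
    exact ⟨map_eq m g (D 0) (D 0) h0 rfl, map_eq m g (D 1) (D 1) h1 rfl⟩
  have hstab' : ∀ g : GL (Fin m ⊕ Fin m) F, (∀ x ∈ D 0, g.1 *ᵥ x ∈ D 1) →
      (∀ y ∈ D 1, g.1 *ᵥ y ∈ D 0) → g ∈ Cfsg.Geo.decompositionStabilizer D := by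
    intro g h0 h1
    refine ⟨Equiv.swap 0 1, ?_⟩
    rw [Fin.forall_fin_two, Equiv.swap_apply_left, Equiv.swap_apply_right]
    exact ⟨map_eq m g (D 0) (D 1) h0 (by rw [hD.finrank_eq, hD.finrank_eq]),
      map_eq m g (D 1) (D 0) h1 (by rw [hD.finrank_eq, hD.finrank_eq])⟩
  have mk : ∀ M : Subgroup (GL (Fin m ⊕ Fin m) F), M ≤ Cfsg.spGL m F →
      Cfsg.Geo.decompositionStabilizer D ⊓ Cfsg.spGL m F ≤ M → Lag m (D 0) (D 1) M := by
    intro M h1 hP
    exact {
      isoX := hiso 0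
      isoY := hiso 1
      span := hspan
      rkX := by
        rw [hD.finrank_eq]
        omega
      rkY := by
        rw [hD.finrank_eq]
        omega
      sp := h1
      supE := fun u hu v hv huv c => by
        have huv' : sB m u (c • v) = 0 := by rw [map_smul, huv, smul_zero]
        obtain ⟨E, hE, hEt⟩ := eich_ex m u (c • v) huv'
        refine ⟨E, hP ⟨hstab E ?_ ?_, hE⟩, fun t => ?_⟩
        · intro x hx
          rw [hEt, hiso 0 x hx u hu, zero_smul, add_zero]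
          exact (D 0).add_mem hx ((D 0).smul_mem _ hu)
        · intro y hy
          rw [hEt, map_smul, hiso 1 y hy v hv, smul_zero, zero_smul, add_zero]
          exact (D 1).add_mem hy ((D 1).smul_mem _ ((D 1).smul_mem _ hv))
        · rw [hEt, map_smul, smul_smul, smul_eq_mul, mul_comm (sB m t u) c]
      two := h2 }
  have hne : ∀ i, ∃ x ∈ D i, x ≠ 0 := by
    intro i
    apply Submodule.exists_mem_ne_zero_of_ne_bot
    intro hb
    have h3 := hD.finrank_eq i
    rw [hb, finrank_bot] at h3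
    omega
  constructor
  · refine lt_of_le_of_ne inf_le_right ?_
    intro heq
    have hL := mk (Cfsg.spGL m F) le_rfl inf_le_right
    obtain ⟨x, hx, hx0⟩ := hne 0
    obtain ⟨y, hy, hyx⟩ := exY m hL x hx hx0
    obtain ⟨s, hs, hsx⟩ := tv_ex m x (1 : F)
    rw [← heq] at hs
    obtain ⟨σ, hσ⟩ := hs.1
    have h5 : s.1 *ᵥ y ∈ D (σ 1) := by
      rw [← hσ 1, ← Matrix.toLin'_apply]
      exact Submodule.mem_map_of_mem hy
    rw [hsx, one_mul] at h5
    have hcases : σ 1 = 0 ∨ σ 1 = 1 := by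
      have hlt := (σ 1).isLt
      rcases Nat.eq_zero_or_pos (σ 1).val with h | h
      · left
        exact Fin.ext h
      · right
        apply Fin.ext
        show (σ 1).val = 1
        omega
    rcases hcases with h | h
    · rw [h] at h5
      have h6 : y ∈ D 0 := by
        have h7 := (D 0).sub_mem h5 ((D 0).smul_mem (sB m y x) hx)
        rwa [add_sub_cancel_right] at h7
      have y0 := disj m hL y h6 hy
      apply hyx
      rw [y0, map_zero, LinearMap.zero_apply]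
    · rw [h] at h5
      have h6 : sB m y x • x ∈ D 1 := by
        have h7 := (D 1).sub_mem h5 hy
        rwa [add_sub_cancel_left] at h7
      have h8 : x ∈ D 1 := by
        have h9 := (D 1).smul_mem (sB m y x)⁻¹ h6
        rwa [smul_smul, inv_mul_cancel₀ hyx, one_smul] at h9
      exact hx0 (disj m hL x hx h8)
  · intro M hPM hMsp
    by_cases hMP : M = Cfsg.Geo.decompositionStabilizer D ⊓ Cfsg.spGL m F
    · exact Or.inl hMP
    right
    have hL := mk M hMsp hPM
    apply le_antisymm hMsp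
    apply gen_of_all m M hMsp
    obtain ⟨h, hh, hhP⟩ : ∃ h ∈ M, h ∉ Cfsg.Geo.decompositionStabilizer D := by
      by_contra hcon
      push Not at hcon
      exact hMP (le_antisymm (fun g hg => ⟨hcon g hg, hMsp hg⟩) hPM)
    have hex : (∃ a ∈ D 0, a ≠ 0 ∧ memT m M a) ∨ (∃ a ∈ D 1, a ≠ 0 ∧ memT m M a) := by
      by_contra hcon
      push Not at hcon
      obtain ⟨hnoX, hnoY⟩ := hcon
      apply hhP
      have cX := sub_union m h (D 0) (D 0) (D 1) (claim3a m hL hnoX hnoY h hh)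
      have cY := sub_union m h (D 1) (D 1) (D 0) (claim3a m (lag_symm m hL) hnoY hnoX h hh)
      rcases cX with cX | cX <;> rcases cY with cY | cY
      · exact hstab h cX cY
      · exfalso
        obtain ⟨y, hy, hy0⟩ := hne 1
        have e := map_eq m h (D 0) (D 0) cX rfl
        have h5 : h.1 *ᵥ y ∈ (D 0).map (Matrix.toLin' h.1) := by
          rw [e]
          exact cY y hy
        obtain ⟨x, hx, hxy⟩ := Submodule.mem_map.1 h5
        have h6 : x = y := gl_inj m h (by rw [hxy, Matrix.toLin'_apply])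
        rw [h6] at hx
        exact hy0 (disj m hL y hx hy)
      · exfalso
        obtain ⟨x, hx, hx0⟩ := hne 0
        have e := map_eq m h (D 1) (D 1) cY rfl
        have h5 : h.1 *ᵥ x ∈ (D 1).map (Matrix.toLin' h.1) := by
          rw [e]
          exact cX x hx
        obtain ⟨y, hy, hxy⟩ := Submodule.mem_map.1 h5
        have h6 : y = x := gl_inj m h (by rw [hxy, Matrix.toLin'_apply])
        rw [h6] at hy
        exact hx0 (disj m hL x hx hy)
      · exact hstab' h cX cY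
    obtain ⟨w, hw, hwX, hwY⟩ := swap_ex m hL
    have hwM : w ∈ M := hPM ⟨hstab' w hwX hwY, hw⟩
    have eX := map_eq m w (D 0) (D 1) hwX (by rw [hD.finrank_eq, hD.finrank_eq])
    have eY := map_eq m w (D 1) (D 0) hwY (by rw [hD.finrank_eq, hD.finrank_eq])
    have tr : ∀ (A A' : Submodule F (Fin m ⊕ Fin m → F)), A.map (Matrix.toLin' w.1) = A' →
        (∀ x ∈ A, memT m M x) → ∀ y ∈ A', memT m M y := by
      intro A A' e hA y hy
      rw [← e] at hy
      obtain ⟨x, hx, rfl⟩ := Submodule.mem_map.1 hy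
      rw [Matrix.toLin'_apply]
      exact memT_map m M hMsp w hwM x (hA x hx)
    rcases hex with ⟨a, ha, ha0, hTa⟩ | ⟨a, ha, ha0, hTa⟩
    · have hX := allX m hL a ha ha0 hTa
      exact allV m hL hX (tr _ _ eX hX)
    · have hY := allX m (lag_symm m hL) a ha ha0 hTa
      exact allV m hL (tr _ _ eY hY) hY

end Cfsg.Agent.Helper18.SpLag
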