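import Mathlib
import Cfsg.Prelude.Def_GeometricClasses
import Cfsg.Prelude.Def_ClassicalGeometry
import Cfsg.Agent.Helper5.SympGen
import Cfsg.Agent.S0768
import Cfsg.Agent.Helper18.SpPar
import Cfsg.Agent.Helper18.SpNd
import Cfsg.Agent.Helper18.SpDec

set_option autoImplicit false

namespace Cfsg.Agent.Helper18.SpOrth

open Matrix

open scoped MatrixGroups

open Cfsg.Agent.Helper5

open Cfsg.Agent.Helper18.SpPar

open Cfsg.Agent.Helper18.SpNd

open Cfsg.Agent.Helper18.SpDec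

variable {F : Type*} [Field F] (m : ℕ)

/-- The transvection along `w` with parameter `c` lies in `M`. -/
def memC (M : Subgroup (GL (Fin m ⊕ Fin m) F)) (w : Fin m ⊕ Fin m → F) (c : F) : Prop :=
  ∃ A ∈ M, ∀ x : Fin m ⊕ Fin m → F, A.1 *ᵥ x = x + (c * sB m x w) • w

theorem memC_map (M : Subgroup (GL (Fin m ⊕ Fin m) F)) (hM : M ≤ Cfsg.spGL m F)
    (g : GL (Fin m ⊕ Fin m) F) (hg : g ∈ M) (w : Fin m ⊕ Fin m → F) (c : F)
    (h : memC m M w c) : memC m M (g.1 *ᵥ w) c := by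
  obtain ⟨A, hA, hAx⟩ := h
  refine ⟨g * A * g⁻¹, M.mul_mem (M.mul_mem hg hA) (M.inv_mem hg), fun x => ?_⟩
  have e1 : sB m ((g⁻¹).1 *ᵥ x) w = sB m x (g.1 *ᵥ w) := by
    have e := sp_isom m g (hM hg) ((g⁻¹).1 *ᵥ x) w
    rw [inv_act] at e
    exact e.symm
  rw [Units.val_mul, Units.val_mul, ← Matrix.mulVec_mulVec, ← Matrix.mulVec_mulVec, hAx,
    Matrix.mulVec_add, Matrix.mulVec_smul, inv_act, e1]

/-- The working configuration: a quadratic form in characteristic two polarising to the standard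
alternating form, and a subgroup between its isometry group and the symplectic group. -/
structure QC (Q : (Fin m ⊕ Fin m → F) → F) (M : Subgroup (GL (Fin m ⊕ Fin m) F)) : Prop where
  add : ∀ u v, Q (u + v) = Q u + Q v + sB m u v
  smul : ∀ (c : F) v, Q (c • v) = c ^ 2 * Q v
  two : (2 : F) = 0
  sq : ∀ a : F, ∃ r : F, r * r = a
  sp : M ≤ Cfsg.spGL m F
  par : Cfsg.Geo.quadSimilarityGroup Q ⊓ Cfsg.spGL m F ≤ M
  hm : 7 ≤ m

theorem span1 (x : Fin m ⊕ Fin m → F) :
    Module.finrank F (Submodule.span F ({x} : Set (Fin m ⊕ Fin m → F))) ≤ 1 := by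
  classical
  have h5 := finrank_span_finset_le_card (R := F) ({x} : Finset (Fin m ⊕ Fin m → F))
  rw [Finset.coe_singleton, Finset.card_singleton] at h5
  exact h5

theorem span2 (w x : Fin m ⊕ Fin m → F) :
    Module.finrank F (Submodule.span F ({w, x} : Set (Fin m ⊕ Fin m → F))) ≤ 2 := by
  classical
  have h5 := finrank_span_finset_le_card (R := F) ({w, x} : Finset (Fin m ⊕ Fin m → F))
  rw [Finset.coe_pair] at h5
  exact h5.trans Finset.card_le_two

section qc

variable {Q : (Fin m ⊕ Fin m → F) → F} {M : Subgroup (GL (Fin m ⊕ Fin m) F)}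

theorem Q0 (hC : QC m Q M) : Q 0 = 0 := by
  have h := hC.smul 0 0
  simpa using h

theorem L0 (hC : QC m Q M) (W : Submodule F (Fin m ⊕ Fin m → F))
    (hW : Module.finrank F W ≤ 3) : ∃ x0, (∀ u ∈ W, sB m u x0 = 0) ∧ Q x0 ≠ 0 := by
  have halt := sB_alt (F := F) m
  have hnd := sB_nondeg (F := F) m
  have hm := hC.hm
  have hfr := LinearMap.BilinForm.finrank_orthogonal hnd W
  rw [Module.finrank_fintype_fun_eq_card, Fintype.card_sum, Fintype.card_fin] at hfr
  obtain ⟨y1, hy1, y2, hy2, hy⟩ : ∃ y1 ∈ (sB (F := F) m).orthogonal W,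
      ∃ y2 ∈ (sB (F := F) m).orthogonal W, sB m y1 y2 ≠ 0 := by
    by_contra hcon
    push Not at hcon
    have hle : (sB (F := F) m).orthogonal W ≤ W := by
      intro y hy
      have h1 : y ∈ (sB (F := F) m).orthogonal ((sB (F := F) m).orthogonal W) := by
        rw [LinearMap.BilinForm.mem_orthogonal_iff]
        intro n hn
        exact hcon n hn y hy
      rwa [LinearMap.BilinForm.orthogonal_orthogonal hnd halt.isRefl W] at h1
    have h2 := Submodule.finrank_mono hle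
    omega
  have hmem : ∀ y, y ∈ (sB (F := F) m).orthogonal W → ∀ u ∈ W, sB m u y = 0 := by
    intro y hy u hu
    exact (LinearMap.BilinForm.mem_orthogonal_iff.1 hy) u hu
  by_cases h1 : Q y1 = 0
  · by_cases h2 : Q y2 = 0
    · refine ⟨y1 + y2, fun u hu => ?_, ?_⟩
      · rw [map_add, hmem y1 hy1 u hu, hmem y2 hy2 u hu, add_zero]
      · rw [hC.add, h1, h2, zero_add, zero_add]
        exact hy
    · exact ⟨y2, hmem y2 hy2, h2⟩
  · exact ⟨y1, hmem y1 hy1, h1⟩

theorem G (hC : QC m Q M) (W : Submodule F (Fin m ⊕ Fin m → F))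
    (hW : Module.finrank F W ≤ 2) (t : Fin m ⊕ Fin m → F) (κ : F) :
    ∃ s, Q s = κ ∧ ∀ u ∈ W, sB m u s = sB m u t := by
  have h1 : Module.finrank F
      (W ⊔ Submodule.span F ({t} : Set (Fin m ⊕ Fin m → F)) :
        Submodule F (Fin m ⊕ Fin m → F)) ≤ 3 := by
    have h2 := Submodule.finrank_add_le_finrank_add_finrank W
      (Submodule.span F ({t} : Set (Fin m ⊕ Fin m → F)))
    have h3 := span1 m t
    omega
  obtain ⟨x0, hx0, hQx0⟩ := L0 m hC _ h1
  obtain ⟨μ, hμ⟩ := hC.sq ((κ - Q t) / Q x0)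
  have htx0 : sB m t x0 = 0 :=
    hx0 t (Submodule.mem_sup_right (Submodule.mem_span_singleton_self t))
  refine ⟨t + μ • x0, ?_, fun u hu => ?_⟩
  · rw [hC.add, hC.smul, map_smul, htx0, smul_zero, add_zero, pow_two, hμ,
      div_mul_cancel₀ _ hQx0]
    ring
  · rw [map_add, map_smul, hx0 u (Submodule.mem_sup_left hu), smul_zero, add_zero]

theorem refl (hC : QC m Q M) (w : Fin m ⊕ Fin m → F) (hw : Q w ≠ 0) :
    ∃ A ∈ M, (∀ x, A.1 *ᵥ x = x + ((Q w)⁻¹ * sB m x w) • w) ∧ ∀ x, Q (A.1 *ᵥ x) = Q x := by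
  obtain ⟨A, hA, hAx⟩ := tv_ex m w (Q w)⁻¹
  have hQ : ∀ x, Q (A.1 *ᵥ x) = Q x := by
    intro x
    rw [hAx, hC.add, hC.smul, map_smul, smul_eq_mul]
    have e : ((Q w)⁻¹ * sB m x w) ^ 2 * Q w + (Q w)⁻¹ * sB m x w * sB m x w
        = 2 * ((Q w)⁻¹ * sB m x w ^ 2) := by
      field_simp
      ring
    rw [add_assoc, e, hC.two, zero_mul, add_zero]
  refine ⟨A, hC.par ⟨⟨1, fun v => ?_⟩, hA⟩, hAx, hQ⟩
  rw [hQ, Units.val_one, one_mul]

theorem exists_sing (hC : QC m Q M) (h : GL (Fin m ⊕ Fin m) F) (hh : h ∈ M)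
    (v1 : Fin m ⊕ Fin m → F) (hv1 : Q (h.1 *ᵥ v1) ≠ Q v1) :
    ∃ w, w ≠ 0 ∧ Q w = 0 ∧ memT m M w := by
  have hneg : ∀ a : F, -a = a := by
    intro a
    have h1 : a + a = 0 := by rw [← two_mul, hC.two, zero_mul]
    exact neg_eq_of_add_eq_zero_left h1
  obtain ⟨v, g0, hg0, hQv, hQg⟩ : ∃ v, ∃ g0 ∈ M, Q v ≠ 0 ∧ Q (g0.1 *ᵥ v) ≠ Q v := by
    by_cases h0 : Q v1 = 0
    · rw [h0] at hv1
      refine ⟨h.1 *ᵥ v1, h⁻¹, M.inv_mem hh, hv1, ?_⟩
      rw [inv_act', h0]
      exact fun hc => hv1 hc.symm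
    · exact ⟨v1, h, hh, h0, hv1⟩
  obtain ⟨Rv, hRv, hRvx, -⟩ := refl m hC v hQv
  have hCx : memC m M (g0.1 *ᵥ v) (Q v)⁻¹ := memC_map m M hC.sp g0 hg0 v _ ⟨Rv, hRv, hRvx⟩
  have hx0 : g0.1 *ᵥ v ≠ 0 := by
    intro h0
    apply hQv
    have h1 := inv_act' m g0 v
    rw [h0, Matrix.mulVec_zero] at h1
    rw [← h1]
    exact Q0 m hC
  obtain ⟨x, hx⟩ : ∃ x, x = g0.1 *ᵥ v := ⟨_, rfl⟩
  rw [← hx] at hCx hQg hx0
  obtain ⟨c, hc⟩ : ∃ c, c = (Q v)⁻¹ := ⟨_, rfl⟩
  rw [← hc] at hCx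
  obtain ⟨A, hA, hAx⟩ := hCx
  have hc0 : c ≠ 0 := by
    rw [hc]
    exact inv_ne_zero hQv
  obtain ⟨ε, hε⟩ : ∃ ε, ε = c * (c * Q x + 1) := ⟨_, rfl⟩
  have hε0 : ε ≠ 0 := by
    rw [hε]
    refine mul_ne_zero hc0 ?_
    intro h1
    apply hQg
    have h2 : c * Q x = 1 := by
      rw [← hneg 1]
      linear_combination h1
    rw [hc] at h2
    field_simp at h2
    exact h2
  have hQA : ∀ y, Q (A.1 *ᵥ y) = Q y + ε * sB m y x ^ 2 := by
    intro y
    rw [hAx, hC.add, hC.smul, map_smul, smul_eq_mul, hε]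
    ring
  obtain ⟨tx, htx⟩ : ∃ tx, sB m x tx ≠ 0 := by
    by_contra hcon
    push Not at hcon
    exact hx0 ((sB_nondeg (F := F) m).1 x hcon)
  obtain ⟨w, hQw, hw⟩ := G m hC (Submodule.span F {x}) ((span1 m x).trans (by norm_num))
    ((sB m x tx)⁻¹ • tx) 0
  have hxw : sB m x w = 1 := by
    rw [hw x (Submodule.mem_span_singleton_self x), map_smul, smul_eq_mul, inv_mul_cancel₀ htx]
  have hwx : sB m w x = -1 := by rw [← (sB_alt m).neg_eq x w, hxw]
  have hw0 : w ≠ 0 := by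
    rintro rfl
    rw [map_zero] at hxw
    exact zero_ne_one hxw
  refine ⟨w, hw0, hQw, ?_⟩
  have key : ∀ γ : F, γ ≠ 0 → memC m M w γ⁻¹ := by
    intro γ hγ
    obtain ⟨β, hβ⟩ := hC.sq (γ / ε)
    obtain ⟨s, hQs, hs⟩ := G m hC (Submodule.span F {w, x}) (span2 m w x)
      ((-1 : F) • x + (-1 - β) • w) 1
    have hws : sB m w s = 1 := by
      rw [hs w (Submodule.subset_span (by simp)), map_add, map_smul, map_smul, hwx,
        (sB_alt m) w]
      simp
    have hxs : sB m x s = -1 - β := by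
      rw [hs x (Submodule.subset_span (by simp)), map_add, map_smul, map_smul, hxw,
        (sB_alt m) x]
      simp
    have hsx : sB m s x = 1 + β := by
      rw [← (sB_alt m).neg_eq x s, hxs]
      ring
    obtain ⟨Rs, hRs, hRsx, hRsQ⟩ := refl m hC s (by rw [hQs]; exact one_ne_zero)
    have e1 : Rs.1 *ᵥ w = w + s := by
      rw [hRsx, hQs, hws, inv_one, one_mul, one_smul]
    obtain ⟨u, hu⟩ : ∃ u, u = A.1 *ᵥ (Rs.1 *ᵥ w) := ⟨_, rfl⟩
    have hQu : Q u = γ := by
      rw [hu, hQA, hRsQ, hQw, e1, map_add, LinearMap.add_apply, hwx, hsx, zero_add]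
      have e2 : (-1 + (1 + β) : F) = β := by ring
      rw [e2, pow_two, hβ]
      field_simp
    obtain ⟨Ru, hRu, hRux, -⟩ := refl m hC u (by rw [hQu]; exact hγ)
    rw [hQu] at hRux
    have hCu : memC m M u γ⁻¹ := ⟨Ru, hRu, hRux⟩
    have hCw := memC_map m M hC.sp (A * Rs)⁻¹ (M.inv_mem (M.mul_mem hA hRs)) u _ hCu
    have e3 : ((A * Rs)⁻¹).1 *ᵥ u = w := by
      have e4 : u = (A * Rs).1 *ᵥ w := by rw [hu, Units.val_mul, Matrix.mulVec_mulVec]
      rw [e4, inv_act']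
    rw [e3] at hCw
    exact hCw
  intro c'
  by_cases hc' : c' = 0
  · exact ⟨1, M.one_mem, fun y => by
      rw [Units.val_one, Matrix.one_mulVec, hc', zero_mul, zero_smul, add_zero]⟩
  · have h5 := key c'⁻¹ (inv_ne_zero hc')
    rwa [inv_inv] at h5

theorem spread (hC : QC m Q M) (z : Fin m ⊕ Fin m → F) (hz0 : z ≠ 0) (hQz : Q z = 0)
    (hz : memT m M z) : ∀ y, memT m M y := by
  have hQ0 : Q 0 = 0 := Q0 m hC
  have hQneg : ∀ v, Q ((-1 : F) • v) = Q v := by
    intro v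
    rw [hC.smul]
    ring
  have S1 : ∀ z', memT m M z' → ∀ w, Q w ≠ 0 → sB m z' w ≠ 0 → memT m M w := by
    intro z' hz' w hw hzw
    obtain ⟨R, hR, hRx, -⟩ := refl m hC w hw
    have h1 := memT_map m M hC.sp R hR z' hz'
    rw [hRx] at h1
    have h2 := memT_smul m M (-1) z' hz'
    have hb : (Q w)⁻¹ * sB m z' w ≠ 0 := mul_ne_zero (inv_ne_zero hw) hzw
    have hzz : sB m z' z' = 0 := (sB_alt m) z'
    have h3 := memT_add_of_ne m M hC.sp ((-1 : F) • z') (z' + ((Q w)⁻¹ * sB m z' w) • w) h2 h1 (by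
      simp only [map_add, map_smul, LinearMap.add_apply, LinearMap.smul_apply, smul_eq_mul, hzz,
        mul_zero, zero_add]
      exact mul_ne_zero (neg_ne_zero.2 one_ne_zero) (mul_ne_zero hb (sk' m _ _ hzw)))
    have e : z' + ((Q w)⁻¹ * sB m z' w) • w + (-1 : F) • z' = ((Q w)⁻¹ * sB m z' w) • w := by
      module
    rw [e] at h3
    have h4 := memT_smul m M ((Q w)⁻¹ * sB m z' w)⁻¹ _ h3
    rwa [smul_smul, inv_mul_cancel₀ hb, one_smul] at h4
  have S3 : ∀ z', memT m M z' → Q z' = 0 → ∀ s, Q s = 0 → sB m z' s ≠ 0 → memT m M s := by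
    intro z' hz' hQz' s hQs hzs
    have hzz : sB m z' z' = 0 := (sB_alt m) z'
    have hw : Q (z' + s) ≠ 0 := by
      rw [hC.add, hQz', hQs, zero_add, zero_add]
      exact hzs
    have hzw : sB m z' (z' + s) ≠ 0 := by
      rw [map_add, hzz, zero_add]
      exact hzs
    have h1 := S1 z' hz' (z' + s) hw hzw
    have h2 := memT_smul m M (-1) z' hz'
    have h3 := memT_add_of_ne m M hC.sp ((-1 : F) • z') (z' + s) h2 h1 (by
      simp only [map_add, map_smul, LinearMap.add_apply, LinearMap.smul_apply, smul_eq_mul, hzz,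
        mul_zero, zero_add]
      exact mul_ne_zero (neg_ne_zero.2 one_ne_zero) (sk' m _ _ hzs))
    have e : z' + s + (-1 : F) • z' = s := by module
    rwa [e] at h3
  have conn : ∀ a, a ≠ 0 → ∃ t, sB m z t ≠ 0 ∧ sB m a t ≠ 0 := by
    intro a ha
    obtain ⟨x, hx⟩ : ∃ x, sB m z x ≠ 0 := by
      by_contra hcon
      push Not at hcon
      exact hz0 ((sB_nondeg (F := F) m).1 z hcon)
    obtain ⟨x', hx'⟩ : ∃ x', sB m a x' ≠ 0 := by
      by_contra hcon
      push Not at hcon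
      exact ha ((sB_nondeg (F := F) m).1 a hcon)
    by_cases h1 : sB m a x = 0
    · by_cases h2 : sB m z x' = 0
      · exact ⟨x + x', by rw [map_add, h2, add_zero]; exact hx,
          by rw [map_add, h1, zero_add]; exact hx'⟩
      · exact ⟨x', h2, hx'⟩
    · exact ⟨x, hx, h1⟩
  have sing : ∀ t, sB m z t ≠ 0 → Q (t + (-(Q t) / sB m t z) • z) = 0 := by
    intro t ht
    have htz : sB m t z ≠ 0 := sk' m _ _ ht
    rw [hC.add, hC.smul, hQz, mul_zero, add_zero, map_smul, smul_eq_mul, div_mul_cancel₀ _ htz,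
      add_neg_cancel]
  have S5 : ∀ s, Q s = 0 → memT m M s := by
    intro s hQs
    by_cases hs0 : s = 0
    · rw [hs0]
      exact fun c => ⟨1, M.one_mem, fun x => by
        rw [Units.val_one, Matrix.one_mulVec, smul_zero, add_zero]⟩
    by_cases hzs : sB m z s = 0
    · obtain ⟨t, ht1, ht2⟩ := conn s hs0
      have hs' := sing t ht1
      have h1 : memT m M (t + (-(Q t) / sB m t z) • z) := S3 z hz hQz _ hs' (by
        rw [map_add, map_smul, (sB_alt m) z, smul_zero, add_zero]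
        exact ht1)
      exact S3 _ h1 hs' s hQs (by
        rw [map_add, LinearMap.add_apply, map_smul, LinearMap.smul_apply, hzs, smul_zero,
          add_zero]
        exact sk' m _ _ ht2)
    · exact S3 z hz hQz s hQs hzs
  intro y
  by_cases hQy : Q y = 0
  · exact S5 y hQy
  by_cases hzy : sB m z y = 0
  · have hy0 : y ≠ 0 := by
      rintro rfl
      exact hQy hQ0
    obtain ⟨t, ht1, ht2⟩ := conn y hy0
    obtain ⟨s0, hs0⟩ : ∃ s0, s0 = t + (-(Q t) / sB m t z) • z := ⟨_, rfl⟩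
    have hQs0 : Q s0 = 0 := by
      rw [hs0]
      exact sing t ht1
    have hys0 : sB m y s0 ≠ 0 := by
      rw [hs0, map_add, map_smul, sk m _ _ hzy, smul_zero, add_zero]
      exact ht2
    obtain ⟨s1, hs1⟩ : ∃ s1, s1 = (Q y / sB m y s0) • s0 := ⟨_, rfl⟩
    have hQs1 : Q s1 = 0 := by rw [hs1, hC.smul, hQs0, mul_zero]
    have hys1 : sB m y s1 = Q y := by
      rw [hs1, map_smul, smul_eq_mul, div_mul_cancel₀ _ hys0]
    have hQs2 : Q (y + (-1 : F) • s1) = 0 := by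
      rw [hC.add, hQneg, hQs1, map_smul, hys1, smul_eq_mul]
      ring
    have h1 := S5 s1 hQs1
    have h2 := S5 _ hQs2
    have hss : sB m s1 s1 = 0 := (sB_alt m) s1
    have h3 := memT_add_of_ne m M hC.sp s1 (y + (-1 : F) • s1) h1 h2 (by
      simp only [map_add, map_smul, LinearMap.add_apply, LinearMap.smul_apply, smul_eq_mul, hss,
        mul_zero, add_zero, hys1]
      exact hQy)
    have e : y + (-1 : F) • s1 + s1 = y := by module
    rwa [e] at h3
  · exact S1 z hz y hQy hzy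

end qc

theorem main [Fintype F] (hm : 7 ≤ m) (heven : ¬ Odd (Fintype.card F))
    (Q : (Fin m ⊕ Fin m → F) → F) (hQ : Cfsg.Geo.IsNondegenerateQuadraticForm Q)
    (hpol : ∀ u v, QuadraticMap.polar Q u v = Cfsg.sympForm m F u v) :
    Cfsg.Geo.IsMaximalIn (Cfsg.spGL m F) (Cfsg.Geo.quadSimilarityGroup Q ⊓ Cfsg.spGL m F) := by
  classical
  have hchar : ringChar F = 2 := by
    rw [FiniteField.even_card_iff_char_two]
    rcases Nat.even_or_odd (Fintype.card F) with h | h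
    · exact Nat.even_iff.1 h
    · exact absurd h heven
  have h2 : (2 : F) = 0 := by
    have h3 := CharP.cast_eq_zero F (ringChar F)
    rw [hchar] at h3
    exact_mod_cast h3
  have mk : ∀ M : Subgroup (GL (Fin m ⊕ Fin m) F), M ≤ Cfsg.spGL m F →
      Cfsg.Geo.quadSimilarityGroup Q ⊓ Cfsg.spGL m F ≤ M → QC m Q M := by
    intro M h1 hP
    exact {
      add := fun u v => by
        have h3 := hpol u v
        rw [QuadraticMap.polar, ← sB_apply] at h3
        linear_combination h3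
      smul := hQ.smul
      two := h2
      sq := fun a => by
        obtain ⟨r, hr⟩ := FiniteField.isSquare_of_char_two hchar a
        exact ⟨r, hr.symm⟩
      sp := h1
      par := hP
      hm := hm }
  constructor
  · refine lt_of_le_of_ne inf_le_right ?_
    intro heq
    have hC := mk _ le_rfl inf_le_right
    obtain ⟨x, hx0⟩ : ∃ x : Fin m ⊕ Fin m → F, x ≠ 0 :=
      ⟨Pi.single (Sum.inl ⟨0, by omega⟩) 1, by
        intro h0
        have h1 := congrFun h0 (Sum.inl ⟨0, by omega⟩)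
        simp at h1⟩
    obtain ⟨tx, htx⟩ : ∃ tx, sB m x tx ≠ 0 := by
      by_contra hcon
      push Not at hcon
      exact hx0 ((sB_nondeg (F := F) m).1 x hcon)
    obtain ⟨z, hQz, hz⟩ := G m hC (Submodule.span F {x}) ((span1 m x).trans (by norm_num)) tx 0
    have hxz : sB m x z ≠ 0 := by
      rw [hz x (Submodule.mem_span_singleton_self x)]
      exact htx
    obtain ⟨y0, hy0, hQy0⟩ := L0 m hC (Submodule.span F {z}) ((span1 m z).trans (by norm_num))
    have hzy0 : sB m z y0 = 0 := hy0 z (Submodule.mem_span_singleton_self z)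
    obtain ⟨τ, hτ, hτx⟩ := tv_ex m z (1 : F)
    rw [← heq] at hτ
    obtain ⟨c, hc⟩ := hτ.1
    have hQτ : ∀ y, Q (τ.1 *ᵥ y) = Q y + sB m y z ^ 2 := by
      intro y
      rw [hτx, one_mul, hC.add, hC.smul, hQz, map_smul, smul_eq_mul]
      ring
    have h3 := hc y0
    rw [hQτ, sk m _ _ hzy0] at h3
    have hc1 : (c : F) = 1 := by
      have h4 : ((c : F) - 1) * Q y0 = 0 := by linear_combination (-1 : F) * h3
      rcases mul_eq_zero.1 h4 with h5 | h5
      · exact sub_eq_zero.1 h5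
      · exact absurd h5 hQy0
    have h5 := hc x
    rw [hQτ, hc1, one_mul] at h5
    have h6 : sB m x z ^ 2 = 0 := by linear_combination h5
    exact hxz ((pow_eq_zero_iff (two_ne_zero)).1 h6)
  · intro M hPM hMsp
    by_cases hMP : M = Cfsg.Geo.quadSimilarityGroup Q ⊓ Cfsg.spGL m F
    · exact Or.inl hMP
    right
    have hC := mk M hMsp hPM
    apply le_antisymm hMsp
    apply gen_of_all m M hMsp
    obtain ⟨h, hh, hhP⟩ : ∃ h ∈ M, h ∉ Cfsg.Geo.quadSimilarityGroup Q := by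
      by_contra hcon
      push Not at hcon
      exact hMP (le_antisymm (fun g hg => ⟨hcon g hg, hMsp hg⟩) hPM)
    obtain ⟨v1, hv1⟩ : ∃ v1, Q (h.1 *ᵥ v1) ≠ Q v1 := by
      by_contra hcon
      push Not at hcon
      exact hhP ⟨1, fun v => by rw [hcon, Units.val_one, one_mul]⟩
    obtain ⟨w, hw0, hQw, hTw⟩ := exists_sing m hC h hh v1 hv1
    exact spread m hC w hw0 hQw hTw

end Cfsg.Agent.Helper18.SpOrth
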