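import Mathlib
import Cfsg.Prelude.Def_GeometricClasses
import Cfsg.Agent.Helper15.SUGen9
import Cfsg.Agent.Helper18.SlU

set_option autoImplicit false

namespace Cfsg.Agent.Helper18.SuSp

open scoped Matrix

open scoped MatrixGroups

open Cfsg.Agent.Helper28

open Cfsg.Agent.Helper18.SlU

variable {F : Type*} [Field F] {n : ℕ}

/-- Vectors in the rational structure spanned by the columns of `P`. -/
def Rat (P : GL (Fin n) F) (F₀ : Subfield F) (x : Fin n → F) : Prop :=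
  ∃ u : Fin n → F, (∀ i, u i ∈ F₀) ∧ x = P.1 *ᵥ u

theorem rat_zero (P : GL (Fin n) F) (F₀ : Subfield F) : Rat P F₀ 0 :=
  ⟨0, fun _ => F₀.zero_mem, by rw [Matrix.mulVec_zero]⟩

theorem rat_add (P : GL (Fin n) F) (F₀ : Subfield F) (x y : Fin n → F) (hx : Rat P F₀ x)
    (hy : Rat P F₀ y) : Rat P F₀ (x + y) := by
  obtain ⟨u, hu, rfl⟩ := hx
  obtain ⟨v, hv, rfl⟩ := hy
  exact ⟨u + v, fun i => F₀.add_mem (hu i) (hv i), by rw [Matrix.mulVec_add]⟩

theorem rat_smul (P : GL (Fin n) F) (F₀ : Subfield F) (c : F) (hc : c ∈ F₀) (x : Fin n → F)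
    (hx : Rat P F₀ x) : Rat P F₀ (c • x) := by
  obtain ⟨u, hu, rfl⟩ := hx
  exact ⟨c • u, fun i => F₀.mul_mem hc (hu i), by rw [Matrix.mulVec_smul]⟩

theorem rat_sub (P : GL (Fin n) F) (F₀ : Subfield F) (x y : Fin n → F) (hx : Rat P F₀ x)
    (hy : Rat P F₀ y) : Rat P F₀ (x - y) := by
  have h1 := rat_add P F₀ x ((-1 : F) • y) hx
    (rat_smul P F₀ (-1) (F₀.neg_mem F₀.one_mem) y hy)
  have e : x + (-1 : F) • y = x - y := by module
  rwa [e] at h1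

/-- The abstract configuration. -/
structure SCfg (σ : F ≃+* F) (f : (Fin n → F) → (Fin n → F) → F) (F₀ : Subfield F)
    (ζ θ : F) (P : GL (Fin n) F) (M : Subgroup (GL (Fin n) F)) : Prop where
  uc : UCfg σ f ⊤ ζ
  fix : ∀ x, x ∈ F₀ ↔ σ x = x
  θ1 : σ θ ≠ θ
  dec : ∀ x : F, ∃ a ∈ F₀, ∃ b ∈ F₀, x = a + θ * b
  rat : ∀ x y, Rat P F₀ x → Rat P F₀ y → ζ * f x y ∈ F₀
  alt : ∀ x, Rat P F₀ x → f x x = 0
  iso : ∀ A ∈ M, ∀ x y, f (A.1 *ᵥ x) (A.1 *ᵥ y) = f x y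
  tvR : ∀ x, Rat P F₀ x → ∀ c' ∈ F₀, ∃ A ∈ M, ∀ y, A.1 *ᵥ y = y + (ζ * c' * f y x) • x

section cfg

variable {σ : F ≃+* F} {f : (Fin n → F) → (Fin n → F) → F} {F₀ : Subfield F} {ζ θ : F}
  {P : GL (Fin n) F} {M : Subgroup (GL (Fin n) F)}

theorem sdec_unique (hS : SCfg σ f F₀ ζ θ P M) (a b : F) (ha : a ∈ F₀) (hb : b ∈ F₀)
    (h : a + θ * b = 0) : a = 0 ∧ b = 0 := by
  have hb0 : b = 0 := by
    by_contra hb0
    apply hS.θ1
    have e : θ = -a / b := by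
      field_simp
      linear_combination h
    rw [e]
    exact (hS.fix _).1 (F₀.div_mem (F₀.neg_mem ha) hb)
  refine ⟨?_, hb0⟩
  rw [hb0, mul_zero, add_zero] at h
  exact h

theorem vdec (hS : SCfg σ f F₀ ζ θ P M) (z : Fin n → F) :
    ∃ a b, Rat P F₀ a ∧ Rat P F₀ b ∧ z = a + θ • b := by
  have h1 : ∀ i, ∃ a ∈ F₀, ∃ b ∈ F₀, ((P⁻¹).1 *ᵥ z) i = a + θ * b := fun i => hS.dec _
  choose a ha b hb hab using h1
  refine ⟨P.1 *ᵥ a, P.1 *ᵥ b, ⟨a, ha, rfl⟩, ⟨b, hb, rfl⟩, ?_⟩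
  rw [← Matrix.mulVec_smul, ← Matrix.mulVec_add]
  have e : a + θ • b = (P⁻¹).1 *ᵥ z := by
    funext i
    rw [hab i, Pi.add_apply, Pi.smul_apply, smul_eq_mul]
  rw [e, SlSp.act_inv]

theorem vdec_unique (hS : SCfg σ f F₀ ζ θ P M) (a b : Fin n → F) (ha : Rat P F₀ a)
    (hb : Rat P F₀ b) (h : a + θ • b = 0) : a = 0 ∧ b = 0 := by
  obtain ⟨u, hu, rfl⟩ := ha
  obtain ⟨v, hv, rfl⟩ := hb
  rw [← Matrix.mulVec_smul, ← Matrix.mulVec_add] at h
  have h2 : u + θ • v = 0 := by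
    have h3 := SlSp.inv_act P (u + θ • v)
    rw [h, Matrix.mulVec_zero] at h3
    exact h3.symm
  have h4 : ∀ i, u i = 0 ∧ v i = 0 := by
    intro i
    have h5 := congrFun h2 i
    rw [Pi.add_apply, Pi.smul_apply, smul_eq_mul, Pi.zero_apply] at h5
    exact sdec_unique hS _ _ (hu i) (hv i) h5
  have hu0 : u = 0 := funext fun i => (h4 i).1
  have hv0 : v = 0 := funext fun i => (h4 i).2
  rw [hu0, hv0, Matrix.mulVec_zero]
  exact ⟨rfl, rfl⟩

theorem nd_R (hS : SCfg σ f F₀ ζ θ P M) (v : Fin n → F) (hv : v ≠ 0) :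
    ∃ x, Rat P F₀ x ∧ f x v ≠ 0 := by
  obtain ⟨x, hx⟩ := hS.uc.nd v hv
  obtain ⟨a, b, ha, hb, rfl⟩ := vdec hS x
  rw [hS.uc.al, hS.uc.sl] at hx
  by_cases h1 : f a v = 0
  · refine ⟨b, hb, fun h2 => hx ?_⟩
    rw [h1, h2, mul_zero, add_zero]
  · exact ⟨a, ha, h1⟩

theorem experp_R (hS : SCfg σ f F₀ ζ θ P M) (v u : Fin n → F) (hv : Rat P F₀ v)
    (hu : ∀ c : F, u ≠ c • v) : ∃ x, Rat P F₀ x ∧ f x v = 0 ∧ f x u ≠ 0 := by
  obtain ⟨x, hx0, hx⟩ := experp hS.uc v u hu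
  obtain ⟨a, b, ha, hb, rfl⟩ := vdec hS x
  rw [hS.uc.al, hS.uc.sl] at hx0 hx
  have h1 : ζ * f a v + θ * (ζ * f b v) = 0 := by linear_combination ζ * hx0
  obtain ⟨h2, h3⟩ := sdec_unique hS _ _ (hS.rat a v ha hv) (hS.rat b v hb hv) h1
  have hζ := hS.uc.c0
  have h2' : f a v = 0 := by
    rcases mul_eq_zero.1 h2 with h | h
    · exact absurd h hζ
    · exact h
  have h3' : f b v = 0 := by
    rcases mul_eq_zero.1 h3 with h | h
    · exact absurd h hζ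
    · exact h
  by_cases h4 : f a u = 0
  · refine ⟨b, hb, h3', fun h5 => hx ?_⟩
    rw [h4, h5, mul_zero, add_zero]
  · exact ⟨a, ha, h2', h4⟩

/-- Elements of `M` preserving the rational structure. -/
def good (P : GL (Fin n) F) (F₀ : Subfield F) (M : Subgroup (GL (Fin n) F))
    (A : GL (Fin n) F) : Prop :=
  A ∈ M ∧ ∀ x, Rat P F₀ x → Rat P F₀ (A.1 *ᵥ x)

theorem good_mul (A B : GL (Fin n) F) (hA : good P F₀ M A) (hB : good P F₀ M B) :
    good P F₀ M (A * B) := by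
  refine ⟨M.mul_mem hA.1 hB.1, fun x hx => ?_⟩
  rw [Units.val_mul, ← Matrix.mulVec_mulVec]
  exact hA.2 _ (hB.2 x hx)

theorem move1_R (hS : SCfg σ f F₀ ζ θ P M) (a a' : Fin n → F) (ha : Rat P F₀ a)
    (ha' : Rat P F₀ a') (h : f a a' ≠ 0) :
    ∃ A, good P F₀ M A ∧ A.1 *ᵥ a = a' ∧ ∀ x, f x a = 0 → f x a' = 0 → A.1 *ᵥ x = x := by
  have hζ := hS.uc.c0
  have hc : (ζ * f a a')⁻¹ ∈ F₀ := F₀.inv_mem (hS.rat a a' ha ha')
  have hd := rat_sub P F₀ a a' ha ha'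
  obtain ⟨A, hA, hAx⟩ := hS.tvR (a - a') hd _ hc
  refine ⟨A, ⟨hA, fun x hx => ?_⟩, ?_, fun x h1 h2 => ?_⟩
  · rw [hAx]
    apply rat_add P F₀ _ _ hx
    apply rat_smul P F₀ _ _ _ hd
    have e : ζ * (ζ * f a a')⁻¹ * f x (a - a') = (ζ * f a a')⁻¹ * (ζ * f x (a - a')) := by ring
    rw [e]
    exact F₀.mul_mem hc (hS.rat x _ hx hd)
  · rw [hAx, subr hS.uc, hS.alt a ha, zero_sub]
    have e : ζ * (ζ * f a a')⁻¹ * -f a a' = -1 := by
      field_simp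
    rw [e]
    module
  · rw [hAx, subr hS.uc, h1, h2, sub_zero, mul_zero, zero_smul, add_zero]

theorem move0_R (hS : SCfg σ f F₀ ζ θ P M) (v v' : Fin n → F) (hv : Rat P F₀ v)
    (hv' : Rat P F₀ v') (hv0 : v ≠ 0) (hv0' : v' ≠ 0) :
    ∃ A, good P F₀ M A ∧ A.1 *ᵥ v = v' := by
  by_cases h : f v v' = 0
  · obtain ⟨x₁, hx₁r, hx₁⟩ := nd_R hS v hv0
    obtain ⟨x₂, hx₂r, hx₂⟩ := nd_R hS v' hv0'
    obtain ⟨z, hz1, hz2, hz⟩ := conn hS.uc v v' x₁ x₂ hx₁ hx₂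
    have hzr : Rat P F₀ z := by
      rcases hz with rfl | rfl | rfl
      · exact hx₁r
      · exact hx₂r
      · exact rat_add P F₀ _ _ hx₁r hx₂r
    obtain ⟨A₁, hA₁, e₁, -⟩ := move1_R hS v z hv hzr (h1 hS.uc _ _ hz1)
    obtain ⟨A₂, hA₂, e₂, -⟩ := move1_R hS z v' hzr hv' hz2
    refine ⟨A₂ * A₁, good_mul _ _ hA₂ hA₁, ?_⟩
    rw [Units.val_mul, ← Matrix.mulVec_mulVec, e₁, e₂]
  · obtain ⟨A, hA, e, -⟩ := move1_R hS v v' hv hv' h
    exact ⟨A, hA, e⟩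

theorem move2_R (hS : SCfg σ f F₀ ζ θ P M) (v u u' : Fin n → F) (hv : Rat P F₀ v)
    (hu : Rat P F₀ u) (hu' : Rat P F₀ u') (huv : f u v = 0) (huv' : f u' v = 0)
    (hnu : ∀ c : F, u ≠ c • v) (hnu' : ∀ c : F, u' ≠ c • v) :
    ∃ A, good P F₀ M A ∧ A.1 *ᵥ u = u' ∧ A.1 *ᵥ v = v := by
  have hvu := h0 hS.uc _ _ huv
  have hvu' := h0 hS.uc _ _ huv'
  by_cases h : f u u' = 0
  · obtain ⟨x, hxr, hx0, hx⟩ := experp_R hS v u hv hnu
    obtain ⟨x', hxr', hx0', hx'⟩ := experp_R hS v u' hv hnu'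
    obtain ⟨z, hz1, hz2, hz⟩ := conn hS.uc u u' x x' hx hx'
    have hzr : Rat P F₀ z := by
      rcases hz with rfl | rfl | rfl
      · exact hxr
      · exact hxr'
      · exact rat_add P F₀ _ _ hxr hxr'
    have hzv : f z v = 0 := by
      rcases hz with rfl | rfl | rfl
      · exact hx0
      · exact hx0'
      · rw [hS.uc.al, hx0, hx0', add_zero]
    have hvz := h0 hS.uc _ _ hzv
    obtain ⟨A₁, hA₁, e₁, f₁⟩ := move1_R hS u z hu hzr (h1 hS.uc _ _ hz1)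
    obtain ⟨A₂, hA₂, e₂, f₂⟩ := move1_R hS z u' hzr hu' hz2
    refine ⟨A₂ * A₁, good_mul _ _ hA₂ hA₁, ?_, ?_⟩
    · rw [Units.val_mul, ← Matrix.mulVec_mulVec, e₁, e₂]
    · rw [Units.val_mul, ← Matrix.mulVec_mulVec, f₁ v hvu hvz, f₂ v hvz hvu']
  · obtain ⟨A, hA, e, f'⟩ := move1_R hS u u' hu hu' h
    exact ⟨A, hA, e, f' v hvu hvu'⟩

theorem orbit (hS : SCfg σ f F₀ ζ θ P M) (a b a' b' : Fin n → F) (ha : Rat P F₀ a)
    (hb : Rat P F₀ b) (ha' : Rat P F₀ a') (hb' : Rat P F₀ b') (hb0 : b ≠ 0) (hb0' : b' ≠ 0)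
    (hab : ∀ c : F, a ≠ c • b) (hab' : ∀ c : F, a' ≠ c • b') (hf : f a b = 0)
    (hf' : f a' b' = 0) :
    ∃ A, good P F₀ M A ∧ A.1 *ᵥ a = a' ∧ A.1 *ᵥ b = b' := by
  obtain ⟨A₁, hA₁, e₁⟩ := move0_R hS b b' hb hb' hb0 hb0'
  have h2 : f (A₁.1 *ᵥ a) b' = 0 := by
    rw [← e₁, hS.iso A₁ hA₁.1, hf]
  have h3 : ∀ c : F, A₁.1 *ᵥ a ≠ c • b' := by
    intro c hc
    apply hab c
    have h4 : (A₁⁻¹).1 *ᵥ (A₁.1 *ᵥ a) = (A₁⁻¹).1 *ᵥ (c • b') := by rw [hc]
    rw [SlSp.inv_act, ← e₁, Matrix.mulVec_smul, SlSp.inv_act] at h4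
    exact h4
  obtain ⟨A₂, hA₂, e₂, e₃⟩ := move2_R hS b' (A₁.1 *ᵥ a) a' hb' (hA₁.2 a ha) ha' h2 hf' h3 hab'
  refine ⟨A₂ * A₁, good_mul _ _ hA₂ hA₁, ?_, ?_⟩
  · rw [Units.val_mul, ← Matrix.mulVec_mulVec, e₂]
  · rw [Units.val_mul, ← Matrix.mulVec_mulVec, e₁, e₃]

/-- The transvections along `z` lie in `M`. -/
def memZ (f : (Fin n → F) → (Fin n → F) → F) (F₀ : Subfield F) (ζ : F)
    (M : Subgroup (GL (Fin n) F)) (z : Fin n → F) : Prop :=
  f z z = 0 ∧ ∀ c' ∈ F₀, ∃ A ∈ M, ∀ y, A.1 *ᵥ y = y + (ζ * c' * f y z) • z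

theorem memZ_rat (hS : SCfg σ f F₀ ζ θ P M) (x : Fin n → F) (hx : Rat P F₀ x) :
    memZ f F₀ ζ M x :=
  ⟨hS.alt x hx, hS.tvR x hx⟩

theorem memZ_map (hS : SCfg σ f F₀ ζ θ P M) (A : GL (Fin n) F) (hA : A ∈ M) (z : Fin n → F)
    (hz : memZ f F₀ ζ M z) : memZ f F₀ ζ M (A.1 *ᵥ z) := by
  refine ⟨by rw [hS.iso A hA, hz.1], fun c' hc' => ?_⟩
  obtain ⟨T, hT, hTx⟩ := hz.2 c' hc'
  refine ⟨A * T * A⁻¹, M.mul_mem (M.mul_mem hA hT) (M.inv_mem hA), fun y => ?_⟩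
  rw [Units.val_mul, Units.val_mul, ← Matrix.mulVec_mulVec, ← Matrix.mulVec_mulVec, hTx,
    Matrix.mulVec_add, Matrix.mulVec_smul, SlSp.act_inv]
  have e : f ((A⁻¹).1 *ᵥ y) z = f y (A.1 *ᵥ z) := by
    have e1 := hS.iso A hA ((A⁻¹).1 *ᵥ y) z
    rw [SlSp.act_inv] at e1
    exact e1.symm
  rw [e]

theorem memZ_smul (hS : SCfg σ f F₀ ζ θ P M) (μ : F) (z : Fin n → F)
    (hz : memZ f F₀ ζ M z) : memZ f F₀ ζ M (μ • z) := by
  refine ⟨by rw [hS.uc.sl, sr hS.uc, hz.1, mul_zero, mul_zero], fun c' hc' => ?_⟩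
  have hN : μ * σ μ ∈ F₀ := by
    rw [hS.fix, map_mul, hS.uc.inv, mul_comm]
  obtain ⟨T, hT, hTx⟩ := hz.2 (c' * (μ * σ μ)) (F₀.mul_mem hc' hN)
  refine ⟨T, hT, fun y => ?_⟩
  rw [hTx, sr hS.uc]
  module

theorem core (hS : SCfg σ f F₀ ζ θ P M) (h : GL (Fin n) F) (hh : h ∈ M) (x₀ : Fin n → F)
    (hx₀ : Rat P F₀ x₀) (hnr : ¬ ∃ (μ : F) (y : Fin n → F), Rat P F₀ y ∧ h.1 *ᵥ x₀ = μ • y)
    (z : Fin n → F) (hz : f z z = 0) : memZ f F₀ ζ M z := by
  have hζ := hS.uc.c0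
  have hz₁ := memZ_map hS h hh x₀ (memZ_rat hS x₀ hx₀)
  obtain ⟨a, b, ha, hb, hab⟩ := vdec hS (h.1 *ᵥ x₀)
  have hb0 : b ≠ 0 := by
    intro hb0
    apply hnr
    refine ⟨1, a, ha, ?_⟩
    rw [hab, hb0, smul_zero, add_zero, one_smul]
  have hindep : ∀ c : F, a ≠ c • b := by
    intro c hc
    apply hnr
    refine ⟨c + θ, b, hb, ?_⟩
    rw [hab, hc]
    module
  have iso0 : ∀ a b : Fin n → F, Rat P F₀ a → Rat P F₀ b → f (a + θ • b) (a + θ • b) = 0 →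
      f a b = 0 := by
    intro a b ha hb h1
    have hβ := hS.rat a b ha hb
    have e1 : σ (ζ * f a b) = ζ * f a b := (hS.fix _).1 hβ
    rw [map_mul, hS.uc.c0', ← hS.uc.herm b a] at e1
    simp only [hS.uc.al, ar hS.uc, hS.uc.sl, sr hS.uc, hS.alt a ha, hS.alt b hb, mul_zero,
      add_zero, zero_add] at h1
    have e2 : (σ θ - θ) * (ζ * f a b) = 0 := by linear_combination ζ * h1 + θ * e1
    rcases mul_eq_zero.1 e2 with h3 | h3
    · exact absurd (sub_eq_zero.1 h3) hS.θ1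
    · rcases mul_eq_zero.1 h3 with h4 | h4
      · exact absurd h4 hζ
      · exact h4
  have hfab : f a b = 0 := by
    apply iso0 a b ha hb
    rw [← hab]
    exact hz₁.1
  obtain ⟨a', b', ha', hb', rfl⟩ := vdec hS z
  by_cases hb0' : b' = 0
  · rw [hb0', smul_zero, add_zero]
    exact memZ_rat hS a' ha'
  by_cases hdep : ∃ c : F, a' = c • b'
  · obtain ⟨c, rfl⟩ := hdep
    have e : c • b' + θ • b' = (c + θ) • b' := by module
    rw [e]
    exact memZ_smul hS _ _ (memZ_rat hS b' hb')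
  · push Not at hdep
    obtain ⟨A, hA, e₁, e₂⟩ := orbit hS a b a' b' ha hb ha' hb' hb0 hb0' hindep hdep hfab
      (iso0 a' b' ha' hb' hz)
    have h5 := memZ_map hS A hA.1 _ hz₁
    rw [hab, Matrix.mulVec_add, Matrix.mulVec_smul, e₁, e₂] at h5
    exact h5

end cfg

theorem field_facts [Fintype F] (q : ℕ) (hF : Fintype.card F = q ^ 2) (F₀ : Subfield F)
    (hcard : Fintype.card F = Nat.card F₀ ^ 2) :
    ∃ σ : F ≃+* F, (∀ x, σ x = x ^ q) ∧ (∀ x, σ (σ x) = x) ∧ (∀ x, x ∈ F₀ ↔ σ x = x) ∧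
      ∃ θ : F, σ θ ≠ θ ∧ ∀ x : F, ∃ a ∈ F₀, ∃ b ∈ F₀, x = a + θ * b := by
  classical
  obtain ⟨φ, hφ⟩ := Cfsg.Agent.Helper15.exists_frob hF
  have hinv : ∀ x, φ (φ x) = x := fun x => by
    rw [hφ, hφ]
    exact Cfsg.Agent.Helper15.pow_card_sq hF x
  obtain ⟨σ, hσ⟩ : ∃ σ : F ≃+* F, ∀ x, σ x = φ x :=
    ⟨{ toFun := φ, invFun := φ, left_inv := hinv, right_inv := hinv, map_mul' := φ.map_mul,
       map_add' := φ.map_add }, fun x => rfl⟩
  have hσq : ∀ x, σ x = x ^ q := fun x => by rw [hσ, hφ]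
  have hq : Nat.card F₀ = q := by
    have h1 : Nat.card F₀ ^ 2 = q ^ 2 := by rw [← hcard, hF]
    exact Nat.pow_left_injective (by norm_num : (2 : ℕ) ≠ 0) h1
  have hq2 : 2 ≤ q := Cfsg.Agent.Helper15.two_le_of_card_sq hF
  have hfwd : ∀ x ∈ F₀, x ^ q = x := by
    intro x hx
    have : Fintype F₀ := Fintype.ofFinite F₀
    have h1 := FiniteField.pow_card (⟨x, hx⟩ : F₀)
    rw [← Nat.card_eq_fintype_card, hq] at h1
    have h2 := congrArg Subtype.val h1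
    simpa using h2
  have hS : (Finset.univ.filter (fun x : F => x ^ q = x)).card ≤ q := by
    have hne : (Polynomial.X ^ q - Polynomial.X : Polynomial F) ≠ 0 :=
      FiniteField.X_pow_card_sub_X_ne_zero F hq2
    have hsub : Finset.univ.filter (fun x : F => x ^ q = x) ⊆
        (Polynomial.X ^ q - Polynomial.X : Polynomial F).roots.toFinset := by
      intro x hx
      rw [Finset.mem_filter] at hx
      rw [Multiset.mem_toFinset, Polynomial.mem_roots hne, Polynomial.IsRoot,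
        Polynomial.eval_sub, Polynomial.eval_pow, Polynomial.eval_X, hx.2, sub_self]
    calc (Finset.univ.filter (fun x : F => x ^ q = x)).card
        ≤ (Polynomial.X ^ q - Polynomial.X : Polynomial F).roots.toFinset.card :=
          Finset.card_le_card hsub
      _ ≤ Multiset.card (Polynomial.X ^ q - Polynomial.X : Polynomial F).roots :=
          Multiset.toFinset_card_le _
      _ ≤ (Polynomial.X ^ q - Polynomial.X : Polynomial F).natDegree :=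
          Polynomial.card_roots' _
      _ = q := FiniteField.X_pow_card_sub_X_natDegree_eq F hq2
  have hT : (Finset.univ.filter (fun x : F => x ∈ F₀)).card = q := by
    rw [← hq, Nat.card_eq_fintype_card]
    convert (Fintype.card_subtype (fun x : F => x ∈ F₀)).symm
  have hsubset : Finset.univ.filter (fun x : F => x ∈ F₀) ⊆
      Finset.univ.filter (fun x : F => x ^ q = x) := by
    intro x hx
    rw [Finset.mem_filter] at hx ⊢
    exact ⟨hx.1, hfwd x hx.2⟩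
  have heq := Finset.eq_of_subset_of_card_le hsubset (by
    rw [hT]
    exact hS)
  have hfix : ∀ x, x ∈ F₀ ↔ σ x = x := by
    intro x
    constructor
    · intro hx
      rw [hσq]
      exact hfwd x hx
    · intro hx
      have h1 : x ∈ Finset.univ.filter (fun x : F => x ^ q = x) := by
        rw [Finset.mem_filter]
        exact ⟨Finset.mem_univ _, by rw [← hσq]; exact hx⟩
      rw [← heq, Finset.mem_filter] at h1
      exact h1.2
  obtain ⟨θ, hθ⟩ : ∃ θ : F, θ ∉ F₀ := by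
    by_contra hcon
    push Not at hcon
    have h1 : (Finset.univ.filter (fun x : F => x ∈ F₀)).card = Fintype.card F := by
      rw [Finset.filter_true_of_mem (fun x _ => hcon x)]
      rfl
    rw [hT, hF] at h1
    nlinarith
  have hdec : ∀ x : F, ∃ a ∈ F₀, ∃ b ∈ F₀, x = a + θ * b := by
    have : Fintype F₀ := Fintype.ofFinite F₀
    have hinj : Function.Injective (fun p : F₀ × F₀ => (p.1 : F) + θ * (p.2 : F)) := by
      rintro ⟨a, b⟩ ⟨a', b'⟩ h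
      have h' : (a : F) + θ * (b : F) = (a' : F) + θ * (b' : F) := h
      have hb : b = b' := by
        by_contra hne
        apply hθ
        have hne' : (b : F) - b' ≠ 0 := sub_ne_zero.2 (fun h'' => hne (Subtype.ext h''))
        have e : θ = ((a' : F) - a) / ((b : F) - b') := by
          field_simp
          linear_combination h'
        rw [e]
        exact F₀.div_mem (F₀.sub_mem a'.2 a.2) (F₀.sub_mem b.2 b'.2)
      subst hb
      have ha : (a : F) = a' := by linear_combination h'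
      rw [Subtype.ext ha]
    have hcard2 : Fintype.card (F₀ × F₀) = Fintype.card F := by
      rw [Fintype.card_prod, ← Nat.card_eq_fintype_card, hq, hF]
      ring
    have hbij := (Fintype.bijective_iff_injective_and_card _).2 ⟨hinj, hcard2⟩
    intro x
    obtain ⟨⟨a, b⟩, hab⟩ := hbij.2 x
    exact ⟨a, a.2, b, b.2, hab.symm⟩
  exact ⟨σ, hσq, fun x => by rw [hσ, hσ]; exact hinv x, hfix, θ,
    fun h => hθ ((hfix θ).2 h), hdec⟩

theorem mk_uc [Fintype F] (q : ℕ) (hF : Fintype.card F = q ^ 2) (hn : 13 ≤ n) (σ : F ≃+* F)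
    (hσ : ∀ x, σ x = x ^ q) (hinv : ∀ x, σ (σ x) = x) (θ : F) (hθ : σ θ ≠ θ) (ζ : F)
    (hζ0 : ζ ≠ 0) (hζ : ζ + ζ ^ q = 0) : UCfg σ (Cfsg.hermForm n F q) ⊤ ζ := by
  have hh := Cfsg.Agent.Helper15.hermForm_isHerm hF n
  have hq2 : 2 ≤ q := Cfsg.Agent.Helper15.two_le_of_card_sq hF
  have hne : σ ≠ RingEquiv.refl F := by
    intro h
    apply hθ
    rw [h]
    rfl
  exact
    { inv := hinv
      al := hh.add_left
      sl := hh.smul_left
      herm := fun v w => by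
        rw [hσ]
        exact hh.conj w v
      nd := fun v hv => by
        by_contra hcon
        push Not at hcon
        apply hv
        apply hh.nondeg
        intro x
        rw [hh.conj x v, hcon x, zero_pow (by omega)]
      c0 := hζ0
      c0' := by
        rw [hσ]
        linear_combination hζ
      tr := trace_surj σ hinv hne
      nm := norm_surj σ hinv hne
      par := le_top
      dim := hn }

/-- Unitary transvections lie in the special unitary group. -/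
theorem utv_su {σ : F ≃+* F} {f : (Fin n → F) → (Fin n → F) → F} {ζ : F}
    (hC : UCfg σ f ⊤ ζ) (z : Fin n → F) (hz : f z z = 0) (c : F) (hc : σ c = -c) :
    ∃ A : GL (Fin n) F, A ∈ Cfsg.Geo.specialLinear (Fin n) F ∧
      (∀ x y, f (A.1 *ᵥ x) (A.1 *ᵥ y) = f x y) ∧ ∀ x, A.1 *ᵥ x = x + (c * f x z) • z := by
  have hφ : (c • fl hC z) z = 0 := by
    rw [LinearMap.smul_apply, fl_apply, hz, smul_zero]
  have hact : ∀ x, (transvGL z (c • fl hC z) hφ).1 *ᵥ x = x + (c * f x z) • z := by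
    intro x
    rw [transvGL_mulVec, LinearMap.smul_apply, fl_apply, smul_eq_mul]
  have hiso : ∀ x y, f ((transvGL z (c • fl hC z) hφ).1 *ᵥ x)
      ((transvGL z (c • fl hC z) hφ).1 *ᵥ y) = f x y := by
    intro x y
    rw [hact, hact]
    simp only [hC.al, ar hC, hC.sl, sr hC, hz, mul_zero, add_zero, map_mul, hc]
    rw [← hC.herm z y]
    ring
  exact ⟨_, transvGL_mem_specialLinear _ _ _, hiso, hact⟩

theorem ncrit (P : GL (Fin n) F) (F₀ : Subfield F) (g : GL (Fin n) F)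
    (hg : ∀ y, Rat P F₀ y → Rat P F₀ (g.1 *ᵥ y)) : g ∈ Cfsg.Geo.subfieldSubgroup F₀ P := by
  classical
  have hB : ∀ i j, ((P⁻¹ * g * P : GL (Fin n) F).1) i j ∈ F₀ := by
    intro i j
    obtain ⟨u, hu, hue⟩ := hg (P.1 *ᵥ Pi.single j 1) ⟨Pi.single j 1, fun k => by
      by_cases hk : k = j
      · rw [hk, Pi.single_eq_same]
        exact F₀.one_mem
      · rw [Pi.single_eq_of_ne hk]
        exact F₀.zero_mem, rfl⟩
    have e : (P⁻¹ * g * P : GL (Fin n) F).1 *ᵥ Pi.single j 1 = u := by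
      rw [Units.val_mul, Units.val_mul, ← Matrix.mulVec_mulVec, ← Matrix.mulVec_mulVec, hue,
        SlSp.inv_act]
    have e2 := congrFun e i
    rw [Matrix.mulVec_single_one] at e2
    have e3 : ((P⁻¹ * g * P : GL (Fin n) F).1) i j = u i := e2
    rw [e3]
    exact hu i
  obtain ⟨B₀, hB₀⟩ : ∃ B₀ : Matrix (Fin n) (Fin n) F₀,
      B₀.map F₀.subtype = (P⁻¹ * g * P : GL (Fin n) F).1 :=
    ⟨fun i j => ⟨_, hB i j⟩, by
      ext i j
      rfl⟩
  have hdet : B₀.det ≠ 0 := by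
    intro h0
    have h1 : (B₀.map F₀.subtype).det = F₀.subtype B₀.det := (RingHom.map_det _ _).symm
    rw [h0, map_zero, hB₀] at h1
    have h2 : IsUnit ((P⁻¹ * g * P : GL (Fin n) F).1).det :=
      (Matrix.isUnit_iff_isUnit_det _).1 (Units.isUnit _)
    rw [h1] at h2
    exact not_isUnit_zero h2
  refine ⟨Matrix.GeneralLinearGroup.map F₀.subtype
    (Matrix.GeneralLinearGroup.mkOfDetNeZero B₀ hdet), Subgroup.mem_sup_left ⟨_, rfl⟩, ?_⟩
  apply Units.ext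
  have hk : (Matrix.GeneralLinearGroup.map F₀.subtype
      (Matrix.GeneralLinearGroup.mkOfDetNeZero B₀ hdet)).1 = (P⁻¹ * g * P : GL (Fin n) F).1 :=
    hB₀
  show (P * Matrix.GeneralLinearGroup.map F₀.subtype
    (Matrix.GeneralLinearGroup.mkOfDetNeZero B₀ hdet) * P⁻¹ : GL (Fin n) F).1 = g.1
  rw [Units.val_mul, Units.val_mul, hk, ← Units.val_mul, ← Units.val_mul]
  congr 1
  group

theorem scal_ex (μ : F) (hμ : μ ≠ 0) :
    ∃ s : GL (Fin n) F, s ∈ Cfsg.Geo.scalars (Fin n) F ∧ ∀ x, s.1 *ᵥ x = μ • x := by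
  refine ⟨Units.map (Matrix.scalar (Fin n) : F →+* Matrix (Fin n) (Fin n) F).toMonoidHom
    (Units.mk0 μ hμ), ⟨_, rfl⟩, fun x => ?_⟩
  show (Matrix.scalar (Fin n) μ) *ᵥ x = μ • x
  funext i
  rw [Matrix.scalar_apply, Matrix.mulVec_diagonal, Pi.smul_apply, smul_eq_mul]

theorem ncrit' (P : GL (Fin n) F) (F₀ : Subfield F) (g : GL (Fin n) F) (μ : F) (hμ : μ ≠ 0)
    (hg : ∀ y, Rat P F₀ y → ∃ y', Rat P F₀ y' ∧ g.1 *ᵥ y = μ • y') :
    g ∈ Cfsg.Geo.subfieldSubgroup F₀ P := by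
  obtain ⟨s, hs, hsx⟩ := scal_ex (n := n) μ hμ
  have hsN : s ∈ Cfsg.Geo.subfieldSubgroup F₀ P := by
    refine ⟨s, Subgroup.mem_sup_right hs, ?_⟩
    apply Cfsg.Agent.S5631.gl_ext_mulVec
    intro x
    show (P * s * P⁻¹ : GL (Fin n) F).1 *ᵥ x = s.1 *ᵥ x
    rw [Units.val_mul, Units.val_mul, ← Matrix.mulVec_mulVec, ← Matrix.mulVec_mulVec, hsx,
      Matrix.mulVec_smul, SlSp.act_inv, hsx]
  have h1 : s⁻¹ * g ∈ Cfsg.Geo.subfieldSubgroup F₀ P := by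
    apply ncrit
    intro y hy
    obtain ⟨y', hy', e⟩ := hg y hy
    rw [Units.val_mul, ← Matrix.mulVec_mulVec, e]
    have e2 : (s⁻¹).1 *ᵥ (μ • y') = y' := by
      rw [← hsx, SlSp.inv_act]
    rw [e2]
    exact hy'
  have h2 := (Cfsg.Geo.subfieldSubgroup F₀ P).mul_mem hsN h1
  rwa [mul_inv_cancel_left] at h2

/-- Elements preserving the set of scalar multiples of rational vectors. -/
def stabS (P : GL (Fin n) F) (F₀ : Subfield F) : Subgroup (GL (Fin n) F) where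
  carrier := {g | ∀ x, (∃ (μ : F) (y : Fin n → F), Rat P F₀ y ∧ g.1 *ᵥ x = μ • y) ↔
    (∃ (μ : F) (y : Fin n → F), Rat P F₀ y ∧ x = μ • y)}
  mul_mem' := by
    intro a b ha hb x
    rw [Units.val_mul, ← Matrix.mulVec_mulVec, ha, hb]
  one_mem' := by
    intro x
    rw [Units.val_one, Matrix.one_mulVec]
  inv_mem' := by
    intro a ha x
    have h := ha ((a⁻¹).1 *ᵥ x)
    rw [SlSp.act_inv] at h
    exact h.symm

theorem stab_of_rat (P : GL (Fin n) F) (F₀ : Subfield F) (g : GL (Fin n) F)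
    (h1 : ∀ y, Rat P F₀ y → Rat P F₀ (g.1 *ᵥ y))
    (h2 : ∀ y, Rat P F₀ y → Rat P F₀ ((g⁻¹).1 *ᵥ y)) : g ∈ stabS P F₀ := by
  intro x
  constructor
  · rintro ⟨μ, y, hy, e⟩
    refine ⟨μ, (g⁻¹).1 *ᵥ y, h2 y hy, ?_⟩
    rw [← Matrix.mulVec_smul, ← e, SlSp.inv_act]
  · rintro ⟨μ, y, hy, e⟩
    exact ⟨μ, g.1 *ᵥ y, h1 y hy, by rw [e, Matrix.mulVec_smul]⟩

theorem sub_le_stab (P : GL (Fin n) F) (F₀ : Subfield F) :
    Cfsg.Geo.subfieldSubgroup F₀ P ≤ stabS P F₀ := by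
  unfold Cfsg.Geo.subfieldSubgroup
  rw [Subgroup.map_le_iff_le_comap]
  apply sup_le
  · rintro _ ⟨g₀, rfl⟩
    show (MulAut.conj P).toMonoidHom (Matrix.GeneralLinearGroup.map F₀.subtype g₀) ∈ stabS P F₀
    have key : ∀ (g₁ : GL (Fin n) F₀) (y : Fin n → F), Rat P F₀ y →
        Rat P F₀ ((P * Matrix.GeneralLinearGroup.map F₀.subtype g₁ * P⁻¹ : GL (Fin n) F).1
          *ᵥ y) := by
      intro g₁ y hy
      obtain ⟨u, hu, rfl⟩ := hy
      refine ⟨(Matrix.GeneralLinearGroup.map F₀.subtype g₁).1 *ᵥ u, fun i => ?_, ?_⟩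
      · show (∑ j, (Matrix.GeneralLinearGroup.map F₀.subtype g₁).1 i j * u j) ∈ F₀
        apply F₀.sum_mem
        intro j _
        exact F₀.mul_mem (g₁.1 i j).2 (hu j)
      · rw [Units.val_mul, Units.val_mul, ← Matrix.mulVec_mulVec, ← Matrix.mulVec_mulVec,
          SlSp.inv_act]
    apply stab_of_rat
    · exact key g₀
    · intro y hy
      have e : ((MulAut.conj P).toMonoidHom (Matrix.GeneralLinearGroup.map F₀.subtype g₀))⁻¹
          = P * Matrix.GeneralLinearGroup.map F₀.subtype g₀⁻¹ * P⁻¹ := by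
        rw [map_inv]
        show (P * _ * P⁻¹)⁻¹ = _
        group
      rw [e]
      exact key g₀⁻¹ y hy
  · intro s hs
    show (MulAut.conj P).toMonoidHom s ∈ stabS P F₀
    obtain ⟨c, hc⟩ := (Cfsg.Geo.mem_scalars_iff s).1 hs
    have hsx : ∀ x, s.1 *ᵥ x = (c : F) • x := by
      intro x
      rw [hc, Matrix.smul_mulVec, Matrix.one_mulVec]
    have hconj : ∀ x, ((MulAut.conj P).toMonoidHom s).1 *ᵥ x = (c : F) • x := by
      intro x
      show (P * s * P⁻¹ : GL (Fin n) F).1 *ᵥ x = _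
      rw [Units.val_mul, Units.val_mul, ← Matrix.mulVec_mulVec, ← Matrix.mulVec_mulVec, hsx,
        Matrix.mulVec_smul, SlSp.act_inv]
    intro x
    rw [hconj]
    constructor
    · rintro ⟨μ, y, hy, e⟩
      refine ⟨(c : F)⁻¹ * μ, y, hy, ?_⟩
      rw [← smul_smul, ← e, smul_smul, inv_mul_cancel₀ c.ne_zero, one_smul]
    · rintro ⟨μ, y, hy, e⟩
      exact ⟨(c : F) * μ, y, hy, by rw [e, smul_smul]⟩

theorem nnec (P : GL (Fin n) F) (F₀ : Subfield F) (g : GL (Fin n) F)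
    (hg : g ∈ Cfsg.Geo.subfieldSubgroup F₀ P) (y : Fin n → F) (hy : Rat P F₀ y) :
    ∃ (μ : F) (y' : Fin n → F), Rat P F₀ y' ∧ g.1 *ᵥ y = μ • y' :=
  ((sub_le_stab P F₀ hg) y).2 ⟨1, y, hy, (one_smul _ _).symm⟩

section cfg2

variable {σ : F ≃+* F} {f : (Fin n → F) → (Fin n → F) → F} {F₀ : Subfield F} {ζ θ : F}
  {P : GL (Fin n) F} {M : Subgroup (GL (Fin n) F)}

theorem rat_ex (hS : SCfg σ f F₀ ζ θ P M) (hn : 1 ≤ n) : ∃ x₁, Rat P F₀ x₁ ∧ x₁ ≠ 0 := by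
  obtain ⟨x, hx, hne⟩ := nd_R hS (Pi.single ⟨0, hn⟩ 1) (by
    intro h0
    have h1 := congrFun h0 ⟨0, hn⟩
    simp at h1)
  refine ⟨x, hx, ?_⟩
  rintro rfl
  exact hne (zl hS.uc _)

theorem step2 (hS : SCfg σ f F₀ ζ θ P M) (hn : 1 ≤ n) (h : GL (Fin n) F) (hh : h ∈ M)
    (hN : h ∉ Cfsg.Geo.subfieldSubgroup F₀ P) :
    ∃ x₀, Rat P F₀ x₀ ∧ ¬ ∃ (μ : F) (y : Fin n → F), Rat P F₀ y ∧ h.1 *ᵥ x₀ = μ • y := by
  by_contra hcon
  push Not at hcon
  apply hN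
  have hζ := hS.uc.c0
  choose! mu yy hyy using hcon
  have hinj : ∀ z, z ≠ 0 → h.1 *ᵥ z ≠ 0 := by
    intro z hz0 h0'
    apply hz0
    have h2 := SlSp.inv_act h z
    rw [h0', Matrix.mulVec_zero] at h2
    exact h2.symm
  have hmu0 : ∀ x, Rat P F₀ x → x ≠ 0 → mu x ≠ 0 := by
    intro x hx hx0 h0'
    apply hinj x hx0
    rw [(hyy x hx).2, h0', zero_smul]
  have rule : ∀ x x', Rat P F₀ x → Rat P F₀ x' → f x x' ≠ 0 → mu x * σ (mu x') ∈ F₀ := by
    intro x x' hx hx' hne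
    have e := hS.iso h hh x x'
    rw [(hyy x hx).2, (hyy x' hx').2, hS.uc.sl, sr hS.uc] at e
    have h1 := hS.rat _ _ (hyy x hx).1 (hyy x' hx').1
    have h2 := hS.rat x x' hx hx'
    have hyne : ζ * f (yy x) (yy x') ≠ 0 := by
      intro h0'
      rcases mul_eq_zero.1 h0' with h3 | h3
      · exact hζ h3
      · rw [h3, mul_zero, mul_zero] at e
        exact hne e.symm
    have e2 : mu x * σ (mu x') = (ζ * f x x') / (ζ * f (yy x) (yy x')) := by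
      rw [eq_div_iff hyne]
      linear_combination ζ * e
    rw [e2]
    exact F₀.div_mem h2 h1
  have rule2 : ∀ x x' x'', Rat P F₀ x → Rat P F₀ x' → Rat P F₀ x'' → x' ≠ 0 →
      f x x'' ≠ 0 → f x' x'' ≠ 0 → mu x / mu x' ∈ F₀ := by
    intro x x' x'' hx hx' hx'' hx0' h1 h2
    have r1 := rule x x'' hx hx'' h1
    have r2 := rule x' x'' hx' hx'' h2
    have hx''0 : x'' ≠ 0 := by
      rintro rfl
      exact h1 (zr hS.uc _)
    have hm := hmu0 x' hx' hx0'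
    have hm'' := hmu0 x'' hx'' hx''0
    have hσ'' : σ (mu x'') ≠ 0 := by
      intro h0'
      apply hm''
      have h3 := congrArg σ h0'
      rwa [hS.uc.inv, map_zero] at h3
    have e : mu x / mu x' = (mu x * σ (mu x'')) / (mu x' * σ (mu x'')) := by
      field_simp
    rw [e]
    exact F₀.div_mem r1 r2
  obtain ⟨x₁, hx₁, hx₁0⟩ := rat_ex hS hn
  apply ncrit' P F₀ h (mu x₁) (hmu0 x₁ hx₁ hx₁0)
  intro y hy
  by_cases hy0 : y = 0
  · exact ⟨0, rat_zero P F₀, by rw [hy0, Matrix.mulVec_zero, smul_zero]⟩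
  · obtain ⟨w₁, hw₁r, hw₁⟩ := nd_R hS y hy0
    obtain ⟨w₂, hw₂r, hw₂⟩ := nd_R hS x₁ hx₁0
    obtain ⟨w, hw1, hw2, hw⟩ := conn hS.uc y x₁ w₁ w₂ hw₁ hw₂
    have hwr : Rat P F₀ w := by
      rcases hw with rfl | rfl | rfl
      · exact hw₁r
      · exact hw₂r
      · exact rat_add P F₀ _ _ hw₁r hw₂r
    have r := rule2 y x₁ w hy hx₁ hwr hx₁0 (h1 hS.uc _ _ hw1) (h1 hS.uc _ _ hw2)
    refine ⟨(mu y / mu x₁) • yy y, rat_smul P F₀ _ r _ (hyy y hy).1, ?_⟩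
    rw [(hyy y hy).2, smul_smul, mul_div_cancel₀ _ (hmu0 x₁ hx₁ hx₁0)]

end cfg2

theorem tvR_concrete {σ : F ≃+* F} {f : (Fin n → F) → (Fin n → F) → F} {F₀ : Subfield F}
    {ζ : F} {P : GL (Fin n) F} (hC : UCfg σ f ⊤ ζ) (hfix : ∀ x, x ∈ F₀ ↔ σ x = x)
    (hrat : ∀ x y, Rat P F₀ x → Rat P F₀ y → ζ * f x y ∈ F₀)
    (halt : ∀ x, Rat P F₀ x → f x x = 0) (x : Fin n → F) (hx : Rat P F₀ x) (c' : F)
    (hc' : c' ∈ F₀) :
    ∃ A : GL (Fin n) F, A ∈ Cfsg.Geo.subfieldSubgroup F₀ P ∧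
      A ∈ Cfsg.Geo.specialLinear (Fin n) F ∧ (∀ u v, f (A.1 *ᵥ u) (A.1 *ᵥ v) = f u v) ∧
      ∀ y, A.1 *ᵥ y = y + (ζ * c' * f y x) • x := by
  have hc : σ (ζ * c') = -(ζ * c') := by
    rw [map_mul, hC.c0', (hfix c').1 hc']
    ring
  obtain ⟨A, hSL, hiso, hact⟩ := utv_su hC x (halt x hx) (ζ * c') hc
  refine ⟨A, ?_, hSL, hiso, hact⟩
  apply ncrit
  intro y hy
  rw [hact]
  apply rat_add P F₀ _ _ hy
  apply rat_smul P F₀ _ _ _ hx
  have e : ζ * c' * f y x = c' * (ζ * f y x) := by ring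
  rw [e]
  exact F₀.mul_mem hc' (hrat y x hy hx)

theorem main [Fintype F] (n q : ℕ) (hF : Fintype.card F = q ^ 2) (hn : 13 ≤ n)
    (F₀ : Subfield F) (hcard : Fintype.card F = Nat.card F₀ ^ 2) (ζ : F) (hζ0 : ζ ≠ 0)
    (hζ : ζ + ζ ^ q = 0) (P : GL (Fin n) F)
    (hP : Cfsg.Geo.IsFormRationalStructure (Cfsg.hermForm n F q) F₀ ζ P)
    (halt : ∀ u : Fin n → F, (∀ i, u i ∈ F₀) →
      Cfsg.hermForm n F q (P.1 *ᵥ u) (P.1 *ᵥ u) = 0) :
    Cfsg.Geo.IsMaximalIn (Cfsg.GU n F q ⊓ Cfsg.Geo.specialLinear (Fin n) F)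
      (Cfsg.Geo.subfieldSubgroup F₀ P ⊓
        (Cfsg.GU n F q ⊓ Cfsg.Geo.specialLinear (Fin n) F)) := by
  classical
  obtain ⟨m, rfl⟩ : ∃ m, n = m + 2 := ⟨n - 2, by omega⟩
  obtain ⟨σ, hσ, hinv, hfix, θ, hθ, hdec⟩ := field_facts q hF F₀ hcard
  have hC := mk_uc (n := m + 2) q hF hn σ hσ hinv θ hθ ζ hζ0 hζ
  have hrat : ∀ x y, Rat P F₀ x → Rat P F₀ y →
      ζ * Cfsg.hermForm (m + 2) F q x y ∈ F₀ := by
    rintro _ _ ⟨u, hu, rfl⟩ ⟨v, hv, rfl⟩
    exact hP u v hu hv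
  have halt' : ∀ x, Rat P F₀ x → Cfsg.hermForm (m + 2) F q x x = 0 := by
    rintro _ ⟨u, hu, rfl⟩
    exact halt u hu
  have mkS : ∀ M : Subgroup (GL (Fin (m + 2)) F),
      Cfsg.Geo.subfieldSubgroup F₀ P ⊓
        (Cfsg.GU (m + 2) F q ⊓ Cfsg.Geo.specialLinear (Fin (m + 2)) F) ≤ M →
      M ≤ Cfsg.GU (m + 2) F q ⊓ Cfsg.Geo.specialLinear (Fin (m + 2)) F →
      SCfg σ (Cfsg.hermForm (m + 2) F q) F₀ ζ θ P M := by
    intro M h1 h2
    exact
      { uc := hC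
        fix := hfix
        θ1 := hθ
        dec := hdec
        rat := hrat
        alt := halt'
        iso := fun A hA x y => (Cfsg.Agent.Helper15.mem_GU_iff _ _ A).1 (h2 hA).1 x y
        tvR := fun x hx c' hc' => by
          obtain ⟨A, hA1, hA2, hA3, hA4⟩ := tvR_concrete hC hfix hrat halt' x hx c' hc'
          exact ⟨A, h1 ⟨hA1, (Cfsg.Agent.Helper15.mem_GU_iff _ _ A).2 hA3, hA2⟩, hA4⟩ }
  constructor
  · refine lt_of_le_of_ne inf_le_right ?_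
    intro heq
    have hS := mkS _ le_rfl inf_le_right
    obtain ⟨b, hb, hb0⟩ := rat_ex hS (by omega)
    obtain ⟨y₁, hy₁⟩ := nd' hC b hb0
    obtain ⟨a₀, ha₀0, -, ha₀⟩ := iso_ex hC 2 (by omega) ![b, y₁]
    have ha₀b : Cfsg.hermForm (m + 2) F q a₀ b = 0 := ha₀ 0
    have ha₀y : Cfsg.hermForm (m + 2) F q a₀ y₁ = 0 := ha₀ 1
    have ha₀n : ∀ c : F, a₀ ≠ c • b := by
      intro c hc
      have h2 := ha₀y
      rw [hc, hC.sl] at h2
      rcases mul_eq_zero.1 h2 with h | h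
      · exact ha₀0 (by rw [hc, h, zero_smul])
      · exact hy₁ h
    obtain ⟨a₁, a₂, ha₁, ha₂, hdec0⟩ := vdec hS a₀
    have h12 : Cfsg.hermForm (m + 2) F q a₁ b = 0 ∧ Cfsg.hermForm (m + 2) F q a₂ b = 0 := by
      rw [hdec0, hC.al, hC.sl] at ha₀b
      have h1 : ζ * Cfsg.hermForm (m + 2) F q a₁ b
          + θ * (ζ * Cfsg.hermForm (m + 2) F q a₂ b) = 0 := by
        linear_combination ζ * ha₀b
      obtain ⟨h2, h3⟩ := sdec_unique hS _ _ (hS.rat a₁ b ha₁ hb) (hS.rat a₂ b ha₂ hb) h1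
      exact ⟨(mul_eq_zero.1 h2).resolve_left hζ0, (mul_eq_zero.1 h3).resolve_left hζ0⟩
    obtain ⟨a, ha, hab, han⟩ : ∃ a, Rat P F₀ a ∧ Cfsg.hermForm (m + 2) F q a b = 0 ∧
        ∀ c : F, a ≠ c • b := by
      by_cases h1 : ∀ c : F, a₁ ≠ c • b
      · exact ⟨a₁, ha₁, h12.1, h1⟩
      · push Not at h1
        obtain ⟨c₁, hc₁⟩ := h1
        refine ⟨a₂, ha₂, h12.2, fun c hc => ?_⟩
        apply ha₀n (c₁ + θ * c)
        rw [hdec0, hc₁, hc]
        module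
    obtain ⟨x, hx, hxb, hxa⟩ := experp_R hS b a hb han
    have hz : Cfsg.hermForm (m + 2) F q (a + θ • b) (a + θ • b) = 0 := by
      simp only [hC.al, ar hC, hC.sl, sr hC, hS.alt a ha, hS.alt b hb, hab, h0 hC _ _ hab,
        mul_zero, add_zero]
    obtain ⟨T, hT1, hT2, hT3⟩ := utv_su hC (a + θ • b) hz ζ hC.c0'
    have hTN : T ∈ Cfsg.Geo.subfieldSubgroup F₀ P := by
      have h1 : T ∈ Cfsg.GU (m + 2) F q ⊓ Cfsg.Geo.specialLinear (Fin (m + 2)) F :=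
        ⟨(Cfsg.Agent.Helper15.mem_GU_iff _ _ T).2 hT2, hT1⟩
      exact ((le_of_eq heq.symm) h1).1
    obtain ⟨μ, y', hy', e⟩ := nnec P F₀ T hTN x hx
    rw [hT3] at e
    have e1 : Cfsg.hermForm (m + 2) F q x (a + θ • b) = Cfsg.hermForm (m + 2) F q x a := by
      rw [ar hC, sr hC, hxb, mul_zero, add_zero]
    rw [e1] at e
    obtain ⟨m₀, hm₀, m₁, hm₁, hμ⟩ := hdec μ
    have hκ := hS.rat x a hx ha
    have e2 : (x + (ζ * Cfsg.hermForm (m + 2) F q x a) • a - m₀ • y')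
        + θ • ((ζ * Cfsg.hermForm (m + 2) F q x a) • b - m₁ • y') = 0 := by
      have h1 : x + (ζ * Cfsg.hermForm (m + 2) F q x a) • (a + θ • b)
          - (m₀ + θ * m₁) • y' = 0 := by
        rw [← hμ, e, sub_self]
      rw [← h1]
      module
    obtain ⟨e3, e4⟩ := vdec_unique hS _ _
      (rat_sub P F₀ _ _ (rat_add P F₀ _ _ hx (rat_smul P F₀ _ hκ _ ha))
        (rat_smul P F₀ _ hm₀ _ hy'))
      (rat_sub P F₀ _ _ (rat_smul P F₀ _ hκ _ hb) (rat_smul P F₀ _ hm₁ _ hy')) e2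
    have hκ0 : ζ * Cfsg.hermForm (m + 2) F q x a ≠ 0 := mul_ne_zero hζ0 hxa
    have hm₁0 : m₁ ≠ 0 := by
      intro h0'
      rw [h0', zero_smul, sub_zero] at e4
      exact hb0 ((smul_eq_zero.1 e4).resolve_left hκ0)
    have hy'e : y' = ((ζ * Cfsg.hermForm (m + 2) F q x a) / m₁) • b := by
      have h1 : m₁ • y' = (ζ * Cfsg.hermForm (m + 2) F q x a) • b := (sub_eq_zero.1 e4).symm
      rw [div_eq_inv_mul, ← smul_smul, ← h1, smul_smul, inv_mul_cancel₀ hm₁0, one_smul]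
    have hxe : x = m₀ • y' - (ζ * Cfsg.hermForm (m + 2) F q x a) • a := by
      have h1 := sub_eq_zero.1 e3
      rw [← h1]
      module
    apply hxa
    rw [hxe, hy'e, subl hC, hC.sl, hC.sl, hC.sl, h0 hC _ _ hab, hS.alt a ha]
    ring
  · intro M hPM hMK
    by_cases hMP : M = Cfsg.Geo.subfieldSubgroup F₀ P ⊓
        (Cfsg.GU (m + 2) F q ⊓ Cfsg.Geo.specialLinear (Fin (m + 2)) F)
    · exact Or.inl hMP
    right
    have hS := mkS M hPM hMK
    apply le_antisymm hMK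
    obtain ⟨h, hhM, hhN⟩ : ∃ h ∈ M, h ∉ Cfsg.Geo.subfieldSubgroup F₀ P := by
      by_contra hcon
      push Not at hcon
      exact hMP (le_antisymm (fun x hx => ⟨hcon x hx, hMK hx⟩) hPM)
    obtain ⟨x₀, hx₀, hnr⟩ := step2 hS (by omega) h hhM hhN
    have hZ := core hS h hhM x₀ hx₀ hnr
    intro g hg
    have hdet : (g : Matrix (Fin (m + 2)) (Fin (m + 2)) F).det = 1 := by
      have h1 : g ∈ Cfsg.Geo.specialLinear (Fin (m + 2)) F := hg.2
      rw [Cfsg.Geo.specialLinear, MonoidHom.mem_ker] at h1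
      have h2 := congrArg Units.val h1
      rwa [Matrix.GeneralLinearGroup.val_det_apply, Units.val_one] at h2
    have hsu := Cfsg.Agent.Helper15.suTr_all hF m (by omega) g hg.1 hdet
    have hle : Cfsg.Agent.Helper15.suTr (m + 2) F q ≤ M := by
      unfold Cfsg.Agent.Helper15.suTr
      rw [Subgroup.closure_le]
      rintro t ⟨htG, v, c, hv, htm⟩
      have hact : ∀ x, t.1 *ᵥ x = x + (c * Cfsg.hermForm (m + 2) F q x v) • v := by
        intro x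
        rw [htm, Cfsg.Agent.Helper15.utransv_mulVec]
      by_cases hv0 : v = 0
      · have e : t = 1 := by
          apply Cfsg.Agent.S5631.gl_ext_mulVec
          intro x
          rw [hact, hv0, smul_zero, add_zero, Units.val_one, Matrix.one_mulVec]
        rw [e]
        exact M.one_mem
      by_cases hc0 : c = 0
      · have e : t = 1 := by
          apply Cfsg.Agent.S5631.gl_ext_mulVec
          intro x
          rw [hact, hc0, zero_mul, zero_smul, add_zero, Units.val_one, Matrix.one_mulVec]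
        rw [e]
        exact M.one_mem
      have hcσ : σ c = -c := by
        obtain ⟨x, hx⟩ := hC.nd v hv0
        have e := (Cfsg.Agent.Helper15.mem_GU_iff _ _ t).1 htG x x
        rw [hact] at e
        simp only [hC.al, ar hC, hC.sl, sr hC, hv, mul_zero, add_zero, map_mul,
          ← hC.herm v x] at e
        have hvx := h1 hC _ _ hx
        have e2 : (σ c + c) * (Cfsg.hermForm (m + 2) F q x v
            * Cfsg.hermForm (m + 2) F q v x) = 0 := by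
          linear_combination e
        rcases mul_eq_zero.1 e2 with h3 | h3
        · linear_combination h3
        · exact absurd h3 (mul_ne_zero hx hvx)
      have hcF : c / ζ ∈ F₀ := by
        rw [hfix, map_div₀, hcσ, hC.c0', neg_div_neg_eq]
      obtain ⟨A, hA, hAx⟩ := (hZ v hv).2 (c / ζ) hcF
      have e : t = A := by
        apply Cfsg.Agent.S5631.gl_ext_mulVec
        intro x
        rw [hact, hAx]
        have e3 : ζ * (c / ζ) * Cfsg.hermForm (m + 2) F q x v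
            = c * Cfsg.hermForm (m + 2) F q x v := by
          field_simp
        rw [e3]
      rw [e]
      exact hA
    exact hle hsu

end Cfsg.Agent.Helper18.SuSp
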