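import Mathlib
import Cfsg.Prelude.Def_GeometricClasses
import Cfsg.Agent.Helper15.SUGen9
import Cfsg.Agent.Helper18.SlU
import Cfsg.Agent.Helper18.SuSp

set_option autoImplicit false

namespace Cfsg.Agent.Helper18.SuNd

open scoped Matrix

open scoped MatrixGroups

open Cfsg.Agent.Helper28

open Cfsg.Agent.Helper18.SlU

variable {F : Type*} [Field F] {n : ℕ}

/-- Geometric configuration: a nondegenerate subspace `W` and its orthogonal complement `U`. -/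
structure GCfg (σ : F ≃+* F) (f : (Fin n → F) → (Fin n → F) → F) (c₀ : F)
    (W U : Submodule F (Fin n → F)) : Prop where
  uc : UCfg σ f ⊤ c₀
  orth : ∀ w ∈ W, ∀ u ∈ U, f w u = 0
  dec : ∀ x, ∃ a ∈ W, ∃ b ∈ U, a + b = x
  wnd : ∀ w ∈ W, w ≠ 0 → ∃ x ∈ W, f x w ≠ 0
  iso : ∀ y₁ y₂ y₃ y₄ : Fin n → F, ∃ z ∈ U, z ≠ 0 ∧ f z z = 0 ∧ f z y₁ = 0 ∧ f z y₂ = 0 ∧
    f z y₃ = 0 ∧ f z y₄ = 0

section geo

variable {σ : F ≃+* F} {f : (Fin n → F) → (Fin n → F) → F} {c₀ : F}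
  {W U : Submodule F (Fin n → F)}

theorem und (hG : GCfg σ f c₀ W U) (u : Fin n → F) (hu : u ∈ U) (hu0 : u ≠ 0) :
    ∃ x ∈ U, f x u ≠ 0 := by
  obtain ⟨v, hv⟩ := hG.uc.nd u hu0
  obtain ⟨a, ha, b, hb, hab⟩ := hG.dec v
  refine ⟨b, hb, ?_⟩
  rw [← hab, hG.uc.al, hG.orth a ha u hu, zero_add] at hv
  exact hv

theorem experpU (hG : GCfg σ f c₀ W U) (u u' : Fin n → F) (hu : u ∈ U) (hu' : u' ∈ U)
    (hind : ∀ c : F, u' ≠ c • u) : ∃ p ∈ U, f p u = 0 ∧ f p u' ≠ 0 := by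
  obtain ⟨x, hx1, hx2⟩ := experp hG.uc u u' hind
  obtain ⟨a, ha, b, hb, hab⟩ := hG.dec x
  refine ⟨b, hb, ?_, ?_⟩
  · rw [← hab, hG.uc.al, hG.orth a ha u hu, zero_add] at hx1
    exact hx1
  · rw [← hab, hG.uc.al, hG.orth a ha u' hu', zero_add] at hx2
    exact hx2

theorem dualU (hG : GCfg σ f c₀ W U) (u u' : Fin n → F) (hu : u ∈ U) (hu' : u' ∈ U)
    (hind : ∀ c : F, u' ≠ c • u) : ∃ p ∈ U, f p u = 0 ∧ f p u' = 1 := by
  obtain ⟨p, hp, h1, h2⟩ := experpU hG u u' hu hu' hind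
  refine ⟨(f p u')⁻¹ • p, U.smul_mem _ hp, ?_, ?_⟩
  · rw [hG.uc.sl, h1, mul_zero]
  · rw [hG.uc.sl, inv_mul_cancel₀ h2]

theorem pre (hG : GCfg σ f c₀ W U) (u u' : Fin n → F) (hu : u ∈ U) (hu' : u' ∈ U)
    (hu0 : u ≠ 0) (hind : ∀ c : F, u' ≠ c • u) (x y β : F) (hβ : σ β = β) :
    ∃ v ∈ U, f v v = β ∧ f v u = x ∧ f v u' = y := by
  have hC := hG.uc
  have hind' : ∀ c : F, u ≠ c • u' := by
    intro c hc
    by_cases hc0 : c = 0
    · rw [hc0, zero_smul] at hc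
      exact hu0 hc
    · apply hind c⁻¹
      rw [hc, smul_smul, inv_mul_cancel₀ hc0, one_smul]
  obtain ⟨p', hp', hp'1, hp'2⟩ := dualU hG u u' hu hu' hind
  obtain ⟨p, hp, hp1, hp2⟩ := dualU hG u' u hu' hu hind'
  obtain ⟨e, he, he0, hee, he1, he2, he3, he4⟩ := hG.iso u u' p p'
  obtain ⟨y₀, hy₀, hy₀e⟩ := und hG e he he0
  have hpe : f p e = 0 := h0 hC _ _ he3
  have hp'e : f p' e = 0 := h0 hC _ _ he4
  obtain ⟨d, hddef⟩ : ∃ d, d = (x - f y₀ u) • p + (y - f y₀ u') • p' + y₀ := ⟨_, rfl⟩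
  have hdU : d ∈ U := by
    rw [hddef]
    exact U.add_mem (U.add_mem (U.smul_mem _ hp) (U.smul_mem _ hp')) hy₀
  have hdu : f d u = x := by
    rw [hddef, hC.al, hC.al, hC.sl, hC.sl, hp2, hp'1]
    ring
  have hdu' : f d u' = y := by
    rw [hddef, hC.al, hC.al, hC.sl, hC.sl, hp1, hp'2]
    ring
  have hde : f d e = f y₀ e := by
    rw [hddef, hC.al, hC.al, hC.sl, hC.sl, hpe, hp'e]
    ring
  have hde0 : f d e ≠ 0 := by
    rw [hde]
    exact hy₀e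
  have hed : f e d ≠ 0 := h1 hC _ _ hde0
  obtain ⟨μ, hμ⟩ := hC.tr (β - f d d) (by rw [map_sub, hβ, fixd hC])
  have ha1 : (μ / f e d) * f e d = μ := div_mul_cancel₀ _ hed
  have ha2 : σ (μ / f e d) * f d e = σ μ := by
    rw [map_div₀, ← hC.herm d e, div_mul_cancel₀ _ hde0]
  refine ⟨d + (μ / f e d) • e, U.add_mem hdU (U.smul_mem _ he), ?_, ?_, ?_⟩
  · simp only [hC.al, ar hC, hC.sl, sr hC, hee, mul_zero, add_zero]
    linear_combination hμ + ha1 + ha2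
  · rw [hC.al, hC.sl, he1, mul_zero, add_zero, hdu]
  · rw [hC.al, hC.sl, he2, mul_zero, add_zero, hdu']

theorem presc (hG : GCfg σ f c₀ W U) (β₁ β₂ γ : F) (h1 : σ β₁ = β₁) (h2 : σ β₂ = β₂) :
    ∃ u₁ ∈ U, ∃ u₂ ∈ U, f u₁ u₁ = β₁ ∧ f u₂ u₂ = β₂ ∧ f u₁ u₂ = γ ∧ u₁ ≠ 0 ∧
      u₁ + u₂ ≠ 0 := by
  have hC := hG.uc
  obtain ⟨e, he, he0, hee, -⟩ := hG.iso 0 0 0 0
  obtain ⟨y, hy, hye⟩ := und hG e he he0
  have hind : ∀ c : F, y ≠ c • e := by
    intro c hc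
    apply hye
    rw [hc, hC.sl, hee, mul_zero]
  obtain ⟨u₁, hu₁, hn1, h1e, -⟩ := pre hG e y he hy he0 hind 1 0 β₁ h1
  have hu₁0 : u₁ ≠ 0 := by
    intro h
    rw [h, zl hC] at h1e
    exact zero_ne_one h1e
  have hind2 : ∀ c : F, e ≠ c • u₁ := by
    intro c hc
    have h3 : f e e = c := by
      nth_rewrite 1 [hc]
      rw [hC.sl, h1e, mul_one]
    rw [hee] at h3
    rw [← h3, zero_smul] at hc
    exact he0 hc
  obtain ⟨u₂, hu₂, hn2, h2u, h2e⟩ := pre hG u₁ e hu₁ he hu₁0 hind2 (σ γ) 0 β₂ h2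
  refine ⟨u₁, hu₁, u₂, hu₂, hn1, hn2, ?_, hu₁0, ?_⟩
  · rw [hC.herm, h2u, hC.inv]
  · intro h
    have h3 : f (u₁ + u₂) e = 1 := by rw [hC.al, h1e, h2e, add_zero]
    rw [h, zl hC] at h3
    exact zero_ne_one h3

theorem isoU_ne (hG : GCfg σ f c₀ W U) (u : Fin n → F) (hu : u ∈ U) (hu0 : u ≠ 0) :
    ∃ z ∈ U, f z z = 0 ∧ f z u ≠ 0 := by
  have hC := hG.uc
  obtain ⟨z₁, hz₁, hz₁0, hzz, -⟩ := hG.iso 0 0 0 0
  by_cases h : f z₁ u = 0
  · obtain ⟨x₁, hx₁, hx₁u⟩ := und hG u hu hu0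
    obtain ⟨x₂, hx₂, hx₂z⟩ := und hG z₁ hz₁ hz₁0
    obtain ⟨x, hxu, hxz, hx⟩ := conn hC u z₁ x₁ x₂ hx₁u hx₂z
    have hxU : x ∈ U := by
      rcases hx with rfl | rfl | rfl
      · exact hx₁
      · exact hx₂
      · exact U.add_mem hx₁ hx₂
    obtain ⟨l, hl⟩ := isoadd hC z₁ x hzz (h1 hC _ _ hxz)
    refine ⟨x + l • z₁, U.add_mem hxU (U.smul_mem _ hz₁), hl, ?_⟩
    rw [hC.al, hC.sl, h, mul_zero, add_zero]
    exact hxu
  · exact ⟨z₁, hz₁, hzz, h⟩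

theorem span2 (hG : GCfg σ f c₀ W U) (u : Fin n → F) (hu : u ∈ U) :
    ∃ a ∈ U, ∃ b ∈ U, f a a = 0 ∧ f b b = 0 ∧ a + b = u := by
  have hC := hG.uc
  by_cases hu0 : u = 0
  · exact ⟨0, U.zero_mem, 0, U.zero_mem, zl hC 0, zl hC 0, by rw [hu0, add_zero]⟩
  obtain ⟨z, hz, hzz, hzu⟩ := isoU_ne hG u hu hu0
  obtain ⟨l, hl⟩ := isoadd hC z u hzz hzu
  refine ⟨u + l • z, U.add_mem hu (U.smul_mem _ hz), -(l • z), U.neg_mem (U.smul_mem _ hz),
    hl, ?_, by abel⟩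
  rw [nl hC, nr hC, hC.sl, sr hC, hzz]
  ring

end geo

/-- `z` is isotropic and all unitary transvections along `z` lie in `M`. -/
def inZ (σ : F ≃+* F) (f : (Fin n → F) → (Fin n → F) → F) (M : Subgroup (GL (Fin n) F))
    (z : Fin n → F) : Prop :=
  f z z = 0 ∧ ∀ c : F, σ c = -c → ∃ A ∈ M, ∀ x, A.1 *ᵥ x = x + (c * f x z) • z

/-- Group configuration. -/
structure MCfg (σ : F ≃+* F) (f : (Fin n → F) → (Fin n → F) → F) (c₀ : F)
    (W U : Submodule F (Fin n → F)) (M : Subgroup (GL (Fin n) F)) : Prop where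
  g : GCfg σ f c₀ W U
  iso' : ∀ A ∈ M, ∀ x y, f (A.1 *ᵥ x) (A.1 *ᵥ y) = f x y
  zw : ∀ z ∈ W, f z z = 0 → inZ σ f M z
  zu : ∀ z ∈ U, f z z = 0 → inZ σ f M z

section grp

variable {σ : F ≃+* F} {f : (Fin n → F) → (Fin n → F) → F} {c₀ : F}
  {W U : Submodule F (Fin n → F)} {M : Subgroup (GL (Fin n) F)}

theorem inZ_map (hM : MCfg σ f c₀ W U M) (A : GL (Fin n) F) (hA : A ∈ M) (z : Fin n → F)
    (hz : inZ σ f M z) : inZ σ f M (A.1 *ᵥ z) := by
  refine ⟨by rw [hM.iso' A hA, hz.1], fun c hc => ?_⟩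
  obtain ⟨T, hT, hTx⟩ := hz.2 c hc
  refine ⟨A * T * A⁻¹, M.mul_mem (M.mul_mem hA hT) (M.inv_mem hA), fun y => ?_⟩
  rw [Units.val_mul, Units.val_mul, ← Matrix.mulVec_mulVec, ← Matrix.mulVec_mulVec, hTx,
    Matrix.mulVec_add, Matrix.mulVec_smul, SlSp.act_inv]
  have e : f ((A⁻¹).1 *ᵥ y) z = f y (A.1 *ᵥ z) := by
    have e1 := hM.iso' A hA ((A⁻¹).1 *ᵥ y) z
    rw [SlSp.act_inv] at e1
    exact e1.symm
  rw [e]

theorem inZ_smul (hM : MCfg σ f c₀ W U M) (μ : F) (z : Fin n → F) (hz : inZ σ f M z) :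
    inZ σ f M (μ • z) := by
  have hC := hM.g.uc
  refine ⟨by rw [hC.sl, sr hC, hz.1, mul_zero, mul_zero], fun c hc => ?_⟩
  obtain ⟨T, hT, hTx⟩ := hz.2 (c * (μ * σ μ)) (by
    rw [map_mul, map_mul, hC.inv, hc]
    ring)
  refine ⟨T, hT, fun y => ?_⟩
  rw [hTx, sr hC]
  module

/-- Closure under hyperbolic lines. -/
theorem hl (hM : MCfg σ f c₀ W U M) (z₁ z₂ : Fin n → F) (h1 : inZ σ f M z₁)
    (h2 : inZ σ f M z₂) (hne : f z₁ z₂ ≠ 0) (hiso : f (z₁ + z₂) (z₁ + z₂) = 0) :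
    inZ σ f M (z₁ + z₂) := by
  have hC := hM.g.uc
  have e : f z₁ z₂ + f z₂ z₁ = 0 := by
    have h3 := hiso
    simp only [hC.al, ar hC, h1.1, h2.1] at h3
    linear_combination h3
  have hc : σ (f z₁ z₂)⁻¹ = -(f z₁ z₂)⁻¹ := by
    rw [map_inv₀, ← hC.herm z₂ z₁]
    have h3 : f z₂ z₁ = -f z₁ z₂ := by linear_combination e
    rw [h3, inv_neg]
  obtain ⟨A, hA, hAx⟩ := h2.2 _ hc
  have h3 := inZ_map hM A hA z₁ h1
  rw [hAx, inv_mul_cancel₀ hne, one_smul] at h3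
  exact h3

theorem trans_ind (hM : MCfg σ f c₀ W U M) (w u u' : Fin n → F) (hw : w ∈ W) (hu : u ∈ U)
    (hu' : u' ∈ U) (hu0 : u ≠ 0) (hind : ∀ c : F, u' ≠ c • u) (hN : f u u = f u' u')
    (hz : inZ σ f M (w + u)) : inZ σ f M (w + u') := by
  have hG := hM.g
  have hC := hG.uc
  have hwu : ∀ x ∈ U, f w x = 0 := fun x hx => hG.orth w hw x hx
  have huw : ∀ x ∈ U, f x w = 0 := fun x hx => h0 hC _ _ (hwu x hx)
  have hNw : f w w + f u u = 0 := by
    have h3 := hz.1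
    simp only [hC.al, ar hC, hwu u hu, huw u hu] at h3
    linear_combination h3
  obtain ⟨v, hv, hvv, hvu, hvu'⟩ := pre hG u u' hu hu' hu0 hind (f u u + c₀) (f u u + c₀)
    (f u u) (fixd hC u)
  have huv : f u v = f u u - c₀ := by
    rw [hC.herm, hvu, map_add, fixd hC, hC.c0']
    ring
  have hu'v : f u' v = f u u - c₀ := by
    rw [hC.herm, hvu', map_add, fixd hC, hC.c0']
    ring
  have i1 : f (v - u) (v - u) = 0 := by
    simp only [subl hC, subr hC, hvv, hvu, huv]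
    ring
  have n1 : f (w + u) (v - u) ≠ 0 := by
    rw [hC.al, subr hC, subr hC, hwu v hv, hwu u hu, huv]
    intro h
    apply hC.c0
    linear_combination -h
  have e1 : w + u + (v - u) = w + v := by abel
  have j1 : f (w + u + (v - u)) (w + u + (v - u)) = 0 := by
    rw [e1]
    simp only [hC.al, ar hC, hwu v hv, huw v hv, hvv]
    linear_combination hNw
  have s1 := hl hM _ _ hz (hM.zu _ (U.sub_mem hv hu) i1) n1 j1
  rw [e1] at s1
  have i2 : f (u' - v) (u' - v) = 0 := by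
    simp only [subl hC, subr hC, hvv, hvu', hu'v, ← hN]
    ring
  have n2 : f (w + v) (u' - v) ≠ 0 := by
    rw [hC.al, subr hC, subr hC, hwu u' hu', hwu v hv, hvu', hvv]
    intro h
    apply hC.c0
    linear_combination h
  have e2 : w + v + (u' - v) = w + u' := by abel
  have j2 : f (w + v + (u' - v)) (w + v + (u' - v)) = 0 := by
    rw [e2]
    simp only [hC.al, ar hC, hwu u' hu', huw u' hu', ← hN]
    linear_combination hNw
  have s2 := hl hM _ _ s1 (hM.zu _ (U.sub_mem hu' hv) i2) n2 j2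
  rw [e2] at s2
  exact s2

theorem trans (hM : MCfg σ f c₀ W U M) (w u u' : Fin n → F) (hw : w ∈ W) (hu : u ∈ U)
    (hu' : u' ∈ U) (hu0 : u ≠ 0) (hu0' : u' ≠ 0) (hN : f u u = f u' u')
    (hz : inZ σ f M (w + u)) : inZ σ f M (w + u') := by
  have hG := hM.g
  have hC := hG.uc
  by_cases hind : ∀ c : F, u' ≠ c • u
  · exact trans_ind hM w u u' hw hu hu' hu0 hind hN hz
  push Not at hind
  obtain ⟨c, hc⟩ := hind
  obtain ⟨y₀, hy₀, hy₀u⟩ := und hG u hu hu0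
  obtain ⟨a, ha, ha0, haa, hau, hay, -⟩ := hG.iso u y₀ 0 0
  have hinda : ∀ c' : F, a ≠ c' • u := by
    intro c' hc'
    have h3 : f a y₀ = c' * f u y₀ := by rw [hc', hC.sl]
    rw [hay] at h3
    rcases mul_eq_zero.1 h3.symm with h4 | h4
    · rw [h4, zero_smul] at hc'
      exact ha0 hc'
    · exact h1 hC _ _ hy₀u h4
  obtain ⟨u'', hu'', hn, h2u, h2a⟩ := pre hG u a hu ha hu0 hinda 0 1 (f u u) (fixd hC u)
  have hua : f u a = 0 := h0 hC _ _ hau
  have hind1 : ∀ c' : F, u'' ≠ c' • u := by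
    intro c' hc'
    rw [hc', hC.sl, hua, mul_zero] at h2a
    exact zero_ne_one h2a
  have hu''0 : u'' ≠ 0 := by
    intro h
    rw [h, zl hC] at h2a
    exact zero_ne_one h2a
  have s1 := trans_ind hM w u u'' hw hu hu'' hu0 hind1 hn.symm hz
  have hind2 : ∀ c' : F, u' ≠ c' • u'' := by
    intro c' hc'
    have hc'0 : c' ≠ 0 := by
      intro h
      rw [h, zero_smul] at hc'
      exact hu0' hc'
    apply hind1 (c'⁻¹ * c)
    rw [← smul_smul, ← hc, hc', smul_smul, inv_mul_cancel₀ hc'0, one_smul]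
  exact trans_ind hM w u'' u' hw hu'' hu' hu''0 hind2 (hn.trans hN) s1

/-- `w` is a fully good `W`-component. -/
def inD (σ : F ≃+* F) (f : (Fin n → F) → (Fin n → F) → F) (M : Subgroup (GL (Fin n) F))
    (U : Submodule F (Fin n → F)) (w : Fin n → F) : Prop :=
  ∀ u ∈ U, f u u = - f w w → inZ σ f M (w + u)

theorem inD_of (hM : MCfg σ f c₀ W U M) (w u₀ : Fin n → F) (hw : w ∈ W) (hu₀ : u₀ ∈ U)
    (hu₀0 : u₀ ≠ 0) (hz : inZ σ f M (w + u₀)) : inD σ f M U w := by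
  have hG := hM.g
  have hC := hG.uc
  have hNw : f u₀ u₀ = - f w w := by
    have h3 := hz.1
    simp only [hC.al, ar hC, hG.orth w hw u₀ hu₀, h0 hC _ _ (hG.orth w hw u₀ hu₀)] at h3
    linear_combination h3
  intro u hu hN
  by_cases hu0 : u = 0
  · rw [hu0, add_zero]
    apply hM.zw w hw
    rw [hu0, zl hC] at hN
    linear_combination hN
  · exact trans hM w u₀ u hw hu₀ hu hu₀0 hu0 (by rw [hNw, hN]) hz

theorem inD_zero (hM : MCfg σ f c₀ W U M) : inD σ f M U 0 := by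
  intro u hu hN
  rw [zero_add]
  apply hM.zu u hu
  rw [hN, zl hM.g.uc, neg_zero]

theorem inD_smul (hM : MCfg σ f c₀ W U M) (μ : F) (w : Fin n → F) (hw : inD σ f M U w) :
    inD σ f M U (μ • w) := by
  have hC := hM.g.uc
  by_cases hμ : μ = 0
  · rw [hμ, zero_smul]
    exact inD_zero hM
  intro u hu hN
  have hσμ : σ μ ≠ 0 := (map_ne_zero σ).2 hμ
  have h1 := hw (μ⁻¹ • u) (U.smul_mem _ hu) (by
    rw [hC.sl, sr hC, hN, hC.sl, sr hC, map_inv₀]
    field_simp)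
  have h2 := inZ_smul hM μ _ h1
  rw [smul_add, smul_smul, mul_inv_cancel₀ hμ, one_smul] at h2
  exact h2

theorem inD_add (hM : MCfg σ f c₀ W U M) (w₁ w₂ : Fin n → F) (hw₁ : w₁ ∈ W) (hw₂ : w₂ ∈ W)
    (h1 : inD σ f M U w₁) (h2 : inD σ f M U w₂) : inD σ f M U (w₁ + w₂) := by
  have hG := hM.g
  have hC := hG.uc
  obtain ⟨u₁, hu₁, u₂, hu₂, hn1, hn2, hγ, -, hne⟩ := presc hG (- f w₁ w₁) (- f w₂ w₂)
    (c₀ - f w₁ w₂) (by rw [map_neg, fixd hC]) (by rw [map_neg, fixd hC])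
  have z1 := h1 u₁ hu₁ hn1
  have z2 := h2 u₂ hu₂ hn2
  have hne' : f (w₁ + u₁) (w₂ + u₂) = c₀ := by
    simp only [hC.al, ar hC, hG.orth w₁ hw₁ u₂ hu₂, h0 hC _ _ (hG.orth w₂ hw₂ u₁ hu₁), hγ]
    ring
  have hrev : f (w₂ + u₂) (w₁ + u₁) = -c₀ := by
    rw [hC.herm, hne', hC.c0']
  have hi : f (w₁ + u₁ + (w₂ + u₂)) (w₁ + u₁ + (w₂ + u₂)) = 0 := by
    have e : ∀ a b : Fin n → F, f (a + b) (a + b) = f a a + f a b + f b a + f b b := by
      intro a b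
      rw [hC.al, ar hC, ar hC]
      ring
    rw [e, z1.1, z2.1, hne', hrev]
    ring
  have z := hl hM _ _ z1 z2 (by rw [hne']; exact hC.c0) hi
  have e : w₁ + u₁ + (w₂ + u₂) = (w₁ + w₂) + (u₁ + u₂) := by abel
  rw [e] at z
  exact inD_of hM _ _ (W.add_mem hw₁ hw₂) (U.add_mem hu₁ hu₂) hne z

theorem inD_tv (hM : MCfg σ f c₀ W U M) (w w' : Fin n → F) (hw : w ∈ W) (hw' : w' ∈ W)
    (hD : inD σ f M U w) (hiso : f w' w' = 0) (hne : f w w' ≠ 0) : inD σ f M U w' := by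
  have hG := hM.g
  have hC := hG.uc
  obtain ⟨A, hA, hAx⟩ := (hM.zw w' hw' hiso).2 c₀ hC.c0'
  have hAw : inD σ f M U (A.1 *ᵥ w) := by
    intro u hu hN
    rw [hM.iso' A hA] at hN
    have h3 := inZ_map hM A hA _ (hD u hu hN)
    have hAu : A.1 *ᵥ u = u := by
      rw [hAx, h0 hC _ _ (hG.orth w' hw' u hu), mul_zero, zero_smul, add_zero]
    rw [Matrix.mulVec_add, hAu] at h3
    exact h3
  rw [hAx] at hAw
  have h2 := inD_add hM _ _ (W.add_mem hw (W.smul_mem _ hw')) (W.smul_mem (-1 : F) hw) hAw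
    (inD_smul hM (-1) w hD)
  have e : w + (c₀ * f w w') • w' + (-1 : F) • w = (c₀ * f w w') • w' := by module
  rw [e] at h2
  have h3 := inD_smul hM (c₀ * f w w')⁻¹ _ h2
  rw [smul_smul, inv_mul_cancel₀ (mul_ne_zero hC.c0 hne), one_smul] at h3
  exact h3

theorem inD_all (hM : MCfg σ f c₀ W U M) (w₀ : Fin n → F) (hw₀ : w₀ ∈ W) (hw₀0 : w₀ ≠ 0)
    (hD : inD σ f M U w₀) : ∀ v ∈ W, inD σ f M U v := by
  have hG := hM.g
  have hC := hG.uc
  obtain ⟨w₁, hw₁, hw₁N, hD₁⟩ : ∃ w₁ ∈ W, f w₁ w₁ ≠ 0 ∧ inD σ f M U w₁ := by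
    by_cases hN : f w₀ w₀ = 0
    · obtain ⟨x, hx, hxw⟩ := hG.wnd w₀ hw₀ hw₀0
      obtain ⟨l, hl'⟩ := isoadd hC w₀ x hN (h1 hC _ _ hxw)
      obtain ⟨y, hy⟩ : ∃ y, y = x + l • w₀ := ⟨_, rfl⟩
      rw [← hy] at hl'
      have hyW : y ∈ W := by
        rw [hy]
        exact W.add_mem hx (W.smul_mem _ hw₀)
      have hwy : f w₀ y ≠ 0 := by
        rw [hy, ar hC, sr hC, hN, mul_zero, add_zero]
        exact h1 hC _ _ hxw
      have hDy := inD_tv hM w₀ y hw₀ hyW hD hl' hwy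
      obtain ⟨μ, hμ⟩ := hC.tr 1 (map_one σ)
      have hyw : f y w₀ ≠ 0 := h1 hC _ _ hwy
      have ha1 : (μ / f y w₀) * f y w₀ = μ := div_mul_cancel₀ _ hyw
      have ha2 : σ (μ / f y w₀) * f w₀ y = σ μ := by
        rw [map_div₀, ← hC.herm w₀ y, div_mul_cancel₀ _ hwy]
      refine ⟨w₀ + (μ / f y w₀) • y, W.add_mem hw₀ (W.smul_mem _ hyW), ?_,
        inD_add hM _ _ hw₀ (W.smul_mem _ hyW) hD (inD_smul hM _ _ hDy)⟩
      have e : f (w₀ + (μ / f y w₀) • y) (w₀ + (μ / f y w₀) • y) = 1 := by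
        simp only [hC.al, ar hC, hC.sl, sr hC, hN, hl', mul_zero, add_zero, zero_add]
        linear_combination hμ + ha1 + ha2
      rw [e]
      exact one_ne_zero
    · exact ⟨w₀, hw₀, hN, hD⟩
  have hβ : ∀ w' ∈ W, f w' w' = 0 → inD σ f M U w' := by
    intro w' hw' hiso
    by_cases hw'0 : w' = 0
    · rw [hw'0]
      exact inD_zero hM
    by_cases hne : f w₁ w' = 0
    · obtain ⟨y₁, hy₁, hy₁w⟩ := hG.wnd w' hw' hw'0
      obtain ⟨y₂, hy₂, hy₂w', hy₂w₁⟩ : ∃ y₂ ∈ W, f y₂ w' ≠ 0 ∧ f y₂ w₁ ≠ 0 := by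
        by_cases h : f y₁ w₁ = 0
        · refine ⟨y₁ + w₁, W.add_mem hy₁ hw₁, ?_, ?_⟩
          · rw [hC.al, hne, add_zero]
            exact hy₁w
          · rw [hC.al, h, zero_add]
            exact hw₁N
        · exact ⟨y₁, hy₁, hy₁w, h⟩
      obtain ⟨l, hl'⟩ := isoadd hC w' y₂ hiso (h1 hC _ _ hy₂w')
      have hyW : y₂ + l • w' ∈ W := W.add_mem hy₂ (W.smul_mem _ hw')
      have h1y : f w₁ (y₂ + l • w') ≠ 0 := by
        rw [ar hC, sr hC, hne, mul_zero, add_zero]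
        exact h1 hC _ _ hy₂w₁
      have hy : inD σ f M U (y₂ + l • w') := inD_tv hM w₁ _ hw₁ hyW hD₁ hl' h1y
      have hyw' : f (y₂ + l • w') w' ≠ 0 := by
        rw [hC.al, hC.sl, hiso, mul_zero, add_zero]
        exact hy₂w'
      exact inD_tv hM _ w' hyW hw' hy hiso hyw'
    · exact inD_tv hM w₁ w' hw₁ hw' hD₁ hiso hne
  intro v hv
  obtain ⟨a, ha⟩ : ∃ a, a = f v w₁ / f w₁ w₁ := ⟨_, rfl⟩
  obtain ⟨v', hv'⟩ : ∃ v', v' = v - a • w₁ := ⟨_, rfl⟩
  have hv'W : v' ∈ W := by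
    rw [hv']
    exact W.sub_mem hv (W.smul_mem _ hw₁)
  have hv'w : f v' w₁ = 0 := by
    rw [hv', subl hC, hC.sl, ha, div_mul_cancel₀ _ hw₁N, sub_self]
  have hwv' : f w₁ v' = 0 := h0 hC _ _ hv'w
  have hvdec : v' + a • w₁ = v := by
    rw [hv', sub_add_cancel]
  by_cases hN : f v' v' = 0
  · have h2 := inD_add hM _ _ hv'W (W.smul_mem a hw₁) (hβ _ hv'W hN) (inD_smul hM a w₁ hD₁)
    rw [hvdec] at h2
    exact h2
  · obtain ⟨s, hs⟩ := hC.nm (-(f v' v' / f w₁ w₁))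
      (by rw [map_neg, map_div₀, fixd hC, fixd hC])
      (by
        rw [neg_ne_zero]
        exact div_ne_zero hN hw₁N)
    have hw'W : v' + s • w₁ ∈ W := W.add_mem hv'W (W.smul_mem _ hw₁)
    have hiso : f (v' + s • w₁) (v' + s • w₁) = 0 := by
      simp only [hC.al, ar hC, hC.sl, sr hC, hv'w, hwv', mul_zero, add_zero, zero_add]
      have h2 : s * σ s * f w₁ w₁ = - f v' v' := by
        rw [hs]
        field_simp
      linear_combination h2
    have h2 := inD_add hM _ _ hw'W (W.smul_mem (a - s) hw₁) (hβ _ hw'W hiso)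
      (inD_smul hM (a - s) w₁ hD₁)
    have e : v' + s • w₁ + (a - s) • w₁ = v := by
      rw [← hvdec]
      module
    rw [e] at h2
    exact h2

theorem all_iso (hM : MCfg σ f c₀ W U M) (w₀ u₀ : Fin n → F) (hw₀ : w₀ ∈ W) (hu₀ : u₀ ∈ U)
    (hw₀0 : w₀ ≠ 0) (hu₀0 : u₀ ≠ 0) (hz : inZ σ f M (w₀ + u₀)) (x : Fin n → F)
    (hx : f x x = 0) : inZ σ f M x := by
  have hG := hM.g
  have hC := hG.uc
  obtain ⟨a, ha, b, hb, hab⟩ := hG.dec x
  have hD := inD_all hM w₀ hw₀ hw₀0 (inD_of hM w₀ u₀ hw₀ hu₀ hu₀0 hz) a ha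
  rw [← hab]
  apply hD b hb
  rw [← hab] at hx
  simp only [hC.al, ar hC, hG.orth a ha b hb, h0 hC _ _ (hG.orth a ha b hb)] at hx
  linear_combination hx

end grp

section fin

variable {σ : F ≃+* F} {f : (Fin n → F) → (Fin n → F) → F} {c₀ : F}
  {W U : Submodule F (Fin n → F)} {M : Subgroup (GL (Fin n) F)}

theorem mixed (hM : MCfg σ f c₀ W U M) (h : GL (Fin n) F) (hh : h ∈ M) (w₁ : Fin n → F)
    (hw₁ : w₁ ∈ W) (hw₁' : h.1 *ᵥ w₁ ∉ W)
    (hfr : Module.finrank F W < Module.finrank F U) :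
    ∃ w₀ ∈ W, ∃ u₀ ∈ U, w₀ ≠ 0 ∧ u₀ ≠ 0 ∧ inZ σ f M (w₀ + u₀) := by
  have hG := hM.g
  have hC := hG.uc
  by_contra hcon
  push Not at hcon
  have key : ∀ u ∈ U, f u u = 0 → h.1 *ᵥ u ∈ U ∨ h.1 *ᵥ u ∈ W := by
    intro u hu hiso
    have hz := inZ_map hM h hh u (hM.zu u hu hiso)
    obtain ⟨a, ha, b, hb, hab⟩ := hG.dec (h.1 *ᵥ u)
    rw [← hab] at hz ⊢
    by_cases ha0 : a = 0
    · left
      rw [ha0, zero_add]
      exact hb
    · by_cases hb0 : b = 0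
      · right
        rw [hb0, add_zero]
        exact ha
      · exact absurd hz (hcon a ha b hb ha0 hb0)
  have hX : (∀ u ∈ U, f u u = 0 → h.1 *ᵥ u ∈ U) ∨ (∀ u ∈ U, f u u = 0 → h.1 *ᵥ u ∈ W) := by
    by_contra hX
    push Not at hX
    obtain ⟨⟨u₁, hu₁, hi₁, hn₁⟩, ⟨u₂, hu₂, hi₂, hn₂⟩⟩ := hX
    have hW₁ : h.1 *ᵥ u₁ ∈ W := (key u₁ hu₁ hi₁).resolve_left hn₁
    have hU₂ : h.1 *ᵥ u₂ ∈ U := (key u₂ hu₂ hi₂).resolve_right hn₂
    have h12 : f u₁ u₂ = 0 := by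
      rw [← hM.iso' h hh]
      exact hG.orth _ hW₁ _ hU₂
    have hi : f (u₁ + u₂) (u₁ + u₂) = 0 := by
      have e : ∀ a b : Fin n → F, f (a + b) (a + b) = f a a + f a b + f b a + f b b := by
        intro a b
        rw [hC.al, ar hC, ar hC]
        ring
      rw [e, hi₁, hi₂, h12, h0 hC _ _ h12]
      ring
    have hz := inZ_map hM h hh _ (hM.zu _ (U.add_mem hu₁ hu₂) hi)
    rw [Matrix.mulVec_add] at hz
    refine hcon _ hW₁ _ hU₂ ?_ ?_ hz
    · intro h0'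
      apply hn₁
      rw [h0']
      exact U.zero_mem
    · intro h0'
      apply hn₂
      rw [h0']
      exact W.zero_mem
  have ext : ∀ S : Submodule F (Fin n → F), (∀ u ∈ U, f u u = 0 → h.1 *ᵥ u ∈ S) →
      ∀ u ∈ U, h.1 *ᵥ u ∈ S := by
    intro S hS u hu
    obtain ⟨a, ha, b, hb, haa, hbb, hab⟩ := span2 hG u hu
    rw [← hab, Matrix.mulVec_add]
    exact S.add_mem (hS a ha haa) (hS b hb hbb)
  have hinj : Function.Injective (Matrix.toLin' (h : Matrix (Fin n) (Fin n) F)) := by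
    intro p q hpq
    rw [Matrix.toLin'_apply, Matrix.toLin'_apply] at hpq
    have e' : (h⁻¹).1 *ᵥ (h.1 *ᵥ p) = (h⁻¹).1 *ᵥ (h.1 *ᵥ q) := by rw [hpq]
    rw [SlSp.inv_act, SlSp.inv_act] at e'
    exact e'
  have hfr2 := (Submodule.equivMapOfInjective _ hinj U).finrank_eq
  rcases hX with hX | hX
  · have hle : U.map (Matrix.toLin' (h : Matrix (Fin n) (Fin n) F)) ≤ U := by
      rintro _ ⟨b, hb, rfl⟩
      rw [Matrix.toLin'_apply]
      exact ext U hX b hb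
    have heq : U.map (Matrix.toLin' (h : Matrix (Fin n) (Fin n) F)) = U :=
      Submodule.eq_of_le_of_finrank_le hle (le_of_eq hfr2)
    obtain ⟨a, ha, b, hb, hab⟩ := hG.dec (h.1 *ᵥ w₁)
    have hb0 : b = 0 := by
      by_contra hb0
      obtain ⟨x, hx, hxb⟩ := und hG b hb hb0
      rw [← heq] at hx
      obtain ⟨u, hu, rfl⟩ := hx
      rw [Matrix.toLin'_apply] at hxb
      apply hxb
      have e : b = h.1 *ᵥ w₁ - a := by
        rw [← hab]
        abel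
      rw [e, subr hC, hM.iso' h hh, h0 hC _ _ (hG.orth w₁ hw₁ u hu),
        h0 hC _ _ (hG.orth a ha _ (ext U hX u hu)), sub_zero]
    apply hw₁'
    rw [← hab, hb0, add_zero]
    exact ha
  · have hle : U.map (Matrix.toLin' (h : Matrix (Fin n) (Fin n) F)) ≤ W := by
      rintro _ ⟨b, hb, rfl⟩
      rw [Matrix.toLin'_apply]
      exact ext W hX b hb
    have hfr1 := Submodule.finrank_mono hle
    omega

/-- The orthogonal complement. -/
def perp (hC : UCfg σ f ⊤ c₀) (W : Submodule F (Fin n → F)) : Submodule F (Fin n → F) where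
  carrier := {x | ∀ w ∈ W, f x w = 0}
  add_mem' := by
    intro a b ha hb w hw
    rw [hC.al, ha w hw, hb w hw, add_zero]
  zero_mem' := by
    intro w _
    exact zl hC w
  smul_mem' := by
    intro c x hx w hw
    rw [hC.sl, hx w hw, mul_zero]

theorem mk_g (hC : UCfg σ f ⊤ c₀) (W : Submodule F (Fin n → F))
    (hW : ∀ w ∈ W, w ≠ 0 → ∃ x ∈ W, f x w ≠ 0) (hdim : 2 * Module.finrank F W < n) :
    GCfg σ f c₀ W (perp hC W) ∧ Module.finrank F W < Module.finrank F (perp hC W) := by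
  classical
  have hn13 := hC.dim
  obtain ⟨k, hk, b, hbW, hspan⟩ : ∃ k : ℕ, k = Module.finrank F W ∧
      ∃ b : Fin k → (Fin n → F), (∀ i, b i ∈ W) ∧ Submodule.span F (Set.range b) = W := by
    obtain ⟨b, hb1, hb2, -⟩ := Submodule.exists_fun_fin_finrank_span_eq F (W : Set (Fin n → F))
    exact ⟨_, by rw [Submodule.span_eq], b, hb1, by rw [hb2, Submodule.span_eq]⟩
  have hcrit : ∀ x, (∀ i, f x (b i) = 0) → x ∈ perp hC W := by
    intro x hx w hw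
    rw [← hspan] at hw
    refine Submodule.span_induction (p := fun y _ => f x y = 0) ?_ ?_ ?_ ?_ hw
    · rintro y ⟨i, rfl⟩
      exact hx i
    · exact zr hC x
    · intro y z _ _ hy hz
      rw [ar hC, hy, hz, add_zero]
    · intro c y _ hy
      rw [sr hC, hy, mul_zero]
  have hdisj : W ⊓ perp hC W = ⊥ := by
    rw [Submodule.eq_bot_iff]
    rintro x ⟨hxW, hxU⟩
    by_contra h0'
    obtain ⟨x', hx', hne⟩ := hW x hxW h0'
    exact hne (h0 hC _ _ (hxU x' hx'))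
  have hker : LinearMap.ker (LinearMap.pi (fun i => fl hC (b i))) ≤ perp hC W := by
    intro x hx
    apply hcrit
    intro i
    have h1 : (LinearMap.pi (fun i => fl hC (b i))) x = 0 := LinearMap.mem_ker.1 hx
    exact congrFun h1 i
  have hrk := LinearMap.finrank_range_add_finrank_ker
    (LinearMap.pi (fun i => fl hC (b i)) : (Fin n → F) →ₗ[F] (Fin k → F))
  have hr := Submodule.finrank_le
    (LinearMap.range (LinearMap.pi (fun i => fl hC (b i)) : (Fin n → F) →ₗ[F] (Fin k → F)))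
  rw [Module.finrank_fintype_fun_eq_card, Fintype.card_fin] at hr hrk
  have hm := Submodule.finrank_mono hker
  have hsup := Submodule.finrank_sup_add_finrank_inf_eq W (perp hC W)
  rw [hdisj, finrank_bot, add_zero] at hsup
  have hfrU : Module.finrank F W < Module.finrank F (perp hC W) := by omega
  have htop : W ⊔ perp hC W = ⊤ := by
    apply Submodule.eq_top_of_finrank_eq
    rw [Module.finrank_fintype_fun_eq_card, Fintype.card_fin]
    have h3 := Submodule.finrank_le (W ⊔ perp hC W)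
    rw [Module.finrank_fintype_fun_eq_card, Fintype.card_fin] at h3
    omega
  have hiso : ∀ y₁ y₂ y₃ y₄ : Fin n → F, ∃ z ∈ perp hC W, z ≠ 0 ∧ f z z = 0 ∧ f z y₁ = 0 ∧
      f z y₂ = 0 ∧ f z y₃ = 0 ∧ f z y₄ = 0 := by
    intro y₁ y₂ y₃ y₄
    obtain ⟨z, hz0, hzz, hzy⟩ := iso_ex hC (k + 4) (by omega) (Fin.append b ![y₁, y₂, y₃, y₄])
    refine ⟨z, hcrit z (fun i => ?_), hz0, hzz, ?_, ?_, ?_, ?_⟩
    · have h3 := hzy (Fin.castAdd 4 i)
      rwa [Fin.append_left] at h3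
    · have h3 := hzy (Fin.natAdd k 0)
      rw [Fin.append_right] at h3
      simpa using h3
    · have h3 := hzy (Fin.natAdd k 1)
      rw [Fin.append_right] at h3
      simpa using h3
    · have h3 := hzy (Fin.natAdd k 2)
      rw [Fin.append_right] at h3
      simpa using h3
    · have h3 := hzy (Fin.natAdd k 3)
      rw [Fin.append_right] at h3
      simpa using h3
  refine ⟨{ uc := hC
            orth := fun w hw u hu => h0 hC _ _ (hu w hw)
            dec := ?_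
            wnd := hW
            iso := hiso }, hfrU⟩
  intro x
  have hx : x ∈ W ⊔ perp hC W := by
    rw [htop]
    exact Submodule.mem_top
  exact Submodule.mem_sup.1 hx

end fin

theorem main [Fintype F] (n q : ℕ) (hF : Fintype.card F = q ^ 2) (hn : 13 ≤ n)
    (W : Submodule F (Fin n → F)) (hW0 : W ≠ ⊥)
    (hW : Cfsg.Geo.IsNondegenerateOn (Cfsg.hermForm n F q) W)
    (hdim : 2 * Module.finrank F W < n) :
    Cfsg.Geo.IsMaximalIn (Cfsg.GU n F q ⊓ Cfsg.Geo.specialLinear (Fin n) F)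
      (Cfsg.Geo.subspaceStabilizer W ⊓
        (Cfsg.GU n F q ⊓ Cfsg.Geo.specialLinear (Fin n) F)) := by
  classical
  obtain ⟨m, rfl⟩ : ∃ m, n = m + 2 := ⟨n - 2, by omega⟩
  obtain ⟨φ, hφ⟩ := Cfsg.Agent.Helper15.exists_frob hF
  have hinvφ : ∀ x, φ (φ x) = x := fun x => by
    rw [hφ, hφ]
    exact Cfsg.Agent.Helper15.pow_card_sq hF x
  obtain ⟨σ, hσ'⟩ : ∃ σ : F ≃+* F, ∀ x, σ x = φ x :=
    ⟨{ toFun := φ, invFun := φ, left_inv := hinvφ, right_inv := hinvφ, map_mul' := φ.map_mul,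
       map_add' := φ.map_add }, fun x => rfl⟩
  have hσ : ∀ x, σ x = x ^ q := fun x => by rw [hσ', hφ]
  have hinv : ∀ x, σ (σ x) = x := fun x => by
    rw [hσ', hσ']
    exact hinvφ x
  have hq2 : 2 ≤ q := Cfsg.Agent.Helper15.two_le_of_card_sq hF
  obtain ⟨θ, hθ⟩ : ∃ θ : F, σ θ ≠ θ := by
    by_contra hcon
    push Not at hcon
    have hne : (Polynomial.X ^ q - Polynomial.X : Polynomial F) ≠ 0 :=
      FiniteField.X_pow_card_sub_X_ne_zero F hq2
    have hsub : (Finset.univ : Finset F) ⊆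
        (Polynomial.X ^ q - Polynomial.X : Polynomial F).roots.toFinset := by
      intro x _
      rw [Multiset.mem_toFinset, Polynomial.mem_roots hne, Polynomial.IsRoot,
        Polynomial.eval_sub, Polynomial.eval_pow, Polynomial.eval_X, ← hσ, hcon x, sub_self]
    have h1 : Fintype.card F ≤ q := by
      calc Fintype.card F = (Finset.univ : Finset F).card := Finset.card_univ.symm
        _ ≤ (Polynomial.X ^ q - Polynomial.X : Polynomial F).roots.toFinset.card :=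
          Finset.card_le_card hsub
        _ ≤ Multiset.card (Polynomial.X ^ q - Polynomial.X : Polynomial F).roots :=
          Multiset.toFinset_card_le _
        _ ≤ (Polynomial.X ^ q - Polynomial.X : Polynomial F).natDegree :=
          Polynomial.card_roots' _
        _ = q := FiniteField.X_pow_card_sub_X_natDegree_eq F hq2
    rw [hF] at h1
    nlinarith
  have hneσ : σ ≠ RingEquiv.refl F := by
    intro h
    apply hθ
    rw [h]
    rfl
  obtain ⟨ζ, hζ0, hζ'⟩ := exists_c0 σ hinv hneσ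
  have hζ : ζ + ζ ^ q = 0 := by
    rw [← hσ, hζ']
    ring
  have hC := Cfsg.Agent.Helper18.SuSp.mk_uc (n := m + 2) q hF hn σ hσ hinv θ hθ ζ hζ0 hζ
  have hWnd : ∀ w ∈ W, w ≠ 0 → ∃ x ∈ W, Cfsg.hermForm (m + 2) F q x w ≠ 0 :=
    fun w hw hw0 => (hW w hw hw0).1
  obtain ⟨hG, hfr⟩ := mk_g hC W hWnd hdim
  obtain ⟨U, hU⟩ : ∃ U, U = perp hC W := ⟨_, rfl⟩
  rw [← hU] at hG hfr
  have hstabW : ∀ z ∈ W, Cfsg.hermForm (m + 2) F q z z = 0 → ∀ c : F, σ c = -c →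
      ∃ A ∈ Cfsg.Geo.subspaceStabilizer W ⊓
        (Cfsg.GU (m + 2) F q ⊓ Cfsg.Geo.specialLinear (Fin (m + 2)) F),
        ∀ x, A.1 *ᵥ x = x + (c * Cfsg.hermForm (m + 2) F q x z) • z := by
    intro z hz hzz c hc
    obtain ⟨A, hA1, hA2, hA3⟩ := Cfsg.Agent.Helper18.SuSp.utv_su hC z hzz c hc
    refine ⟨A, ⟨?_, (Cfsg.Agent.Helper15.mem_GU_iff _ _ A).2 hA2, hA1⟩, hA3⟩
    intro v
    show v ∈ W ↔ A.1 *ᵥ v ∈ W
    rw [hA3]
    constructor
    · intro hv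
      exact W.add_mem hv (W.smul_mem _ hz)
    · intro hv
      have h1 := W.sub_mem hv (W.smul_mem (c * Cfsg.hermForm (m + 2) F q v z) hz)
      rwa [add_sub_cancel_right] at h1
  have hstabU : ∀ z ∈ U, Cfsg.hermForm (m + 2) F q z z = 0 → ∀ c : F, σ c = -c →
      ∃ A ∈ Cfsg.Geo.subspaceStabilizer W ⊓
        (Cfsg.GU (m + 2) F q ⊓ Cfsg.Geo.specialLinear (Fin (m + 2)) F),
        ∀ x, A.1 *ᵥ x = x + (c * Cfsg.hermForm (m + 2) F q x z) • z := by
    intro z hz hzz c hc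
    obtain ⟨A, hA1, hA2, hA3⟩ := Cfsg.Agent.Helper18.SuSp.utv_su hC z hzz c hc
    refine ⟨A, ⟨?_, (Cfsg.Agent.Helper15.mem_GU_iff _ _ A).2 hA2, hA1⟩, hA3⟩
    intro v
    show v ∈ W ↔ A.1 *ᵥ v ∈ W
    constructor
    · intro hv
      rw [hA3, hG.orth v hv z hz, mul_zero, zero_smul, add_zero]
      exact hv
    · intro hv
      have h1 : Cfsg.hermForm (m + 2) F q (A.1 *ᵥ v) z = 0 := hG.orth _ hv z hz
      rw [hA3, hC.al, hC.sl, hzz, mul_zero, add_zero] at h1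
      rw [hA3, h1, mul_zero, zero_smul, add_zero] at hv
      exact hv
  have mkM : ∀ M : Subgroup (GL (Fin (m + 2)) F),
      Cfsg.Geo.subspaceStabilizer W ⊓
        (Cfsg.GU (m + 2) F q ⊓ Cfsg.Geo.specialLinear (Fin (m + 2)) F) ≤ M →
      M ≤ Cfsg.GU (m + 2) F q ⊓ Cfsg.Geo.specialLinear (Fin (m + 2)) F →
      MCfg σ (Cfsg.hermForm (m + 2) F q) ζ W U M := by
    intro M h1 h2
    exact
      { g := hG
        iso' := fun A hA x y => (Cfsg.Agent.Helper15.mem_GU_iff _ _ A).1 (h2 hA).1 x y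
        zw := fun z hz hzz => ⟨hzz, fun c hc => by
          obtain ⟨A, hA, hAx⟩ := hstabW z hz hzz c hc
          exact ⟨A, h1 hA, hAx⟩⟩
        zu := fun z hz hzz => ⟨hzz, fun c hc => by
          obtain ⟨A, hA, hAx⟩ := hstabU z hz hzz c hc
          exact ⟨A, h1 hA, hAx⟩⟩ }
  constructor
  · refine lt_of_le_of_ne inf_le_right ?_
    intro heq
    obtain ⟨w, hw, hw0⟩ := Submodule.exists_mem_ne_zero_of_ne_bot hW0
    obtain ⟨u₁, hu₁, u₂, hu₂, hn1, -, -, hu₁0, -⟩ := presc hG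
      (- Cfsg.hermForm (m + 2) F q w w) 0 0 (by rw [map_neg, fixd hC]) (map_zero σ)
    obtain ⟨w', hw', hw'w⟩ := hWnd w hw hw0
    have hz : Cfsg.hermForm (m + 2) F q (w + u₁) (w + u₁) = 0 := by
      simp only [hC.al, ar hC, hG.orth w hw u₁ hu₁, h0 hC _ _ (hG.orth w hw u₁ hu₁), hn1]
      ring
    obtain ⟨T, hT1, hT2, hT3⟩ := Cfsg.Agent.Helper18.SuSp.utv_su hC (w + u₁) hz ζ hC.c0'
    have hTN : T ∈ Cfsg.Geo.subspaceStabilizer W := by
      have h1 : T ∈ Cfsg.GU (m + 2) F q ⊓ Cfsg.Geo.specialLinear (Fin (m + 2)) F :=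
        ⟨(Cfsg.Agent.Helper15.mem_GU_iff _ _ T).2 hT2, hT1⟩
      exact ((le_of_eq heq.symm) h1).1
    have h2 : T.1 *ᵥ w' ∈ W := (hTN w').1 hw'
    rw [hT3, ar hC, hG.orth w' hw' u₁ hu₁, add_zero] at h2
    have h3 : (ζ * Cfsg.hermForm (m + 2) F q w' w) • (w + u₁) ∈ W := by
      have h := W.sub_mem h2 hw'
      rwa [add_sub_cancel_left] at h
    have h4 : w + u₁ ∈ W := by
      have h := W.smul_mem (ζ * Cfsg.hermForm (m + 2) F q w' w)⁻¹ h3
      rwa [smul_smul, inv_mul_cancel₀ (mul_ne_zero hζ0 hw'w), one_smul] at h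
    have h5 : u₁ ∈ W := by
      have h := W.sub_mem h4 hw
      rwa [add_sub_cancel_left] at h
    obtain ⟨x', hx', hne⟩ := hWnd u₁ h5 hu₁0
    exact hne (hG.orth x' hx' u₁ hu₁)
  · intro M hPM hMK
    by_cases hMP : M ≤ Cfsg.Geo.subspaceStabilizer W ⊓
        (Cfsg.GU (m + 2) F q ⊓ Cfsg.Geo.specialLinear (Fin (m + 2)) F)
    · exact Or.inl (le_antisymm hMP hPM)
    right
    apply le_antisymm hMK
    have hM := mkM M hPM hMK
    obtain ⟨h₀, hh₀, hh₀P⟩ := SetLike.not_le_iff_exists.1 hMP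
    obtain ⟨h, hh, w₁, hw₁, hw₁'⟩ : ∃ h ∈ M, ∃ w₁ ∈ W, h.1 *ᵥ w₁ ∉ W := by
      have hns : h₀ ∉ Cfsg.Geo.subspaceStabilizer W := fun hs => hh₀P ⟨hs, hMK hh₀⟩
      have hns' : ¬ ∀ v, v ∈ W ↔ h₀.1 *ᵥ v ∈ W := hns
      obtain ⟨v, hv⟩ := not_forall.1 hns'
      by_cases hvW : v ∈ W
      · exact ⟨h₀, hh₀, v, hvW, fun hc => hv ⟨fun _ => hc, fun _ => hvW⟩⟩
      · have hc : h₀.1 *ᵥ v ∈ W := by
          by_contra hc
          exact hv ⟨fun a => absurd a hvW, fun a => absurd a hc⟩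
        refine ⟨h₀⁻¹, M.inv_mem hh₀, _, hc, ?_⟩
        rw [SlSp.inv_act]
        exact hvW
    obtain ⟨w₀, hw₀, u₀, hu₀, hw₀0, hu₀0, hz₀⟩ := mixed hM h hh w₁ hw₁ hw₁' hfr
    have hall := all_iso hM w₀ u₀ hw₀ hu₀ hw₀0 hu₀0 hz₀
    intro g hg
    have hdet : (g : Matrix (Fin (m + 2)) (Fin (m + 2)) F).det = 1 := by
      have h1 : g ∈ Cfsg.Geo.specialLinear (Fin (m + 2)) F := hg.2
      rw [Cfsg.Geo.specialLinear, MonoidHom.mem_ker] at h1
      have h2 := congrArg Units.val h1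
      rwa [Matrix.GeneralLinearGroup.val_det_apply, Units.val_one] at h2
    have hsu := Cfsg.Agent.Helper15.suTr_all hF m (by omega) g hg.1 hdet
    have hle : Cfsg.Agent.Helper15.suTr (m + 2) F q ≤ M := by
      unfold Cfsg.Agent.Helper15.suTr
      rw [Subgroup.closure_le]
      rintro t ⟨htG, v, c, hv, htm⟩
      have hact : ∀ x, t.1 *ᵥ x = x + (c * Cfsg.hermForm (m + 2) F q x v) • v := by
        intro x
        rw [htm, Cfsg.Agent.Helper15.utransv_mulVec]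
      by_cases hv0 : v = 0
      · have e : t = 1 := by
          apply Cfsg.Agent.S5631.gl_ext_mulVec
          intro x
          rw [hact, hv0, smul_zero, add_zero, Units.val_one, Matrix.one_mulVec]
        rw [e]
        exact M.one_mem
      by_cases hc0 : c = 0
      · have e : t = 1 := by
          apply Cfsg.Agent.S5631.gl_ext_mulVec
          intro x
          rw [hact, hc0, zero_mul, zero_smul, add_zero, Units.val_one, Matrix.one_mulVec]
        rw [e]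
        exact M.one_mem
      have hcσ : σ c = -c := by
        obtain ⟨x, hx⟩ := hC.nd v hv0
        have e := (Cfsg.Agent.Helper15.mem_GU_iff _ _ t).1 htG x x
        rw [hact] at e
        simp only [hC.al, ar hC, hC.sl, sr hC, hv, mul_zero, add_zero, map_mul,
          ← hC.herm v x] at e
        have hvx := h1 hC _ _ hx
        have e2 : (σ c + c) * (Cfsg.hermForm (m + 2) F q x v
            * Cfsg.hermForm (m + 2) F q v x) = 0 := by
          linear_combination e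
        rcases mul_eq_zero.1 e2 with h3 | h3
        · linear_combination h3
        · exact absurd h3 (mul_ne_zero hx hvx)
      obtain ⟨A, hA, hAx⟩ := (hall v hv).2 c hcσ
      have e : t = A := by
        apply Cfsg.Agent.S5631.gl_ext_mulVec
        intro x
        rw [hact, hAx]
      rw [e]
      exact hA
    exact hle hsu

end Cfsg.Agent.Helper18.SuNd
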