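import Mathlib
import Cfsg.Prelude.Def_GeometricClasses
import Cfsg.Agent.Helper15.SUGen9
import Cfsg.Agent.Helper18.SlU
import Cfsg.Agent.Helper18.SuSp
import Cfsg.Agent.Helper18.SuNd

set_option autoImplicit false

namespace Cfsg.Agent.Helper18.SuTi

open scoped Matrix

open scoped MatrixGroups

open Cfsg.Agent.Helper28

open Cfsg.Agent.Helper18.SlU

variable {F : Type*} [Field F] {n : ℕ}

/-- Configuration for the stabiliser of a totally isotropic subspace. -/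
structure TCfg (σ : F ≃+* F) (f : (Fin n → F) → (Fin n → F) → F) (c₀ : F)
    (W : Submodule F (Fin n → F)) (M : Subgroup (GL (Fin n) F)) : Prop where
  uc : UCfg σ f ⊤ c₀
  iso' : ∀ A ∈ M, ∀ x y, f (A.1 *ᵥ x) (A.1 *ᵥ y) = f x y
  ti : ∀ w ∈ W, ∀ w' ∈ W, f w w' = 0
  zu : ∀ z, (∀ w ∈ W, f z w = 0) → f z z = 0 → SuNd.inZ σ f M z
  se : ∀ w ∈ W, ∀ y, f y y = 0 → f y w = 0 → ∀ c : F, σ c = -c →
    ∃ A ∈ M, ∀ x, A.1 *ᵥ x = x + (c * f x w) • y + (c * f x y) • w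

section cfg

variable {σ : F ≃+* F} {f : (Fin n → F) → (Fin n → F) → F} {c₀ : F}
  {W : Submodule F (Fin n → F)} {M : Subgroup (GL (Fin n) F)}

theorem sep [Fintype F] (hC : UCfg σ f ⊤ c₀) (W : Submodule F (Fin n → F)) (x : Fin n → F)
    (hx : x ∉ W) : ∃ y, (∀ w ∈ W, f y w = 0) ∧ f y x ≠ 0 := by
  obtain ⟨φ, hφx, hφW⟩ := Submodule.exists_dual_map_eq_bot_of_notMem hx inferInstance
  obtain ⟨u, hu⟩ := riesz hC φ
  refine ⟨u, fun w hw => ?_, ?_⟩
  · apply h0 hC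
    rw [← hu]
    have h3 : φ w ∈ W.map φ := Submodule.mem_map_of_mem hw
    rw [hφW] at h3
    exact (Submodule.mem_bot F).1 h3
  · apply h1 hC
    rw [← hu]
    exact hφx

theorem inZ_map (hT : TCfg σ f c₀ W M) (A : GL (Fin n) F) (hA : A ∈ M) (z : Fin n → F)
    (hz : SuNd.inZ σ f M z) : SuNd.inZ σ f M (A.1 *ᵥ z) := by
  refine ⟨by rw [hT.iso' A hA, hz.1], fun c hc => ?_⟩
  obtain ⟨T, hT', hTx⟩ := hz.2 c hc
  refine ⟨A * T * A⁻¹, M.mul_mem (M.mul_mem hA hT') (M.inv_mem hA), fun y => ?_⟩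
  rw [Units.val_mul, Units.val_mul, ← Matrix.mulVec_mulVec, ← Matrix.mulVec_mulVec, hTx,
    Matrix.mulVec_add, Matrix.mulVec_smul, SlSp.act_inv]
  have e : f ((A⁻¹).1 *ᵥ y) z = f y (A.1 *ᵥ z) := by
    have e1 := hT.iso' A hA ((A⁻¹).1 *ᵥ y) z
    rw [SlSp.act_inv] at e1
    exact e1.symm
  rw [e]

theorem inZ_smul (hT : TCfg σ f c₀ W M) (μ : F) (z : Fin n → F) (hz : SuNd.inZ σ f M z) :
    SuNd.inZ σ f M (μ • z) := by
  have hC := hT.uc
  refine ⟨by rw [hC.sl, sr hC, hz.1, mul_zero, mul_zero], fun c hc => ?_⟩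
  obtain ⟨T, hT', hTx⟩ := hz.2 (c * (μ * σ μ)) (by
    rw [map_mul, map_mul, hC.inv, hc]
    ring)
  refine ⟨T, hT', fun y => ?_⟩
  rw [hTx, sr hC]
  module

theorem hl (hT : TCfg σ f c₀ W M) (z₁ z₂ : Fin n → F) (h1' : SuNd.inZ σ f M z₁)
    (h2 : SuNd.inZ σ f M z₂) (hne : f z₁ z₂ ≠ 0) (hiso : f (z₁ + z₂) (z₁ + z₂) = 0) :
    SuNd.inZ σ f M (z₁ + z₂) := by
  have hC := hT.uc
  have e : f z₁ z₂ + f z₂ z₁ = 0 := by
    have h3 := hiso
    simp only [hC.al, ar hC, h1'.1, h2.1] at h3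
    linear_combination h3
  have hc : σ (f z₁ z₂)⁻¹ = -(f z₁ z₂)⁻¹ := by
    rw [map_inv₀, ← hC.herm z₂ z₁]
    have h3 : f z₂ z₁ = -f z₁ z₂ := by linear_combination e
    rw [h3, inv_neg]
  obtain ⟨A, hA, hAx⟩ := h2.2 _ hc
  have h3 := inZ_map hT A hA z₁ h1'
  rw [hAx, inv_mul_cancel₀ hne, one_smul] at h3
  exact h3

theorem estep (hT : TCfg σ f c₀ W M) (z x w : Fin n → F) (hz : SuNd.inZ σ f M z) (hw : w ∈ W)
    (hzw : f z w ≠ 0) (hx : f x x = 0) (hxw : f x w = f z w)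
    (hd : f (x - z) (x - z) = 0) : SuNd.inZ σ f M x := by
  have hC := hT.uc
  have hww : f w w = 0 := hT.ti w hw w hw
  obtain ⟨lam, hlam⟩ : ∃ lam : F, lam = (c₀ * f z w)⁻¹ := ⟨_, rfl⟩
  have hy : f (lam • (x - z)) (lam • (x - z)) = 0 := by
    rw [hC.sl, sr hC, hd, mul_zero, mul_zero]
  have hyw : f (lam • (x - z)) w = 0 := by
    rw [hC.sl, subl hC, hxw, sub_self, mul_zero]
  obtain ⟨A, hA, hAx⟩ := hT.se w hw _ hy hyw c₀ hC.c0'
  have h3 := inZ_map hT A hA z hz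
  rw [hAx] at h3
  obtain ⟨β, hβ⟩ : ∃ β, β = c₀ * f z (lam • (x - z)) := ⟨_, rfl⟩
  rw [← hβ] at h3
  have e : z + (c₀ * f z w) • lam • (x - z) + β • w = x + β • w := by
    rw [smul_smul, hlam, mul_inv_cancel₀ (mul_ne_zero hC.c0 hzw), one_smul]
    abel
  rw [e] at h3
  by_cases hβ0 : β = 0
  · rw [hβ0, zero_smul, add_zero] at h3
    exact h3
  have hw' : SuNd.inZ σ f M ((-β) • w) :=
    hT.zu _ (fun w' hw' => by rw [hC.sl, hT.ti w hw w' hw', mul_zero])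
      (by rw [hC.sl, sr hC, hww, mul_zero, mul_zero])
  have hne : f (x + β • w) ((-β) • w) ≠ 0 := by
    rw [sr hC, hC.al, hC.sl, hww, mul_zero, add_zero, hxw]
    exact mul_ne_zero ((map_ne_zero σ).2 (neg_ne_zero.2 hβ0)) hzw
  have e2 : x + β • w + (-β) • w = x := by module
  have h4 := hl hT _ _ h3 hw' hne (by rw [e2]; exact hx)
  rw [e2] at h4
  exact h4

theorem e2 (hT : TCfg σ f c₀ W M) (z x w : Fin n → F) (hz : SuNd.inZ σ f M z) (hw : w ∈ W)
    (hzw : f z w ≠ 0) (hx : f x x = 0) (hxw : f x w = f z w) : SuNd.inZ σ f M x := by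
  have hC := hT.uc
  have hww : f w w = 0 := hT.ti w hw w hw
  by_cases hτ : f (x - z) (x - z) = 0
  · exact estep hT z x w hz hw hzw hx hxw hτ
  obtain ⟨e, he⟩ : ∃ e, e = x - z := ⟨_, rfl⟩
  rw [← he] at hτ
  have hew : f e w = 0 := by rw [he, subl hC, hxw, sub_self]
  have hwe : f w e = 0 := h0 hC _ _ hew
  obtain ⟨p, hp0, hpp, hpy⟩ := iso_ex hC 3 (by have := hC.dim; omega) ![w, e, z]
  have hpw : f p w = 0 := hpy 0
  have hpe : f p e = 0 := hpy 1
  have hpz : f p z = 0 := by simpa using hpy 2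
  obtain ⟨q, hq⟩ := hC.nd p hp0
  obtain ⟨q₁, hq₁⟩ : ∃ q₁, q₁ = q - (f q w / f z w) • z := ⟨_, rfl⟩
  have hq₁w : f q₁ w = 0 := by
    rw [hq₁, subl hC, hC.sl, div_mul_cancel₀ _ hzw, sub_self]
  have hq₁p : f q₁ p ≠ 0 := by
    rw [hq₁, subl hC, hC.sl, h0 hC _ _ hpz, mul_zero, sub_zero]
    exact hq
  obtain ⟨q₂, hq₂⟩ : ∃ q₂, q₂ = q₁ - (f q₁ e / f e e) • e := ⟨_, rfl⟩
  have hq₂w : f q₂ w = 0 := by
    rw [hq₂, subl hC, hC.sl, hq₁w, hew, mul_zero, sub_zero]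
  have hq₂e : f q₂ e = 0 := by
    rw [hq₂, subl hC, hC.sl, div_mul_cancel₀ _ hτ, sub_self]
  have hq₂p : f q₂ p ≠ 0 := by
    rw [hq₂, subl hC, hC.sl, h0 hC _ _ hpe, mul_zero, sub_zero]
    exact hq₁p
  have hpq₂ : f p q₂ ≠ 0 := h1 hC _ _ hq₂p
  obtain ⟨μ₂, hμ₂⟩ := hC.tr (- f e e - f q₂ q₂) (by rw [map_sub, map_neg, fixd hC, fixd hC])
  obtain ⟨e₂, he₂⟩ : ∃ e₂, e₂ = q₂ + (μ₂ / f p q₂) • p := ⟨_, rfl⟩
  have ha1 : (μ₂ / f p q₂) * f p q₂ = μ₂ := div_mul_cancel₀ _ hpq₂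
  have ha2 : σ (μ₂ / f p q₂) * f q₂ p = σ μ₂ := by
    rw [map_div₀, ← hC.herm q₂ p, div_mul_cancel₀ _ hq₂p]
  have he₂N : f e₂ e₂ = - f e e := by
    rw [he₂]
    simp only [hC.al, ar hC, hC.sl, sr hC, hpp, mul_zero, add_zero]
    linear_combination hμ₂ + ha1 + ha2
  have he₂w : f e₂ w = 0 := by
    rw [he₂, hC.al, hC.sl, hq₂w, hpw, mul_zero, add_zero]
  have he₂e : f e₂ e = 0 := by
    rw [he₂, hC.al, hC.sl, hq₂e, hpe, mul_zero, add_zero]
  have hee₂ : f e e₂ = 0 := h0 hC _ _ he₂e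
  obtain ⟨μ, hμ⟩ := hC.tr 1 (map_one σ)
  obtain ⟨y', hy'⟩ : ∃ y', y' = μ • (e + e₂) := ⟨_, rfl⟩
  have hy'N : f y' y' = 0 := by
    rw [hy']
    simp only [hC.al, ar hC, hC.sl, sr hC, he₂e, hee₂, he₂N]
    ring
  have hy'w : f y' w = 0 := by
    rw [hy', hC.sl, hC.al, hew, he₂w, add_zero, mul_zero]
  have hey' : f e y' = σ μ * f e e := by
    rw [hy', sr hC, ar hC, hee₂, add_zero]
  have hy'e : f y' e = μ * f e e := by
    rw [hy', hC.sl, hC.al, he₂e, add_zero]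
  obtain ⟨a, ha⟩ : ∃ a, a = σ (- f z y' / f z w) := ⟨_, rfl⟩
  obtain ⟨y, hy⟩ : ∃ y, y = y' + a • w := ⟨_, rfl⟩
  have hzy : f z y = 0 := by
    rw [hy, ar hC, sr hC, ha, hC.inv, div_mul_cancel₀ _ hzw]
    ring
  have hyz : f y z = 0 := h0 hC _ _ hzy
  have hyN : f y y = 0 := by
    rw [hy]
    simp only [hC.al, ar hC, hC.sl, sr hC, hy'N, hy'w, h0 hC _ _ hy'w, hww, mul_zero,
      add_zero]
  have hyw : f y w = 0 := by
    rw [hy, hC.al, hC.sl, hy'w, hww, mul_zero, add_zero]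
  have hey : f e y = σ μ * f e e := by
    rw [hy, ar hC, sr hC, hew, mul_zero, add_zero, hey']
  have hye : f y e = μ * f e e := by
    rw [hy, hC.al, hC.sl, hwe, mul_zero, add_zero, hy'e]
  have hvN : f (z + y) (z + y) = 0 := by
    simp only [hC.al, ar hC, hz.1, hzy, hyz, hyN, add_zero]
  have hvw : f (z + y) w = f z w := by
    rw [hC.al, hyw, add_zero]
  have hvd : f (z + y - z) (z + y - z) = 0 := by
    rw [add_sub_cancel_left]
    exact hyN
  have hv := estep hT z (z + y) w hz hw hzw hvN hvw hvd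
  have hxv : f (x - (z + y)) (x - (z + y)) = 0 := by
    have e3 : x - (z + y) = e - y := by
      rw [he]
      abel
    rw [e3]
    simp only [subl hC, subr hC, hey, hye, hyN]
    linear_combination (- f e e) * hμ
  exact estep hT (z + y) x w hv hw (by rw [hvw]; exact hzw) hx (by rw [hvw]; exact hxw) hxv

end cfg

theorem main [Fintype F] (n q : ℕ) (hF : Fintype.card F = q ^ 2) (hn : 13 ≤ n)
    (W : Submodule F (Fin n → F)) (hW0 : W ≠ ⊥)
    (hW : Cfsg.Geo.IsTotallySingularFor (Cfsg.hermForm n F q) W) :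
    Cfsg.Geo.IsMaximalIn (Cfsg.GU n F q ⊓ Cfsg.Geo.specialLinear (Fin n) F)
      (Cfsg.Geo.subspaceStabilizer W ⊓
        (Cfsg.GU n F q ⊓ Cfsg.Geo.specialLinear (Fin n) F)) := by
  classical
  obtain ⟨m, rfl⟩ : ∃ m, n = m + 2 := ⟨n - 2, by omega⟩
  obtain ⟨φ, hφ⟩ := Cfsg.Agent.Helper15.exists_frob hF
  have hinvφ : ∀ x, φ (φ x) = x := fun x => by
    rw [hφ, hφ]
    exact Cfsg.Agent.Helper15.pow_card_sq hF x
  obtain ⟨σ, hσ'⟩ : ∃ σ : F ≃+* F, ∀ x, σ x = φ x :=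
    ⟨{ toFun := φ, invFun := φ, left_inv := hinvφ, right_inv := hinvφ, map_mul' := φ.map_mul,
       map_add' := φ.map_add }, fun x => rfl⟩
  have hσ : ∀ x, σ x = x ^ q := fun x => by rw [hσ', hφ]
  have hinv : ∀ x, σ (σ x) = x := fun x => by
    rw [hσ', hσ']
    exact hinvφ x
  have hq2 : 2 ≤ q := Cfsg.Agent.Helper15.two_le_of_card_sq hF
  obtain ⟨θ, hθ⟩ : ∃ θ : F, σ θ ≠ θ := by
    by_contra hcon
    push Not at hcon
    have hne : (Polynomial.X ^ q - Polynomial.X : Polynomial F) ≠ 0 :=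
      FiniteField.X_pow_card_sub_X_ne_zero F hq2
    have hsub : (Finset.univ : Finset F) ⊆
        (Polynomial.X ^ q - Polynomial.X : Polynomial F).roots.toFinset := by
      intro x _
      rw [Multiset.mem_toFinset, Polynomial.mem_roots hne, Polynomial.IsRoot,
        Polynomial.eval_sub, Polynomial.eval_pow, Polynomial.eval_X, ← hσ, hcon x, sub_self]
    have h1' : Fintype.card F ≤ q := by
      calc Fintype.card F = (Finset.univ : Finset F).card := Finset.card_univ.symm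
        _ ≤ (Polynomial.X ^ q - Polynomial.X : Polynomial F).roots.toFinset.card :=
          Finset.card_le_card hsub
        _ ≤ Multiset.card (Polynomial.X ^ q - Polynomial.X : Polynomial F).roots :=
          Multiset.toFinset_card_le _
        _ ≤ (Polynomial.X ^ q - Polynomial.X : Polynomial F).natDegree :=
          Polynomial.card_roots' _
        _ = q := FiniteField.X_pow_card_sub_X_natDegree_eq F hq2
    rw [hF] at h1'
    nlinarith
  have hneσ : σ ≠ RingEquiv.refl F := by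
    intro h
    apply hθ
    rw [h]
    rfl
  obtain ⟨ζ, hζ0, hζ'⟩ := exists_c0 σ hinv hneσ
  have hζ : ζ + ζ ^ q = 0 := by
    rw [← hσ, hζ']
    ring
  have hC := Cfsg.Agent.Helper18.SuSp.mk_uc (n := m + 2) q hF hn σ hσ hinv θ hθ ζ hζ0 hζ
  have hti : ∀ w ∈ W, ∀ w' ∈ W, Cfsg.hermForm (m + 2) F q w w' = 0 := hW
  have hstabU : ∀ z, (∀ w ∈ W, Cfsg.hermForm (m + 2) F q z w = 0) →
      Cfsg.hermForm (m + 2) F q z z = 0 → ∀ c : F, σ c = -c →
      ∃ A ∈ Cfsg.Geo.subspaceStabilizer W ⊓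
        (Cfsg.GU (m + 2) F q ⊓ Cfsg.Geo.specialLinear (Fin (m + 2)) F),
        ∀ x, A.1 *ᵥ x = x + (c * Cfsg.hermForm (m + 2) F q x z) • z := by
    intro z hz hzz c hc
    obtain ⟨A, hA1, hA2, hA3⟩ := Cfsg.Agent.Helper18.SuSp.utv_su hC z hzz c hc
    refine ⟨A, ⟨?_, (Cfsg.Agent.Helper15.mem_GU_iff _ _ A).2 hA2, hA1⟩, hA3⟩
    intro v
    show v ∈ W ↔ A.1 *ᵥ v ∈ W
    constructor
    · intro hv
      rw [hA3, h0 hC _ _ (hz v hv), mul_zero, zero_smul, add_zero]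
      exact hv
    · intro hv
      have h1' : Cfsg.hermForm (m + 2) F q (A.1 *ᵥ v) z = 0 := h0 hC _ _ (hz _ hv)
      rw [hA3, hC.al, hC.sl, hzz, mul_zero, add_zero] at h1'
      rw [hA3, h1', mul_zero, zero_smul, add_zero] at hv
      exact hv
  have hse : ∀ w ∈ W, ∀ y, Cfsg.hermForm (m + 2) F q y y = 0 →
      Cfsg.hermForm (m + 2) F q y w = 0 → ∀ c : F, σ c = -c →
      ∃ A ∈ Cfsg.Geo.subspaceStabilizer W ⊓
        (Cfsg.GU (m + 2) F q ⊓ Cfsg.Geo.specialLinear (Fin (m + 2)) F),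
        ∀ x, A.1 *ᵥ x = x + (c * Cfsg.hermForm (m + 2) F q x w) • y
          + (c * Cfsg.hermForm (m + 2) F q x y) • w := by
    intro w hw y hyy hyw c hc
    have hww := hti w hw w hw
    have hwy : Cfsg.hermForm (m + 2) F q w y = 0 := h0 hC _ _ hyw
    have hs : Cfsg.hermForm (m + 2) F q (w + y) (w + y) = 0 := by
      simp only [hC.al, ar hC, hww, hyy, hyw, hwy, add_zero]
    have hc' : σ (-c) = -(-c) := by rw [map_neg, hc]
    obtain ⟨A₁, hA₁1, hA₁2, hA₁3⟩ := Cfsg.Agent.Helper18.SuSp.utv_su hC (w + y) hs c hc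
    obtain ⟨A₂, hA₂1, hA₂2, hA₂3⟩ := Cfsg.Agent.Helper18.SuSp.utv_su hC y hyy (-c) hc'
    obtain ⟨A₃, hA₃1, hA₃2, hA₃3⟩ := Cfsg.Agent.Helper18.SuSp.utv_su hC w hww (-c) hc'
    have hact : ∀ x, (A₃ * A₂ * A₁).1 *ᵥ x = x + (c * Cfsg.hermForm (m + 2) F q x w) • y
        + (c * Cfsg.hermForm (m + 2) F q x y) • w := by
      intro x
      rw [Units.val_mul, Units.val_mul, ← Matrix.mulVec_mulVec, ← Matrix.mulVec_mulVec, hA₁3,
        hA₂3, hA₃3]
      simp only [hC.al, hC.sl, ar hC, sr hC, hww, hyy, hyw, hwy, mul_zero, add_zero, zero_add]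
      module
    have hGU : A₃ * A₂ * A₁ ∈ Cfsg.GU (m + 2) F q :=
      Subgroup.mul_mem _ (Subgroup.mul_mem _ ((Cfsg.Agent.Helper15.mem_GU_iff _ _ A₃).2 hA₃2)
        ((Cfsg.Agent.Helper15.mem_GU_iff _ _ A₂).2 hA₂2))
        ((Cfsg.Agent.Helper15.mem_GU_iff _ _ A₁).2 hA₁2)
    have hSL : A₃ * A₂ * A₁ ∈ Cfsg.Geo.specialLinear (Fin (m + 2)) F :=
      Subgroup.mul_mem _ (Subgroup.mul_mem _ hA₃1 hA₂1) hA₁1
    refine ⟨A₃ * A₂ * A₁, ⟨?_, hGU, hSL⟩, hact⟩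
    intro v
    show v ∈ W ↔ (A₃ * A₂ * A₁).1 *ᵥ v ∈ W
    rw [hact]
    constructor
    · intro hv
      rw [hti v hv w hw, mul_zero, zero_smul, add_zero]
      exact W.add_mem hv (W.smul_mem _ hw)
    · intro hv
      have h1' := hti _ hv w hw
      rw [hC.al, hC.al, hC.sl, hC.sl, hyw, hww, mul_zero, mul_zero, add_zero, add_zero] at h1'
      rw [h1', mul_zero, zero_smul, add_zero] at hv
      have h2' := W.sub_mem hv (W.smul_mem (c * Cfsg.hermForm (m + 2) F q v y) hw)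
      rwa [add_sub_cancel_right] at h2'
  have mkT : ∀ M : Subgroup (GL (Fin (m + 2)) F),
      Cfsg.Geo.subspaceStabilizer W ⊓
        (Cfsg.GU (m + 2) F q ⊓ Cfsg.Geo.specialLinear (Fin (m + 2)) F) ≤ M →
      M ≤ Cfsg.GU (m + 2) F q ⊓ Cfsg.Geo.specialLinear (Fin (m + 2)) F →
      TCfg σ (Cfsg.hermForm (m + 2) F q) ζ W M := by
    intro M h1' h2
    exact
      { uc := hC
        iso' := fun A hA x y => (Cfsg.Agent.Helper15.mem_GU_iff _ _ A).1 (h2 hA).1 x y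
        ti := hti
        zu := fun z hz hzz => ⟨hzz, fun c hc => by
          obtain ⟨A, hA, hAx⟩ := hstabU z hz hzz c hc
          exact ⟨A, h1' hA, hAx⟩⟩
        se := fun w hw y hyy hyw c hc => by
          obtain ⟨A, hA, hAx⟩ := hse w hw y hyy hyw c hc
          exact ⟨A, h1' hA, hAx⟩ }
  constructor
  · refine lt_of_le_of_ne inf_le_right ?_
    intro heq
    obtain ⟨w, hw, hw0⟩ := Submodule.exists_mem_ne_zero_of_ne_bot hW0
    obtain ⟨x, hx⟩ := hC.nd w hw0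
    have hww := hti w hw w hw
    obtain ⟨l, hl'⟩ := isoadd hC w x hww (h1 hC _ _ hx)
    obtain ⟨T, hT1, hT2, hT3⟩ := Cfsg.Agent.Helper18.SuSp.utv_su hC (x + l • w) hl' ζ hC.c0'
    have hTN : T ∈ Cfsg.Geo.subspaceStabilizer W := by
      have h1' : T ∈ Cfsg.GU (m + 2) F q ⊓ Cfsg.Geo.specialLinear (Fin (m + 2)) F :=
        ⟨(Cfsg.Agent.Helper15.mem_GU_iff _ _ T).2 hT2, hT1⟩
      exact ((le_of_eq heq.symm) h1').1
    have h2 : T.1 *ᵥ w ∈ W := (hTN w).1 hw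
    have hwz : Cfsg.hermForm (m + 2) F q w (x + l • w) ≠ 0 := by
      rw [ar hC, sr hC, hww, mul_zero, add_zero]
      exact h1 hC _ _ hx
    rw [hT3] at h2
    have h3 : (ζ * Cfsg.hermForm (m + 2) F q w (x + l • w)) • (x + l • w) ∈ W := by
      have h := W.sub_mem h2 hw
      rwa [add_sub_cancel_left] at h
    have h4 : x + l • w ∈ W := by
      have h := W.smul_mem (ζ * Cfsg.hermForm (m + 2) F q w (x + l • w))⁻¹ h3
      rwa [smul_smul, inv_mul_cancel₀ (mul_ne_zero hζ0 hwz), one_smul] at h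
    exact hwz (hti w hw _ h4)
  · intro M hPM hMK
    by_cases hMP : M ≤ Cfsg.Geo.subspaceStabilizer W ⊓
        (Cfsg.GU (m + 2) F q ⊓ Cfsg.Geo.specialLinear (Fin (m + 2)) F)
    · exact Or.inl (le_antisymm hMP hPM)
    right
    apply le_antisymm hMK
    have hT := mkT M hPM hMK
    obtain ⟨h₀, hh₀, hh₀P⟩ := SetLike.not_le_iff_exists.1 hMP
    obtain ⟨z₀, hz₀, hz₀U⟩ : ∃ z₀, SuNd.inZ σ (Cfsg.hermForm (m + 2) F q) M z₀ ∧
        ¬ ∀ w ∈ W, Cfsg.hermForm (m + 2) F q z₀ w = 0 := by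
      by_contra hcon
      push Not at hcon
      have hWZ : ∀ w ∈ W, SuNd.inZ σ (Cfsg.hermForm (m + 2) F q) M w :=
        fun w hw => hT.zu w (fun w' hw' => hti w hw w' hw') (hti w hw w hw)
      have key : ∀ g ∈ M, ∀ w ∈ W, g.1 *ᵥ w ∈ W := by
        intro g hg w hw
        by_contra hgw
        have hgZ := inZ_map hT g hg w (hWZ w hw)
        have hgU := hcon _ hgZ
        obtain ⟨y₀, hy₀U, hy₀x⟩ := sep hC W _ hgw
        obtain ⟨l, hl'⟩ := isoadd hC (g.1 *ᵥ w) y₀ hgZ.1 (h1 hC _ _ hy₀x)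
        have hyU : ∀ w' ∈ W, Cfsg.hermForm (m + 2) F q (y₀ + l • (g.1 *ᵥ w)) w' = 0 := by
          intro w' hw'
          rw [hC.al, hC.sl, hy₀U w' hw', hgU w' hw', mul_zero, add_zero]
        have hyZ := hT.zu _ hyU hl'
        have h3 := hcon _ (inZ_map hT g⁻¹ (M.inv_mem hg) _ hyZ) w hw
        have h4 : Cfsg.hermForm (m + 2) F q ((g⁻¹).1 *ᵥ (y₀ + l • (g.1 *ᵥ w))) w
            = Cfsg.hermForm (m + 2) F q (y₀ + l • (g.1 *ᵥ w)) (g.1 *ᵥ w) := by
          have e1 := hT.iso' g hg ((g⁻¹).1 *ᵥ (y₀ + l • (g.1 *ᵥ w))) w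
          rw [SlSp.act_inv] at e1
          exact e1.symm
        rw [h4, hC.al, hC.sl, hgZ.1, mul_zero, add_zero] at h3
        exact hy₀x h3
      apply hh₀P
      refine ⟨?_, hMK hh₀⟩
      intro v
      show v ∈ W ↔ h₀.1 *ᵥ v ∈ W
      constructor
      · exact key h₀ hh₀ v
      · intro hv
        have h3 := key h₀⁻¹ (M.inv_mem hh₀) _ hv
        rwa [SlSp.inv_act] at h3
    have hall : ∀ x, Cfsg.hermForm (m + 2) F q x x = 0 →
        SuNd.inZ σ (Cfsg.hermForm (m + 2) F q) M x := by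
      intro x hx
      by_cases hxU : ∀ w ∈ W, Cfsg.hermForm (m + 2) F q x w = 0
      · exact hT.zu x hxU hx
      push Not at hxU hz₀U
      obtain ⟨w₁, hw₁, hxw₁⟩ := hxU
      obtain ⟨w₂, hw₂, hzw₂⟩ := hz₀U
      obtain ⟨w, hw, hxw, hzw⟩ : ∃ w ∈ W, Cfsg.hermForm (m + 2) F q x w ≠ 0 ∧
          Cfsg.hermForm (m + 2) F q z₀ w ≠ 0 := by
        by_cases h3 : Cfsg.hermForm (m + 2) F q z₀ w₁ = 0
        · by_cases h4 : Cfsg.hermForm (m + 2) F q x w₂ = 0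
          · refine ⟨w₁ + w₂, W.add_mem hw₁ hw₂, ?_, ?_⟩
            · rw [ar hC, h4, add_zero]
              exact hxw₁
            · rw [ar hC, h3, zero_add]
              exact hzw₂
          · exact ⟨w₂, hw₂, h4, hzw₂⟩
        · exact ⟨w₁, hw₁, hxw₁, h3⟩
      have h5 := e2 hT z₀ ((Cfsg.hermForm (m + 2) F q z₀ w / Cfsg.hermForm (m + 2) F q x w) • x)
        w hz₀ hw hzw (by rw [hC.sl, sr hC, hx, mul_zero, mul_zero])
        (by rw [hC.sl, div_mul_cancel₀ _ hxw])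
      have h6 := inZ_smul hT
        (Cfsg.hermForm (m + 2) F q z₀ w / Cfsg.hermForm (m + 2) F q x w)⁻¹ _ h5
      rw [smul_smul, inv_mul_cancel₀ (div_ne_zero hzw hxw), one_smul] at h6
      exact h6
    intro g hg
    have hdet : (g : Matrix (Fin (m + 2)) (Fin (m + 2)) F).det = 1 := by
      have h1' : g ∈ Cfsg.Geo.specialLinear (Fin (m + 2)) F := hg.2
      rw [Cfsg.Geo.specialLinear, MonoidHom.mem_ker] at h1'
      have h2 := congrArg Units.val h1'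
      rwa [Matrix.GeneralLinearGroup.val_det_apply, Units.val_one] at h2
    have hsu := Cfsg.Agent.Helper15.suTr_all hF m (by omega) g hg.1 hdet
    have hle : Cfsg.Agent.Helper15.suTr (m + 2) F q ≤ M := by
      unfold Cfsg.Agent.Helper15.suTr
      rw [Subgroup.closure_le]
      rintro t ⟨htG, v, c, hv, htm⟩
      have hact : ∀ x, t.1 *ᵥ x = x + (c * Cfsg.hermForm (m + 2) F q x v) • v := by
        intro x
        rw [htm, Cfsg.Agent.Helper15.utransv_mulVec]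
      by_cases hv0 : v = 0
      · have e : t = 1 := by
          apply Cfsg.Agent.S5631.gl_ext_mulVec
          intro x
          rw [hact, hv0, smul_zero, add_zero, Units.val_one, Matrix.one_mulVec]
        rw [e]
        exact M.one_mem
      by_cases hc0 : c = 0
      · have e : t = 1 := by
          apply Cfsg.Agent.S5631.gl_ext_mulVec
          intro x
          rw [hact, hc0, zero_mul, zero_smul, add_zero, Units.val_one, Matrix.one_mulVec]
        rw [e]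
        exact M.one_mem
      have hcσ : σ c = -c := by
        obtain ⟨x, hx⟩ := hC.nd v hv0
        have e := (Cfsg.Agent.Helper15.mem_GU_iff _ _ t).1 htG x x
        rw [hact] at e
        simp only [hC.al, ar hC, hC.sl, sr hC, hv, mul_zero, add_zero, map_mul,
          ← hC.herm v x] at e
        have hvx := h1 hC _ _ hx
        have e2' : (σ c + c) * (Cfsg.hermForm (m + 2) F q x v
            * Cfsg.hermForm (m + 2) F q v x) = 0 := by
          linear_combination e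
        rcases mul_eq_zero.1 e2' with h3 | h3
        · linear_combination h3
        · exact absurd h3 (mul_ne_zero hx hvx)
      obtain ⟨A, hA, hAx⟩ := (hall v hv).2 c hcσ
      have e : t = A := by
        apply Cfsg.Agent.S5631.gl_ext_mulVec
        intro x
        rw [hact, hAx]
      rw [e]
      exact hA
    exact hle hsu

end Cfsg.Agent.Helper18.SuTi
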