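import Mathlib
import Cfsg.Prelude.Def_GeometricClasses
import Cfsg.Agent.Helper15.SUGen9
import Cfsg.Agent.Helper18.SlU
import Cfsg.Agent.Helper18.SuSp
import Cfsg.Agent.Helper18.SuNd
import Cfsg.Agent.Helper18.SuTi

set_option autoImplicit false

namespace Cfsg.Agent.Helper18.SuLag

open scoped Matrix

open scoped MatrixGroups

open Cfsg.Agent.Helper28

open Cfsg.Agent.Helper18.SlU

variable {F : Type*} [Field F] {n : ℕ}

/-- Two complementary totally isotropic subspaces. -/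
structure LCfg (σ : F ≃+* F) (f : (Fin n → F) → (Fin n → F) → F) (c₀ : F)
    (X Y : Submodule F (Fin n → F)) : Prop where
  uc : UCfg σ f ⊤ c₀
  isoX : ∀ u ∈ X, ∀ v ∈ X, f u v = 0
  isoY : ∀ u ∈ Y, ∀ v ∈ Y, f u v = 0
  span : ∀ t : Fin n → F, ∃ x ∈ X, ∃ y ∈ Y, t = x + y
  rkX : 7 ≤ Module.finrank F X
  rkY : 7 ≤ Module.finrank F Y

/-- All Siegel maps with the two directions `a`, `b` lie in `M`. -/
def memE (σ : F ≃+* F) (f : (Fin n → F) → (Fin n → F) → F) (M : Subgroup (GL (Fin n) F))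
    (a b : Fin n → F) : Prop :=
  ∀ c : F, σ c = -c → ∃ A ∈ M, ∀ x : Fin n → F,
    A.1 *ᵥ x = x + (c * f x a) • b + (c * f x b) • a

/-- Group configuration. -/
structure MLCfg (σ : F ≃+* F) (f : (Fin n → F) → (Fin n → F) → F) (c₀ : F)
    (X Y : Submodule F (Fin n → F)) (M : Subgroup (GL (Fin n) F)) : Prop where
  l : LCfg σ f c₀ X Y
  iso' : ∀ A ∈ M, ∀ x y, f (A.1 *ᵥ x) (A.1 *ᵥ y) = f x y
  supE : ∀ u ∈ X, ∀ v ∈ Y, f u v = 0 → memE σ f M u v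

section cfg

variable {σ : F ≃+* F} {f : (Fin n → F) → (Fin n → F) → F} {c₀ : F}
  {X Y : Submodule F (Fin n → F)} {M : Subgroup (GL (Fin n) F)}

theorem lsymm (hL : LCfg σ f c₀ X Y) : LCfg σ f c₀ Y X where
  uc := hL.uc
  isoX := hL.isoY
  isoY := hL.isoX
  span := fun t => by
    obtain ⟨x, hx, y, hy, h⟩ := hL.span t
    exact ⟨y, hy, x, hx, by rw [h, add_comm]⟩
  rkX := hL.rkY
  rkY := hL.rkX

theorem perpAll (hL : LCfg σ f c₀ X Y) (z : Fin n → F) (hX : ∀ x ∈ X, f x z = 0)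
    (hY : ∀ y ∈ Y, f y z = 0) : z = 0 := by
  by_contra hz
  obtain ⟨v, hv⟩ := hL.uc.nd z hz
  obtain ⟨x, hx, y, hy, e⟩ := hL.span v
  apply hv
  rw [e, hL.uc.al, hX x hx, hY y hy, add_zero]

theorem disj (hL : LCfg σ f c₀ X Y) (z : Fin n → F) (hzX : z ∈ X) (hzY : z ∈ Y) : z = 0 :=
  perpAll hL z (fun x hx => hL.isoX x hx z hzX) (fun y hy => hL.isoY y hy z hzY)

theorem perpX (hL : LCfg σ f c₀ X Y) (z : Fin n → F) (hz : ∀ x ∈ X, f z x = 0) : z ∈ X := by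
  obtain ⟨x, hx, y, hy, e⟩ := hL.span z
  have hy0 : y = 0 := by
    apply perpAll hL y
    · intro x' hx'
      apply h0 hL.uc
      have h3 := hz x' hx'
      rw [e, hL.uc.al, hL.isoX x hx x' hx', zero_add] at h3
      exact h3
    · intro y' hy'
      exact hL.isoY y' hy' y hy
  rw [e, hy0, add_zero]
  exact hx

theorem exY (hL : LCfg σ f c₀ X Y) (a : Fin n → F) (ha : a ∈ X) (ha0 : a ≠ 0) :
    ∃ y ∈ Y, f y a ≠ 0 := by
  obtain ⟨v, hv⟩ := hL.uc.nd a ha0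
  obtain ⟨x, hx, y, hy, e⟩ := hL.span v
  refine ⟨y, hy, ?_⟩
  rw [e, hL.uc.al, hL.isoX x hx a ha, zero_add] at hv
  exact hv

theorem sepY (hL : LCfg σ f c₀ X Y) (a a' : Fin n → F) (ha : a ∈ X) (ha' : a' ∈ X)
    (hind : ∀ c : F, a' ≠ c • a) : ∃ y ∈ Y, f y a = 0 ∧ f y a' ≠ 0 := by
  obtain ⟨v, hv1, hv2⟩ := experp hL.uc a a' hind
  obtain ⟨x, hx, y, hy, e⟩ := hL.span v
  refine ⟨y, hy, ?_, ?_⟩
  · rw [e, hL.uc.al, hL.isoX x hx a ha, zero_add] at hv1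
    exact hv1
  · rw [e, hL.uc.al, hL.isoX x hx a' ha', zero_add] at hv2
    exact hv2

theorem exX4 (hL : LCfg σ f c₀ X Y) (y : Fin 4 → Fin n → F) :
    ∃ a ∈ X, a ≠ 0 ∧ ∀ i, f a (y i) = 0 := by
  have hlt : Module.finrank F (Fin 4 → F) < Module.finrank F X := by
    rw [Module.finrank_fintype_fun_eq_card, Fintype.card_fin]
    have := hL.rkX
    omega
  obtain ⟨a, ha, ha0⟩ := Submodule.exists_mem_ne_zero_of_ne_bot
    (LinearMap.ker_ne_bot_of_finrank_lt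
      (f := (LinearMap.pi (fun i => fl hL.uc (y i))).comp X.subtype) hlt)
  have h1' : ((LinearMap.pi (fun i => fl hL.uc (y i))).comp X.subtype) a = 0 :=
    LinearMap.mem_ker.1 ha
  exact ⟨a.1, a.2, fun h => ha0 (Subtype.ext h), fun i => congrFun h1' i⟩

theorem memE_symm (a b : Fin n → F) (h : memE σ f M a b) : memE σ f M b a := by
  intro c hc
  obtain ⟨A, hA, hAx⟩ := h c hc
  exact ⟨A, hA, fun x => by rw [hAx, add_right_comm]⟩

theorem memE_map (hiso : ∀ A ∈ M, ∀ x y, f (A.1 *ᵥ x) (A.1 *ᵥ y) = f x y)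
    (g : GL (Fin n) F) (hg : g ∈ M) (a b : Fin n → F) (h : memE σ f M a b) :
    memE σ f M (g.1 *ᵥ a) (g.1 *ᵥ b) := by
  intro c hc
  obtain ⟨A, hA, hAx⟩ := h c hc
  refine ⟨g * A * g⁻¹, M.mul_mem (M.mul_mem hg hA) (M.inv_mem hg), fun x => ?_⟩
  have e1 : ∀ w, f ((g⁻¹).1 *ᵥ x) w = f x (g.1 *ᵥ w) := by
    intro w
    have e := hiso g hg ((g⁻¹).1 *ᵥ x) w
    rw [SlSp.act_inv] at e
    exact e.symm
  rw [Units.val_mul, Units.val_mul, ← Matrix.mulVec_mulVec, ← Matrix.mulVec_mulVec, hAx,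
    Matrix.mulVec_add, Matrix.mulVec_add, Matrix.mulVec_smul, Matrix.mulVec_smul,
    SlSp.act_inv, e1, e1]

theorem msymm (hM : MLCfg σ f c₀ X Y M) : MLCfg σ f c₀ Y X M where
  l := lsymm hM.l
  iso' := hM.iso'
  supE := fun u hu v hv huv =>
    memE_symm _ _ (hM.supE v hv u hu (h0 hM.l.uc _ _ huv))

/-- Two Siegel maps with a common direction and non-orthogonal second directions produce the
transvections along the common direction. -/
theorem heis (hC : UCfg σ f ⊤ c₀) (a b b' : Fin n → F) (haa : f a a = 0) (hab : f a b = 0)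
    (hab' : f a b' = 0) (hbb : f b b = 0) (hb'b' : f b' b' = 0) (hne : f b' b ≠ 0)
    (h1' : memE σ f M a b) (h2 : ∀ μ : F, memE σ f M a (μ • b')) : SuNd.inZ σ f M a := by
  refine ⟨haa, fun κ hκ => ?_⟩
  obtain ⟨τ, hτ⟩ := hC.tr 1 (map_one σ)
  have hba : f b a = 0 := h0 hC _ _ hab
  have hb'a : f b' a = 0 := h0 hC _ _ hab'
  have hbb' : f b b' ≠ 0 := h1 hC _ _ hne
  have hc0 := hC.c0
  obtain ⟨μ, hμ⟩ : ∃ μ : F, c₀ * c₀ * (μ * f b' b - σ μ * f b b') = κ := by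
    refine ⟨κ * τ / (c₀ * c₀ * f b' b), ?_⟩
    rw [map_div₀, map_mul, map_mul, map_mul, hκ, hC.c0', ← hC.herm b b']
    field_simp
    linear_combination κ * hτ
  subst hμ
  obtain ⟨A₁, hA₁, e₁⟩ := h1' c₀ hC.c0'
  obtain ⟨A₂, hA₂, e₂⟩ := h2 μ c₀ hC.c0'
  obtain ⟨T, -, -, eT⟩ := Cfsg.Agent.Helper18.SuSp.utv_su hC a haa _ hκ
  have key : A₁ * A₂ = T * (A₂ * A₁) := by
    apply Cfsg.Agent.S5631.gl_ext_mulVec
    intro x
    simp only [Units.val_mul, ← Matrix.mulVec_mulVec, e₁, e₂, eT, hC.al, hC.sl, ar hC, sr hC,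
      haa, hab, hab', hba, hb'a, hbb, hb'b', mul_zero, add_zero, zero_add]
    module
  have hT' : T = A₁ * A₂ * (A₂ * A₁)⁻¹ := by
    rw [key]
    group
  refine ⟨T, ?_, eT⟩
  rw [hT']
  exact M.mul_mem (M.mul_mem hA₁ hA₂) (M.inv_mem (M.mul_mem hA₂ hA₁))

theorem caseA (hM : MLCfg σ f c₀ X Y M) (x y x₁ x₂ y₁ y₂ : Fin n → F)
    (hE : memE σ f M x y) (hyy : f y y = 0)
    (hx₁ : x₁ ∈ X) (hx₂ : x₂ ∈ Y) (hy₁ : y₁ ∈ X) (hy₂ : y₂ ∈ Y) (ex : x = x₁ + x₂)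
    (ey : y = y₁ + y₂) (hy₁0 : y₁ ≠ 0) (hind : ∀ c : F, x₁ ≠ c • y₁) :
    ∃ a ∈ X, a ≠ 0 ∧ SuNd.inZ σ f M a := by
  have hL := hM.l
  have hC := hL.uc
  obtain ⟨b', hb', hb'y₁, hb'x₁⟩ := sepY hL y₁ x₁ hy₁ hx₁ hind
  obtain ⟨b, hb, hby₁⟩ := exY hL y₁ hy₁ hy₁0
  have hb'y : f b' y = 0 := by
    rw [ey, ar hC, hb'y₁, hL.isoY b' hb' y₂ hy₂, add_zero]
  have hb'x : f b' x ≠ 0 := by
    rw [ex, ar hC, hL.isoY b' hb' x₂ hx₂, add_zero]
    exact hb'x₁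
  have hby : f b y ≠ 0 := by
    rw [ey, ar hC, hL.isoY b hb y₂ hy₂, add_zero]
    exact hby₁
  obtain ⟨a, ha, ha0, hay⟩ := exX4 hL ![x, y, b, b']
  have hax : f a x = 0 := hay 0
  have hay' : f a y = 0 := hay 1
  have hab : f a b = 0 := by simpa using hay 2
  have hab' : f a b' = 0 := by simpa using hay 3
  obtain ⟨G, hG, eG⟩ := hE c₀ hC.c0'
  have hGa : G.1 *ᵥ a = a := by
    rw [eG, hax, hay', mul_zero, zero_smul, zero_smul, add_zero, add_zero]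
  have hGb' : G.1 *ᵥ b' = b' + (c₀ * f b' x) • y := by
    rw [eG, hb'y, mul_zero, zero_smul, add_zero]
  have hE1 : memE σ f M a b := hM.supE a ha b hb hab
  have h2 : ∀ μ : F, memE σ f M a (μ • (b' + (c₀ * f b' x) • y)) := by
    intro μ
    have h3 := memE_map hM.iso' G hG a (μ • b')
      (hM.supE a ha (μ • b') (Y.smul_mem μ hb') (by rw [sr hC, hab', mul_zero]))
    rw [hGa, Matrix.mulVec_smul, hGb'] at h3
    exact h3
  refine ⟨a, ha, ha0, heis hC a b (b' + (c₀ * f b' x) • y) (hL.isoX a ha a ha) hab ?_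
    (hL.isoY b hb b hb) ?_ ?_ hE1 h2⟩
  · rw [ar hC, sr hC, hab', hay', mul_zero, add_zero]
  · simp only [hC.al, ar hC, hC.sl, sr hC, hL.isoY b' hb' b' hb', hb'y, h0 hC _ _ hb'y, hyy,
      mul_zero, add_zero]
  · rw [hC.al, hC.sl, hL.isoY b' hb' b hb, zero_add]
    exact mul_ne_zero (mul_ne_zero hC.c0 hb'x) (h1 hC _ _ hby)

theorem g1 (hM : MLCfg σ f c₀ X Y M) (h : GL (Fin n) F) (hh : h ∈ M) (b₀ : Fin n → F)
    (hb₀ : b₀ ∈ Y) (hyX : h.1 *ᵥ b₀ ∉ X) (hyY : h.1 *ᵥ b₀ ∉ Y) :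
    ∃ a, a ≠ 0 ∧ (a ∈ X ∨ a ∈ Y) ∧ SuNd.inZ σ f M a := by
  have hL := hM.l
  have hC := hL.uc
  obtain ⟨y₁, hy₁, y₂, hy₂, ey⟩ := hL.span (h.1 *ᵥ b₀)
  have hy₁0 : y₁ ≠ 0 := by
    intro h0'
    apply hyY
    rw [ey, h0', zero_add]
    exact hy₂
  have hy₂0 : y₂ ≠ 0 := by
    intro h0'
    apply hyX
    rw [ey, h0', add_zero]
    exact hy₁
  obtain ⟨a₀, ha₀X, ha₀b, ha₀S⟩ : ∃ a₀ ∈ X, f a₀ b₀ = 0 ∧
      a₀ ∉ Submodule.span F (Set.range ![(h⁻¹).1 *ᵥ y₁, (h⁻¹).1 *ᵥ y₂]) := by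
    have hrk := LinearMap.finrank_range_add_finrank_ker (fl hC b₀)
    have hr := Submodule.finrank_le (LinearMap.range (fl hC b₀))
    rw [Module.finrank_self] at hr
    rw [Module.finrank_fintype_fun_eq_card, Fintype.card_fin] at hrk
    have hsup := Submodule.finrank_sup_add_finrank_inf_eq X (LinearMap.ker (fl hC b₀))
    have hle := Submodule.finrank_le (X ⊔ LinearMap.ker (fl hC b₀))
    rw [Module.finrank_fintype_fun_eq_card, Fintype.card_fin] at hle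
    have hS : Module.finrank F (Submodule.span F
        (Set.range ![(h⁻¹).1 *ᵥ y₁, (h⁻¹).1 *ᵥ y₂])) ≤ 2 := by
      have h3 := finrank_range_le_card (R := F) ![(h⁻¹).1 *ᵥ y₁, (h⁻¹).1 *ᵥ y₂]
      simpa [Set.finrank] using h3
    have hX := hL.rkX
    have hnle : ¬ (X ⊓ LinearMap.ker (fl hC b₀) ≤ Submodule.span F
        (Set.range ![(h⁻¹).1 *ᵥ y₁, (h⁻¹).1 *ᵥ y₂])) := by
      intro hle'
      have h3 := Submodule.finrank_mono hle'
      omega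
    obtain ⟨a₀, ha₀, ha₀S⟩ := SetLike.not_le_iff_exists.1 hnle
    exact ⟨a₀, ha₀.1, LinearMap.mem_ker.1 ha₀.2, ha₀S⟩
  obtain ⟨x₁, hx₁, x₂, hx₂, ex⟩ := hL.span (h.1 *ᵥ a₀)
  have hE : memE σ f M (h.1 *ᵥ a₀) (h.1 *ᵥ b₀) :=
    memE_map hM.iso' h hh a₀ b₀ (hM.supE a₀ ha₀X b₀ hb₀ ha₀b)
  have hyy : f (h.1 *ᵥ b₀) (h.1 *ᵥ b₀) = 0 := by
    rw [hM.iso' h hh]
    exact hL.isoY b₀ hb₀ b₀ hb₀
  by_cases hind : ∀ c : F, x₁ ≠ c • y₁
  · obtain ⟨a, ha, ha0, hZ⟩ := caseA hM _ _ x₁ x₂ y₁ y₂ hE hyy hx₁ hx₂ hy₁ hy₂ ex ey hy₁0 hind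
    exact ⟨a, ha0, Or.inl ha, hZ⟩
  · by_cases hind2 : ∀ c : F, x₂ ≠ c • y₂
    · obtain ⟨a, ha, ha0, hZ⟩ := caseA (msymm hM) _ _ x₂ x₁ y₂ y₁ hE hyy hx₂ hx₁ hy₂ hy₁
        (by rw [ex, add_comm]) (by rw [ey, add_comm]) hy₂0 hind2
      exact ⟨a, ha0, Or.inr ha, hZ⟩
    · exfalso
      push Not at hind hind2
      obtain ⟨c, hc⟩ := hind
      obtain ⟨c', hc'⟩ := hind2
      apply ha₀S
      have e : a₀ = c • ((h⁻¹).1 *ᵥ y₁) + c' • ((h⁻¹).1 *ᵥ y₂) := by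
        rw [← Matrix.mulVec_smul, ← Matrix.mulVec_smul, ← Matrix.mulVec_add, ← hc, ← hc', ← ex,
          SlSp.inv_act]
      rw [e]
      exact Submodule.add_mem _ (Submodule.smul_mem _ _ (Submodule.subset_span ⟨0, rfl⟩))
        (Submodule.smul_mem _ _ (Submodule.subset_span ⟨1, rfl⟩))

theorem sub_union (h : GL (Fin n) F) (X X1 X2 : Submodule F (Fin n → F))
    (hu : ∀ x ∈ X, h.1 *ᵥ x ∈ X1 ∨ h.1 *ᵥ x ∈ X2) :
    (∀ x ∈ X, h.1 *ᵥ x ∈ X1) ∨ (∀ x ∈ X, h.1 *ᵥ x ∈ X2) := by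
  by_contra hcon
  push Not at hcon
  obtain ⟨⟨x1, hx1, h1'⟩, ⟨x2, hx2, h2⟩⟩ := hcon
  have h1'' : h.1 *ᵥ x1 ∈ X2 := (hu x1 hx1).resolve_left h1'
  have h2' : h.1 *ᵥ x2 ∈ X1 := (hu x2 hx2).resolve_right h2
  rcases hu (x1 + x2) (X.add_mem hx1 hx2) with h3 | h3
  · rw [Matrix.mulVec_add] at h3
    apply h1'
    have h4 := X1.sub_mem h3 h2'
    rwa [add_sub_cancel_right] at h4
  · rw [Matrix.mulVec_add] at h3
    apply h2
    have h4 := X2.sub_mem h3 h1''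
    rwa [add_sub_cancel_left] at h4

theorem exZ (hM : MLCfg σ f c₀ X Y M) (h : GL (Fin n) F) (hh : h ∈ M)
    (hn1 : ¬ ((∀ x ∈ X, h.1 *ᵥ x ∈ X) ∧ (∀ y ∈ Y, h.1 *ᵥ y ∈ Y)))
    (hn2 : ¬ ((∀ x ∈ X, h.1 *ᵥ x ∈ Y) ∧ (∀ y ∈ Y, h.1 *ᵥ y ∈ X))) :
    ∃ a, a ≠ 0 ∧ (a ∈ X ∨ a ∈ Y) ∧ SuNd.inZ σ f M a := by
  by_contra hno
  have hL := hM.l
  have cY : ∀ y ∈ Y, h.1 *ᵥ y ∈ X ∨ h.1 *ᵥ y ∈ Y := by
    intro y hy
    by_contra hc
    push Not at hc
    exact hno (g1 hM h hh y hy hc.1 hc.2)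
  have cX : ∀ x ∈ X, h.1 *ᵥ x ∈ Y ∨ h.1 *ᵥ x ∈ X := by
    intro x hx
    by_contra hc
    push Not at hc
    obtain ⟨a, ha0, ha, hZ⟩ := g1 (msymm hM) h hh x hx hc.1 hc.2
    exact hno ⟨a, ha0, ha.symm, hZ⟩
  have hX0 : ∃ x ∈ X, x ≠ 0 := by
    apply Submodule.exists_mem_ne_zero_of_ne_bot
    intro hb
    have h3 := hL.rkX
    rw [hb, finrank_bot] at h3
    omega
  have hY0 : ∃ y ∈ Y, y ≠ 0 := by
    apply Submodule.exists_mem_ne_zero_of_ne_bot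
    intro hb
    have h3 := hL.rkY
    rw [hb, finrank_bot] at h3
    omega
  have surj : ∀ S : Submodule F (Fin n → F), (∀ x ∈ X, h.1 *ᵥ x ∈ S) →
      (∀ y ∈ Y, h.1 *ᵥ y ∈ S) → ∀ v, v ∈ S := by
    intro S h1' h2 v
    obtain ⟨x, hx, y, hy, e⟩ := hL.span ((h⁻¹).1 *ᵥ v)
    have e2 : v = h.1 *ᵥ x + h.1 *ᵥ y := by
      rw [← Matrix.mulVec_add, ← e, SlSp.act_inv]
    rw [e2]
    exact S.add_mem (h1' x hx) (h2 y hy)
  rcases sub_union h X Y X cX with c1 | c1 <;> rcases sub_union h Y X Y cY with c2 | c2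
  · exact hn2 ⟨c1, c2⟩
  · obtain ⟨x, hx, hx0⟩ := hX0
    exact hx0 (disj hL x hx (surj Y c1 c2 x))
  · obtain ⟨y, hy, hy0⟩ := hY0
    exact hy0 (disj hL y (surj X c1 c2 y) hy)
  · exact hn1 ⟨c1, c2⟩

theorem inZ_map' (hiso : ∀ A ∈ M, ∀ x y, f (A.1 *ᵥ x) (A.1 *ᵥ y) = f x y) (A : GL (Fin n) F)
    (hA : A ∈ M) (z : Fin n → F) (hz : SuNd.inZ σ f M z) : SuNd.inZ σ f M (A.1 *ᵥ z) := by
  refine ⟨by rw [hiso A hA, hz.1], fun c hc => ?_⟩
  obtain ⟨T, hT', hTx⟩ := hz.2 c hc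
  refine ⟨A * T * A⁻¹, M.mul_mem (M.mul_mem hA hT') (M.inv_mem hA), fun y => ?_⟩
  rw [Units.val_mul, Units.val_mul, ← Matrix.mulVec_mulVec, ← Matrix.mulVec_mulVec, hTx,
    Matrix.mulVec_add, Matrix.mulVec_smul, SlSp.act_inv]
  have e : f ((A⁻¹).1 *ᵥ y) z = f y (A.1 *ᵥ z) := by
    have e1 := hiso A hA ((A⁻¹).1 *ᵥ y) z
    rw [SlSp.act_inv] at e1
    exact e1.symm
  rw [e]

theorem inZ_smul' (hC : UCfg σ f ⊤ c₀) (μ : F) (z : Fin n → F) (hz : SuNd.inZ σ f M z) :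
    SuNd.inZ σ f M (μ • z) := by
  refine ⟨by rw [hC.sl, sr hC, hz.1, mul_zero, mul_zero], fun c hc => ?_⟩
  obtain ⟨T, hT', hTx⟩ := hz.2 (c * (μ * σ μ)) (by
    rw [map_mul, map_mul, hC.inv, hc]
    ring)
  refine ⟨T, hT', fun y => ?_⟩
  rw [hTx, sr hC]
  module

theorem allX (hM : MLCfg σ f c₀ X Y M) (a : Fin n → F) (ha : a ∈ X) (ha0 : a ≠ 0)
    (hZ : SuNd.inZ σ f M a) : ∀ a' ∈ X, SuNd.inZ σ f M a' := by
  have hL := hM.l
  have hC := hL.uc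
  intro a' ha'
  by_cases hdep : ∀ c : F, a ≠ c • (a' - a)
  · obtain ⟨b, hb, hb1, hb2⟩ := sepY hL (a' - a) a (X.sub_mem ha' ha) ha hdep
    have hab : f a b ≠ 0 := h1 hC _ _ hb2
    have hc0 := hC.c0
    obtain ⟨μ, hμ⟩ : ∃ μ : F, c₀ * (σ μ * f a b) = 1 := by
      refine ⟨σ (c₀ * f a b)⁻¹, ?_⟩
      rw [hC.inv]
      field_simp
    have hE := hM.supE (a' - a) (X.sub_mem ha' ha) (μ • b) (Y.smul_mem μ hb)
      (by rw [sr hC, h0 hC _ _ hb1, mul_zero])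
    obtain ⟨S, hS, eS⟩ := hE c₀ hC.c0'
    have h3 := inZ_map' hM.iso' S hS a hZ
    have e : S.1 *ᵥ a = a' := by
      rw [eS, hL.isoX a ha (a' - a) (X.sub_mem ha' ha), mul_zero, zero_smul, add_zero, sr hC,
        hμ, one_smul]
      abel
    rw [e] at h3
    exact h3
  · push Not at hdep
    obtain ⟨c, hc⟩ := hdep
    have hc0 : c ≠ 0 := by
      rintro rfl
      rw [zero_smul] at hc
      exact ha0 hc
    have h4 : c⁻¹ • a = c⁻¹ • (c • (a' - a)) := congrArg (fun v => c⁻¹ • v) hc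
    rw [smul_smul, inv_mul_cancel₀ hc0, one_smul] at h4
    have e : a' = (1 + c⁻¹) • a := by
      rw [add_smul, one_smul, h4]
      abel
    rw [e]
    exact inZ_smul' hC _ _ hZ

theorem seX (hM : MLCfg σ f c₀ X Y M) (hX : ∀ x ∈ X, SuNd.inZ σ f M x) (w : Fin n → F)
    (hw : w ∈ X) (y : Fin n → F) (hyy : f y y = 0) (hyw : f y w = 0) (c : F) (hc : σ c = -c) :
    ∃ A ∈ M, ∀ x, A.1 *ᵥ x = x + (c * f x w) • y + (c * f x y) • w := by
  have hL := hM.l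
  have hC := hL.uc
  obtain ⟨y₁, hy₁, y₂, hy₂, ey⟩ := hL.span y
  subst ey
  have hww := hL.isoX w hw w hw
  have hwy₁ : f w y₁ = 0 := hL.isoX w hw y₁ hy₁
  have hy₁w : f y₁ w = 0 := hL.isoX y₁ hy₁ w hw
  have hy₁y₁ := hL.isoX y₁ hy₁ y₁ hy₁
  have hy₂y₂ := hL.isoY y₂ hy₂ y₂ hy₂
  have hy₂w : f y₂ w = 0 := by
    have h3 := hyw
    rw [hC.al, hy₁w, zero_add] at h3
    exact h3
  have hwy₂ : f w y₂ = 0 := h0 hC _ _ hy₂w
  have h12 : f y₁ y₂ = - f y₂ y₁ := by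
    have h3 := hyy
    simp only [hC.al, ar hC, hy₁y₁, hy₂y₂, zero_add, add_zero] at h3
    linear_combination h3
  have hc' : σ (-c) = -(-c) := by rw [map_neg, hc]
  obtain ⟨A₁, hA₁, e₁⟩ := (hX (w + y₁) (X.add_mem hw hy₁)).2 c hc
  obtain ⟨A₂, hA₂, e₂⟩ := (hX y₁ hy₁).2 (-c) hc'
  obtain ⟨A₃, hA₃, e₃⟩ := (hX w hw).2 (-c) hc'
  obtain ⟨E₂, hE₂, eE₂⟩ := hM.supE w hw y₂ hy₂ hwy₂ c hc
  have hκ : σ (-(c * c * f y₂ y₁)) = -(-(c * c * f y₂ y₁)) := by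
    rw [map_neg, map_mul, map_mul, hc, ← hC.herm y₁ y₂, h12]
    ring
  obtain ⟨T, hT, eT⟩ := (hX w hw).2 _ hκ
  refine ⟨A₃ * A₂ * A₁ * E₂ * T,
    M.mul_mem (M.mul_mem (M.mul_mem (M.mul_mem hA₃ hA₂) hA₁) hE₂) hT, fun x => ?_⟩
  simp only [Units.val_mul, ← Matrix.mulVec_mulVec, eT, eE₂, e₁, e₂, e₃, hC.al, hC.sl, ar hC,
    sr hC, hww, hwy₁, hy₁w, hy₁y₁, hy₂y₂, hy₂w, hwy₂, mul_zero, add_zero, zero_add]
  module

theorem swap_ex [Fintype F] (hL : LCfg σ f c₀ X Y) :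
    ∃ s : GL (Fin n) F, s ∈ Cfsg.Geo.specialLinear (Fin n) F ∧
      (∀ x y, f (s.1 *ᵥ x) (s.1 *ᵥ y) = f x y) ∧
      (∀ x ∈ X, s.1 *ᵥ x ∈ Y) ∧ (∀ y ∈ Y, s.1 *ᵥ y ∈ X) := by
  classical
  have hC := hL.uc
  obtain ⟨k, a, haX, hspan, hli⟩ : ∃ k : ℕ, ∃ a : Fin k → (Fin n → F), (∀ i, a i ∈ X) ∧
      Submodule.span F (Set.range a) = X ∧ LinearIndependent F a := by
    obtain ⟨a, h1', h2, h3⟩ := Submodule.exists_fun_fin_finrank_span_eq F (X : Set (Fin n → F))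
    exact ⟨_, a, h1', by rw [h2, Submodule.span_eq], h3⟩
  have hdual : ∀ j : Fin k, ∃ b ∈ Y, f (a j) b = 1 ∧ ∀ i, i ≠ j → f (a i) b = 0 := by
    intro j
    have hnot : a j ∉ Submodule.span F (a '' {i | i ≠ j}) ⊔ Y := by
      intro hmem
      obtain ⟨u, hu, d, hd, e⟩ := Submodule.mem_sup.1 hmem
      have huX : u ∈ X := by
        rw [← hspan]
        exact Submodule.span_mono (Set.image_subset_range _ _) hu
      have hd0 : d = 0 := by
        apply disj hL d _ hd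
        have e' : d = a j - u := by
          rw [← e]
          abel
        rw [e']
        exact X.sub_mem (haX j) huX
      rw [hd0, add_zero] at e
      rw [e] at hu
      exact hli.notMem_span_image (s := {i | i ≠ j}) (by simp) hu
    obtain ⟨y, hyS, hyj⟩ := Cfsg.Agent.Helper18.SuTi.sep hC _ (a j) hnot
    have hyY : y ∈ Y := perpX (lsymm hL) y (fun d hd => hyS d (Submodule.mem_sup_right hd))
    refine ⟨(f y (a j))⁻¹ • y, Y.smul_mem _ hyY, ?_, fun i hi => ?_⟩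
    · rw [sr hC, map_inv₀, ← hC.herm (a j) y, inv_mul_cancel₀ (h1 hC _ _ hyj)]
    · rw [sr hC, h0 hC _ _ (hyS (a i)
        (Submodule.mem_sup_left (Submodule.subset_span ⟨i, hi, rfl⟩))), mul_zero]
  choose b hbY hb1 hb0 using hdual
  have hc0 := hC.c0
  have hcc : c₀ * (-c₀⁻¹) = -1 := by
    field_simp
  have hcc' : (-c₀⁻¹) * c₀ = -1 := by
    field_simp
  have hσc' : σ (-c₀⁻¹) = -(-c₀⁻¹) := by
    rw [map_neg, map_inv₀, hC.c0', inv_neg]
  have hw : ∀ j : Fin k, ∃ w : GL (Fin n) F, w ∈ Cfsg.Geo.specialLinear (Fin n) F ∧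
      (∀ x y, f (w.1 *ᵥ x) (w.1 *ᵥ y) = f x y) ∧ w.1 *ᵥ a j = (-c₀⁻¹) • b j ∧
      w.1 *ᵥ b j = c₀ • a j ∧ ∀ v, f v (a j) = 0 → f v (b j) = 0 → w.1 *ᵥ v = v := by
    intro j
    have haa := hL.isoX (a j) (haX j) (a j) (haX j)
    have hbb := hL.isoY (b j) (hbY j) (b j) (hbY j)
    have hab1 := hb1 j
    have hba1 : f (b j) (a j) = 1 := by rw [hC.herm, hab1, map_one]
    obtain ⟨T₁, hT₁1, hT₁2, e₁⟩ := Cfsg.Agent.Helper18.SuSp.utv_su hC (a j) haa c₀ hC.c0'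
    obtain ⟨T₂, hT₂1, hT₂2, e₂⟩ := Cfsg.Agent.Helper18.SuSp.utv_su hC (b j) hbb (-c₀⁻¹) hσc'
    have s1 : T₁.1 *ᵥ a j = a j := by
      rw [e₁, haa, mul_zero, zero_smul, add_zero]
    have s2 : T₂.1 *ᵥ a j = a j + (-c₀⁻¹) • b j := by
      rw [e₂, hab1, mul_one]
    have s3 : T₁.1 *ᵥ (a j + (-c₀⁻¹) • b j) = (-c₀⁻¹) • b j := by
      rw [e₁, hC.al, hC.sl, haa, hba1, mul_one, zero_add, hcc]
      module
    have s4 : T₁.1 *ᵥ b j = b j + c₀ • a j := by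
      rw [e₁, hba1, mul_one]
    have s5 : T₂.1 *ᵥ (b j + c₀ • a j) = c₀ • a j := by
      rw [e₂, hC.al, hC.sl, hbb, hab1, mul_one, zero_add, hcc']
      module
    have s6 : T₁.1 *ᵥ (c₀ • a j) = c₀ • a j := by
      rw [e₁, hC.sl, haa, mul_zero, mul_zero, zero_smul, add_zero]
    refine ⟨T₁ * T₂ * T₁, Subgroup.mul_mem _ (Subgroup.mul_mem _ hT₁1 hT₂1) hT₁1,
      fun x y => ?_, ?_, ?_, fun v hva hvb => ?_⟩
    · rw [Units.val_mul, Units.val_mul, ← Matrix.mulVec_mulVec, ← Matrix.mulVec_mulVec,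
        ← Matrix.mulVec_mulVec, ← Matrix.mulVec_mulVec, hT₁2, hT₂2, hT₁2]
    · rw [Units.val_mul, Units.val_mul, ← Matrix.mulVec_mulVec, ← Matrix.mulVec_mulVec, s1, s2,
        s3]
    · rw [Units.val_mul, Units.val_mul, ← Matrix.mulVec_mulVec, ← Matrix.mulVec_mulVec, s4, s5,
        s6]
    · have t1 : T₁.1 *ᵥ v = v := by
        rw [e₁, hva, mul_zero, zero_smul, add_zero]
      have t2 : T₂.1 *ᵥ v = v := by
        rw [e₂, hvb, mul_zero, zero_smul, add_zero]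
      rw [Units.val_mul, Units.val_mul, ← Matrix.mulVec_mulVec, ← Matrix.mulVec_mulVec, t1, t2,
        t1]
  choose w hwSL hwiso hwa hwb hwfix using hw
  have key : ∀ l : List (Fin k), l.Nodup →
      (l.map w).prod ∈ Cfsg.Geo.specialLinear (Fin n) F ∧
      (∀ x y, f ((l.map w).prod.1 *ᵥ x) ((l.map w).prod.1 *ᵥ y) = f x y) ∧
      (∀ j, j ∈ l → (l.map w).prod.1 *ᵥ a j = (-c₀⁻¹) • b j ∧
        (l.map w).prod.1 *ᵥ b j = c₀ • a j) ∧
      (∀ j, j ∉ l → (l.map w).prod.1 *ᵥ a j = a j ∧ (l.map w).prod.1 *ᵥ b j = b j) := by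
    intro l
    induction l with
    | nil =>
      intro _
      refine ⟨Subgroup.one_mem _, fun x y => ?_, fun j hj => absurd hj List.not_mem_nil,
        fun j _ => ?_⟩
      · rw [List.map_nil, List.prod_nil, Units.val_one, Matrix.one_mulVec, Matrix.one_mulVec]
      · rw [List.map_nil, List.prod_nil, Units.val_one, Matrix.one_mulVec, Matrix.one_mulVec]
        exact ⟨rfl, rfl⟩
    | cons i l ih =>
      intro hnd
      obtain ⟨hi, hnd'⟩ := List.nodup_cons.1 hnd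
      obtain ⟨h1', h2, h3, h4⟩ := ih hnd'
      rw [List.map_cons, List.prod_cons]
      refine ⟨Subgroup.mul_mem _ (hwSL i) h1', fun x y => ?_, fun j hj => ?_, fun j hj => ?_⟩
      · rw [Units.val_mul, ← Matrix.mulVec_mulVec, ← Matrix.mulVec_mulVec, hwiso, h2]
      · rw [Units.val_mul, ← Matrix.mulVec_mulVec, ← Matrix.mulVec_mulVec]
        rcases List.mem_cons.1 hj with rfl | hj'
        · rw [(h4 j hi).1, (h4 j hi).2]
          exact ⟨hwa j, hwb j⟩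
        · have hji : j ≠ i := fun e => hi (e ▸ hj')
          have f1 : f (b j) (a i) = 0 := h0 hC _ _ (hb0 j i (Ne.symm hji))
          have f2 : f (b j) (b i) = 0 := hL.isoY _ (hbY j) _ (hbY i)
          have f3 : f (a j) (a i) = 0 := hL.isoX _ (haX j) _ (haX i)
          have f4 : f (a j) (b i) = 0 := hb0 i j hji
          rw [(h3 j hj').1, (h3 j hj').2, Matrix.mulVec_smul, Matrix.mulVec_smul,
            hwfix i (b j) f1 f2, hwfix i (a j) f3 f4]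
          exact ⟨rfl, rfl⟩
      · rw [Units.val_mul, ← Matrix.mulVec_mulVec, ← Matrix.mulVec_mulVec]
        have hji : j ≠ i := fun e => hj (e ▸ List.mem_cons_self)
        have hjl : j ∉ l := fun h => hj (List.mem_cons_of_mem _ h)
        have f1 : f (b j) (a i) = 0 := h0 hC _ _ (hb0 j i (Ne.symm hji))
        have f2 : f (b j) (b i) = 0 := hL.isoY _ (hbY j) _ (hbY i)
        have f3 : f (a j) (a i) = 0 := hL.isoX _ (haX j) _ (haX i)
        have f4 : f (a j) (b i) = 0 := hb0 i j hji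
        rw [(h4 j hjl).1, (h4 j hjl).2, hwfix i (a j) f3 f4, hwfix i (b j) f1 f2]
        exact ⟨rfl, rfl⟩
  obtain ⟨hs1, hs2, hs3, -⟩ := key (List.finRange k) (List.nodup_finRange k)
  obtain ⟨s, hsdef⟩ : ∃ s, s = ((List.finRange k).map w).prod := ⟨_, rfl⟩
  rw [← hsdef] at hs1 hs2 hs3
  have hsa : ∀ j, s.1 *ᵥ a j = (-c₀⁻¹) • b j := fun j => (hs3 j (List.mem_finRange j)).1
  have hsb : ∀ j, s.1 *ᵥ b j = c₀ • a j := fun j => (hs3 j (List.mem_finRange j)).2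
  refine ⟨s, hs1, hs2, fun x hx => ?_, fun y hy => ?_⟩
  · rw [← hspan] at hx
    refine Submodule.span_induction (p := fun v _ => s.1 *ᵥ v ∈ Y) ?_ ?_ ?_ ?_ hx
    · rintro v ⟨j, rfl⟩
      rw [hsa]
      exact Y.smul_mem _ (hbY j)
    · rw [Matrix.mulVec_zero]
      exact Y.zero_mem
    · intro u v _ _ hu hv
      rw [Matrix.mulVec_add]
      exact Y.add_mem hu hv
    · intro c v _ hv
      rw [Matrix.mulVec_smul]
      exact Y.smul_mem c hv
  · apply perpX hL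
    intro x hx
    rw [← hspan] at hx
    refine Submodule.span_induction (p := fun v _ => f (s.1 *ᵥ y) v = 0) ?_ ?_ ?_ ?_ hx
    · rintro v ⟨j, rfl⟩
      have e : a j = s.1 *ᵥ (c₀⁻¹ • b j) := by
        rw [Matrix.mulVec_smul, hsb, smul_smul, inv_mul_cancel₀ hc0, one_smul]
      rw [e, hs2, sr hC, hL.isoY y hy (b j) (hbY j), mul_zero]
    · exact zr hC _
    · intro u v _ _ hu hv
      rw [ar hC, hu, hv, add_zero]
    · intro c v _ hv
      rw [sr hC, hv, mul_zero]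

end cfg

theorem main [Fintype F] (n q : ℕ) (hF : Fintype.card F = q ^ 2) (hn : 13 ≤ n) (k : ℕ)
    (hk : 2 * k = n) (D : Fin 2 → Submodule F (Fin n → F)) (hD : Cfsg.Geo.IsMDecomposition k D)
    (hts : ∀ i, Cfsg.Geo.IsTotallySingularFor (Cfsg.hermForm n F q) (D i)) :
    Cfsg.Geo.IsMaximalIn (Cfsg.GU n F q ⊓ Cfsg.Geo.specialLinear (Fin n) F)
      (Cfsg.Geo.decompositionStabilizer D ⊓
        (Cfsg.GU n F q ⊓ Cfsg.Geo.specialLinear (Fin n) F)) := by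
  classical
  obtain ⟨m, rfl⟩ : ∃ m, n = m + 2 := ⟨n - 2, by omega⟩
  obtain ⟨φ, hφ⟩ := Cfsg.Agent.Helper15.exists_frob hF
  have hinvφ : ∀ x, φ (φ x) = x := fun x => by
    rw [hφ, hφ]
    exact Cfsg.Agent.Helper15.pow_card_sq hF x
  obtain ⟨σ, hσ'⟩ : ∃ σ : F ≃+* F, ∀ x, σ x = φ x :=
    ⟨{ toFun := φ, invFun := φ, left_inv := hinvφ, right_inv := hinvφ, map_mul' := φ.map_mul,
       map_add' := φ.map_add }, fun x => rfl⟩
  have hσ : ∀ x, σ x = x ^ q := fun x => by rw [hσ', hφ]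
  have hinv : ∀ x, σ (σ x) = x := fun x => by
    rw [hσ', hσ']
    exact hinvφ x
  have hq2 : 2 ≤ q := Cfsg.Agent.Helper15.two_le_of_card_sq hF
  obtain ⟨θ, hθ⟩ : ∃ θ : F, σ θ ≠ θ := by
    by_contra hcon
    push Not at hcon
    have hne : (Polynomial.X ^ q - Polynomial.X : Polynomial F) ≠ 0 :=
      FiniteField.X_pow_card_sub_X_ne_zero F hq2
    have hsub : (Finset.univ : Finset F) ⊆
        (Polynomial.X ^ q - Polynomial.X : Polynomial F).roots.toFinset := by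
      intro x _
      rw [Multiset.mem_toFinset, Polynomial.mem_roots hne, Polynomial.IsRoot,
        Polynomial.eval_sub, Polynomial.eval_pow, Polynomial.eval_X, ← hσ, hcon x, sub_self]
    have h1' : Fintype.card F ≤ q := by
      calc Fintype.card F = (Finset.univ : Finset F).card := Finset.card_univ.symm
        _ ≤ (Polynomial.X ^ q - Polynomial.X : Polynomial F).roots.toFinset.card :=
          Finset.card_le_card hsub
        _ ≤ Multiset.card (Polynomial.X ^ q - Polynomial.X : Polynomial F).roots :=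
          Multiset.toFinset_card_le _
        _ ≤ (Polynomial.X ^ q - Polynomial.X : Polynomial F).natDegree :=
          Polynomial.card_roots' _
        _ = q := FiniteField.X_pow_card_sub_X_natDegree_eq F hq2
    rw [hF] at h1'
    nlinarith
  have hneσ : σ ≠ RingEquiv.refl F := by
    intro h
    apply hθ
    rw [h]
    rfl
  obtain ⟨ζ, hζ0, hζ'⟩ := exists_c0 σ hinv hneσ
  have hζ : ζ + ζ ^ q = 0 := by
    rw [← hσ, hζ']
    ring
  have hC := Cfsg.Agent.Helper18.SuSp.mk_uc (n := m + 2) q hF hn σ hσ hinv θ hθ ζ hζ0 hζ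
  have hk7 : 7 ≤ k := by omega
  have hspan : ∀ t : Fin (m + 2) → F, ∃ x ∈ D 0, ∃ y ∈ D 1, t = x + y := by
    intro t
    have ht : t ∈ iSup D := by
      rw [hD.iSup_eq_top]
      exact Submodule.mem_top
    obtain ⟨g, hg, hgt⟩ := (Submodule.mem_iSup_iff_exists_finsupp D t).1 ht
    refine ⟨g 0, hg 0, g 1, hg 1, ?_⟩
    rw [← hgt, Finsupp.sum_fintype _ _ (fun i => rfl), Fin.sum_univ_two]
  have hL : LCfg σ (Cfsg.hermForm (m + 2) F q) ζ (D 0) (D 1) :=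
    { uc := hC
      isoX := hts 0
      isoY := hts 1
      span := hspan
      rkX := by
        rw [hD.finrank_eq]
        exact hk7
      rkY := by
        rw [hD.finrank_eq]
        exact hk7 }
  have gl_inj : ∀ g : GL (Fin (m + 2)) F, Function.Injective (Matrix.toLin' g.1) := by
    intro g p r hpr
    rw [Matrix.toLin'_apply, Matrix.toLin'_apply] at hpr
    have e' : (g⁻¹).1 *ᵥ (g.1 *ᵥ p) = (g⁻¹).1 *ᵥ (g.1 *ᵥ r) := by rw [hpr]
    rw [SlSp.inv_act, SlSp.inv_act] at e'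
    exact e'
  have map_eq : ∀ (g : GL (Fin (m + 2)) F) (A A' : Submodule F (Fin (m + 2) → F)),
      (∀ x ∈ A, g.1 *ᵥ x ∈ A') → Module.finrank F A = Module.finrank F A' →
      A.map (Matrix.toLin' g.1) = A' := by
    intro g A A' h hr
    apply Submodule.eq_of_le_of_finrank_eq
    · rintro y ⟨x, hx, rfl⟩
      rw [Matrix.toLin'_apply]
      exact h x hx
    · rw [← hr]
      exact (Submodule.equivMapOfInjective _ (gl_inj g) A).finrank_eq.symm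
  have hstab : ∀ g : GL (Fin (m + 2)) F, (∀ x ∈ D 0, g.1 *ᵥ x ∈ D 0) →
      (∀ y ∈ D 1, g.1 *ᵥ y ∈ D 1) → g ∈ Cfsg.Geo.decompositionStabilizer D := by
    intro g h0' h1'
    refine ⟨1, ?_⟩
    rw [Fin.forall_fin_two]
    exact ⟨map_eq g (D 0) (D 0) h0' rfl, map_eq g (D 1) (D 1) h1' rfl⟩
  have hstab' : ∀ g : GL (Fin (m + 2)) F, (∀ x ∈ D 0, g.1 *ᵥ x ∈ D 1) →
      (∀ y ∈ D 1, g.1 *ᵥ y ∈ D 0) → g ∈ Cfsg.Geo.decompositionStabilizer D := by
    intro g h0' h1'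
    refine ⟨Equiv.swap 0 1, ?_⟩
    rw [Fin.forall_fin_two, Equiv.swap_apply_left, Equiv.swap_apply_right]
    exact ⟨map_eq g (D 0) (D 1) h0' (by rw [hD.finrank_eq, hD.finrank_eq]),
      map_eq g (D 1) (D 0) h1' (by rw [hD.finrank_eq, hD.finrank_eq])⟩
  have hsupP : ∀ u ∈ D 0, ∀ v ∈ D 1, Cfsg.hermForm (m + 2) F q u v = 0 → ∀ c : F, σ c = -c →
      ∃ A ∈ Cfsg.Geo.decompositionStabilizer D ⊓
        (Cfsg.GU (m + 2) F q ⊓ Cfsg.Geo.specialLinear (Fin (m + 2)) F),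
        ∀ x, A.1 *ᵥ x = x + (c * Cfsg.hermForm (m + 2) F q x u) • v + (c * Cfsg.hermForm (m + 2) F q x v) • u := by
    intro u hu v hv huv c hc
    have huu := hts 0 u hu u hu
    have hvv := hts 1 v hv v hv
    have hvu : Cfsg.hermForm (m + 2) F q v u = 0 := h0 hC _ _ huv
    have hs : Cfsg.hermForm (m + 2) F q (u + v) (u + v) = 0 := by
      simp only [hC.al, ar hC, huu, hvv, huv, hvu, add_zero]
    have hc' : σ (-c) = -(-c) := by rw [map_neg, hc]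
    obtain ⟨A₁, hA₁1, hA₁2, hA₁3⟩ := Cfsg.Agent.Helper18.SuSp.utv_su hC (u + v) hs c hc
    obtain ⟨A₂, hA₂1, hA₂2, hA₂3⟩ := Cfsg.Agent.Helper18.SuSp.utv_su hC v hvv (-c) hc'
    obtain ⟨A₃, hA₃1, hA₃2, hA₃3⟩ := Cfsg.Agent.Helper18.SuSp.utv_su hC u huu (-c) hc'
    have hact : ∀ x, (A₃ * A₂ * A₁).1 *ᵥ x = x + (c * Cfsg.hermForm (m + 2) F q x u) • v + (c * Cfsg.hermForm (m + 2) F q x v) • u := by
      intro x
      rw [Units.val_mul, Units.val_mul, ← Matrix.mulVec_mulVec, ← Matrix.mulVec_mulVec, hA₁3,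
        hA₂3, hA₃3]
      simp only [hC.al, hC.sl, ar hC, sr hC, huu, hvv, huv, hvu, mul_zero, add_zero, zero_add]
      module
    have hGU : A₃ * A₂ * A₁ ∈ Cfsg.GU (m + 2) F q :=
      Subgroup.mul_mem _ (Subgroup.mul_mem _ ((Cfsg.Agent.Helper15.mem_GU_iff _ _ A₃).2 hA₃2)
        ((Cfsg.Agent.Helper15.mem_GU_iff _ _ A₂).2 hA₂2))
        ((Cfsg.Agent.Helper15.mem_GU_iff _ _ A₁).2 hA₁2)
    have hSL : A₃ * A₂ * A₁ ∈ Cfsg.Geo.specialLinear (Fin (m + 2)) F :=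
      Subgroup.mul_mem _ (Subgroup.mul_mem _ hA₃1 hA₂1) hA₁1
    refine ⟨A₃ * A₂ * A₁, ⟨hstab _ ?_ ?_, hGU, hSL⟩, hact⟩
    · intro x hx
      rw [hact, hts 0 x hx u hu, mul_zero, zero_smul, add_zero]
      exact (D 0).add_mem hx ((D 0).smul_mem _ hu)
    · intro y hy
      rw [hact, hts 1 y hy v hv, mul_zero, zero_smul, add_zero]
      exact (D 1).add_mem hy ((D 1).smul_mem _ hv)
  have mkM : ∀ M : Subgroup (GL (Fin (m + 2)) F),
      Cfsg.Geo.decompositionStabilizer D ⊓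
        (Cfsg.GU (m + 2) F q ⊓ Cfsg.Geo.specialLinear (Fin (m + 2)) F) ≤ M →
      M ≤ Cfsg.GU (m + 2) F q ⊓ Cfsg.Geo.specialLinear (Fin (m + 2)) F →
      MLCfg σ (Cfsg.hermForm (m + 2) F q) ζ (D 0) (D 1) M := by
    intro M h1' h2
    exact
      { l := hL
        iso' := fun A hA x y => (Cfsg.Agent.Helper15.mem_GU_iff _ _ A).1 (h2 hA).1 x y
        supE := fun u hu v hv huv c hc => by
          obtain ⟨A, hA, hAx⟩ := hsupP u hu v hv huv c hc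
          exact ⟨A, h1' hA, hAx⟩ }
  have hne : ∀ i, ∃ x ∈ D i, x ≠ 0 := by
    intro i
    apply Submodule.exists_mem_ne_zero_of_ne_bot
    intro hb
    have h3 := hD.finrank_eq i
    rw [hb, finrank_bot] at h3
    omega
  constructor
  · refine lt_of_le_of_ne inf_le_right ?_
    intro heq
    obtain ⟨x, hx, hx0⟩ := hne 0
    obtain ⟨y, hy, hyx⟩ := exY hL x hx hx0
    obtain ⟨T, hT1, hT2, hT3⟩ :=
      Cfsg.Agent.Helper18.SuSp.utv_su hC x (hts 0 x hx x hx) ζ hC.c0'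
    have hTP : T ∈ Cfsg.Geo.decompositionStabilizer D := by
      have h1' : T ∈ Cfsg.GU (m + 2) F q ⊓ Cfsg.Geo.specialLinear (Fin (m + 2)) F :=
        ⟨(Cfsg.Agent.Helper15.mem_GU_iff _ _ T).2 hT2, hT1⟩
      exact ((le_of_eq heq.symm) h1').1
    obtain ⟨π, hπ⟩ := hTP
    have h5 : T.1 *ᵥ y ∈ D (π 1) := by
      rw [← hπ 1, ← Matrix.toLin'_apply]
      exact Submodule.mem_map_of_mem hy
    rw [hT3] at h5
    have hcases : π 1 = 0 ∨ π 1 = 1 := by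
      have hlt := (π 1).isLt
      rcases Nat.eq_zero_or_pos (π 1).val with h | h
      · left
        exact Fin.ext h
      · right
        apply Fin.ext
        show (π 1).val = 1
        omega
    rcases hcases with h | h
    · rw [h] at h5
      have h6 : y ∈ D 0 := by
        have h7 := (D 0).sub_mem h5 ((D 0).smul_mem (ζ * Cfsg.hermForm (m + 2) F q y x) hx)
        rwa [add_sub_cancel_right] at h7
      have y0 := disj hL y h6 hy
      apply hyx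
      rw [y0, zl hC]
    · rw [h] at h5
      have h6 : (ζ * Cfsg.hermForm (m + 2) F q y x) • x ∈ D 1 := by
        have h7 := (D 1).sub_mem h5 hy
        rwa [add_sub_cancel_left] at h7
      have h8 : x ∈ D 1 := by
        have h9 := (D 1).smul_mem (ζ * Cfsg.hermForm (m + 2) F q y x)⁻¹ h6
        rwa [smul_smul, inv_mul_cancel₀ (mul_ne_zero hζ0 hyx), one_smul] at h9
      exact hx0 (disj hL x hx h8)
  · intro M hPM hMK
    by_cases hMP : M = Cfsg.Geo.decompositionStabilizer D ⊓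
        (Cfsg.GU (m + 2) F q ⊓ Cfsg.Geo.specialLinear (Fin (m + 2)) F)
    · exact Or.inl hMP
    right
    have hM := mkM M hPM hMK
    apply le_antisymm hMK
    obtain ⟨h, hh, hhP⟩ : ∃ h ∈ M, h ∉ Cfsg.Geo.decompositionStabilizer D := by
      by_contra hcon
      push Not at hcon
      exact hMP (le_antisymm (fun g hg => ⟨hcon g hg, hMK hg⟩) hPM)
    obtain ⟨a, ha0, haXY, haZ⟩ := exZ hM h hh (fun hc => hhP (hstab h hc.1 hc.2))
      (fun hc => hhP (hstab' h hc.1 hc.2))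
    obtain ⟨s, hsSL, hsiso, hsX, hsY⟩ := swap_ex hL
    have hsM : s ∈ M :=
      hPM ⟨hstab' s hsX hsY, (Cfsg.Agent.Helper15.mem_GU_iff _ _ s).2 hsiso, hsSL⟩
    have eX := map_eq s (D 0) (D 1) hsX (by rw [hD.finrank_eq, hD.finrank_eq])
    have eY := map_eq s (D 1) (D 0) hsY (by rw [hD.finrank_eq, hD.finrank_eq])
    have tr : ∀ (A A' : Submodule F (Fin (m + 2) → F)), A.map (Matrix.toLin' s.1) = A' →
        (∀ x ∈ A, SuNd.inZ σ (Cfsg.hermForm (m + 2) F q) M x) → ∀ y ∈ A', SuNd.inZ σ (Cfsg.hermForm (m + 2) F q) M y := by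
      intro A A' e hA y hy
      rw [← e] at hy
      obtain ⟨x, hx, rfl⟩ := Submodule.mem_map.1 hy
      rw [Matrix.toLin'_apply]
      exact inZ_map' hM.iso' s hsM x (hA x hx)
    obtain ⟨hXZ, hYZ⟩ : (∀ x ∈ D 0, SuNd.inZ σ (Cfsg.hermForm (m + 2) F q) M x) ∧
        (∀ y ∈ D 1, SuNd.inZ σ (Cfsg.hermForm (m + 2) F q) M y) := by
      rcases haXY with ha | ha
      · have hX := allX hM a ha ha0 haZ
        exact ⟨hX, tr _ _ eX hX⟩
      · have hY := allX (msymm hM) a ha ha0 haZ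
        exact ⟨tr _ _ eY hY, hY⟩
    have hT : Cfsg.Agent.Helper18.SuTi.TCfg σ (Cfsg.hermForm (m + 2) F q) ζ (D 0) M :=
      { uc := hC
        iso' := hM.iso'
        ti := hts 0
        zu := fun z hz hzz => hXZ z (perpX hL z hz)
        se := fun w hw y hyy hyw c hc => seX hM hXZ w hw y hyy hyw c hc }
    obtain ⟨z₀, hz₀D, hz₀0⟩ := hne 1
    have hz₀ := hYZ z₀ hz₀D
    have hz₀U : ¬ ∀ w ∈ D 0, Cfsg.hermForm (m + 2) F q z₀ w = 0 := by
      intro hc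
      exact hz₀0 (disj hL z₀ (perpX hL z₀ hc) hz₀D)
    have hall : ∀ x, Cfsg.hermForm (m + 2) F q x x = 0 → SuNd.inZ σ (Cfsg.hermForm (m + 2) F q) M x := by
      intro x hx
      by_cases hxU : ∀ w ∈ D 0, Cfsg.hermForm (m + 2) F q x w = 0
      · exact hT.zu x hxU hx
      push Not at hxU hz₀U
      obtain ⟨w₁, hw₁, hxw₁⟩ := hxU
      obtain ⟨w₂, hw₂, hzw₂⟩ := hz₀U
      obtain ⟨w, hw, hxw, hzw⟩ : ∃ w ∈ D 0, Cfsg.hermForm (m + 2) F q x w ≠ 0 ∧ Cfsg.hermForm (m + 2) F q z₀ w ≠ 0 := by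
        by_cases h3 : Cfsg.hermForm (m + 2) F q z₀ w₁ = 0
        · by_cases h4 : Cfsg.hermForm (m + 2) F q x w₂ = 0
          · refine ⟨w₁ + w₂, (D 0).add_mem hw₁ hw₂, ?_, ?_⟩
            · rw [ar hC, h4, add_zero]
              exact hxw₁
            · rw [ar hC, h3, zero_add]
              exact hzw₂
          · exact ⟨w₂, hw₂, h4, hzw₂⟩
        · exact ⟨w₁, hw₁, hxw₁, h3⟩
      have h5 := Cfsg.Agent.Helper18.SuTi.e2 hT z₀ ((Cfsg.hermForm (m + 2) F q z₀ w / Cfsg.hermForm (m + 2) F q x w) • x)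
        w hz₀ hw hzw (by rw [hC.sl, sr hC, hx, mul_zero, mul_zero])
        (by rw [hC.sl, div_mul_cancel₀ _ hxw])
      have h6 := Cfsg.Agent.Helper18.SuTi.inZ_smul hT (Cfsg.hermForm (m + 2) F q z₀ w / Cfsg.hermForm (m + 2) F q x w)⁻¹ _ h5
      rw [smul_smul, inv_mul_cancel₀ (div_ne_zero hzw hxw), one_smul] at h6
      exact h6
    intro g hg
    have hdet : (g : Matrix (Fin (m + 2)) (Fin (m + 2)) F).det = 1 := by
      have h1' : g ∈ Cfsg.Geo.specialLinear (Fin (m + 2)) F := hg.2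
      rw [Cfsg.Geo.specialLinear, MonoidHom.mem_ker] at h1'
      have h2 := congrArg Units.val h1'
      rwa [Matrix.GeneralLinearGroup.val_det_apply, Units.val_one] at h2
    have hsu := Cfsg.Agent.Helper15.suTr_all hF m (by omega) g hg.1 hdet
    have hle : Cfsg.Agent.Helper15.suTr (m + 2) F q ≤ M := by
      unfold Cfsg.Agent.Helper15.suTr
      rw [Subgroup.closure_le]
      rintro t ⟨htG, v, c, hv, htm⟩
      have hact : ∀ x, t.1 *ᵥ x = x + (c * Cfsg.hermForm (m + 2) F q x v) • v := by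
        intro x
        rw [htm, Cfsg.Agent.Helper15.utransv_mulVec]
      by_cases hv0 : v = 0
      · have e : t = 1 := by
          apply Cfsg.Agent.S5631.gl_ext_mulVec
          intro x
          rw [hact, hv0, smul_zero, add_zero, Units.val_one, Matrix.one_mulVec]
        rw [e]
        exact M.one_mem
      by_cases hc0 : c = 0
      · have e : t = 1 := by
          apply Cfsg.Agent.S5631.gl_ext_mulVec
          intro x
          rw [hact, hc0, zero_mul, zero_smul, add_zero, Units.val_one, Matrix.one_mulVec]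
        rw [e]
        exact M.one_mem
      have hcσ : σ c = -c := by
        obtain ⟨x, hx⟩ := hC.nd v hv0
        have e := (Cfsg.Agent.Helper15.mem_GU_iff _ _ t).1 htG x x
        rw [hact] at e
        simp only [hC.al, ar hC, hC.sl, sr hC, hv, mul_zero, add_zero, map_mul,
          ← hC.herm v x] at e
        have hvx := h1 hC _ _ hx
        have e2' : (σ c + c) * (Cfsg.hermForm (m + 2) F q x v * Cfsg.hermForm (m + 2) F q v x) = 0 := by
          linear_combination e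
        rcases mul_eq_zero.1 e2' with h3 | h3
        · linear_combination h3
        · exact absurd h3 (mul_ne_zero hx hvx)
      obtain ⟨A, hA, hAx⟩ := (hall v hv).2 c hcσ
      have e : t = A := by
        apply Cfsg.Agent.S5631.gl_ext_mulVec
        intro x
        rw [hact, hAx]
      rw [e]
      exact hA
    exact hle hsu

end Cfsg.Agent.Helper18.SuLag
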