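import Mathlib
import Cfsg.Prelude.Def_GeometricClasses
import Cfsg.Prelude.Def_LieClassical
import Cfsg.Prelude.Def_ClassicalGeometry
import Cfsg.Agent.Helper18.TensTwo
import Cfsg.Agent.Helper18.DecStab
import Cfsg.Agent.Helper18.TensUnit
import Cfsg.Agent.Helper18.TensSymp
import Cfsg.Agent.Helper18.DiagOrth

set_option autoImplicit false

namespace Cfsg.Agent.Helper18.TWr

open Matrix

open scoped commutatorElement

variable {F : Type*} [Field F]

section pure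

variable {k t : ℕ}

/-- A pure tensor vector. -/
def pt (xs : Fin t → Fin k → F) : (Fin t → Fin k) → F := fun S => ∏ i, xs i (S i)

/-- A pure tensor matrix. -/
def pureM (Ys : Fin t → Matrix (Fin k) (Fin k) F) :
    Matrix (Fin t → Fin k) (Fin t → Fin k) F :=
  fun S T => ∏ i, Ys i (S i) (T i)

theorem sum_prod_eq (f : Fin t → Fin k → F) :
    ∑ T : Fin t → Fin k, ∏ i, f i (T i) = ∏ i, ∑ c, f i c := by
  rw [Finset.prod_univ_sum, Fintype.piFinset_univ]

theorem pureM_mulVec_pt (Ys : Fin t → Matrix (Fin k) (Fin k) F) (xs : Fin t → Fin k → F) :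
    pureM Ys *ᵥ pt xs = pt (fun i => Ys i *ᵥ xs i) := by
  funext S
  show ∑ T, pureM Ys S T * pt xs T = ∏ i, (Ys i *ᵥ xs i) (S i)
  unfold pureM pt
  simp only [← Finset.prod_mul_distrib]
  rw [sum_prod_eq (fun i c => Ys i (S i) c * xs i c)]
  rfl

theorem pureM_mul (Ys Zs : Fin t → Matrix (Fin k) (Fin k) F) :
    pureM Ys * pureM Zs = pureM (fun i => Ys i * Zs i) := by
  ext S U
  show ∑ T, pureM Ys S T * pureM Zs T U = ∏ i, (Ys i * Zs i) (S i) (U i)
  unfold pureM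
  simp only [← Finset.prod_mul_distrib]
  rw [sum_prod_eq (fun i c => Ys i (S i) c * Zs i c (U i))]
  rfl

theorem pureM_transpose (Ys : Fin t → Matrix (Fin k) (Fin k) F) :
    (pureM Ys)ᵀ = pureM (fun i => (Ys i)ᵀ) := rfl

theorem pureM_one : pureM (fun _ : Fin t => (1 : Matrix (Fin k) (Fin k) F)) = 1 := by
  ext S T
  unfold pureM
  simp only [Matrix.one_apply]
  rw [Finset.prod_boole]
  by_cases h : S = T
  · rw [if_pos h, if_pos (fun i _ => congrFun h i)]
  · rw [if_neg h, if_neg (fun h' => h (funext (fun i => h' i (Finset.mem_univ i))))]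

theorem pureM_zero_of (Ys : Fin t → Matrix (Fin k) (Fin k) F) (i : Fin t) (h : Ys i = 0) :
    pureM Ys = 0 := by
  ext S T
  exact Finset.prod_eq_zero (Finset.mem_univ i) (by rw [h]; rfl)

theorem pureM_update_apply (Ws : Fin t → Matrix (Fin k) (Fin k) F) (j : Fin t)
    (A : Matrix (Fin k) (Fin k) F) (S T : Fin t → Fin k) :
    pureM (Function.update Ws j A) S T =
      A (S j) (T j) * ∏ i ∈ Finset.univ.erase j, Ws i (S i) (T i) := by
  unfold pureM
  rw [← Finset.mul_prod_erase Finset.univ _ (Finset.mem_univ j), Function.update_self]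
  congr 1
  apply Finset.prod_congr rfl
  intro i hi
  rw [Function.update_of_ne (Finset.ne_of_mem_erase hi)]

theorem pureM_update_add (Ws : Fin t → Matrix (Fin k) (Fin k) F) (j : Fin t)
    (A B : Matrix (Fin k) (Fin k) F) :
    pureM (Function.update Ws j A) + pureM (Function.update Ws j B) =
      pureM (Function.update Ws j (A + B)) := by
  ext S T
  rw [Matrix.add_apply, pureM_update_apply, pureM_update_apply, pureM_update_apply,
    Matrix.add_apply, add_mul]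

theorem pureM_update_smul (Ws : Fin t → Matrix (Fin k) (Fin k) F) (j : Fin t) (c : F)
    (A : Matrix (Fin k) (Fin k) F) :
    pureM (Function.update Ws j (c • A)) = c • pureM (Function.update Ws j A) := by
  ext S T
  rw [Matrix.smul_apply, pureM_update_apply, pureM_update_apply, Matrix.smul_apply, smul_eq_mul,
    smul_eq_mul, mul_assoc]

/-- A single-site function. -/
def sf1 (a : Fin t) (ν : Matrix (Fin k) (Fin k) F) : Fin t → Matrix (Fin k) (Fin k) F :=
  fun i => if i = a then ν else 1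

/-- A two-site function. -/
def sf2 (a b : Fin t) (ν ν' : Matrix (Fin k) (Fin k) F) : Fin t → Matrix (Fin k) (Fin k) F :=
  fun i => if i = a then ν else if i = b then ν' else 1

/-- A three-site function. -/
def sf3 (a b c : Fin t) (ν ν' ν'' : Matrix (Fin k) (Fin k) F) :
    Fin t → Matrix (Fin k) (Fin k) F :=
  fun i => if i = a then ν else if i = b then ν' else if i = c then ν'' else 1

/-- A single-site operator. -/
def site (a : Fin t) (Y : Matrix (Fin k) (Fin k) F) : Matrix (Fin t → Fin k) (Fin t → Fin k) F :=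
  pureM (sf1 a Y)

theorem sf1_eq_update (a : Fin t) (Y : Matrix (Fin k) (Fin k) F) :
    sf1 a Y = Function.update (fun _ => (1 : Matrix (Fin k) (Fin k) F)) a Y := by
  funext i
  unfold sf1
  by_cases h : i = a
  · rw [if_pos h, h, Function.update_self]
  · rw [if_neg h, Function.update_of_ne h]

theorem site_apply (a : Fin t) (Y : Matrix (Fin k) (Fin k) F) (S T : Fin t → Fin k) :
    site a Y S T = if ∀ l, l ≠ a → S l = T l then Y (S a) (T a) else 0 := by
  unfold site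
  rw [sf1_eq_update, pureM_update_apply]
  simp only [Matrix.one_apply]
  rw [Finset.prod_boole]
  by_cases h : ∀ l, l ≠ a → S l = T l
  · rw [if_pos h, if_pos (fun i hi => h i (Finset.ne_of_mem_erase hi)), mul_one]
  · rw [if_neg h, if_neg (fun h' => h (fun l hl => h' l (Finset.mem_erase.2 ⟨hl, Finset.mem_univ l⟩))),
      mul_zero]

theorem single_eq_pt (S : Fin t → Fin k) :
    (Pi.single S 1 : (Fin t → Fin k) → F) = pt (fun i => Pi.single (S i) 1) := by
  funext T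
  unfold pt
  simp only [Pi.single_apply]
  rw [Finset.prod_boole]
  by_cases h : T = S
  · rw [if_pos h, if_pos (fun i _ => congrFun h i)]
  · rw [if_neg h, if_neg (fun h' => h (funext (fun i => h' i (Finset.mem_univ i))))]

theorem ext_of_pt (M₁ M₂ : Matrix (Fin t → Fin k) (Fin t → Fin k) F)
    (h : ∀ xs : Fin t → Fin k → F, M₁ *ᵥ pt xs = M₂ *ᵥ pt xs) : M₁ = M₂ := by
  ext S T
  have h' := congrFun (h (fun i => Pi.single (T i) 1)) S
  rw [← single_eq_pt, Matrix.mulVec_single_one, Matrix.mulVec_single_one] at h'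
  exact h'

theorem pt_dot (xs zs : Fin t → Fin k → F) : pt xs ⬝ᵥ pt zs = ∏ i, (xs i ⬝ᵥ zs i) := by
  show ∑ S, pt xs S * pt zs S = ∏ i, ∑ c, xs i c * zs i c
  unfold pt
  simp only [← Finset.prod_mul_distrib]
  exact sum_prod_eq (fun i c => xs i c * zs i c)

end pure

section wreath

variable {k t : ℕ}

/-- The structure of an element of the tensor wreath group, through its action on pure tensors. -/
def Str (g : GL (Fin t → Fin k) F) : Prop :=
  ∃ (σ : Equiv.Perm (Fin t)) (gs : Fin t → GL (Fin k) F), ∀ xs : Fin t → Fin k → F,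
    (g : Matrix (Fin t → Fin k) (Fin t → Fin k) F) *ᵥ pt xs =
      pt (fun l => (gs l : Matrix (Fin k) (Fin k) F) *ᵥ xs (σ⁻¹ l))

theorem str_of_mem (g : GL (Fin t → Fin k) F) (hg : g ∈ Cfsg.Geo.tensorWreathStandard k t F) :
    Str g := by
  unfold Cfsg.Geo.tensorWreathStandard at hg
  refine Subgroup.closure_induction (p := fun g _ => Str g) ?_ ?_ ?_ ?_ hg
  · intro g hg
    rcases hg with ⟨gs, hgs⟩ | ⟨σ, hσ⟩
    · refine ⟨1, gs, fun xs => ?_⟩
      have e1 : (g : Matrix (Fin t → Fin k) (Fin t → Fin k) F) =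
          pureM (fun i => (gs i : Matrix (Fin k) (Fin k) F)) := by
        ext x y
        exact hgs x y
      rw [e1, pureM_mulVec_pt]
      rfl
    · refine ⟨σ, fun _ => 1, fun xs => ?_⟩
      funext x
      show ∑ y, (g : Matrix (Fin t → Fin k) (Fin t → Fin k) F) x y * pt xs y = _
      simp only [hσ]
      rw [Finset.sum_eq_single (x ∘ σ)]
      · rw [if_pos rfl, one_mul]
        unfold pt
        simp only [Units.val_one, Matrix.one_mulVec]
        rw [← Equiv.prod_comp σ (fun l => xs (σ⁻¹ l) (x l))]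
        apply Finset.prod_congr rfl
        intro i _
        have e2 : σ⁻¹ (σ i) = i := by simp
        rw [e2]
        rfl
      · intro y _ hy
        rw [if_neg hy, zero_mul]
      · intro h
        exact absurd (Finset.mem_univ _) h
  · refine ⟨1, fun _ => 1, fun xs => ?_⟩
    simp only [Units.val_one, Matrix.one_mulVec]
    rfl
  · rintro a b _ _ ⟨σ, gs, h1⟩ ⟨τ, hs, h2⟩
    refine ⟨σ * τ, fun l => gs l * hs (σ⁻¹ l), fun xs => ?_⟩
    rw [Units.val_mul, ← Matrix.mulVec_mulVec, h2, h1]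
    congr 1
    funext l
    rw [Units.val_mul, ← Matrix.mulVec_mulVec]
    rfl
  · rintro a _ ⟨σ, gs, h1⟩
    refine ⟨σ⁻¹, fun l => (gs (σ l))⁻¹, fun ys => ?_⟩
    have h := h1 (fun l => (((gs (σ l))⁻¹ : GL (Fin k) F) : Matrix (Fin k) (Fin k) F) *ᵥ ys (σ l))
    have h' : (a : Matrix (Fin t → Fin k) (Fin t → Fin k) F) *ᵥ
        pt (fun l => (((gs (σ l))⁻¹ : GL (Fin k) F) : Matrix (Fin k) (Fin k) F) *ᵥ ys (σ l)) =
          pt ys := by
      rw [h]
      congr 1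
      funext l
      have e2 : σ (σ⁻¹ l) = l := by simp
      rw [e2, Matrix.mulVec_mulVec, ← Units.val_mul, mul_inv_cancel,
        Units.val_one, Matrix.one_mulVec]
    rw [← h', Matrix.mulVec_mulVec, ← Units.val_mul, inv_mul_cancel, Units.val_one,
      Matrix.one_mulVec, inv_inv]

theorem conj_site (g : GL (Fin t → Fin k) F) (σ : Equiv.Perm (Fin t)) (gs : Fin t → GL (Fin k) F)
    (h : ∀ xs : Fin t → Fin k → F,
      (g : Matrix (Fin t → Fin k) (Fin t → Fin k) F) *ᵥ pt xs =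
        pt (fun l => (gs l : Matrix (Fin k) (Fin k) F) *ᵥ xs (σ⁻¹ l)))
    (a : Fin t) (Y : Matrix (Fin k) (Fin k) F) :
    (g : Matrix (Fin t → Fin k) (Fin t → Fin k) F) * site a Y *
        ((g⁻¹ : GL (Fin t → Fin k) F) : Matrix (Fin t → Fin k) (Fin t → Fin k) F) =
      site (σ a) ((gs (σ a) : Matrix (Fin k) (Fin k) F) * Y *
        (((gs (σ a))⁻¹ : GL (Fin k) F) : Matrix (Fin k) (Fin k) F)) := by
  have key : (g : Matrix (Fin t → Fin k) (Fin t → Fin k) F) * site a Y =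
      site (σ a) ((gs (σ a) : Matrix (Fin k) (Fin k) F) * Y *
        (((gs (σ a))⁻¹ : GL (Fin k) F) : Matrix (Fin k) (Fin k) F)) *
        (g : Matrix (Fin t → Fin k) (Fin t → Fin k) F) := by
    apply ext_of_pt
    intro xs
    rw [← Matrix.mulVec_mulVec, ← Matrix.mulVec_mulVec, h]
    unfold site
    rw [pureM_mulVec_pt, pureM_mulVec_pt, h]
    congr 1
    funext l
    unfold sf1
    by_cases hl : l = σ a
    · have e2 : σ⁻¹ (σ a) = a := by simp
      rw [if_pos hl, hl, e2, if_pos rfl, Matrix.mulVec_mulVec,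
        Matrix.mulVec_mulVec, Matrix.mul_assoc, Matrix.mul_assoc, ← Units.val_mul, inv_mul_cancel,
        Units.val_one, Matrix.mul_one]
    · have hl' : σ⁻¹ l ≠ a := by
        intro h'
        apply hl
        rw [← h']
        simp
      rw [if_neg hl, if_neg hl', Matrix.one_mulVec, Matrix.one_mulVec]
  rw [key, Matrix.mul_assoc, ← Units.val_mul, mul_inv_cancel, Units.val_one, Matrix.mul_one]

end wreath

section nrm

variable {κ : Type} [Fintype κ] [DecidableEq κ]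

/-- The normalizer of a space of matrices. -/
def Nrm (C : Submodule F (Matrix κ κ F)) : Subgroup (GL κ F) where
  carrier := {g | ∀ X : Matrix κ κ F, X ∈ C ↔
    (g : Matrix κ κ F) * X * ((g⁻¹ : GL κ F) : Matrix κ κ F) ∈ C}
  one_mem' := by
    intro X
    simp
  mul_mem' := by
    intro a b ha hb X
    have e : ((a * b : GL κ F) : Matrix κ κ F) * X * (((a * b)⁻¹ : GL κ F) : Matrix κ κ F) =
        (a : Matrix κ κ F) * ((b : Matrix κ κ F) * X * ((b⁻¹ : GL κ F) : Matrix κ κ F)) *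
          ((a⁻¹ : GL κ F) : Matrix κ κ F) := by
      rw [_root_.mul_inv_rev, Units.val_mul, Units.val_mul]
      simp only [Matrix.mul_assoc]
    rw [e, ← ha, ← hb]
  inv_mem' := by
    intro a ha X
    have e : (a : Matrix κ κ F) * (((a⁻¹ : GL κ F) : Matrix κ κ F) * X *
        (((a⁻¹)⁻¹ : GL κ F) : Matrix κ κ F)) * ((a⁻¹ : GL κ F) : Matrix κ κ F) = X := by
      rw [inv_inv]
      calc (a : Matrix κ κ F) * (((a⁻¹ : GL κ F) : Matrix κ κ F) * X * (a : Matrix κ κ F)) *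
            ((a⁻¹ : GL κ F) : Matrix κ κ F)
          = ((a : Matrix κ κ F) * ((a⁻¹ : GL κ F) : Matrix κ κ F)) * X *
              ((a : Matrix κ κ F) * ((a⁻¹ : GL κ F) : Matrix κ κ F)) := by
            simp only [Matrix.mul_assoc]
        _ = X := by
            rw [← Units.val_mul, mul_inv_cancel, Units.val_one, Matrix.one_mul, Matrix.mul_one]
    rw [ha (((a⁻¹ : GL κ F) : Matrix κ κ F) * X * (((a⁻¹)⁻¹ : GL κ F) : Matrix κ κ F)), e]

theorem mem_Nrm_of (C : Submodule F (Matrix κ κ F)) (g : GL κ F)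
    (h1 : ∀ X ∈ C, (g : Matrix κ κ F) * X * ((g⁻¹ : GL κ F) : Matrix κ κ F) ∈ C)
    (h2 : ∀ X ∈ C, ((g⁻¹ : GL κ F) : Matrix κ κ F) * X * (g : Matrix κ κ F) ∈ C) :
    g ∈ Nrm C := by
  intro X
  constructor
  · exact h1 X
  · intro hX
    have h3 := h2 _ hX
    have e : ((g⁻¹ : GL κ F) : Matrix κ κ F) *
        ((g : Matrix κ κ F) * X * ((g⁻¹ : GL κ F) : Matrix κ κ F)) * (g : Matrix κ κ F) = X := by
      calc ((g⁻¹ : GL κ F) : Matrix κ κ F) *
            ((g : Matrix κ κ F) * X * ((g⁻¹ : GL κ F) : Matrix κ κ F)) * (g : Matrix κ κ F)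
          = (((g⁻¹ : GL κ F) : Matrix κ κ F) * (g : Matrix κ κ F)) * X *
              (((g⁻¹ : GL κ F) : Matrix κ κ F) * (g : Matrix κ κ F)) := by
            simp only [Matrix.mul_assoc]
        _ = X := by
            rw [← Units.val_mul, inv_mul_cancel, Units.val_one, Matrix.one_mul, Matrix.mul_one]
    rw [e] at h3
    exact h3

theorem conj_mem_of_gens (gens : Set (Matrix κ κ F)) (A B : Matrix κ κ F)
    (h : ∀ M ∈ gens, A * M * B ∈ Submodule.span F gens) :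
    ∀ X ∈ Submodule.span F gens, A * X * B ∈ Submodule.span F gens := by
  intro X hX
  refine Submodule.span_induction (p := fun X _ => A * X * B ∈ Submodule.span F gens)
    ?_ ?_ ?_ ?_ hX
  · intro x hx
    exact h x hx
  · rw [Matrix.mul_zero, Matrix.zero_mul]
    exact Submodule.zero_mem _
  · intro x y _ _ hx hy
    rw [Matrix.mul_add, Matrix.add_mul]
    exact Submodule.add_mem _ hx hy
  · intro c x _ hx
    rw [Matrix.mul_smul, Matrix.smul_mul]
    exact Submodule.smul_mem _ c hx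

theorem add_ext (D : (κ → F) → F) (hadd : ∀ u v, D (u + v) = D u + D v)
    (hsm : ∀ (s : F) v, D (s • v) = s ^ 2 * D v) (hb : ∀ S, D (Pi.single S 1) = 0) (v : κ → F) :
    D v = 0 := by
  have h0 : D 0 = 0 := by
    have h := hadd 0 0
    rw [add_zero] at h
    exact left_eq_add.1 h
  have hsum : ∀ (s : Finset κ) (f : κ → κ → F), D (∑ S ∈ s, f S) = ∑ S ∈ s, D (f S) := by
    intro s f
    induction s using Finset.induction_on with
    | empty => simp [h0]
    | insert a s ha ih => rw [Finset.sum_insert ha, Finset.sum_insert ha, hadd, ih]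
  have hv : v = ∑ S, v S • (Pi.single S 1 : κ → F) := by
    funext T
    simp [Finset.sum_apply, Pi.single_apply]
  rw [hv, hsum]
  apply Finset.sum_eq_zero
  intro S _
  rw [hsm, hb, mul_zero]

theorem bf_symm' (G : Matrix κ κ F) (hsym : Gᵀ = G) (a b : κ → F) :
    a ⬝ᵥ (G *ᵥ b) = b ⬝ᵥ (G *ᵥ a) := by
  calc a ⬝ᵥ (G *ᵥ b) = (a ᵥ* G) ⬝ᵥ b := Matrix.dotProduct_mulVec _ _ _
    _ = (Gᵀ *ᵥ a) ⬝ᵥ b := by rw [Matrix.mulVec_transpose]
    _ = (G *ᵥ a) ⬝ᵥ b := by rw [hsym]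
    _ = b ⬝ᵥ (G *ᵥ a) := dotProduct_comm _ _

theorem iso_of (h2 : (2 : F) = 0) (G : Matrix κ κ F) (hGs : Gᵀ = G) (Q' : (κ → F) → F) (c : F)
    (hpol : ∀ u v, Q' (u + v) = Q' u + Q' v + c * (u ⬝ᵥ (G *ᵥ v)))
    (hsm : ∀ (s : F) v, Q' (s • v) = s ^ 2 * Q' v)
    (N : Matrix κ κ F) (hSA : Nᵀ * G = G * N) (hNN : N * N = 0)
    (h3 : ∀ S, Q' (N *ᵥ Pi.single S 1) = 0)
    (h4 : ∀ S, (Pi.single S 1 : κ → F) ⬝ᵥ (G *ᵥ (N *ᵥ Pi.single S 1)) = 0) (v : κ → F) :
    Q' ((1 + N) *ᵥ v) = Q' v := by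
  have hadj : ∀ u w : κ → F, (N *ᵥ u) ⬝ᵥ (G *ᵥ w) = u ⬝ᵥ (G *ᵥ (N *ᵥ w)) := by
    intro u w
    calc (N *ᵥ u) ⬝ᵥ (G *ᵥ w) = (G *ᵥ w) ⬝ᵥ (N *ᵥ u) := dotProduct_comm _ _
      _ = ((G *ᵥ w) ᵥ* N) ⬝ᵥ u := Matrix.dotProduct_mulVec _ _ _
      _ = (Nᵀ *ᵥ (G *ᵥ w)) ⬝ᵥ u := by rw [Matrix.mulVec_transpose]
      _ = u ⬝ᵥ (Nᵀ *ᵥ (G *ᵥ w)) := dotProduct_comm _ _
      _ = u ⬝ᵥ (G *ᵥ (N *ᵥ w)) := by rw [Matrix.mulVec_mulVec, hSA, ← Matrix.mulVec_mulVec]
  have hD1 : ∀ v, Q' (N *ᵥ v) = 0 := by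
    apply add_ext (fun v => Q' (N *ᵥ v))
    · intro u w
      show Q' (N *ᵥ (u + w)) = Q' (N *ᵥ u) + Q' (N *ᵥ w)
      have e0 : (N *ᵥ u) ⬝ᵥ (G *ᵥ (N *ᵥ w)) = 0 := by
        rw [hadj, Matrix.mulVec_mulVec w N N, hNN, Matrix.zero_mulVec, Matrix.mulVec_zero,
          dotProduct_zero]
      rw [Matrix.mulVec_add, hpol, e0, mul_zero, add_zero]
    · intro s w
      show Q' (N *ᵥ (s • w)) = s ^ 2 * Q' (N *ᵥ w)
      rw [Matrix.mulVec_smul, hsm]
    · exact h3
  have hD2 : ∀ v : κ → F, v ⬝ᵥ (G *ᵥ (N *ᵥ v)) = 0 := by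
    apply add_ext (fun v => v ⬝ᵥ (G *ᵥ (N *ᵥ v)))
    · intro u w
      show (u + w) ⬝ᵥ (G *ᵥ (N *ᵥ (u + w))) = u ⬝ᵥ (G *ᵥ (N *ᵥ u)) + w ⬝ᵥ (G *ᵥ (N *ᵥ w))
      have e1 : w ⬝ᵥ (G *ᵥ (N *ᵥ u)) = u ⬝ᵥ (G *ᵥ (N *ᵥ w)) := by
        rw [bf_symm' G hGs, hadj]
      rw [Matrix.mulVec_add, Matrix.mulVec_add, add_dotProduct, dotProduct_add, dotProduct_add, e1]
      linear_combination (u ⬝ᵥ (G *ᵥ (N *ᵥ w))) * h2
    · intro s w
      show (s • w) ⬝ᵥ (G *ᵥ (N *ᵥ (s • w))) = s ^ 2 * (w ⬝ᵥ (G *ᵥ (N *ᵥ w)))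
      rw [Matrix.mulVec_smul, Matrix.mulVec_smul, smul_dotProduct, dotProduct_smul, smul_eq_mul,
        smul_eq_mul]
      ring
    · exact h4
  rw [Matrix.add_mulVec, Matrix.one_mulVec, hpol, hD1, hD2, mul_zero, add_zero, add_zero]

/-- The unipotent element attached to a matrix of square zero. -/
def uni (h2 : (2 : F) = 0) (N : Matrix κ κ F) (hNN : N * N = 0) : GL κ F :=
  ⟨1 + N, 1 + N,
    by rw [mul_add, add_mul, add_mul, one_mul, one_mul, mul_one, hNN, add_zero, add_assoc,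
      ← two_smul F N, h2, zero_smul, add_zero],
    by rw [mul_add, add_mul, add_mul, one_mul, one_mul, mul_one, hNN, add_zero, add_assoc,
      ← two_smul F N, h2, zero_smul, add_zero]⟩

theorem comm_ident {R : Type*} [Ring R] (X Y : R) (h2 : (2 : R) = 0) (hX : X * X = 0)
    (hY : Y * Y = 0) (hXYX : X * Y * X = 0) (hYXY : Y * X * Y = 0) :
    (1 + X) * (1 + Y) * ((1 + X) * (1 + Y)) = 1 + (X * Y + Y * X) := by
  have e : (1 + X) * (1 + Y) * ((1 + X) * (1 + Y)) = 1 + (X * Y + Y * X) + (X + Y + X * Y) * 2 +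
      X * X * (1 + Y) + Y * Y + Y * X * Y + X * Y * X + X * (Y * Y) + X * Y * X * Y := by
    noncomm_ring
  rw [e, h2, hX, hY, hXYX, hYXY]
  simp

theorem uni_comm (h2 : (2 : F) = 0) (X Y : Matrix κ κ F) (hX : X * X = 0) (hY : Y * Y = 0)
    (hXYX : X * Y * X = 0) (hYXY : Y * X * Y = 0) (Z : Matrix κ κ F) (hZ : X * Y + Y * X = Z)
    (hZZ : Z * Z = 0) : uni h2 Z hZZ = ⁅uni h2 X hX, uni h2 Y hY⁆ := by
  apply Units.ext
  rw [commutatorElement_def]
  show 1 + Z = (1 + X) * (1 + Y) * (1 + X) * (1 + Y)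
  have h2' : (2 : Matrix κ κ F) = 0 := by
    have : (2 : Matrix κ κ F) = (2 : F) • (1 : Matrix κ κ F) := by
      rw [two_smul, one_add_one_eq_two]
    rw [this, h2, zero_smul]
  rw [Matrix.mul_assoc ((1 + X) * (1 + Y)), comm_ident X Y h2' hX hY hXYX hYXY, hZ]

end nrm

section model

variable {k t : ℕ}

/-- The isometry group in the model. -/
def X0 (Q' : ((Fin t → Fin k) → F) → F) : Subgroup (GL (Fin t → Fin k) F) :=
  Cfsg.preserving (Units.coeHom (Matrix (Fin t → Fin k) (Fin t → Fin k) F)) (fun u _ => Q' u)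

/-- The space spanned by the local operators. -/
def Clif (t : ℕ) (Lp : Matrix (Fin k) (Fin k) F → Prop) :
    Submodule F (Matrix (Fin t → Fin k) (Fin t → Fin k) F) :=
  Submodule.span F {M | ∃ (a : Fin t) (Y : Matrix (Fin k) (Fin k) F), Lp Y ∧ M = site a Y}

theorem site_mem_clif (Lp : Matrix (Fin k) (Fin k) F → Prop) (a : Fin t)
    (Y : Matrix (Fin k) (Fin k) F) (hY : Lp Y) : site a Y ∈ Clif t Lp :=
  Submodule.subset_span ⟨a, Y, hY, rfl⟩

theorem clif_entry_zero (Lp : Matrix (Fin k) (Fin k) F → Prop) (S T : Fin t → Fin k)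
    (e₁ e₂ : Fin t) (hne : e₁ ≠ e₂) (h₁ : S e₁ ≠ T e₁) (h₂ : S e₂ ≠ T e₂) :
    ∀ X ∈ Clif t Lp, X S T = 0 := by
  intro X hX
  refine Submodule.span_induction (p := fun X _ => X S T = 0) ?_ ?_ ?_ ?_ hX
  · rintro M ⟨a, Y, _, rfl⟩
    rw [site_apply, if_neg]
    intro h
    by_cases ha : e₁ = a
    · exact h₂ (h e₂ (fun h' => hne (ha.trans h'.symm)))
    · exact h₁ (h e₁ ha)
  · rfl
  · intro x y _ _ hx hy
    rw [Matrix.add_apply, hx, hy, add_zero]
  · intro c x _ hx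
    rw [Matrix.smul_apply, hx, smul_zero]

theorem comm_le (Q' : ((Fin t → Fin k) → F) → F) : ⁅X0 Q', X0 Q'⁆ ≤ X0 Q' := by
  rw [Subgroup.commutator_le]
  intro a ha b hb
  rw [commutatorElement_def]
  exact (X0 Q').mul_mem ((X0 Q').mul_mem ((X0 Q').mul_mem ha hb) ((X0 Q').inv_mem ha))
    ((X0 Q').inv_mem hb)

theorem wr_le_nrm (Lp : Matrix (Fin k) (Fin k) F → Prop) (Q' : ((Fin t → Fin k) → F) → F)
    (hLp : ∀ g : GL (Fin t → Fin k) F, g ∈ X0 Q' → ∀ (σ : Equiv.Perm (Fin t))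
      (gs : Fin t → GL (Fin k) F),
      (∀ xs : Fin t → Fin k → F, (g : Matrix (Fin t → Fin k) (Fin t → Fin k) F) *ᵥ pt xs =
        pt (fun l => (gs l : Matrix (Fin k) (Fin k) F) *ᵥ xs (σ⁻¹ l))) →
      ∀ (a : Fin t) (Y : Matrix (Fin k) (Fin k) F), Lp Y →
        Lp ((gs (σ a) : Matrix (Fin k) (Fin k) F) * Y *
          (((gs (σ a))⁻¹ : GL (Fin k) F) : Matrix (Fin k) (Fin k) F))) :
    Cfsg.Geo.tensorWreathStandard k t F ⊓ ⁅X0 Q', X0 Q'⁆ ≤
      Nrm (Clif t Lp) ⊓ ⁅X0 Q', X0 Q'⁆ := by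
  intro g hg
  refine ⟨?_, hg.2⟩
  have hgX : g ∈ X0 Q' := comm_le Q' hg.2
  obtain ⟨σ, gs, h⟩ := str_of_mem g hg.1
  obtain ⟨σ', gs', h'⟩ := str_of_mem g⁻¹ (inv_mem hg.1)
  apply mem_Nrm_of
  · apply conj_mem_of_gens
    rintro M ⟨a, Y, hY, rfl⟩
    rw [conj_site g σ gs h a Y]
    exact Submodule.subset_span ⟨σ a, _, hLp g hgX σ gs h a Y hY, rfl⟩
  · apply conj_mem_of_gens
    rintro M ⟨a, Y, hY, rfl⟩
    have e := conj_site g⁻¹ σ' gs' h' a Y
    rw [inv_inv] at e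
    rw [e]
    exact Submodule.subset_span ⟨σ' a, _, hLp g⁻¹ (inv_mem hgX) σ' gs' h' a Y hY, rfl⟩

theorem pt_quad (zs : Fin t → Fin k → F) (S : Fin t → Fin k) (a b : Fin t) (hab : a ≠ b)
    (c d : Fin k) :
    pt zs S * pt zs (Function.update (Function.update S a c) b d) =
      pt zs (Function.update S a c) * pt zs (Function.update S b d) := by
  unfold pt
  rw [← Finset.prod_mul_distrib, ← Finset.prod_mul_distrib]
  apply Finset.prod_congr rfl
  intro i _
  by_cases hb : i = b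
  · rw [hb, Function.update_self, Function.update_self, Function.update_of_ne (Ne.symm hab)]
  · by_cases ha : i = a
    · rw [ha, Function.update_of_ne hab, Function.update_self, Function.update_of_ne hab,
        mul_comm]
    · rw [Function.update_of_ne hb, Function.update_of_ne ha, Function.update_of_ne hb]

theorem wr_quad (g : GL (Fin t → Fin k) F) (hg : g ∈ Cfsg.Geo.tensorWreathStandard k t F)
    (S₀ S : Fin t → Fin k) (a b : Fin t) (hab : a ≠ b) (c d : Fin k) :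
    (g : Matrix (Fin t → Fin k) (Fin t → Fin k) F) S S₀ *
        (g : Matrix (Fin t → Fin k) (Fin t → Fin k) F)
          (Function.update (Function.update S a c) b d) S₀ =
      (g : Matrix (Fin t → Fin k) (Fin t → Fin k) F) (Function.update S a c) S₀ *
        (g : Matrix (Fin t → Fin k) (Fin t → Fin k) F) (Function.update S b d) S₀ := by
  obtain ⟨σ, gs, h⟩ := str_of_mem g hg
  have hcol : ∀ T, (g : Matrix (Fin t → Fin k) (Fin t → Fin k) F) T S₀ =
      pt (fun l => (gs l : Matrix (Fin k) (Fin k) F) *ᵥ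
        (fun i => (Pi.single (S₀ i) 1 : Fin k → F)) (σ⁻¹ l)) T := by
    intro T
    have h' := congrFun (h (fun i => (Pi.single (S₀ i) 1 : Fin k → F))) T
    rw [← single_eq_pt, Matrix.mulVec_single_one] at h'
    exact h'
  rw [hcol, hcol, hcol, hcol]
  exact pt_quad _ S a b hab c d

theorem pres_B (G : Matrix (Fin k) (Fin k) F) (Q' : ((Fin t → Fin k) → F) → F) (c : F)
    (hc : c ≠ 0)
    (hpol : ∀ u v, Q' (u + v) = Q' u + Q' v + c * (u ⬝ᵥ (pureM (fun _ : Fin t => G) *ᵥ v)))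
    (g : GL (Fin t → Fin k) F) (hg : g ∈ X0 Q') (u v : (Fin t → Fin k) → F) :
    ((g : Matrix (Fin t → Fin k) (Fin t → Fin k) F) *ᵥ u) ⬝ᵥ (pureM (fun _ : Fin t => G) *ᵥ
      ((g : Matrix (Fin t → Fin k) (Fin t → Fin k) F) *ᵥ v)) =
      u ⬝ᵥ (pureM (fun _ : Fin t => G) *ᵥ v) := by
  have hg' : ∀ u, Q' ((g : Matrix (Fin t → Fin k) (Fin t → Fin k) F) *ᵥ u) = Q' u :=
    fun u => hg u u
  have e1 := hpol ((g : Matrix (Fin t → Fin k) (Fin t → Fin k) F) *ᵥ u)
    ((g : Matrix (Fin t → Fin k) (Fin t → Fin k) F) *ᵥ v)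
  rw [← Matrix.mulVec_add, hg', hg', hg', hpol u v] at e1
  exact (mul_left_cancel₀ hc (add_left_cancel e1)).symm

theorem uni_mem (h2 : (2 : F) = 0) (G : Matrix (Fin k) (Fin k) F) (hGs : Gᵀ = G)
    (Q' : ((Fin t → Fin k) → F) → F) (c : F)
    (hpol : ∀ u v, Q' (u + v) = Q' u + Q' v + c * (u ⬝ᵥ (pureM (fun _ : Fin t => G) *ᵥ v)))
    (hsm : ∀ (s : F) v, Q' (s • v) = s ^ 2 * Q' v) (hpt : ∀ xs : Fin t → Fin k → F, Q' (pt xs) = 0)
    (Ys : Fin t → Matrix (Fin k) (Fin k) F) (h_i : ∀ i, (Ys i)ᵀ * G = G * Ys i)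
    (i₁ : Fin t) (h_iv : ∀ d, (G * Ys i₁) d d = 0) (hNN : pureM Ys * pureM Ys = 0) :
    uni h2 (pureM Ys) hNN ∈ X0 Q' := by
  intro u v
  show Q' ((1 + pureM Ys) *ᵥ u) = Q' u
  have hGs' : (pureM (fun _ : Fin t => G))ᵀ = pureM (fun _ : Fin t => G) := by
    rw [pureM_transpose, hGs]
  have hSA : (pureM Ys)ᵀ * pureM (fun _ : Fin t => G) = pureM (fun _ : Fin t => G) * pureM Ys := by
    rw [pureM_transpose, pureM_mul, pureM_mul]
    congr 1
    funext i
    exact h_i i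
  refine iso_of h2 (pureM (fun _ : Fin t => G)) hGs' Q' c hpol hsm (pureM Ys) hSA hNN ?_ ?_ u
  · intro S
    rw [single_eq_pt, pureM_mulVec_pt]
    exact hpt _
  · intro S
    rw [single_eq_pt, pureM_mulVec_pt, pureM_mulVec_pt, pt_dot]
    apply Finset.prod_eq_zero (Finset.mem_univ i₁)
    show (Pi.single (S i₁) 1 : Fin k → F) ⬝ᵥ (G *ᵥ (Ys i₁ *ᵥ Pi.single (S i₁) 1)) = 0
    rw [Matrix.mulVec_mulVec]
    have e : (Pi.single (S i₁) 1 : Fin k → F) ⬝ᵥ ((G * Ys i₁) *ᵥ Pi.single (S i₁) 1) =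
        (G * Ys i₁) (S i₁) (S i₁) := by
      simp
    rw [e]
    exact h_iv _

end model

end Cfsg.Agent.Helper18.TWr
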