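import Mathlib
import Cfsg.Agent.Helper18.TWr

set_option autoImplicit false

namespace Cfsg.Agent.Helper18.TWrSf

open Matrix

open Cfsg.Agent.Helper18.TWr

variable {F : Type*} [Field F] {k t : ℕ}

theorem s1 (a b p : Fin t) (hab : a ≠ b) (hap : a ≠ p) (hbp : b ≠ p)
    (ν₁ ν₂ ν₃ ν₄ : Matrix (Fin k) (Fin k) F) :
    (fun i => sf2 a p ν₁ ν₂ i * sf2 p b ν₃ ν₄ i) =
      Function.update (sf2 a b ν₁ ν₄) p (ν₂ * ν₃) := by
  funext i
  simp only [sf2, Function.update_apply]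
  split_ifs <;> simp_all

theorem s2 (a b p : Fin t) (hab : a ≠ b) (hap : a ≠ p) (hbp : b ≠ p)
    (ν₁ ν₂ ν₃ ν₄ : Matrix (Fin k) (Fin k) F) :
    (fun i => sf2 p b ν₃ ν₄ i * sf2 a p ν₁ ν₂ i) =
      Function.update (sf2 a b ν₁ ν₄) p (ν₃ * ν₂) := by
  funext i
  simp only [sf2, Function.update_apply]
  split_ifs <;> simp_all

theorem s3 (a b p : Fin t) (hap : a ≠ p) (hbp : b ≠ p) (ν ν' : Matrix (Fin k) (Fin k) F) :
    Function.update (sf2 a b ν ν') p 1 = sf2 a b ν ν' := by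
  funext i
  simp only [sf2, Function.update_apply]
  split_ifs <;> simp_all

theorem s4 (a b : Fin t) (hab : a ≠ b) (ν ν' Y : Matrix (Fin k) (Fin k) F) :
    (fun i => sf2 a b ν ν' i * sf1 a Y i) = Function.update (sf1 b ν') a (ν * Y) := by
  funext i
  simp only [sf1, sf2, Function.update_apply]
  split_ifs <;> simp_all

theorem s5 (a b : Fin t) (hab : a ≠ b) (ν ν' Y : Matrix (Fin k) (Fin k) F) :
    (fun i => sf1 a Y i * sf2 a b ν ν' i) = Function.update (sf1 b ν') a (Y * ν) := by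
  funext i
  simp only [sf1, sf2, Function.update_apply]
  split_ifs <;> simp_all

theorem s6 (a b : Fin t) (hab : a ≠ b) (ν' : Matrix (Fin k) (Fin k) F) :
    Function.update (sf1 b ν') a 1 = sf1 b ν' := by
  funext i
  simp only [sf1, Function.update_apply]
  split_ifs <;> simp_all

theorem s7 (a b : Fin t) (hab : a ≠ b) (ν ν' Y : Matrix (Fin k) (Fin k) F) :
    (fun i => sf2 a b ν ν' i * sf1 b Y i) = Function.update (sf1 a ν) b (ν' * Y) := by
  funext i
  simp only [sf1, sf2, Function.update_apply]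
  split_ifs <;> simp_all

theorem s8 (a b : Fin t) (hab : a ≠ b) (ν ν' Y : Matrix (Fin k) (Fin k) F) :
    (fun i => sf1 b Y i * sf2 a b ν ν' i) = Function.update (sf1 a ν) b (Y * ν') := by
  funext i
  simp only [sf1, sf2, Function.update_apply]
  split_ifs <;> simp_all

theorem s9 (a b e : Fin t) (hea : e ≠ a) (heb : e ≠ b) (ν ν' Y : Matrix (Fin k) (Fin k) F) :
    (fun i => sf2 a b ν ν' i * sf1 e Y i) = (fun i => sf1 e Y i * sf2 a b ν ν' i) := by
  funext i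
  simp only [sf1, sf2]
  split_ifs <;> simp_all

theorem s10 (a b p q : Fin t) (hab : a ≠ b) (hap : a ≠ p) (haq : a ≠ q) (hbp : b ≠ p)
    (hbq : b ≠ q) (hpq : p ≠ q) (ν₁ ν₂ ν₃ ν₄ ν₅ : Matrix (Fin k) (Fin k) F) :
    (fun i => sf2 a q ν₁ ν₂ i * sf3 q b p ν₃ ν₄ ν₅ i) =
      Function.update (sf3 a b p ν₁ ν₄ ν₅) q (ν₂ * ν₃) := by
  funext i
  simp only [sf2, sf3, Function.update_apply]
  split_ifs <;> simp_all

theorem s11 (a b p q : Fin t) (hab : a ≠ b) (hap : a ≠ p) (haq : a ≠ q) (hbp : b ≠ p)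
    (hbq : b ≠ q) (hpq : p ≠ q) (ν₁ ν₂ ν₃ ν₄ ν₅ : Matrix (Fin k) (Fin k) F) :
    (fun i => sf3 q b p ν₃ ν₄ ν₅ i * sf2 a q ν₁ ν₂ i) =
      Function.update (sf3 a b p ν₁ ν₄ ν₅) q (ν₃ * ν₂) := by
  funext i
  simp only [sf2, sf3, Function.update_apply]
  split_ifs <;> simp_all

theorem s12 (a b p q : Fin t) (haq : a ≠ q) (hbq : b ≠ q) (hpq : p ≠ q)
    (ν ν' ν'' : Matrix (Fin k) (Fin k) F) :
    Function.update (sf3 a b p ν ν' ν'') q 1 = sf3 a b p ν ν' ν'' := by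
  funext i
  simp only [sf3, Function.update_apply]
  split_ifs <;> simp_all

theorem s13 (a b p : Fin t) (hab : a ≠ b) (hap : a ≠ p) (ν ν' ν'' Y : Matrix (Fin k) (Fin k) F) :
    (fun i => sf3 a b p ν ν' ν'' i * sf1 a Y i) = Function.update (sf2 b p ν' ν'') a (ν * Y) := by
  funext i
  simp only [sf1, sf2, sf3, Function.update_apply]
  split_ifs <;> simp_all

theorem s14 (a b p : Fin t) (hab : a ≠ b) (hap : a ≠ p) (ν ν' ν'' Y : Matrix (Fin k) (Fin k) F) :
    (fun i => sf1 a Y i * sf3 a b p ν ν' ν'' i) = Function.update (sf2 b p ν' ν'') a (Y * ν) := by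
  funext i
  simp only [sf1, sf2, sf3, Function.update_apply]
  split_ifs <;> simp_all

theorem t3 (a b : Fin t) (ν ν' : Matrix (Fin k) (Fin k) F) :
    Function.update (sf1 b ν') a ν = sf2 a b ν ν' := by
  funext i
  simp only [sf1, sf2, Function.update_apply]

theorem t4 (a b : Fin t) (hab : a ≠ b) (ν₁ ν₂ ν₃ ν₄ : Matrix (Fin k) (Fin k) F) :
    (fun i => sf2 a b ν₁ ν₂ i * sf2 a b ν₃ ν₄ i) =
      Function.update (sf1 a (ν₁ * ν₃)) b (ν₂ * ν₄) := by
  funext i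
  simp only [sf1, sf2, Function.update_apply]
  split_ifs <;> simp_all

theorem t5 (a b : Fin t) (hab : a ≠ b) (ν ν' : Matrix (Fin k) (Fin k) F) :
    Function.update (sf1 a ν) b ν' = sf2 a b ν ν' := by
  funext i
  simp only [sf1, sf2, Function.update_apply]
  split_ifs <;> simp_all

end Cfsg.Agent.Helper18.TWrSf
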