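import Mathlib
import Cfsg.Agent.Helper18.TWr
import Cfsg.Agent.Helper18.TWrSf

set_option autoImplicit false

namespace Cfsg.Agent.Helper18.TWrTwo

open Matrix

open scoped commutatorElement

open Cfsg.Agent.Helper18.TWr

variable {F : Type*} [Field F]

/-- The lowering matrix. -/
def nn : Matrix (Fin 2) (Fin 2) F := !![0, 0; 1, 0]

/-- The raising matrix. -/
def mm : Matrix (Fin 2) (Fin 2) F := !![0, 1; 0, 0]

/-- The local space for degree two. -/
def Lp2 (Y : Matrix (Fin 2) (Fin 2) F) : Prop := Y 0 0 = Y 1 1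

theorem nn_sq : (nn : Matrix (Fin 2) (Fin 2) F) * nn = 0 := by
  ext i j
  fin_cases i <;> fin_cases j <;> simp [nn, Matrix.mul_apply, Fin.sum_univ_two]

theorem mn_nm : (mm : Matrix (Fin 2) (Fin 2) F) * nn + nn * mm = 1 := by
  ext i j
  fin_cases i <;> fin_cases j <;> simp [nn, mm, Matrix.mul_apply, Fin.sum_univ_two]

theorem nm_mn : (nn : Matrix (Fin 2) (Fin 2) F) * mm + mm * nn = 1 := by
  rw [add_comm]
  exact mn_nm

theorem nn_10 : (nn : Matrix (Fin 2) (Fin 2) F) 1 0 = 1 := by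
  simp [nn]

theorem nn_00 : (nn : Matrix (Fin 2) (Fin 2) F) 0 0 = 0 := by
  simp [nn]

theorem lp_nn : Lp2 (nn : Matrix (Fin 2) (Fin 2) F) := by
  unfold Lp2
  simp [nn]

theorem lp_mm : Lp2 (mm : Matrix (Fin 2) (Fin 2) F) := by
  unfold Lp2
  simp [mm]

theorem sa_nn (G : Matrix (Fin 2) (Fin 2) F) (hGs : Gᵀ = G) (hG0 : ∀ d, G d d = 0) :
    (nn : Matrix (Fin 2) (Fin 2) F)ᵀ * G = G * nn := by
  have h01 : G 1 0 = G 0 1 := by
    have h := congrFun (congrFun hGs 0) 1
    rw [Matrix.transpose_apply] at h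
    exact h
  ext i j
  fin_cases i <;> fin_cases j <;>
    simp [nn, Matrix.mul_apply, Fin.sum_univ_two, hG0, h01]

theorem sa_mm (G : Matrix (Fin 2) (Fin 2) F) (hGs : Gᵀ = G) (hG0 : ∀ d, G d d = 0) :
    (mm : Matrix (Fin 2) (Fin 2) F)ᵀ * G = G * mm := by
  have h01 : G 1 0 = G 0 1 := by
    have h := congrFun (congrFun hGs 0) 1
    rw [Matrix.transpose_apply] at h
    exact h
  ext i j
  fin_cases i <;> fin_cases j <;>
    simp [mm, Matrix.mul_apply, Fin.sum_univ_two, hG0, h01]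

theorem sa_one (G : Matrix (Fin 2) (Fin 2) F) (hGs : Gᵀ = G) :
    (1 : Matrix (Fin 2) (Fin 2) F)ᵀ * G = G * 1 := by
  rw [Matrix.transpose_one, Matrix.one_mul, Matrix.mul_one]

theorem l1_nn (h2 : (2 : F) = 0) (Y : Matrix (Fin 2) (Fin 2) F) (hY : Lp2 Y) :
    nn * Y + Y * nn = Y 0 1 • (1 : Matrix (Fin 2) (Fin 2) F) := by
  unfold Lp2 at hY
  have e : ∀ i j, (nn * Y + Y * nn : Matrix (Fin 2) (Fin 2) F) i j =
      (Y 0 1 • (1 : Matrix (Fin 2) (Fin 2) F)) i j := by
    intro i j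
    rw [Matrix.add_apply, Matrix.mul_apply, Matrix.mul_apply, Fin.sum_univ_two, Fin.sum_univ_two,
      Matrix.smul_apply, smul_eq_mul]
    fin_cases i <;> fin_cases j <;> simp [nn, hY]
    linear_combination Y 1 1 * h2
  ext i j
  exact e i j

theorem lp_conj (h2 : (2 : F) = 0) (g : GL (Fin 2) F) (Y : Matrix (Fin 2) (Fin 2) F)
    (hY : Lp2 Y) :
    Lp2 ((g : Matrix (Fin 2) (Fin 2) F) * Y * ((g⁻¹ : GL (Fin 2) F) : Matrix (Fin 2) (Fin 2) F)) := by
  unfold Lp2 at hY ⊢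
  have htr := Matrix.trace_units_conj g Y
  rw [Matrix.trace_fin_two, Matrix.trace_fin_two, hY] at htr
  linear_combination htr + (Y 1 1 - ((g : Matrix (Fin 2) (Fin 2) F) * Y *
    ((g⁻¹ : GL (Fin 2) F) : Matrix (Fin 2) (Fin 2) F)) 1 1) * h2

section gen

variable {k t : ℕ}

theorem entry_two (a b : Fin t) (hab : a ≠ b) (ν ν' : Matrix (Fin k) (Fin k) F)
    (S₀ : Fin t → Fin k) (x y : Fin k) (hν : ν x (S₀ a) = 1) (hν' : ν' y (S₀ b) = 1) :
    pureM (sf2 a b ν ν') (Function.update (Function.update S₀ a x) b y) S₀ = 1 := by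
  apply Finset.prod_eq_one
  intro i _
  by_cases hia : i = a
  · rw [hia, Function.update_of_ne hab, Function.update_self]
    unfold sf2
    rw [if_pos rfl]
    exact hν
  · by_cases hib : i = b
    · rw [hib, Function.update_self]
      unfold sf2
      rw [if_neg (Ne.symm hab), if_pos rfl]
      exact hν'
    · rw [Function.update_of_ne hib, Function.update_of_ne hia]
      unfold sf2
      rw [if_neg hia, if_neg hib, Matrix.one_apply_eq]

theorem one_add_apply (Z : Matrix (Fin t → Fin k) (Fin t → Fin k) F) (S T : Fin t → Fin k)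
    (h : S ≠ T) : (1 + Z) S T = Z S T := by
  rw [Matrix.add_apply, Matrix.one_apply_ne h, zero_add]

theorem upd_ne (S₀ : Fin t → Fin k) (a : Fin t) (x : Fin k) (h : x ≠ S₀ a) :
    Function.update S₀ a x ≠ S₀ := by
  intro h'
  have h'' := congrFun h' a
  rw [Function.update_self] at h''
  exact h h''

end gen

section coord

variable {t : ℕ}

theorem coord_two (h2 : (2 : F) = 0) (G : Matrix (Fin 2) (Fin 2) F) (hGs : Gᵀ = G)
    (hG0 : ∀ d, G d d = 0) (Q' : ((Fin t → Fin 2) → F) → F) (c : F)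
    (hpol : ∀ u v, Q' (u + v) = Q' u + Q' v + c * (u ⬝ᵥ (pureM (fun _ : Fin t => G) *ᵥ v)))
    (hsm : ∀ (s : F) v, Q' (s • v) = s ^ 2 * Q' v)
    (hpt : ∀ xs : Fin t → Fin 2 → F, Q' (pt xs) = 0)
    (a b p q : Fin t) (hab : a ≠ b) (hap : a ≠ p) (haq : a ≠ q) (hbp : b ≠ p) (hbq : b ≠ q)
    (hpq : p ≠ q) :
    ∃ K0 : Subgroup (GL (Fin t → Fin 2) F),
      Cfsg.Geo.tensorWreathStandard 2 t F ⊓ ⁅X0 Q', X0 Q'⁆ < K0 ∧ K0 < ⁅X0 Q', X0 Q'⁆ := by
  classical
  have hsa : ∀ (Ys : Fin t → Matrix (Fin 2) (Fin 2) F),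
      (∀ i, Ys i = nn ∨ Ys i = mm ∨ Ys i = 1) → ∀ i, (Ys i)ᵀ * G = G * Ys i := by
    intro Ys h i
    rcases h i with h' | h' | h'
    · rw [h']
      exact sa_nn G hGs hG0
    · rw [h']
      exact sa_mm G hGs hG0
    · rw [h']
      exact sa_one G hGs
  -- first element
  obtain ⟨X, hX⟩ : ∃ X, X = pureM (sf2 a p (nn : Matrix (Fin 2) (Fin 2) F) mm) := ⟨_, rfl⟩
  obtain ⟨Y, hY⟩ : ∃ Y, Y = pureM (sf2 p b (nn : Matrix (Fin 2) (Fin 2) F) nn) := ⟨_, rfl⟩
  obtain ⟨Z, hZ⟩ : ∃ Z, Z = pureM (sf2 a b (nn : Matrix (Fin 2) (Fin 2) F) nn) := ⟨_, rfl⟩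
  have hXX : X * X = 0 := by
    rw [hX, pureM_mul]
    apply pureM_zero_of _ a
    simp [sf2, nn_sq]
  have hYY : Y * Y = 0 := by
    rw [hY, pureM_mul]
    apply pureM_zero_of _ p
    simp [sf2, nn_sq]
  have hZZ : Z * Z = 0 := by
    rw [hZ, pureM_mul]
    apply pureM_zero_of _ a
    simp [sf2, nn_sq]
  have hXYX : X * Y * X = 0 := by
    rw [hX, hY, pureM_mul, pureM_mul]
    apply pureM_zero_of _ a
    simp [sf2, hab, hap, nn_sq]
  have hYXY : Y * X * Y = 0 := by
    rw [hX, hY, pureM_mul, pureM_mul]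
    apply pureM_zero_of _ b
    simp [sf2, Ne.symm hab, hbp, nn_sq]
  have hXm : uni h2 X hXX ∈ X0 Q' := by
    subst hX
    refine uni_mem h2 G hGs Q' c hpol hsm hpt (sf2 a p nn mm) (hsa _ ?_) b ?_ hXX
    · intro i
      unfold sf2
      split_ifs
      · exact Or.inl rfl
      · exact Or.inr (Or.inl rfl)
      · exact Or.inr (Or.inr rfl)
    · intro d
      simp [sf2, Ne.symm hab, hbp, hG0]
  have hYm : uni h2 Y hYY ∈ X0 Q' := by
    subst hY
    refine uni_mem h2 G hGs Q' c hpol hsm hpt (sf2 p b nn nn) (hsa _ ?_) a ?_ hYY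
    · intro i
      unfold sf2
      split_ifs
      · exact Or.inl rfl
      · exact Or.inl rfl
      · exact Or.inr (Or.inr rfl)
    · intro d
      simp [sf2, hab, hap, hG0]
  have hZdef : X * Y + Y * X = Z := by
    rw [hX, hY, hZ, pureM_mul, pureM_mul, TWrSf.s1 a b p hab hap hbp, TWrSf.s2 a b p hab hap hbp,
      pureM_update_add, mn_nm, TWrSf.s3 a b p hap hbp]
  have hg_comm : uni h2 Z hZZ ∈ ⁅X0 Q', X0 Q'⁆ := by
    rw [uni_comm h2 X Y hXX hYY hXYX hYXY Z hZdef hZZ]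
    exact Subgroup.commutator_mem_commutator hXm hYm
  have h11 : (1 + Z) * (1 + Z) = 1 := (uni h2 Z hZZ).val_inv
  have key_a : ∀ Y' : Matrix (Fin 2) (Fin 2) F, Lp2 Y' →
      (1 + Z) * site a Y' * (1 + Z) ∈ Clif t (Lp2 (F := F)) := by
    intro Y' hY'
    have hexp : (1 + Z) * site a Y' * (1 + Z) =
        site a Y' + (Z * site a Y' + site a Y' * Z) + Z * site a Y' * Z := by
      noncomm_ring
    have e1 : Z * site a Y' + site a Y' * Z = Y' 0 1 • site b nn := by
      rw [hZ]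
      unfold site
      rw [pureM_mul, pureM_mul, TWrSf.s4 a b hab, TWrSf.s5 a b hab, pureM_update_add,
        l1_nn h2 Y' hY', pureM_update_smul, TWrSf.s6 a b hab]
    have e2 : Z * site a Y' * Z = 0 := by
      rw [hZ]
      unfold site
      rw [pureM_mul, pureM_mul]
      apply pureM_zero_of _ b
      simp [sf1, sf2, Ne.symm hab, nn_sq]
    rw [hexp, e1, e2, add_zero]
    exact Submodule.add_mem _ (site_mem_clif Lp2 a Y' hY')
      (Submodule.smul_mem _ _ (site_mem_clif Lp2 b nn lp_nn))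
  have key_b : ∀ Y' : Matrix (Fin 2) (Fin 2) F, Lp2 Y' →
      (1 + Z) * site b Y' * (1 + Z) ∈ Clif t (Lp2 (F := F)) := by
    intro Y' hY'
    have hexp : (1 + Z) * site b Y' * (1 + Z) =
        site b Y' + (Z * site b Y' + site b Y' * Z) + Z * site b Y' * Z := by
      noncomm_ring
    have e1 : Z * site b Y' + site b Y' * Z = Y' 0 1 • site a nn := by
      rw [hZ]
      unfold site
      rw [pureM_mul, pureM_mul, TWrSf.s7 a b hab, TWrSf.s8 a b hab, pureM_update_add,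
        l1_nn h2 Y' hY', pureM_update_smul, TWrSf.s6 b a (Ne.symm hab)]
    have e2 : Z * site b Y' * Z = 0 := by
      rw [hZ]
      unfold site
      rw [pureM_mul, pureM_mul]
      apply pureM_zero_of _ a
      simp [sf1, sf2, hab, nn_sq]
    rw [hexp, e1, e2, add_zero]
    exact Submodule.add_mem _ (site_mem_clif Lp2 b Y' hY')
      (Submodule.smul_mem _ _ (site_mem_clif Lp2 a nn lp_nn))
  have key_o : ∀ (e : Fin t) (Y' : Matrix (Fin 2) (Fin 2) F), e ≠ a → e ≠ b → Lp2 Y' →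
      (1 + Z) * site e Y' * (1 + Z) ∈ Clif t (Lp2 (F := F)) := by
    intro e Y' hea heb hY'
    have hcomm : Z * site e Y' = site e Y' * Z := by
      rw [hZ]
      unfold site
      rw [pureM_mul, pureM_mul, TWrSf.s9 a b e hea heb]
    have e1 : (1 + Z) * site e Y' = site e Y' * (1 + Z) := by
      rw [add_mul, mul_add, one_mul, mul_one, hcomm]
    rw [e1, Matrix.mul_assoc, h11, Matrix.mul_one]
    exact site_mem_clif Lp2 e Y' hY'
  have key : ∀ M ∈ Clif t (Lp2 (F := F)), (1 + Z) * M * (1 + Z) ∈ Clif t (Lp2 (F := F)) := by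
    apply conj_mem_of_gens
    rintro M ⟨e, Y', hY', rfl⟩
    by_cases hea : e = a
    · rw [hea]
      exact key_a Y' hY'
    · by_cases heb : e = b
      · rw [heb]
        exact key_b Y' hY'
      · exact key_o e Y' hea heb hY'
  have hgN : uni h2 Z hZZ ∈ Nrm (Clif t (Lp2 (F := F))) := by
    apply mem_Nrm_of
    · intro M hM
      exact key M hM
    · intro M hM
      exact key M hM
  have hgT : uni h2 Z hZZ ∉ Cfsg.Geo.tensorWreathStandard 2 t F := by
    intro hmem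
    have hq := wr_quad _ hmem (fun _ => 0) (fun _ => 0) a b hab 1 1
    have hval : ((uni h2 Z hZZ : GL (Fin t → Fin 2) F) :
        Matrix (Fin t → Fin 2) (Fin t → Fin 2) F) = 1 + pureM (sf2 a b nn nn) := by
      rw [← hZ]
      rfl
    rw [hval] at hq
    have v1 : pureM (sf2 a b (nn : Matrix (Fin 2) (Fin 2) F) nn) (fun _ => 0) (fun _ => 0) = 0 :=
      Finset.prod_eq_zero (Finset.mem_univ a) (by simp [sf2, nn_00])
    have v2 := entry_two a b hab (nn : Matrix (Fin 2) (Fin 2) F) nn (fun _ => 0) 1 1 nn_10 nn_10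
    have v3 : pureM (sf2 a b (nn : Matrix (Fin 2) (Fin 2) F) nn)
        (Function.update (fun _ => 0) a 1) (fun _ => 0) = 0 :=
      Finset.prod_eq_zero (Finset.mem_univ b)
        (by simp [sf2, Ne.symm hab, Function.update_of_ne (Ne.symm hab), nn_00])
    have v4 : pureM (sf2 a b (nn : Matrix (Fin 2) (Fin 2) F) nn)
        (Function.update (fun _ => 0) b 1) (fun _ => 0) = 0 :=
      Finset.prod_eq_zero (Finset.mem_univ a)
        (by simp [sf2, Function.update_of_ne hab, nn_00])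
    have n1 : Function.update (Function.update (fun _ : Fin t => (0 : Fin 2)) a 1) b 1 ≠
        (fun _ => 0) := by
      intro h'
      have h'' := congrFun h' b
      rw [Function.update_self] at h''
      exact one_ne_zero h''
    have n2 : Function.update (fun _ : Fin t => (0 : Fin 2)) a 1 ≠ (fun _ => 0) :=
      upd_ne _ a 1 one_ne_zero
    have n3 : Function.update (fun _ : Fin t => (0 : Fin 2)) b 1 ≠ (fun _ => 0) :=
      upd_ne _ b 1 one_ne_zero
    rw [one_add_apply _ _ _ n1, one_add_apply _ _ _ n2, one_add_apply _ _ _ n3, Matrix.add_apply,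
      Matrix.one_apply_eq, v1, v2, v3, v4] at hq
    simp at hq
  -- second element
  obtain ⟨X', hX'⟩ : ∃ X', X' = pureM (sf2 a q (nn : Matrix (Fin 2) (Fin 2) F) mm) := ⟨_, rfl⟩
  obtain ⟨Y', hY'⟩ : ∃ Y', Y' = pureM (sf3 q b p (nn : Matrix (Fin 2) (Fin 2) F) nn nn) :=
    ⟨_, rfl⟩
  obtain ⟨Z', hZ'⟩ : ∃ Z', Z' = pureM (sf3 a b p (nn : Matrix (Fin 2) (Fin 2) F) nn nn) :=
    ⟨_, rfl⟩
  have hXX' : X' * X' = 0 := by
    rw [hX', pureM_mul]
    apply pureM_zero_of _ a
    simp [sf2, nn_sq]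
  have hYY' : Y' * Y' = 0 := by
    rw [hY', pureM_mul]
    apply pureM_zero_of _ q
    simp [sf3, nn_sq]
  have hZZ' : Z' * Z' = 0 := by
    rw [hZ', pureM_mul]
    apply pureM_zero_of _ a
    simp [sf3, nn_sq]
  have hXYX' : X' * Y' * X' = 0 := by
    rw [hX', hY', pureM_mul, pureM_mul]
    apply pureM_zero_of _ a
    simp [sf2, sf3, hab, hap, haq, nn_sq]
  have hYXY' : Y' * X' * Y' = 0 := by
    rw [hX', hY', pureM_mul, pureM_mul]
    apply pureM_zero_of _ b
    simp [sf2, sf3, Ne.symm hab, hbq, nn_sq]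
  have hXm' : uni h2 X' hXX' ∈ X0 Q' := by
    subst hX'
    refine uni_mem h2 G hGs Q' c hpol hsm hpt (sf2 a q nn mm) (hsa _ ?_) b ?_ hXX'
    · intro i
      unfold sf2
      split_ifs
      · exact Or.inl rfl
      · exact Or.inr (Or.inl rfl)
      · exact Or.inr (Or.inr rfl)
    · intro d
      simp [sf2, Ne.symm hab, hbq, hG0]
  have hYm' : uni h2 Y' hYY' ∈ X0 Q' := by
    subst hY'
    refine uni_mem h2 G hGs Q' c hpol hsm hpt (sf3 q b p nn nn nn) (hsa _ ?_) a ?_ hYY'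
    · intro i
      unfold sf3
      split_ifs
      · exact Or.inl rfl
      · exact Or.inl rfl
      · exact Or.inl rfl
      · exact Or.inr (Or.inr rfl)
    · intro d
      simp [sf3, hab, hap, haq, hG0]
  have hZdef' : X' * Y' + Y' * X' = Z' := by
    rw [hX', hY', hZ', pureM_mul, pureM_mul, TWrSf.s10 a b p q hab hap haq hbp hbq hpq,
      TWrSf.s11 a b p q hab hap haq hbp hbq hpq, pureM_update_add, mn_nm,
      TWrSf.s12 a b p q haq hbq hpq]
  have hh_comm : uni h2 Z' hZZ' ∈ ⁅X0 Q', X0 Q'⁆ := by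
    rw [uni_comm h2 X' Y' hXX' hYY' hXYX' hYXY' Z' hZdef' hZZ']
    exact Subgroup.commutator_mem_commutator hXm' hYm'
  have hhN : uni h2 Z' hZZ' ∉ Nrm (Clif t (Lp2 (F := F))) := by
    intro hmem
    have hS : site a mm ∈ Clif t (Lp2 (F := F)) := site_mem_clif Lp2 a mm lp_mm
    have h1 : (1 + Z') * site a mm * (1 + Z') ∈ Clif t (Lp2 (F := F)) := (hmem (site a mm)).1 hS
    have hexp : (1 + Z') * site a mm * (1 + Z') =
        site a mm + (Z' * site a mm + site a mm * Z') + Z' * site a mm * Z' := by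
      noncomm_ring
    have e1 : Z' * site a mm + site a mm * Z' = pureM (sf2 b p nn nn) := by
      rw [hZ']
      unfold site
      rw [pureM_mul, pureM_mul, TWrSf.s13 a b p hab hap, TWrSf.s14 a b p hab hap, pureM_update_add,
        nm_mn, TWrSf.s3 b p a (Ne.symm hab) (Ne.symm hap)]
    have e2 : Z' * site a mm * Z' = 0 := by
      rw [hZ']
      unfold site
      rw [pureM_mul, pureM_mul]
      apply pureM_zero_of _ b
      simp [sf1, sf3, Ne.symm hab, nn_sq]
    rw [hexp, e1, e2, add_zero] at h1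
    have hR : pureM (sf2 b p (nn : Matrix (Fin 2) (Fin 2) F) nn) ∈ Clif t (Lp2 (F := F)) :=
      (Submodule.add_mem_iff_right _ hS).1 h1
    have hz := clif_entry_zero Lp2
      (Function.update (Function.update (fun _ : Fin t => (0 : Fin 2)) b 1) p 1) (fun _ => 0) b p
      hbp (by rw [Function.update_of_ne hbp, Function.update_self]; exact one_ne_zero)
      (by rw [Function.update_self]; exact one_ne_zero) _ hR
    rw [entry_two b p hbp (nn : Matrix (Fin 2) (Fin 2) F) nn (fun _ => 0) 1 1 nn_10 nn_10] at hz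
    exact one_ne_zero hz
  refine ⟨Nrm (Clif t (Lp2 (F := F))) ⊓ ⁅X0 Q', X0 Q'⁆, ?_, ?_⟩
  · refine lt_of_le_of_ne (wr_le_nrm Lp2 Q' ?_) ?_
    · intro g _ σ gs _ a' Y₀ hY₀
      exact lp_conj h2 (gs (σ a')) Y₀ hY₀
    · intro h
      have hmem : uni h2 Z hZZ ∈ Nrm (Clif t (Lp2 (F := F))) ⊓ ⁅X0 Q', X0 Q'⁆ := ⟨hgN, hg_comm⟩
      rw [← h] at hmem
      exact hgT hmem.1
  · refine lt_of_le_of_ne inf_le_right ?_
    intro h
    have hmem : uni h2 Z' hZZ' ∈ ⁅X0 Q', X0 Q'⁆ := hh_comm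
    rw [← h] at hmem
    exact hhN hmem.1

end coord

end Cfsg.Agent.Helper18.TWrTwo
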