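import Mathlib
import Cfsg.Agent.Helper18.TWr
import Cfsg.Agent.Helper18.TWrSf
import Cfsg.Agent.Helper18.TWrTwo

set_option autoImplicit false

namespace Cfsg.Agent.Helper18.TWrFour

open Matrix

open scoped commutatorElement

open Cfsg.Agent.Helper18.TWr

variable {F : Type*} [Field F]

/-- The standard symplectic Gram matrix of degree four. -/
def J4 : Matrix (Fin 4) (Fin 4) F := !![0, 0, 0, 1; 0, 0, 1, 0; 0, 1, 0, 0; 1, 0, 0, 0]

/-- Lowering in the first factor. -/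
def nu1 : Matrix (Fin 4) (Fin 4) F := !![0, 0, 0, 0; 0, 0, 0, 0; 1, 0, 0, 0; 0, 1, 0, 0]

/-- Raising in the first factor. -/
def mu1 : Matrix (Fin 4) (Fin 4) F := !![0, 0, 1, 0; 0, 0, 0, 1; 0, 0, 0, 0; 0, 0, 0, 0]

/-- Lowering in the second factor. -/
def nu2 : Matrix (Fin 4) (Fin 4) F := !![0, 0, 0, 0; 1, 0, 0, 0; 0, 0, 0, 0; 0, 0, 1, 0]

/-- Raising in the second factor. -/
def mu2 : Matrix (Fin 4) (Fin 4) F := !![0, 1, 0, 0; 0, 0, 0, 0; 0, 0, 0, 1; 0, 0, 0, 0]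

/-- The local space for degree four. -/
def Lp4 (Y : Matrix (Fin 4) (Fin 4) F) : Prop :=
  (∀ x : Fin 4 → F, (Y *ᵥ x) ⬝ᵥ ((J4 : Matrix (Fin 4) (Fin 4) F) *ᵥ x) = 0) ∧
    ∃ l : F, Y * Y = l • (1 : Matrix (Fin 4) (Fin 4) F)

theorem J4_symm : (J4 : Matrix (Fin 4) (Fin 4) F)ᵀ = J4 := by
  ext i j
  fin_cases i <;> fin_cases j <;> simp [J4]

theorem J4_diag (d : Fin 4) : (J4 : Matrix (Fin 4) (Fin 4) F) d d = 0 := by
  fin_cases d <;> simp [J4]

theorem nu1_sq : (nu1 : Matrix (Fin 4) (Fin 4) F) * nu1 = 0 := by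
  ext i j
  fin_cases i <;> fin_cases j <;> simp [nu1, Matrix.mul_apply, Fin.sum_univ_four]

theorem nu2_sq : (nu2 : Matrix (Fin 4) (Fin 4) F) * nu2 = 0 := by
  ext i j
  fin_cases i <;> fin_cases j <;> simp [nu2, Matrix.mul_apply, Fin.sum_univ_four]

theorem mu1_sq : (mu1 : Matrix (Fin 4) (Fin 4) F) * mu1 = 0 := by
  ext i j
  fin_cases i <;> fin_cases j <;> simp [mu1, Matrix.mul_apply, Fin.sum_univ_four]

theorem nu_comm : (nu2 : Matrix (Fin 4) (Fin 4) F) * nu1 = nu1 * nu2 := by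
  ext i j
  fin_cases i <;> fin_cases j <;> simp [nu1, nu2, Matrix.mul_apply, Fin.sum_univ_four]

theorem loc_c : (nu1 : Matrix (Fin 4) (Fin 4) F) * mu2 * nu2 + nu2 * (nu1 * mu2) = nu1 := by
  ext i j
  fin_cases i <;> fin_cases j <;> simp [nu1, nu2, mu2, Matrix.mul_apply, Fin.sum_univ_four]

theorem loc_d1 : (nu1 : Matrix (Fin 4) (Fin 4) F) * mu2 * (nu1 * mu2) = 0 := by
  ext i j
  fin_cases i <;> fin_cases j <;> simp [nu1, mu2, Matrix.mul_apply, Fin.sum_univ_four]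

theorem loc_d3 : (nu1 : Matrix (Fin 4) (Fin 4) F) * mu2 * nu2 * (nu1 * mu2) = 0 := by
  ext i j
  fin_cases i <;> fin_cases j <;> simp [nu1, nu2, mu2, Matrix.mul_apply, Fin.sum_univ_four]

theorem loc_e : (mu2 : Matrix (Fin 4) (Fin 4) F) * (nu2 * nu1) + nu2 * nu1 * mu2 = nu1 := by
  ext i j
  fin_cases i <;> fin_cases j <;> simp [nu1, nu2, mu2, Matrix.mul_apply, Fin.sum_univ_four]

theorem loc_f1 : (nu1 : Matrix (Fin 4) (Fin 4) F) * nu2 * nu1 = 0 := by
  ext i j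
  fin_cases i <;> fin_cases j <;> simp [nu1, nu2, Matrix.mul_apply, Fin.sum_univ_four]

theorem loc_f2 : (nu2 : Matrix (Fin 4) (Fin 4) F) * (nu2 * nu1) * nu2 = 0 := by
  ext i j
  fin_cases i <;> fin_cases j <;> simp [nu1, nu2, Matrix.mul_apply, Fin.sum_univ_four]

theorem loc_g : (nu1 : Matrix (Fin 4) (Fin 4) F) * nu2 * mu1 + mu1 * (nu1 * nu2) = nu2 := by
  ext i j
  fin_cases i <;> fin_cases j <;> simp [nu1, nu2, mu1, Matrix.mul_apply, Fin.sum_univ_four]

theorem sa_nu1 : (nu1 : Matrix (Fin 4) (Fin 4) F)ᵀ * J4 = J4 * nu1 := by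
  ext i j
  fin_cases i <;> fin_cases j <;> simp [nu1, J4, Matrix.mul_apply, Fin.sum_univ_four]

theorem sa_nu2 : (nu2 : Matrix (Fin 4) (Fin 4) F)ᵀ * J4 = J4 * nu2 := by
  ext i j
  fin_cases i <;> fin_cases j <;> simp [nu2, J4, Matrix.mul_apply, Fin.sum_univ_four]

theorem sa_mu2 : (mu2 : Matrix (Fin 4) (Fin 4) F)ᵀ * J4 = J4 * mu2 := by
  ext i j
  fin_cases i <;> fin_cases j <;> simp [mu2, J4, Matrix.mul_apply, Fin.sum_univ_four]

theorem sa_xi : ((nu1 : Matrix (Fin 4) (Fin 4) F) * mu2)ᵀ * J4 = J4 * (nu1 * mu2) := by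
  ext i j
  fin_cases i <;> fin_cases j <;> simp [nu1, mu2, J4, Matrix.mul_apply, Fin.sum_univ_four]

theorem sa_eta : ((nu2 : Matrix (Fin 4) (Fin 4) F) * nu1)ᵀ * J4 = J4 * (nu2 * nu1) := by
  ext i j
  fin_cases i <;> fin_cases j <;> simp [nu1, nu2, J4, Matrix.mul_apply, Fin.sum_univ_four]

theorem sa_one4 : (1 : Matrix (Fin 4) (Fin 4) F)ᵀ * J4 = J4 * 1 := by
  rw [Matrix.transpose_one, Matrix.one_mul, Matrix.mul_one]

theorem zd_nu1 (d : Fin 4) : (J4 * nu1 : Matrix (Fin 4) (Fin 4) F) d d = 0 := by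
  fin_cases d <;> simp [nu1, J4, Matrix.mul_apply, Fin.sum_univ_four]

theorem zd_nu2 (d : Fin 4) : (J4 * nu2 : Matrix (Fin 4) (Fin 4) F) d d = 0 := by
  fin_cases d <;> simp [nu2, J4, Matrix.mul_apply, Fin.sum_univ_four]

theorem zd_one (d : Fin 4) : (J4 * 1 : Matrix (Fin 4) (Fin 4) F) d d = 0 := by
  rw [Matrix.mul_one]
  exact J4_diag d

theorem nu1_20 : (nu1 : Matrix (Fin 4) (Fin 4) F) 2 0 = 1 := by
  simp [nu1]

theorem nu1_00 : (nu1 : Matrix (Fin 4) (Fin 4) F) 0 0 = 0 := by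
  simp [nu1]

theorem nu2_10 : (nu2 : Matrix (Fin 4) (Fin 4) F) 1 0 = 1 := by
  simp [nu2]

theorem lp_nu1 (h2 : (2 : F) = 0) : Lp4 (nu1 : Matrix (Fin 4) (Fin 4) F) := by
  refine ⟨fun x => ?_, 0, by rw [nu1_sq, zero_smul]⟩
  simp [nu1, J4, Matrix.mulVec, dotProduct, Fin.sum_univ_four]
  linear_combination (x 0 * x 1) * h2

theorem lp_mu1 (h2 : (2 : F) = 0) : Lp4 (mu1 : Matrix (Fin 4) (Fin 4) F) := by
  refine ⟨fun x => ?_, 0, by rw [mu1_sq, zero_smul]⟩
  simp [mu1, J4, Matrix.mulVec, dotProduct, Fin.sum_univ_four]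
  linear_combination (x 2 * x 3) * h2

theorem lp_entries (h2 : (2 : F) = 0) (Y : Matrix (Fin 4) (Fin 4) F) (hY : Lp4 Y) :
    Y 3 0 = 0 ∧ Y 2 1 = 0 ∧ Y 1 2 = 0 ∧ Y 0 3 = 0 ∧ Y 2 0 + Y 3 1 = 0 ∧ Y 1 0 + Y 3 2 = 0 ∧
      Y 0 0 + Y 3 3 = 0 ∧ Y 1 1 + Y 2 2 = 0 ∧ Y 0 1 + Y 2 3 = 0 ∧ Y 0 2 + Y 1 3 = 0 ∧
      Y 0 0 + Y 1 1 = 0 := by
  obtain ⟨hA, l, hl⟩ := hY
  have key : ∀ x : Fin 4 → F,
      (Y 0 0 * x 0 + Y 0 1 * x 1 + Y 0 2 * x 2 + Y 0 3 * x 3) * x 3 +
      (Y 1 0 * x 0 + Y 1 1 * x 1 + Y 1 2 * x 2 + Y 1 3 * x 3) * x 2 +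
      (Y 2 0 * x 0 + Y 2 1 * x 1 + Y 2 2 * x 2 + Y 2 3 * x 3) * x 1 +
      (Y 3 0 * x 0 + Y 3 1 * x 1 + Y 3 2 * x 2 + Y 3 3 * x 3) * x 0 = 0 := by
    intro x
    have h := hA x
    simp [J4, Matrix.mulVec, dotProduct, Fin.sum_univ_four] at h
    linear_combination h
  have f30 : Y 3 0 = 0 := by
    have h := key (Pi.single 0 1)
    simp [Pi.single_apply] at h
    linear_combination h
  have f21 : Y 2 1 = 0 := by
    have h := key (Pi.single 1 1)
    simp [Pi.single_apply] at h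
    linear_combination h
  have f12 : Y 1 2 = 0 := by
    have h := key (Pi.single 2 1)
    simp [Pi.single_apply] at h
    linear_combination h
  have f03 : Y 0 3 = 0 := by
    have h := key (Pi.single 3 1)
    simp [Pi.single_apply] at h
    linear_combination h
  have p01 : Y 2 0 + Y 3 1 = 0 := by
    have h := key (Pi.single 0 1 + Pi.single 1 1)
    simp [Pi.single_apply] at h
    linear_combination h - f30 - f21
  have p02 : Y 1 0 + Y 3 2 = 0 := by
    have h := key (Pi.single 0 1 + Pi.single 2 1)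
    simp [Pi.single_apply] at h
    linear_combination h - f30 - f12
  have p03 : Y 0 0 + Y 3 3 = 0 := by
    have h := key (Pi.single 0 1 + Pi.single 3 1)
    simp [Pi.single_apply] at h
    linear_combination h - f30 - f03
  have p12 : Y 1 1 + Y 2 2 = 0 := by
    have h := key (Pi.single 1 1 + Pi.single 2 1)
    simp [Pi.single_apply] at h
    linear_combination h - f21 - f12
  have p13 : Y 0 1 + Y 2 3 = 0 := by
    have h := key (Pi.single 1 1 + Pi.single 3 1)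
    simp [Pi.single_apply] at h
    linear_combination h - f21 - f03
  have p23 : Y 0 2 + Y 1 3 = 0 := by
    have h := key (Pi.single 2 1 + Pi.single 3 1)
    simp [Pi.single_apply] at h
    linear_combination h - f12 - f03
  have q00 : Y 0 0 * Y 0 0 + Y 0 1 * Y 1 0 + Y 0 2 * Y 2 0 + Y 0 3 * Y 3 0 = l := by
    have h := congrFun (congrFun hl 0) 0
    rw [Matrix.mul_apply, Fin.sum_univ_four, Matrix.smul_apply, Matrix.one_apply_eq, smul_eq_mul,
      mul_one] at h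
    exact h
  have q11 : Y 1 0 * Y 0 1 + Y 1 1 * Y 1 1 + Y 1 2 * Y 2 1 + Y 1 3 * Y 3 1 = l := by
    have h := congrFun (congrFun hl 1) 1
    rw [Matrix.mul_apply, Fin.sum_univ_four, Matrix.smul_apply, Matrix.one_apply_eq, smul_eq_mul,
      mul_one] at h
    exact h
  have hsq : (Y 0 0 + Y 1 1) ^ 2 = 0 := by
    linear_combination q00 - q11 + (Y 1 1 ^ 2 + Y 0 0 * Y 1 1) * h2 - Y 3 0 * f03 + Y 2 1 * f12 +
      Y 3 1 * p23 - Y 0 2 * p01
  have hd : Y 0 0 + Y 1 1 = 0 := (pow_eq_zero_iff (by norm_num : (2 : ℕ) ≠ 0)).1 hsq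
  exact ⟨f30, f21, f12, f03, p01, p02, p03, p12, p13, p23, hd⟩

theorem l1_nu1 (h2 : (2 : F) = 0) (Y : Matrix (Fin 4) (Fin 4) F) (hY : Lp4 Y) :
    nu1 * Y + Y * nu1 = Y 0 2 • (1 : Matrix (Fin 4) (Fin 4) F) := by
  obtain ⟨f30, f21, f12, f03, p01, p02, p03, p12, p13, p23, hd⟩ := lp_entries h2 Y hY
  have e : ∀ i j, (nu1 * Y + Y * nu1 : Matrix (Fin 4) (Fin 4) F) i j =
      (Y 0 2 • (1 : Matrix (Fin 4) (Fin 4) F)) i j := by
    intro i j
    rw [Matrix.add_apply, Matrix.mul_apply, Matrix.mul_apply, Fin.sum_univ_four, Fin.sum_univ_four,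
      Matrix.smul_apply, smul_eq_mul]
    fin_cases i <;> fin_cases j <;> simp [nu1] <;>
      first
        | linear_combination f03
        | linear_combination f12
        | linear_combination p23 - Y 0 2 * h2
        | linear_combination (-1 : F) * p23 + Y 0 2 * h2
        | linear_combination hd + p12 - Y 1 1 * h2
        | linear_combination p13
        | linear_combination p02
        | linear_combination p03 + hd - Y 0 0 * h2
        | linear_combination p23 - Y 1 3 * h2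
        | linear_combination (-1 : F) * p23 + Y 1 3 * h2
  ext i j
  exact e i j

theorem lp4_conj {t : ℕ} (Q' : ((Fin t → Fin 4) → F) → F) (c : F) (hc : c ≠ 0)
    (hpol : ∀ u v, Q' (u + v) = Q' u + Q' v +
      c * (u ⬝ᵥ (pureM (fun _ : Fin t => (J4 : Matrix (Fin 4) (Fin 4) F)) *ᵥ v)))
    (g : GL (Fin t → Fin 4) F) (hg : g ∈ X0 Q') (σ : Equiv.Perm (Fin t))
    (gs : Fin t → GL (Fin 4) F)
    (h : ∀ xs : Fin t → Fin 4 → F, (g : Matrix (Fin t → Fin 4) (Fin t → Fin 4) F) *ᵥ pt xs =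
      pt (fun l => (gs l : Matrix (Fin 4) (Fin 4) F) *ᵥ xs (σ⁻¹ l)))
    (a : Fin t) (Y : Matrix (Fin 4) (Fin 4) F) (hY : Lp4 Y) :
    Lp4 ((gs (σ a) : Matrix (Fin 4) (Fin 4) F) * Y *
      (((gs (σ a))⁻¹ : GL (Fin 4) F) : Matrix (Fin 4) (Fin 4) F)) := by
  obtain ⟨hA, l, hl⟩ := hY
  have hB : ∀ xs ys : Fin t → Fin 4 → F,
      ∏ i, (((gs i : Matrix (Fin 4) (Fin 4) F) *ᵥ xs (σ⁻¹ i)) ⬝ᵥ
        ((J4 : Matrix (Fin 4) (Fin 4) F) *ᵥ ((gs i : Matrix (Fin 4) (Fin 4) F) *ᵥ ys (σ⁻¹ i)))) =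
      ∏ i, (xs i ⬝ᵥ ((J4 : Matrix (Fin 4) (Fin 4) F) *ᵥ ys i)) := by
    intro xs ys
    have e := pres_B J4 Q' c hc hpol g hg (pt xs) (pt ys)
    rw [h, h, pureM_mulVec_pt, pureM_mulVec_pt, pt_dot, pt_dot] at e
    exact e
  have e03 : (Pi.single 0 1 : Fin 4 → F) ⬝ᵥ ((J4 : Matrix (Fin 4) (Fin 4) F) *ᵥ Pi.single 3 1) =
      1 := by
    simp [J4]
  have hπ : ∀ i, ((gs i : Matrix (Fin 4) (Fin 4) F) *ᵥ (Pi.single 0 1 : Fin 4 → F)) ⬝ᵥ
      ((J4 : Matrix (Fin 4) (Fin 4) F) *ᵥ ((gs i : Matrix (Fin 4) (Fin 4) F) *ᵥ Pi.single 3 1)) ≠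
        0 := by
    intro i hi
    have e := hB (fun _ => Pi.single 0 1) (fun _ => Pi.single 3 1)
    rw [Finset.prod_eq_zero (Finset.mem_univ i) hi] at e
    simp only [e03, Finset.prod_const_one] at e
    exact zero_ne_one e
  have hmain : ∀ y : Fin 4 → F, ((gs (σ a) : Matrix (Fin 4) (Fin 4) F) *ᵥ (Y *ᵥ y)) ⬝ᵥ
      ((J4 : Matrix (Fin 4) (Fin 4) F) *ᵥ ((gs (σ a) : Matrix (Fin 4) (Fin 4) F) *ᵥ y)) = 0 := by
    intro y
    have e := hB (Function.update (fun _ => Pi.single 0 1) a (Y *ᵥ y))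
      (Function.update (fun _ => Pi.single 3 1) a y)
    have hr : ∏ i, ((Function.update (fun _ => (Pi.single 0 1 : Fin 4 → F)) a (Y *ᵥ y) i) ⬝ᵥ
        ((J4 : Matrix (Fin 4) (Fin 4) F) *ᵥ
          (Function.update (fun _ => (Pi.single 3 1 : Fin 4 → F)) a y i))) = 0 := by
      apply Finset.prod_eq_zero (Finset.mem_univ a)
      rw [Function.update_self, Function.update_self]
      exact hA y
    rw [hr] at e
    obtain ⟨i, _, hi⟩ := Finset.prod_eq_zero_iff.1 e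
    by_cases hia : σ⁻¹ i = a
    · have hi' : i = σ a := by
        rw [← hia]
        simp
      rw [hia, Function.update_self, Function.update_self, hi'] at hi
      exact hi
    · rw [Function.update_of_ne hia, Function.update_of_ne hia] at hi
      exact absurd hi (hπ i)
  refine ⟨fun x => ?_, l, ?_⟩
  · have e := hmain ((((gs (σ a))⁻¹ : GL (Fin 4) F) : Matrix (Fin 4) (Fin 4) F) *ᵥ x)
    have e1 : (gs (σ a) : Matrix (Fin 4) (Fin 4) F) *ᵥ
        ((((gs (σ a))⁻¹ : GL (Fin 4) F) : Matrix (Fin 4) (Fin 4) F) *ᵥ x) = x := by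
      rw [Matrix.mulVec_mulVec, ← Units.val_mul, mul_inv_cancel, Units.val_one, Matrix.one_mulVec]
    rw [e1] at e
    rw [← Matrix.mulVec_mulVec, ← Matrix.mulVec_mulVec]
    exact e
  · calc (gs (σ a) : Matrix (Fin 4) (Fin 4) F) * Y *
          (((gs (σ a))⁻¹ : GL (Fin 4) F) : Matrix (Fin 4) (Fin 4) F) *
          ((gs (σ a) : Matrix (Fin 4) (Fin 4) F) * Y *
            (((gs (σ a))⁻¹ : GL (Fin 4) F) : Matrix (Fin 4) (Fin 4) F))
        = (gs (σ a) : Matrix (Fin 4) (Fin 4) F) * (Y *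
            ((((gs (σ a))⁻¹ : GL (Fin 4) F) : Matrix (Fin 4) (Fin 4) F) *
              (gs (σ a) : Matrix (Fin 4) (Fin 4) F)) * Y) *
            (((gs (σ a))⁻¹ : GL (Fin 4) F) : Matrix (Fin 4) (Fin 4) F) := by
          simp only [Matrix.mul_assoc]
      _ = l • (1 : Matrix (Fin 4) (Fin 4) F) := by
          rw [← Units.val_mul, inv_mul_cancel, Units.val_one, Matrix.mul_one, hl, Matrix.mul_smul,
            Matrix.smul_mul, Matrix.mul_one, ← Units.val_mul, mul_inv_cancel, Units.val_one]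


theorem loc_e' : (mu2 : Matrix (Fin 4) (Fin 4) F) * (nu1 * nu2) + nu1 * nu2 * mu2 = nu1 := by
  rw [← nu_comm]
  exact loc_e

theorem sa_eta' : ((nu1 : Matrix (Fin 4) (Fin 4) F) * nu2)ᵀ * J4 = J4 * (nu1 * nu2) := by
  rw [← nu_comm]
  exact sa_eta

theorem loc_h : (nu2 : Matrix (Fin 4) (Fin 4) F) * nu1 * nu2 = 0 := by
  rw [nu_comm, Matrix.mul_assoc, nu2_sq, Matrix.mul_zero]

section coord

variable {t : ℕ}

theorem coord_four (h2 : (2 : F) = 0) (Q' : ((Fin t → Fin 4) → F) → F) (c : F) (hc : c ≠ 0)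
    (hpol : ∀ u v, Q' (u + v) = Q' u + Q' v +
      c * (u ⬝ᵥ (pureM (fun _ : Fin t => (J4 : Matrix (Fin 4) (Fin 4) F)) *ᵥ v)))
    (hsm : ∀ (s : F) v, Q' (s • v) = s ^ 2 * Q' v)
    (hpt : ∀ xs : Fin t → Fin 4 → F, Q' (pt xs) = 0)
    (a b : Fin t) (hab : a ≠ b) :
    ∃ K0 : Subgroup (GL (Fin t → Fin 4) F),
      Cfsg.Geo.tensorWreathStandard 4 t F ⊓ ⁅X0 Q', X0 Q'⁆ < K0 ∧ K0 < ⁅X0 Q', X0 Q'⁆ := by
  classical
  have hba : b ≠ a := Ne.symm hab
  -- first element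
  obtain ⟨X, hX⟩ : ∃ X, X = pureM (sf1 a ((nu1 : Matrix (Fin 4) (Fin 4) F) * mu2)) := ⟨_, rfl⟩
  obtain ⟨Y, hY⟩ : ∃ Y, Y = pureM (sf2 a b (nu2 : Matrix (Fin 4) (Fin 4) F) nu1) := ⟨_, rfl⟩
  obtain ⟨Z, hZ⟩ : ∃ Z, Z = pureM (sf2 a b (nu1 : Matrix (Fin 4) (Fin 4) F) nu1) := ⟨_, rfl⟩
  have hXX : X * X = 0 := by
    rw [hX, pureM_mul]
    apply pureM_zero_of _ a
    simp only [sf1, ↓reduceIte]
    exact loc_d1
  have hYY : Y * Y = 0 := by
    rw [hY, pureM_mul]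
    apply pureM_zero_of _ a
    simp only [sf2, ↓reduceIte]
    exact nu2_sq
  have hZZ : Z * Z = 0 := by
    rw [hZ, pureM_mul]
    apply pureM_zero_of _ a
    simp only [sf2, ↓reduceIte]
    exact nu1_sq
  have hXYX : X * Y * X = 0 := by
    rw [hX, hY, pureM_mul, pureM_mul]
    apply pureM_zero_of _ a
    simp only [sf1, sf2, ↓reduceIte]
    exact loc_d3
  have hYXY : Y * X * Y = 0 := by
    rw [hX, hY, pureM_mul, pureM_mul]
    apply pureM_zero_of _ b
    simp only [sf1, sf2, if_neg hba, ↓reduceIte]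
    rw [Matrix.mul_one, nu1_sq]
  have hXm : uni h2 X hXX ∈ X0 Q' := by
    subst hX
    refine uni_mem h2 J4 J4_symm Q' c hpol hsm hpt (sf1 a (nu1 * mu2)) ?_ b ?_ hXX
    · intro i
      unfold sf1
      split_ifs
      · exact sa_xi
      · exact sa_one4
    · intro d
      simp only [sf1, if_neg hba]
      exact zd_one d
  have hYm : uni h2 Y hYY ∈ X0 Q' := by
    subst hY
    refine uni_mem h2 J4 J4_symm Q' c hpol hsm hpt (sf2 a b nu2 nu1) ?_ a ?_ hYY
    · intro i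
      unfold sf2
      split_ifs
      · exact sa_nu2
      · exact sa_nu1
      · exact sa_one4
    · intro d
      simp only [sf2, ↓reduceIte]
      exact zd_nu2 d
  have hZdef : X * Y + Y * X = Z := by
    rw [hX, hY, hZ, pureM_mul, pureM_mul, TWrSf.s5 a b hab, TWrSf.s4 a b hab,
      pureM_update_add, loc_c, TWrSf.t3 a b]
  have hg_comm : uni h2 Z hZZ ∈ ⁅X0 Q', X0 Q'⁆ := by
    rw [uni_comm h2 X Y hXX hYY hXYX hYXY Z hZdef hZZ]
    exact Subgroup.commutator_mem_commutator hXm hYm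
  have h11 : (1 + Z) * (1 + Z) = 1 := (uni h2 Z hZZ).val_inv
  have key_a : ∀ Y' : Matrix (Fin 4) (Fin 4) F, Lp4 Y' →
      (1 + Z) * site a Y' * (1 + Z) ∈ Clif t (Lp4 (F := F)) := by
    intro Y' hY'
    have hexp : (1 + Z) * site a Y' * (1 + Z) =
        site a Y' + (Z * site a Y' + site a Y' * Z) + Z * site a Y' * Z := by
      noncomm_ring
    have e1 : Z * site a Y' + site a Y' * Z = Y' 0 2 • site b nu1 := by
      rw [hZ]
      unfold site
      rw [pureM_mul, pureM_mul, TWrSf.s4 a b hab, TWrSf.s5 a b hab, pureM_update_add,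
        l1_nu1 h2 Y' hY', pureM_update_smul, TWrSf.s6 a b hab]
    have e2 : Z * site a Y' * Z = 0 := by
      rw [hZ]
      unfold site
      rw [pureM_mul, pureM_mul]
      apply pureM_zero_of _ b
      simp only [sf1, sf2, if_neg hba, ↓reduceIte]
      rw [Matrix.mul_one, nu1_sq]
    rw [hexp, e1, e2, add_zero]
    exact Submodule.add_mem _ (site_mem_clif Lp4 a Y' hY')
      (Submodule.smul_mem _ _ (site_mem_clif Lp4 b nu1 (lp_nu1 h2)))
  have key_b : ∀ Y' : Matrix (Fin 4) (Fin 4) F, Lp4 Y' →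
      (1 + Z) * site b Y' * (1 + Z) ∈ Clif t (Lp4 (F := F)) := by
    intro Y' hY'
    have hexp : (1 + Z) * site b Y' * (1 + Z) =
        site b Y' + (Z * site b Y' + site b Y' * Z) + Z * site b Y' * Z := by
      noncomm_ring
    have e1 : Z * site b Y' + site b Y' * Z = Y' 0 2 • site a nu1 := by
      rw [hZ]
      unfold site
      rw [pureM_mul, pureM_mul, TWrSf.s7 a b hab, TWrSf.s8 a b hab, pureM_update_add,
        l1_nu1 h2 Y' hY', pureM_update_smul, TWrSf.s6 b a hba]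
    have e2 : Z * site b Y' * Z = 0 := by
      rw [hZ]
      unfold site
      rw [pureM_mul, pureM_mul]
      apply pureM_zero_of _ a
      simp only [sf1, sf2, if_neg hab, ↓reduceIte]
      rw [Matrix.mul_one, nu1_sq]
    rw [hexp, e1, e2, add_zero]
    exact Submodule.add_mem _ (site_mem_clif Lp4 b Y' hY')
      (Submodule.smul_mem _ _ (site_mem_clif Lp4 a nu1 (lp_nu1 h2)))
  have key_o : ∀ (e : Fin t) (Y' : Matrix (Fin 4) (Fin 4) F), e ≠ a → e ≠ b → Lp4 Y' →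
      (1 + Z) * site e Y' * (1 + Z) ∈ Clif t (Lp4 (F := F)) := by
    intro e Y' hea heb hY'
    have hcomm : Z * site e Y' = site e Y' * Z := by
      rw [hZ]
      unfold site
      rw [pureM_mul, pureM_mul, TWrSf.s9 a b e hea heb]
    have e1 : (1 + Z) * site e Y' = site e Y' * (1 + Z) := by
      rw [add_mul, mul_add, one_mul, mul_one, hcomm]
    rw [e1, Matrix.mul_assoc, h11, Matrix.mul_one]
    exact site_mem_clif Lp4 e Y' hY'
  have key : ∀ M ∈ Clif t (Lp4 (F := F)), (1 + Z) * M * (1 + Z) ∈ Clif t (Lp4 (F := F)) := by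
    apply conj_mem_of_gens
    rintro M ⟨e, Y', hY', rfl⟩
    by_cases hea : e = a
    · rw [hea]
      exact key_a Y' hY'
    · by_cases heb : e = b
      · rw [heb]
        exact key_b Y' hY'
      · exact key_o e Y' hea heb hY'
  have hgN : uni h2 Z hZZ ∈ Nrm (Clif t (Lp4 (F := F))) := by
    apply mem_Nrm_of
    · intro M hM
      exact key M hM
    · intro M hM
      exact key M hM
  have h20 : (2 : Fin 4) ≠ 0 := by decide
  have h10 : (1 : Fin 4) ≠ 0 := by decide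
  have hgT : uni h2 Z hZZ ∉ Cfsg.Geo.tensorWreathStandard 4 t F := by
    intro hmem
    have hq := wr_quad _ hmem (fun _ => 0) (fun _ => 0) a b hab 2 2
    have hval : ((uni h2 Z hZZ : GL (Fin t → Fin 4) F) :
        Matrix (Fin t → Fin 4) (Fin t → Fin 4) F) = 1 + pureM (sf2 a b nu1 nu1) := by
      rw [← hZ]
      rfl
    rw [hval] at hq
    have v1 : pureM (sf2 a b (nu1 : Matrix (Fin 4) (Fin 4) F) nu1) (fun _ => 0) (fun _ => 0) = 0 :=
      Finset.prod_eq_zero (Finset.mem_univ a) (by simp only [sf2, ↓reduceIte]; exact nu1_00)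
    have v2 := TWrTwo.entry_two a b hab (nu1 : Matrix (Fin 4) (Fin 4) F) nu1 (fun _ => 0) 2 2
      nu1_20 nu1_20
    have v3 : pureM (sf2 a b (nu1 : Matrix (Fin 4) (Fin 4) F) nu1)
        (Function.update (fun _ => 0) a 2) (fun _ => 0) = 0 :=
      Finset.prod_eq_zero (Finset.mem_univ b)
        (by
          simp only [sf2, if_neg hba, ↓reduceIte]
          rw [Function.update_of_ne hba]
          exact nu1_00)
    have v4 : pureM (sf2 a b (nu1 : Matrix (Fin 4) (Fin 4) F) nu1)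
        (Function.update (fun _ => 0) b 2) (fun _ => 0) = 0 :=
      Finset.prod_eq_zero (Finset.mem_univ a)
        (by
          simp only [sf2, ↓reduceIte]
          rw [Function.update_of_ne hab]
          exact nu1_00)
    have n1 : Function.update (Function.update (fun _ : Fin t => (0 : Fin 4)) a 2) b 2 ≠
        (fun _ => 0) := by
      intro h'
      have h'' := congrFun h' b
      rw [Function.update_self] at h''
      exact h20 h''
    have n2 : Function.update (fun _ : Fin t => (0 : Fin 4)) a 2 ≠ (fun _ => 0) :=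
      TWrTwo.upd_ne _ a 2 h20
    have n3 : Function.update (fun _ : Fin t => (0 : Fin 4)) b 2 ≠ (fun _ => 0) :=
      TWrTwo.upd_ne _ b 2 h20
    rw [TWrTwo.one_add_apply _ _ _ n1, TWrTwo.one_add_apply _ _ _ n2,
      TWrTwo.one_add_apply _ _ _ n3, Matrix.add_apply, Matrix.one_apply_eq, v1, v2, v3, v4] at hq
    simp at hq
  -- second element
  obtain ⟨X', hX'⟩ : ∃ X', X' = pureM (sf2 a b (nu1 : Matrix (Fin 4) (Fin 4) F) mu2) := ⟨_, rfl⟩
  obtain ⟨Y', hY'⟩ : ∃ Y', Y' = pureM (sf2 a b (nu2 : Matrix (Fin 4) (Fin 4) F) (nu1 * nu2)) :=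
    ⟨_, rfl⟩
  obtain ⟨Z', hZ'⟩ : ∃ Z', Z' = pureM (sf2 a b ((nu1 : Matrix (Fin 4) (Fin 4) F) * nu2) nu1) :=
    ⟨_, rfl⟩
  have hXX' : X' * X' = 0 := by
    rw [hX', pureM_mul]
    apply pureM_zero_of _ a
    simp only [sf2, ↓reduceIte]
    exact nu1_sq
  have hYY' : Y' * Y' = 0 := by
    rw [hY', pureM_mul]
    apply pureM_zero_of _ a
    simp only [sf2, ↓reduceIte]
    exact nu2_sq
  have hZZ' : Z' * Z' = 0 := by
    rw [hZ', pureM_mul]
    apply pureM_zero_of _ b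
    simp only [sf2, if_neg hba, ↓reduceIte]
    exact nu1_sq
  have hXYX' : X' * Y' * X' = 0 := by
    rw [hX', hY', pureM_mul, pureM_mul]
    apply pureM_zero_of _ a
    simp only [sf2, ↓reduceIte]
    exact loc_f1
  have hYXY' : Y' * X' * Y' = 0 := by
    rw [hX', hY', pureM_mul, pureM_mul]
    apply pureM_zero_of _ a
    simp only [sf2, ↓reduceIte]
    exact loc_h
  have hXm' : uni h2 X' hXX' ∈ X0 Q' := by
    subst hX'
    refine uni_mem h2 J4 J4_symm Q' c hpol hsm hpt (sf2 a b nu1 mu2) ?_ a ?_ hXX'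
    · intro i
      unfold sf2
      split_ifs
      · exact sa_nu1
      · exact sa_mu2
      · exact sa_one4
    · intro d
      simp only [sf2, ↓reduceIte]
      exact zd_nu1 d
  have hYm' : uni h2 Y' hYY' ∈ X0 Q' := by
    subst hY'
    refine uni_mem h2 J4 J4_symm Q' c hpol hsm hpt (sf2 a b nu2 (nu1 * nu2)) ?_ a ?_ hYY'
    · intro i
      unfold sf2
      split_ifs
      · exact sa_nu2
      · exact sa_eta'
      · exact sa_one4
    · intro d
      simp only [sf2, ↓reduceIte]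
      exact zd_nu2 d
  have hZdef' : X' * Y' + Y' * X' = Z' := by
    rw [hX', hY', hZ', pureM_mul, pureM_mul, TWrSf.t4 a b hab, TWrSf.t4 a b hab, nu_comm,
      pureM_update_add, loc_e', TWrSf.t5 a b hab]
  have hh_comm : uni h2 Z' hZZ' ∈ ⁅X0 Q', X0 Q'⁆ := by
    rw [uni_comm h2 X' Y' hXX' hYY' hXYX' hYXY' Z' hZdef' hZZ']
    exact Subgroup.commutator_mem_commutator hXm' hYm'
  have hhN : uni h2 Z' hZZ' ∉ Nrm (Clif t (Lp4 (F := F))) := by
    intro hmem
    have hS : site a mu1 ∈ Clif t (Lp4 (F := F)) := site_mem_clif Lp4 a mu1 (lp_mu1 h2)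
    have h1 : (1 + Z') * site a mu1 * (1 + Z') ∈ Clif t (Lp4 (F := F)) :=
      (hmem (site a mu1)).1 hS
    have hexp : (1 + Z') * site a mu1 * (1 + Z') =
        site a mu1 + (Z' * site a mu1 + site a mu1 * Z') + Z' * site a mu1 * Z' := by
      noncomm_ring
    have e1 : Z' * site a mu1 + site a mu1 * Z' = pureM (sf2 a b nu2 nu1) := by
      rw [hZ']
      unfold site
      rw [pureM_mul, pureM_mul, TWrSf.s4 a b hab, TWrSf.s5 a b hab, pureM_update_add,
        loc_g, TWrSf.t3 a b]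
    have e2 : Z' * site a mu1 * Z' = 0 := by
      rw [hZ']
      unfold site
      rw [pureM_mul, pureM_mul]
      apply pureM_zero_of _ b
      simp only [sf1, sf2, if_neg hba, ↓reduceIte]
      rw [Matrix.mul_one, nu1_sq]
    rw [hexp, e1, e2, add_zero] at h1
    have hR : pureM (sf2 a b (nu2 : Matrix (Fin 4) (Fin 4) F) nu1) ∈ Clif t (Lp4 (F := F)) :=
      (Submodule.add_mem_iff_right _ hS).1 h1
    have hz := clif_entry_zero Lp4
      (Function.update (Function.update (fun _ : Fin t => (0 : Fin 4)) a 1) b 2) (fun _ => 0) a b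
      hab (by rw [Function.update_of_ne hab, Function.update_self]; exact h10)
      (by rw [Function.update_self]; exact h20) _ hR
    rw [TWrTwo.entry_two a b hab (nu2 : Matrix (Fin 4) (Fin 4) F) nu1 (fun _ => 0) 1 2 nu2_10
      nu1_20] at hz
    exact one_ne_zero hz
  refine ⟨Nrm (Clif t (Lp4 (F := F))) ⊓ ⁅X0 Q', X0 Q'⁆, ?_, ?_⟩
  · refine lt_of_le_of_ne (wr_le_nrm Lp4 Q' ?_) ?_
    · intro g hg σ gs h a' Y₀ hY₀
      exact lp4_conj Q' c hc hpol g hg σ gs h a' Y₀ hY₀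
    · intro h
      have hmem : uni h2 Z hZZ ∈ Nrm (Clif t (Lp4 (F := F))) ⊓ ⁅X0 Q', X0 Q'⁆ := ⟨hgN, hg_comm⟩
      rw [← h] at hmem
      exact hgT hmem.1
  · refine lt_of_le_of_ne inf_le_right ?_
    intro h
    have hmem : uni h2 Z' hZZ' ∈ ⁅X0 Q', X0 Q'⁆ := hh_comm
    rw [← h] at hmem
    exact hhN hmem.1

end coord

end Cfsg.Agent.Helper18.TWrFour
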