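import Mathlib
import Cfsg.Prelude.Def_GeometricClasses
import Cfsg.Prelude.Def_LieClassical
import Cfsg.Prelude.Def_ClassicalGeometry
import Cfsg.Agent.Helper18.DecStab
import Cfsg.Agent.Helper18.TensUnit
import Cfsg.Agent.Helper18.TensSymp
import Cfsg.Agent.Helper18.DiagOrth
import Cfsg.Agent.Helper18.TWr
import Cfsg.Agent.Helper18.TWrSf
import Cfsg.Agent.Helper18.TWrTwo
import Cfsg.Agent.Helper18.TWrFour

set_option autoImplicit false

namespace Cfsg.Agent.Helper18.TWrMain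

open Matrix

open scoped commutatorElement

open Cfsg.Agent.Helper18.TWr

variable {F : Type*} [Field F]

theorem J4_sq : (TWrFour.J4 : Matrix (Fin 4) (Fin 4) F) * TWrFour.J4 = 1 := by
  ext i j
  fin_cases i <;> fin_cases j <;> simp [TWrFour.J4, Matrix.mul_apply, Fin.sum_univ_four]

theorem exists_U4 (h2 : (2 : F) = 0) (f : (Fin 4 → F) → (Fin 4 → F) → F)
    (hf : Cfsg.Geo.IsSymplecticForm f) :
    ∃ U U' : Matrix (Fin 4) (Fin 4) F, U * U' = 1 ∧ U' * U = 1 ∧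
      Uᵀ * Cfsg.Geo.gramMatrix f * U = TWrFour.J4 := by
  have hneg : ∀ s : F, -s = s := fun s => by linear_combination (-s) * h2
  have hsym : ∀ v w, f v w = f w v := fun v w => by rw [hf.skew, hneg]
  have hb := hf.bilinear
  have hx0 : (Pi.single 0 1 : Fin 4 → F) ≠ 0 := by
    intro h
    have h' := congrFun h 0
    simp at h'
  obtain ⟨w0, hw0⟩ := (hf.nondegenerate _ hx0).2
  obtain ⟨x0, hx0d⟩ : ∃ x0 : Fin 4 → F, x0 = Pi.single 0 1 := ⟨_, rfl⟩
  rw [← hx0d] at hw0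
  obtain ⟨y0, hy0d⟩ : ∃ y0 : Fin 4 → F, y0 = (f x0 w0)⁻¹ • w0 := ⟨_, rfl⟩
  have h00 : f x0 y0 = 1 := by rw [hy0d, hb.smul_right, inv_mul_cancel₀ hw0]
  have hπx : ∀ z, f (z + f z y0 • x0 + f z x0 • y0) x0 = 0 := by
    intro z
    rw [hb.add_left, hb.add_left, hb.smul_left, hb.smul_left, hf.alternating, hsym y0 x0, h00]
    linear_combination f z x0 * h2
  have hπy : ∀ z, f (z + f z y0 • x0 + f z x0 • y0) y0 = 0 := by
    intro z
    rw [hb.add_left, hb.add_left, hb.smul_left, hb.smul_left, hf.alternating, h00]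
    linear_combination f z y0 * h2
  obtain ⟨z, hz⟩ : ∃ z, z + f z y0 • x0 + f z x0 • y0 ≠ 0 := by
    by_contra hcon
    push Not at hcon
    have e1 := hcon (Pi.single 1 1)
    have e2 := hcon (Pi.single 2 1)
    have a1 := congrFun e1 1
    have a2 := congrFun e1 2
    have a3 := congrFun e2 2
    obtain ⟨β₁, hβ₁⟩ : ∃ β₁, β₁ = f (Pi.single 1 1) x0 := ⟨_, rfl⟩
    obtain ⟨β₂, hβ₂⟩ : ∃ β₂, β₂ = f (Pi.single 2 1) x0 := ⟨_, rfl⟩
    rw [← hβ₁] at a1 a2
    rw [← hβ₂] at a3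
    have x01 : x0 1 = 0 := by rw [hx0d]; simp
    have x02 : x0 2 = 0 := by rw [hx0d]; simp
    simp only [Pi.add_apply, Pi.smul_apply, smul_eq_mul, Pi.zero_apply, x01, x02, mul_zero,
      add_zero] at a1 a2 a3
    have s11 : (Pi.single 1 1 : Fin 4 → F) 1 = 1 := by simp
    have s12 : (Pi.single 1 1 : Fin 4 → F) 2 = 0 := by simp
    have s22 : (Pi.single 2 1 : Fin 4 → F) 2 = 1 := by simp
    rw [s11] at a1
    rw [s12, zero_add] at a2
    rw [s22] at a3
    rcases mul_eq_zero.1 a2 with h | h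
    · rw [h, zero_mul, add_zero] at a1
      exact one_ne_zero a1
    · rw [h, mul_zero, add_zero] at a3
      exact one_ne_zero a3
  obtain ⟨x1, hx1d⟩ : ∃ x1, x1 = z + f z y0 • x0 + f z x0 • y0 := ⟨_, rfl⟩
  rw [← hx1d] at hz
  have hx1x : f x1 x0 = 0 := by rw [hx1d]; exact hπx z
  have hx1y : f x1 y0 = 0 := by rw [hx1d]; exact hπy z
  obtain ⟨w, hw⟩ := (hf.nondegenerate x1 hz).2
  obtain ⟨p1, hp1d⟩ : ∃ p1, p1 = w + f w y0 • x0 + f w x0 • y0 := ⟨_, rfl⟩
  have hp1x : f p1 x0 = 0 := by rw [hp1d]; exact hπx w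
  have hp1y : f p1 y0 = 0 := by rw [hp1d]; exact hπy w
  have hx1p : f x1 p1 = f x1 w := by
    rw [hp1d, hb.add_right, hb.add_right, hb.smul_right, hb.smul_right, hx1x, hx1y, mul_zero,
      mul_zero, add_zero, add_zero]
  obtain ⟨y1, hy1d⟩ : ∃ y1, y1 = (f x1 w)⁻¹ • p1 := ⟨_, rfl⟩
  have h11 : f x1 y1 = 1 := by rw [hy1d, hb.smul_right, hx1p, inv_mul_cancel₀ hw]
  have hy1x : f y1 x0 = 0 := by rw [hy1d, hb.smul_left, hp1x, mul_zero]
  have hy1y : f y1 y0 = 0 := by rw [hy1d, hb.smul_left, hp1y, mul_zero]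
  have g00 : f x0 x0 = 0 := hf.alternating _
  have g01 : f x0 x1 = 0 := by rw [hsym]; exact hx1x
  have g02 : f x0 y1 = 0 := by rw [hsym]; exact hy1x
  have g11 : f x1 x1 = 0 := hf.alternating _
  have g13 : f x1 y0 = 0 := hx1y
  have g21 : f y1 x1 = 1 := by rw [hsym]; exact h11
  have g22 : f y1 y1 = 0 := hf.alternating _
  have g30 : f y0 x0 = 1 := by rw [hsym]; exact h00
  have g31 : f y0 x1 = 0 := by rw [hsym]; exact hx1y
  have g32 : f y0 y1 = 0 := by rw [hsym]; exact hy1y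
  have g33 : f y0 y0 = 0 := hf.alternating _
  obtain ⟨B, hBd⟩ : ∃ B : Fin 4 → Fin 4 → F, B = ![x0, x1, y1, y0] := ⟨_, rfl⟩
  have hB : ∀ p q, f (B p) (B q) = (TWrFour.J4 : Matrix (Fin 4) (Fin 4) F) p q := by
    intro p q
    rw [hBd]
    fin_cases p <;> fin_cases q <;>
      simp [TWrFour.J4, g00, g01, g02, h00, hx1x, g11, h11, g13, hy1x, g21, g22, hy1y, g30, g31,
        g32, g33]
  obtain ⟨U, hUd⟩ : ∃ U : Matrix (Fin 4) (Fin 4) F, U = Matrix.of (fun a p => B p a) := ⟨_, rfl⟩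
  have hU : Uᵀ * Cfsg.Geo.gramMatrix f * U = TWrFour.J4 := by
    ext p q
    rw [Matrix.mul_apply]
    simp only [Matrix.mul_apply, Matrix.transpose_apply]
    rw [← hB p q, TensSymp.b_gram hb (B p) (B q), Finset.sum_comm]
    apply Finset.sum_congr rfl
    intro b _
    rw [Finset.sum_mul]
    apply Finset.sum_congr rfl
    intro a _
    rw [hUd]
    rfl
  have hdet : IsUnit U.det := by
    have h := congrArg Matrix.det hU
    rw [Matrix.det_mul, Matrix.det_mul, Matrix.det_transpose, mul_assoc] at h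
    have hJd : (TWrFour.J4 : Matrix (Fin 4) (Fin 4) F).det ≠ 0 := by
      intro h0
      have h' := congrArg Matrix.det (J4_sq (F := F))
      rw [Matrix.det_mul, h0, mul_zero, Matrix.det_one] at h'
      exact zero_ne_one h'
    have hne : U.det * ((Cfsg.Geo.gramMatrix f).det * U.det) ≠ 0 := by
      rw [h]
      exact hJd
    exact isUnit_iff_ne_zero.2 (left_ne_zero_of_mul hne)
  exact ⟨U, U⁻¹, Matrix.mul_nonsing_inv U hdet, Matrix.nonsing_inv_mul U hdet, hU⟩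

section transport

variable {ι : Type} [Fintype ι] [DecidableEq ι] {k t : ℕ}

theorem wr_conj (U U' : Matrix (Fin k) (Fin k) F) (hUa : U * U' = 1) (hUb : U' * U = 1)
    (hUU' : pureM (fun _ : Fin t => U) * pureM (fun _ : Fin t => U') = 1)
    (hU'U : pureM (fun _ : Fin t => U') * pureM (fun _ : Fin t => U) = 1)
    (g : GL (Fin t → Fin k) F) (hg : g ∈ Cfsg.Geo.tensorWreathStandard k t F) :
    DecStab.conjHom (pureM (fun _ : Fin t => U)) (pureM (fun _ : Fin t => U')) hUU' hU'U g ∈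
      Cfsg.Geo.tensorWreathStandard k t F := by
  obtain ⟨u, hu⟩ : ∃ u : GL (Fin t → Fin k) F,
      u = ⟨pureM (fun _ : Fin t => U), pureM (fun _ : Fin t => U'), hUU', hU'U⟩ := ⟨_, rfl⟩
  have hu_mem : u ∈ Cfsg.Geo.tensorWreathStandard k t F := by
    apply Subgroup.subset_closure
    left
    refine ⟨fun _ => ⟨U, U', hUa, hUb⟩, fun x y => ?_⟩
    rw [hu]
    rfl
  have e : DecStab.conjHom (pureM (fun _ : Fin t => U)) (pureM (fun _ : Fin t => U')) hUU' hU'U g =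
      u * g * u⁻¹ := by
    apply Units.ext
    rw [DecStab.conjHom_val, Units.val_mul, Units.val_mul, hu]
    rfl
  rw [e]
  exact Subgroup.mul_mem _ (Subgroup.mul_mem _ hu_mem hg) (Subgroup.inv_mem _ hu_mem)

theorem wr_eq (e : ι ≃ (Fin t → Fin k)) (P : GL ι F) (U U' : Matrix (Fin k) (Fin k) F)
    (hUa : U * U' = 1) (hUb : U' * U = 1) :
    ∃ (M : Matrix ι (Fin t → Fin k) F) (M' : Matrix (Fin t → Fin k) ι F)
      (h1 : M * M' = 1) (h2 : M' * M = 1),
      (∀ x : (Fin t → Fin k) → F,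
        M *ᵥ x = (P : Matrix ι ι F) *ᵥ ((pureM (fun _ : Fin t => U) *ᵥ x) ∘ e)) ∧
      Cfsg.Geo.tensorWreathSubgroup k t e P =
        (Cfsg.Geo.tensorWreathStandard k t F).map (DecStab.conjHom M M' h1 h2) := by
  classical
  have hUU' : pureM (fun _ : Fin t => U) * pureM (fun _ : Fin t => U') = 1 := by
    rw [pureM_mul]
    show pureM (fun _ : Fin t => U * U') = 1
    rw [hUa, pureM_one]
  have hU'U : pureM (fun _ : Fin t => U') * pureM (fun _ : Fin t => U) = 1 := by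
    rw [pureM_mul]
    show pureM (fun _ : Fin t => U' * U) = 1
    rw [hUb, pureM_one]
  obtain ⟨M, hM⟩ : ∃ M : Matrix ι (Fin t → Fin k) F,
      M = (P : Matrix ι ι F) * TensUnit.Rm F e * pureM (fun _ : Fin t => U) := ⟨_, rfl⟩
  obtain ⟨M', hM'⟩ : ∃ M' : Matrix (Fin t → Fin k) ι F,
      M' = pureM (fun _ : Fin t => U') * TensUnit.Rm' F e * ((P⁻¹ : GL ι F) : Matrix ι ι F) :=
    ⟨_, rfl⟩
  have h1 : M * M' = 1 := by
    calc M * M' = (P : Matrix ι ι F) * (TensUnit.Rm F e *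
          (pureM (fun _ : Fin t => U) * pureM (fun _ : Fin t => U')) *
          TensUnit.Rm' F e) * ((P⁻¹ : GL ι F) : Matrix ι ι F) := by
          simp only [hM, hM', Matrix.mul_assoc]
      _ = 1 := by
          rw [hUU', Matrix.mul_one, TensUnit.Rm_mul_Rm', Matrix.mul_one, ← Units.val_mul,
            mul_inv_cancel, Units.val_one]
  have h2 : M' * M = 1 := by
    calc M' * M = pureM (fun _ : Fin t => U') * (TensUnit.Rm' F e *
          (((P⁻¹ : GL ι F) : Matrix ι ι F) * (P : Matrix ι ι F)) * TensUnit.Rm F e) *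
          pureM (fun _ : Fin t => U) := by
          simp only [hM, hM', Matrix.mul_assoc]
      _ = 1 := by
          rw [← Units.val_mul, inv_mul_cancel, Units.val_one, Matrix.mul_one,
            TensUnit.Rm'_mul_Rm, Matrix.mul_one, hU'U]
  have hMv : ∀ x : (Fin t → Fin k) → F,
      M *ᵥ x = (P : Matrix ι ι F) *ᵥ ((pureM (fun _ : Fin t => U) *ᵥ x) ∘ e) := by
    intro x
    rw [hM, ← Matrix.mulVec_mulVec, ← Matrix.mulVec_mulVec, TensUnit.Rm_mulVec]
  have hcomp : ∀ g : GL (Fin t → Fin k) F, DecStab.conjHom M M' h1 h2 g =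
      (MulAut.conj P) ((Cfsg.Geo.glReindex e.symm)
        (DecStab.conjHom (pureM (fun _ : Fin t => U)) (pureM (fun _ : Fin t => U')) hUU' hU'U
          g)) := by
    intro g
    apply Units.ext
    rw [DecStab.conjHom_val, MulAut.conj_apply, Units.val_mul, Units.val_mul]
    have hre : ((Cfsg.Geo.glReindex e.symm (DecStab.conjHom (pureM (fun _ : Fin t => U))
        (pureM (fun _ : Fin t => U')) hUU' hU'U g) : GL ι F) : Matrix ι ι F) =
        (pureM (fun _ : Fin t => U) * (g : Matrix (Fin t → Fin k) (Fin t → Fin k) F) *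
          pureM (fun _ : Fin t => U')).submatrix e e :=
      rfl
    rw [hre, ← TensUnit.Rm_conj, hM, hM']
    simp only [Matrix.mul_assoc]
  have hTeq : Cfsg.Geo.tensorWreathSubgroup k t e P =
      (Cfsg.Geo.tensorWreathStandard k t F).map (DecStab.conjHom M M' h1 h2) := by
    unfold Cfsg.Geo.tensorWreathSubgroup
    ext g
    simp only [Subgroup.mem_map]
    constructor
    · rintro ⟨g1, ⟨g0, hg0, rfl⟩, rfl⟩
      refine ⟨DecStab.conjHom (pureM (fun _ : Fin t => U')) (pureM (fun _ : Fin t => U)) hU'U hUU'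
        g0, wr_conj U' U hUb hUa hU'U hUU' g0 hg0, ?_⟩
      rw [hcomp, DecStab.conjHom_left_inv]
      rfl
    · rintro ⟨g0, hg0, rfl⟩
      exact ⟨_, ⟨DecStab.conjHom (pureM (fun _ : Fin t => U)) (pureM (fun _ : Fin t => U')) hUU'
        hU'U g0, wr_conj U U' hUa hUb hUU' hU'U g0 hg0, rfl⟩, (hcomp g0).symm⟩
  exact ⟨M, M', h1, h2, hMv, hTeq⟩

theorem model (Q : (ι → F) → F) (hQ : Cfsg.Geo.IsNondegenerateQuadraticForm Q)
    (e : ι ≃ (Fin t → Fin k)) (P : GL ι F) (f₁ : (Fin k → F) → (Fin k → F) → F)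
    (hT : Cfsg.Geo.IsTensorPowerFormStructure id (QuadraticMap.polar Q) f₁ e P)
    (hpure : ∀ xs : Fin t → (Fin k → F), Q (Matrix.mulVec (P : Matrix ι ι F)
      ((fun a : Fin t → Fin k => ∏ i, xs i (a i)) ∘ e)) = 0)
    (U U' : Matrix (Fin k) (Fin k) F) (hUa : U * U' = 1) (hUb : U' * U = 1)
    (G' : Matrix (Fin k) (Fin k) F) (hG' : Uᵀ * Cfsg.Geo.gramMatrix f₁ * U = G')
    (hcoord : ∀ (Q' : ((Fin t → Fin k) → F) → F) (c : F), c ≠ 0 →
      (∀ u v, Q' (u + v) = Q' u + Q' v + c * (u ⬝ᵥ (pureM (fun _ : Fin t => G') *ᵥ v))) →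
      (∀ (s : F) v, Q' (s • v) = s ^ 2 * Q' v) →
      (∀ xs : Fin t → Fin k → F, Q' (pt xs) = 0) →
      ∃ K0 : Subgroup (GL (Fin t → Fin k) F),
        Cfsg.Geo.tensorWreathStandard k t F ⊓ ⁅X0 Q', X0 Q'⁆ < K0 ∧ K0 < ⁅X0 Q', X0 Q'⁆) :
    ∃ K : Subgroup (GL ι F),
      Cfsg.Geo.tensorWreathSubgroup k t e P ⊓ Cfsg.Geo.omegaGL Q < K ∧
        K < Cfsg.Geo.omegaGL Q := by
  classical
  obtain ⟨c, hc0, hc⟩ := hT
  obtain ⟨M, M', h1, h2, hMv, hTeq⟩ := wr_eq e P U U' hUa hUb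
  obtain ⟨Q', hQ'⟩ : ∃ Q' : ((Fin t → Fin k) → F) → F, Q' = fun u => Q (M *ᵥ u) := ⟨_, rfl⟩
  have hQ'a : ∀ u, Q' u = Q (M *ᵥ u) := fun u => by rw [hQ']
  have hmat : (pureM (fun _ : Fin t => U))ᵀ * pureM (fun _ : Fin t => Cfsg.Geo.gramMatrix f₁) *
      pureM (fun _ : Fin t => U) = pureM (fun _ : Fin t => G') := by
    rw [pureM_transpose, pureM_mul, pureM_mul]
    congr 1
    funext i
    exact hG'
  have hpol : ∀ u v, Q' (u + v) = Q' u + Q' v +
      c * (u ⬝ᵥ (pureM (fun _ : Fin t => G') *ᵥ v)) := by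
    intro u v
    have h := hc (pureM (fun _ : Fin t => U) *ᵥ u) (pureM (fun _ : Fin t => U) *ᵥ v)
    rw [← hMv, ← hMv] at h
    unfold QuadraticMap.polar at h
    change _ = c * Cfsg.Geo.formOfGram id (pureM (fun _ : Fin t => Cfsg.Geo.gramMatrix f₁))
      (pureM (fun _ : Fin t => U) *ᵥ u) (pureM (fun _ : Fin t => U) *ᵥ v) at h
    rw [TensSymp.fog_mat, TensSymp.fog_dot, hmat] at h
    rw [hQ'a, hQ'a, hQ'a, Matrix.mulVec_add]
    linear_combination h
  have hsm : ∀ (s : F) v, Q' (s • v) = s ^ 2 * Q' v := by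
    intro s v
    rw [hQ'a, hQ'a, Matrix.mulVec_smul, hQ.smul]
  have hpt : ∀ xs : Fin t → Fin k → F, Q' (pt xs) = 0 := by
    intro xs
    rw [hQ'a, hMv, pureM_mulVec_pt]
    exact hpure (fun i => U *ᵥ xs i)
  have hXiff : ∀ g : GL (Fin t → Fin k) F, g ∈ X0 Q' ↔
      DecStab.conjHom M M' h1 h2 g ∈ Cfsg.isometryGroup F Q := by
    intro g
    refine TensSymp.pres_iff M M' h1 h2 (fun u _ => Q u) (fun u _ => Q' u) 1 one_ne_zero ?_ g
    intro x _
    show Q (M *ᵥ x) = 1 * Q' x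
    rw [one_mul, hQ'a]
  obtain ⟨K0, hK0a, hK0b⟩ := hcoord Q' c hc0 hpol hsm hpt
  rw [DiagOrth.omega_eq]
  refine TensUnit.transport_gen (DecStab.conjHom M M' h1 h2)
    (DecStab.conjHom_injective M M' h1 h2) (DecStab.conjHom_surjective M M' h1 h2)
    (Cfsg.Geo.tensorWreathStandard k t F) ⁅X0 Q', X0 Q'⁆ K0 _ _ hTeq ?_ hK0a hK0b
  intro g
  exact DiagOrth.comm_transport _ (DecStab.conjHom_injective M M' h1 h2)
    (DecStab.conjHom_surjective M M' h1 h2) _ _ hXiff g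

end transport

theorem k_cases (n k t : ℕ) (hn : 13 ≤ n) (heven : Even n) (hk : k ≤ 4) (hcard : n = k ^ t) :
    (k = 2 ∧ 4 ≤ t) ∨ (k = 4 ∧ 2 ≤ t) := by
  subst hcard
  interval_cases k
  · exfalso
    have : 0 ^ t ≤ 1 := by
      cases t <;> simp
    omega
  · exfalso
    rw [one_pow] at hn
    omega
  · left
    refine ⟨rfl, ?_⟩
    by_contra hcon
    have ht : t ≤ 3 := by omega
    interval_cases t <;> norm_num at hn
  · exfalso
    have h3 : Odd (3 ^ t) := Odd.pow (by decide)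
    exact (Nat.not_even_iff_odd.2 h3) heven
  · right
    refine ⟨rfl, ?_⟩
    by_contra hcon
    have ht : t ≤ 1 := by omega
    interval_cases t <;> norm_num at hn

theorem fin_ne {t : ℕ} (i j : ℕ) (hi : i < t) (hj : j < t) (h : i ≠ j) :
    (⟨i, hi⟩ : Fin t) ≠ ⟨j, hj⟩ :=
  fun h' => h (congrArg Fin.val h')

theorem main [Fintype F] {n : ℕ} (hn : 13 ≤ n) (heven : Even n) (Q : (Fin n → F) → F)
    (hQ : Cfsg.Geo.IsNondegenerateQuadraticForm Q) (hchar : ¬ Odd (Fintype.card F)) (k t : ℕ)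
    (hk : k ≤ 4) (e : Fin n ≃ (Fin t → Fin k)) (P : GL (Fin n) F)
    (f₁ : (Fin k → F) → (Fin k → F) → F) (hf₁ : Cfsg.Geo.IsSymplecticForm f₁)
    (hT : Cfsg.Geo.IsTensorPowerFormStructure id (QuadraticMap.polar Q) f₁ e P)
    (hpure : ∀ xs : Fin t → (Fin k → F), Q (Matrix.mulVec (P : Matrix (Fin n) (Fin n) F)
      ((fun a : Fin t → Fin k => ∏ i, xs i (a i)) ∘ e)) = 0) :
    ∃ K : Subgroup (GL (Fin n) F),
      Cfsg.Geo.tensorWreathSubgroup k t e P ⊓ Cfsg.Geo.omegaGL Q < K ∧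
        K < Cfsg.Geo.omegaGL Q := by
  classical
  have h2 : (2 : F) = 0 := by
    by_contra h
    apply hchar
    have hr : ringChar F ≠ 2 := by
      intro hr
      haveI : CharP F 2 := ringChar.of_eq hr
      exact h (by exact_mod_cast CharP.cast_eq_zero F 2)
    exact Nat.odd_iff.2 (FiniteField.odd_card_of_char_ne_two hr)
  have hcard : n = k ^ t := by
    have h := Fintype.card_congr e
    simpa using h
  rcases k_cases n k t hn heven hk hcard with ⟨rfl, ht4⟩ | ⟨rfl, ht2⟩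
  · obtain ⟨G, hG⟩ : ∃ G, G = Cfsg.Geo.gramMatrix f₁ := ⟨_, rfl⟩
    have hneg : ∀ s : F, -s = s := fun s => by linear_combination (-s) * h2
    have hGs : Gᵀ = G := by
      ext a b
      rw [Matrix.transpose_apply, hG]
      show f₁ _ _ = f₁ _ _
      rw [hf₁.skew, hneg]
    have hG0 : ∀ d, G d d = 0 := by
      intro d
      rw [hG]
      exact hf₁.alternating _
    refine model Q hQ e P f₁ hT hpure 1 1 (Matrix.one_mul 1) (Matrix.one_mul 1) G
      (by rw [Matrix.transpose_one, Matrix.one_mul, Matrix.mul_one, hG]) ?_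
    intro Q' c _ hpol hsm hpt
    exact TWrTwo.coord_two h2 G hGs hG0 Q' c hpol hsm hpt ⟨0, by omega⟩ ⟨1, by omega⟩
      ⟨2, by omega⟩ ⟨3, by omega⟩ (fin_ne 0 1 _ _ (by decide)) (fin_ne 0 2 _ _ (by decide))
      (fin_ne 0 3 _ _ (by decide)) (fin_ne 1 2 _ _ (by decide)) (fin_ne 1 3 _ _ (by decide))
      (fin_ne 2 3 _ _ (by decide))
  · obtain ⟨U, U', hUa, hUb, hU⟩ := exists_U4 h2 f₁ hf₁
    refine model Q hQ e P f₁ hT hpure U U' hUa hUb TWrFour.J4 hU ?_
    intro Q' c hc hpol hsm hpt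
    exact TWrFour.coord_four h2 Q' c hc hpol hsm hpt ⟨0, by omega⟩ ⟨1, by omega⟩
      (fin_ne 0 1 _ _ (by decide))

end Cfsg.Agent.Helper18.TWrMain
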