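import Mathlib
import Cfsg.Prelude.Def_GeometricClasses
import Cfsg.Prelude.Def_LieClassical
import Cfsg.Prelude.Def_ClassicalGeometry
import Cfsg.Agent.Helper18.DecStab
import Cfsg.Agent.Helper18.DecUnit
import Cfsg.Agent.Helper18.TensUnit
import Cfsg.Agent.Helper18.TensSymp
import Cfsg.Agent.Helper18.DiagOrth

set_option autoImplicit false

namespace Cfsg.Agent.Helper18.TensOrth

open Matrix Kronecker

variable {F : Type*} [Field F]

section coord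

variable [Fintype F] {n₂ : ℕ}

/-- Vectors supported on a single block. -/
def blkO (F : Type*) [Field F] (n₂ : ℕ) : Set (Fin 3 × Fin n₂ → F) :=
  {x | ∃ i : Fin 3, ∀ p : Fin 3 × Fin n₂, p.1 ≠ i → x p = 0}

/-- The diagonal entries in coordinates. -/
def Dc (d : Fin n₂ → F) : Fin 3 × Fin n₂ → F := fun p => d p.2

omit [Fintype F] in
theorem diag_kron (d : Fin n₂ → F) :
    Matrix.diagonal (Dc d) = (1 : Matrix (Fin 3) (Fin 3) F) ⊗ₖ Matrix.diagonal d := by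
  ext p q
  obtain ⟨p1, p2⟩ := p
  obtain ⟨q1, q2⟩ := q
  rw [Matrix.kroneckerMap_apply, Matrix.diagonal_apply, Matrix.one_apply, Matrix.diagonal_apply]
  simp only [Dc, Prod.mk.injEq]
  by_cases h1 : p1 = q1 <;> by_cases h2 : p2 = q2 <;> simp [h1, h2]

theorem kron_blkO (hq : Fintype.card F = 3) (d : Fin n₂ → F) (hd : ∀ j, d j ≠ 0) (hn : 0 < n₂)
    (g : GL (Fin 3 × Fin n₂) F) (hg : g ∈ Cfsg.Geo.kroneckerSubgroup 3 n₂ F)
    (hgx : g ∈ DiagOrth.XD (Dc d)) (x : Fin 3 × Fin n₂ → F) (hx : x ∈ blkO F n₂) :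
    (g : Matrix (Fin 3 × Fin n₂) (Fin 3 × Fin n₂) F) *ᵥ x ∈ blkO F n₂ := by
  classical
  obtain ⟨a, b, hab⟩ := hg
  obtain ⟨i0, hi0⟩ := hx
  have hmat := DiagOrth.XD_mat hq (Dc d) g hgx
  rw [diag_kron, hab, ← Matrix.kroneckerMap_transpose, ← Matrix.mul_kronecker_mul,
    ← Matrix.mul_kronecker_mul, Matrix.mul_one] at hmat
  have hent : ∀ (i i' : Fin 3) (j j' : Fin n₂),
      ((a : Matrix (Fin 3) (Fin 3) F)ᵀ * (a : Matrix (Fin 3) (Fin 3) F)) i i' *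
        ((b : Matrix (Fin n₂) (Fin n₂) F)ᵀ * Matrix.diagonal d * (b : Matrix (Fin n₂) (Fin n₂) F)) j j' =
      (1 : Matrix (Fin 3) (Fin 3) F) i i' * Matrix.diagonal d j j' := by
    intro i i' j j'
    have h1 := congrFun (congrFun hmat (i, j)) (i', j')
    rw [Matrix.kroneckerMap_apply, Matrix.kroneckerMap_apply] at h1
    exact h1
  have hl : ((b : Matrix (Fin n₂) (Fin n₂) F)ᵀ * Matrix.diagonal d *
      (b : Matrix (Fin n₂) (Fin n₂) F)) ⟨0, hn⟩ ⟨0, hn⟩ ≠ 0 := by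
    intro h
    have h1 := hent 0 0 ⟨0, hn⟩ ⟨0, hn⟩
    rw [h, mul_zero, Matrix.one_apply_eq, one_mul, Matrix.diagonal_apply_eq] at h1
    exact hd _ h1.symm
  obtain ⟨μ, hμ⟩ : ∃ μ : F, μ = d ⟨0, hn⟩ / ((b : Matrix (Fin n₂) (Fin n₂) F)ᵀ * Matrix.diagonal d *
      (b : Matrix (Fin n₂) (Fin n₂) F)) ⟨0, hn⟩ ⟨0, hn⟩ := ⟨_, rfl⟩
  have hμ0 : μ ≠ 0 := by
    rw [hμ]
    exact div_ne_zero (hd _) hl
  have hSeq : (a : Matrix (Fin 3) (Fin 3) F)ᵀ * (a : Matrix (Fin 3) (Fin 3) F) =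
      μ • (1 : Matrix (Fin 3) (Fin 3) F) := by
    ext i i'
    have h1 := hent i i' ⟨0, hn⟩ ⟨0, hn⟩
    rw [Matrix.diagonal_apply_eq] at h1
    rw [Matrix.smul_apply, smul_eq_mul, hμ, div_mul_eq_mul_div, eq_div_iff hl]
    linear_combination h1
  have ha0 : (a : Matrix (Fin 3) (Fin 3) F).det ≠ 0 :=
    ((Matrix.isUnit_iff_isUnit_det _).1 a.isUnit).ne_zero
  obtain ⟨i1, hi1⟩ := DiagOrth.mono3 hq (a : Matrix (Fin 3) (Fin 3) F) ha0 μ hμ0 hSeq i0
  refine ⟨i1, fun p hp => ?_⟩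
  rw [hab]
  unfold Matrix.mulVec dotProduct
  apply Finset.sum_eq_zero
  intro q _
  show ((a : Matrix (Fin 3) (Fin 3) F) p.1 q.1 * (b : Matrix (Fin n₂) (Fin n₂) F) p.2 q.2) * x q = 0
  by_cases hq1 : q.1 = i0
  · rw [hq1, hi1 p.1 hp, zero_mul, zero_mul]
  · rw [hi0 q hq1, mul_zero]

theorem coord_mainO (hq : Fintype.card F = 3) (d : Fin n₂ → F) (hd : ∀ j, d j ≠ 0) (hn : 5 ≤ n₂) :
    ∃ K0 : Subgroup (GL (Fin 3 × Fin n₂) F),
      Cfsg.Geo.kroneckerSubgroup 3 n₂ F ⊓ ⁅DiagOrth.XD (Dc d), DiagOrth.XD (Dc d)⁆ < K0 ∧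
        K0 < ⁅DiagOrth.XD (Dc d), DiagOrth.XD (Dc d)⁆ := by
  classical
  obtain ⟨j, j', j'', hjj', hjj'', hj'j'', hd1, hd2⟩ := DiagOrth.exists_three hq hn d hd
  have hΩX : ⁅DiagOrth.XD (Dc d), DiagOrth.XD (Dc d)⁆ ≤ DiagOrth.XD (Dc d) := by
    rw [Subgroup.commutator_le]
    intro g₁ h₁ g₂ h₂
    rw [commutatorElement_def]
    exact Subgroup.mul_mem _ (Subgroup.mul_mem _ (Subgroup.mul_mem _ h₁ h₂) (Subgroup.inv_mem _ h₁))
      (Subgroup.inv_mem _ h₂)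
  refine ⟨DecUnit.setStab (blkO F n₂) ⊓ ⁅DiagOrth.XD (Dc d), DiagOrth.XD (Dc d)⁆, ?_, ?_⟩
  · refine lt_of_le_of_ne ?_ ?_
    · intro g hg
      exact ⟨TensSymp.mem_setStab_of_maps _ g
        (kron_blkO hq d hd (by omega) g hg.1 (hΩX hg.2)), hg.2⟩
    · intro heq
      have hAB : (((0 : Fin 3), j) : Fin 3 × Fin n₂) ≠ ((0 : Fin 3), j') :=
        fun h => hjj' (Prod.mk.inj h).2
      have hAC : (((0 : Fin 3), j) : Fin 3 × Fin n₂) ≠ ((0 : Fin 3), j'') :=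
        fun h => hjj'' (Prod.mk.inj h).2
      have hBC : (((0 : Fin 3), j') : Fin 3 × Fin n₂) ≠ ((0 : Fin 3), j'') :=
        fun h => hj'j'' (Prod.mk.inj h).2
      have hmem : DiagOrth.pm F (Fin 3 × Fin n₂)
          (DiagOrth.cyc ((0 : Fin 3), j) ((0 : Fin 3), j') ((0 : Fin 3), j'')) ∈
          DecUnit.setStab (blkO F n₂) ⊓ ⁅DiagOrth.XD (Dc d), DiagOrth.XD (Dc d)⁆ := by
        refine ⟨TensSymp.mem_setStab_of_maps _ _ ?_, DiagOrth.cyc_mem (Dc d) _ _ _ hd1 hd2⟩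
        intro x hx
        obtain ⟨i, hi⟩ := hx
        refine ⟨i, fun p hp => ?_⟩
        rw [DiagOrth.pm_mulVec]
        show x ((DiagOrth.cyc ((0 : Fin 3), j) ((0 : Fin 3), j') ((0 : Fin 3), j''))⁻¹ p) = 0
        apply hi
        have h1 : ((DiagOrth.cyc ((0 : Fin 3), j) ((0 : Fin 3), j') ((0 : Fin 3), j''))⁻¹ p).1 =
            p.1 := by
          by_cases hA : p = ((0 : Fin 3), j)
          · rw [hA, DiagOrth.cyc_inv_A _ _ _ hAC hBC]
          · by_cases hB : p = ((0 : Fin 3), j')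
            · rw [hB, DiagOrth.cyc_inv_B _ _ _ hAB hAC]
            · by_cases hC : p = ((0 : Fin 3), j'')
              · rw [hC, DiagOrth.cyc_inv_C _ _ _ hAB hAC hBC]
              · rw [DiagOrth.cyc_inv_other _ _ _ p hA hB hC]
        rw [h1]
        exact hp
      rw [← heq] at hmem
      obtain ⟨a, b, hab⟩ := hmem.1
      have e1 : (1 : F) = (a : Matrix (Fin 3) (Fin 3) F) 0 0 *
          (b : Matrix (Fin n₂) (Fin n₂) F) j j' := by
        have h := congrFun (congrFun hab ((0 : Fin 3), j)) ((0 : Fin 3), j')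
        rw [DiagOrth.pm_apply, if_pos (DiagOrth.cyc_inv_A _ _ _ hAC hBC)] at h
        exact h
      have e2 : (1 : F) = (a : Matrix (Fin 3) (Fin 3) F) 1 1 *
          (b : Matrix (Fin n₂) (Fin n₂) F) j j := by
        have h := congrFun (congrFun hab ((1 : Fin 3), j)) ((1 : Fin 3), j)
        rw [DiagOrth.pm_apply, if_pos (DiagOrth.cyc_inv_other _ _ _ _
          (fun h => absurd (Prod.mk.inj h).1 (by decide))
          (fun h => absurd (Prod.mk.inj h).1 (by decide))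
          (fun h => absurd (Prod.mk.inj h).1 (by decide)))] at h
        exact h
      have e3 : (0 : F) = (a : Matrix (Fin 3) (Fin 3) F) 0 0 *
          (b : Matrix (Fin n₂) (Fin n₂) F) j j := by
        have h := congrFun (congrFun hab ((0 : Fin 3), j)) ((0 : Fin 3), j)
        rw [DiagOrth.pm_apply, if_neg (by
          rw [DiagOrth.cyc_inv_A _ _ _ hAC hBC]
          exact hAB.symm)] at h
        exact h
      have hA0 : (a : Matrix (Fin 3) (Fin 3) F) 0 0 ≠ 0 := by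
        intro h
        rw [h, zero_mul] at e1
        exact one_ne_zero e1
      have hB0 : (b : Matrix (Fin n₂) (Fin n₂) F) j j ≠ 0 := by
        intro h
        rw [h, mul_zero] at e2
        exact one_ne_zero e2
      exact mul_ne_zero hA0 hB0 e3.symm
  · refine lt_of_le_of_ne inf_le_right ?_
    intro heq
    have hAB : (((0 : Fin 3), j) : Fin 3 × Fin n₂) ≠ ((1 : Fin 3), j) :=
      fun h => absurd (Prod.mk.inj h).1 (by decide)
    have hAC : (((0 : Fin 3), j) : Fin 3 × Fin n₂) ≠ ((2 : Fin 3), j) :=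
      fun h => absurd (Prod.mk.inj h).1 (by decide)
    have hBC : (((1 : Fin 3), j) : Fin 3 × Fin n₂) ≠ ((2 : Fin 3), j) :=
      fun h => absurd (Prod.mk.inj h).1 (by decide)
    have hA'A : (((0 : Fin 3), j') : Fin 3 × Fin n₂) ≠ ((0 : Fin 3), j) :=
      fun h => hjj' (Prod.mk.inj h).2.symm
    have hA'B : (((0 : Fin 3), j') : Fin 3 × Fin n₂) ≠ ((1 : Fin 3), j) :=
      fun h => absurd (Prod.mk.inj h).1 (by decide)
    have hA'C : (((0 : Fin 3), j') : Fin 3 × Fin n₂) ≠ ((2 : Fin 3), j) :=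
      fun h => absurd (Prod.mk.inj h).1 (by decide)
    have hmem : DiagOrth.pm F (Fin 3 × Fin n₂)
        (DiagOrth.cyc ((0 : Fin 3), j) ((1 : Fin 3), j) ((2 : Fin 3), j)) ∈
        ⁅DiagOrth.XD (Dc d), DiagOrth.XD (Dc d)⁆ := DiagOrth.cyc_mem (Dc d) _ _ _ rfl rfl
    rw [← heq] at hmem
    have hx : (Pi.single (((0 : Fin 3), j) : Fin 3 × Fin n₂) (1 : F) +
        Pi.single (((0 : Fin 3), j') : Fin 3 × Fin n₂) (1 : F) : Fin 3 × Fin n₂ → F) ∈
        blkO F n₂ := by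
      refine ⟨0, fun p hp => ?_⟩
      rw [Pi.add_apply, Pi.single_apply, Pi.single_apply, if_neg, if_neg, add_zero]
      · intro h
        exact hp (by rw [h])
      · intro h
        exact hp (by rw [h])
    have h := (hmem.1 _).1 hx
    rw [DiagOrth.pm_mulVec] at h
    obtain ⟨i, hi⟩ := h
    by_cases hi2 : i = 2
    · have h1 := hi ((0 : Fin 3), j') (by rw [hi2]; exact (show (0 : Fin 3) ≠ 2 by decide))
      rw [Function.comp_apply, DiagOrth.cyc_inv_other _ _ _ _ hA'A hA'B hA'C] at h1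
      simp [Pi.single_apply, hA'A] at h1
    · have h1 := hi ((2 : Fin 3), j) (fun h => hi2 h.symm)
      rw [Function.comp_apply, DiagOrth.cyc_inv_C _ _ _ hAB hAC hBC] at h1
      simp [Pi.single_apply, Ne.symm hA'A] at h1

end coord

theorem main3 [Fintype F] (hq : Fintype.card F = 3) {ι : Type} [Fintype ι] [DecidableEq ι]
    (Q : (ι → F) → F) (hQ2 : ∀ v, Q (v + v) = 4 * Q v) (n₂ : ℕ) (h5 : 5 ≤ n₂)
    (e : ι ≃ Fin 3 × Fin n₂) (P : Matrix.GeneralLinearGroup ι F)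
    (f₁ : (Fin 3 → F) → (Fin 3 → F) → F) (f₂ : (Fin n₂ → F) → (Fin n₂ → F) → F)
    (hf₁ : Cfsg.Geo.IsSymmetricForm f₁) (hf₂ : Cfsg.Geo.IsSymmetricForm f₂)
    (hT : Cfsg.Geo.IsTensorFormStructure id (QuadraticMap.polar Q) f₁ f₂ e P) :
    ∃ K : Subgroup (Matrix.GeneralLinearGroup ι F),
      Cfsg.Geo.tensorProductSubgroup 3 n₂ e P ⊓ Cfsg.Geo.omegaGL Q < K ∧
        K < Cfsg.Geo.omegaGL Q := by
  classical
  have h3 := TensSymp.three_eq_zero hq
  obtain ⟨U₁, U₁', ε, hε, hU₁a, hU₁b, hU₁⟩ := TensSymp.exists_U_sym hq hf₁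
  obtain ⟨U₂, U₂', d, hd, hU₂a, hU₂b, hU₂⟩ := DiagOrth.exists_U_diag hq hf₂
  obtain ⟨c, hc0, hc⟩ := hT
  obtain ⟨M, M', h1, h2, hMv, hTeq⟩ := TensSymp.tens_eq e P U₁ U₁' U₂ U₂' hU₁a hU₁b hU₂a hU₂b
  have hpol : ∀ x y : Fin 3 × Fin n₂ → F, QuadraticMap.polar Q (M *ᵥ x) (M *ᵥ y) =
      (c * ε) * Cfsg.Geo.formOfGram id (Matrix.diagonal (Dc d)) x y := by
    intro x y
    rw [hMv, hMv, hc, TensSymp.fog_mat]
    have hk : (U₁ ⊗ₖ U₂)ᵀ * (Cfsg.Geo.gramMatrix f₁ ⊗ₖ Cfsg.Geo.gramMatrix f₂) * (U₁ ⊗ₖ U₂) =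
        ε • Matrix.diagonal (Dc d) := by
      rw [← Matrix.kroneckerMap_transpose, ← Matrix.mul_kronecker_mul, ← Matrix.mul_kronecker_mul,
        hU₁, hU₂, Matrix.smul_kronecker, diag_kron]
    rw [hk, TensSymp.fog_smul, mul_assoc]
  have hQM : ∀ x : Fin 3 × Fin n₂ → F, Q (M *ᵥ x) = (2 * (c * ε)) * DiagOrth.qd (Dc d) x := by
    intro x
    have hp := hpol x x
    have e1 : QuadraticMap.polar Q (M *ᵥ x) (M *ᵥ x) = 2 * Q (M *ᵥ x) := by
      unfold QuadraticMap.polar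
      rw [hQ2]
      ring
    have e2 : Cfsg.Geo.formOfGram id (Matrix.diagonal (Dc d)) x x = DiagOrth.qd (Dc d) x := by
      unfold Cfsg.Geo.formOfGram DiagOrth.qd
      apply Finset.sum_congr rfl
      intro a _
      rw [Finset.sum_eq_single a]
      · rw [Matrix.diagonal_apply_eq]
        simp only [id]
        ring
      · intro b _ hb
        rw [Matrix.diagonal_apply_ne _ (Ne.symm hb), mul_zero, zero_mul]
      · intro h
        exact absurd (Finset.mem_univ _) h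
    rw [e1, e2] at hp
    linear_combination 2 * hp - (Q (M *ᵥ x)) * h3
  have h2ne : (2 : F) ≠ 0 := by
    intro h
    have h4 : (1 : F) = 0 := by linear_combination h3 - h
    exact one_ne_zero h4
  have hXiff : ∀ g : GL (Fin 3 × Fin n₂) F, g ∈ DiagOrth.XD (Dc d) ↔
      DecStab.conjHom M M' h1 h2 g ∈ Cfsg.isometryGroup F Q := by
    intro g
    exact TensSymp.pres_iff M M' h1 h2 (fun u _ => Q u) (fun u _ => DiagOrth.qd (Dc d) u)
      (2 * (c * ε)) (mul_ne_zero h2ne (mul_ne_zero hc0 hε)) (fun x _ => hQM x) g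
  obtain ⟨K0, hK0a, hK0b⟩ := coord_mainO hq d hd h5
  rw [DiagOrth.omega_eq]
  refine TensUnit.transport_gen (DecStab.conjHom M M' h1 h2)
    (DecStab.conjHom_injective M M' h1 h2) (DecStab.conjHom_surjective M M' h1 h2)
    (Cfsg.Geo.kroneckerSubgroup 3 n₂ F) ⁅DiagOrth.XD (Dc d), DiagOrth.XD (Dc d)⁆ K0 _ _ hTeq ?_
    hK0a hK0b
  intro g
  exact DiagOrth.comm_transport _ (DecStab.conjHom_injective M M' h1 h2)
    (DecStab.conjHom_surjective M M' h1 h2) _ _ hXiff g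

end Cfsg.Agent.Helper18.TensOrth
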