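import Mathlib
import Cfsg.Prelude.Def_GeometricClasses
import Cfsg.Prelude.Def_LieClassical
import Cfsg.Prelude.Def_ClassicalGeometry
import Cfsg.Agent.Helper18.TensTwo
import Cfsg.Agent.Helper18.DecStab
import Cfsg.Agent.Helper18.TensUnit
import Cfsg.Agent.Helper18.TensSymp
import Cfsg.Agent.Helper18.DiagOrth

set_option autoImplicit false

namespace Cfsg.Agent.Helper18.TensQuad

open Matrix Kronecker

open scoped commutatorElement

variable {F : Type*} [Field F]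

section abs

theorem rwrw {V : Type*} [AddCommGroup V] [Module F V] (h2 : (1 : F) + 1 = 0)
    (W : V → V) (β : V → F) (z z₁ : V)
    (hWa : ∀ x y, W (x + y) = W x + W y) (hWs : ∀ (t : F) x, W (t • x) = t • W x)
    (hβa : ∀ x y, β (x + y) = β x + β y) (hβs : ∀ (t : F) x, β (t • x) = t * β x)
    (hz : W z = z₁) (hz₁ : W z₁ = z + z₁) (hW : ∀ y, W (W y) = W y + y) (hβ : β z₁ = 1)
    (R : V → V) (hR : ∀ y, R y = y + β y • z) (x : V) :
    R (W (R (W x))) = W (R (W (R x))) := by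
  have htt : ∀ t : F, t + t = 0 := by
    intro t
    linear_combination t * h2
  have hL : R (W (R (W x))) = W x + x + β (W x) • z₁ + β x • z := by
    rw [hR (W x), hWa, hWs, hW, hz, hR, hβa, hβa, hβs, hβ, mul_one]
    have e1 : β (W x) + β x + β (W x) = β x := by
      linear_combination β (W x) * h2
    rw [e1]
  have hRr : W (R (W (R x))) = W x + x + β (W x) • z₁ + β x • z := by
    rw [hR x, hWa, hWs, hz, hR, hβa, hβs, hβ, mul_one, hWa, hWa, hWs, hWs, hW, hz₁, hz]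
    have e2 : W x + x + β x • (z + z₁) + (β (W x) + β x) • z₁ =
        W x + x + β (W x) • z₁ + β x • z + (β x + β x) • z₁ := by
      module
    rw [e2, htt, zero_smul, add_zero]
  rw [hL, hRr]

end abs

section pairs

variable {m : ℕ}

/-- A vector given by its two halves. -/
def pr (a b : Fin m → F) : Fin 2 × Fin m → F := fun p => if p.1 = 0 then a p.2 else b p.2

theorem pr_zero (a b : Fin m → F) (j : Fin m) : pr a b (0, j) = a j := rfl

theorem pr_one (a b : Fin m → F) (j : Fin m) : pr a b (1, j) = b j := rfl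

theorem pr_eta (x : Fin 2 × Fin m → F) : pr (fun j => x (0, j)) (fun j => x (1, j)) = x := by
  funext ⟨i, j⟩
  rcases TensUnit.fin2 i with rfl | rfl
  · rfl
  · rfl

theorem pr_add (a b a' b' : Fin m → F) : pr a b + pr a' b' = pr (a + a') (b + b') := by
  funext ⟨i, j⟩
  rcases TensUnit.fin2 i with rfl | rfl
  · rfl
  · rfl

theorem pr_smul (t : F) (a b : Fin m → F) : t • pr a b = pr (t • a) (t • b) := by
  funext ⟨i, j⟩
  rcases TensUnit.fin2 i with rfl | rfl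
  · rfl
  · rfl

theorem pr_inj {a b a' b' : Fin m → F} (h : pr a b = pr a' b') : a = a' ∧ b = b' := by
  constructor
  · funext j
    exact congrFun h (0, j)
  · funext j
    exact congrFun h (1, j)

theorem pr_dot (a b c d : Fin m → F) : pr c d ⬝ᵥ pr a b = c ⬝ᵥ a + d ⬝ᵥ b := by
  unfold dotProduct
  rw [Fintype.sum_prod_type, Fin.sum_univ_two]
  rfl

theorem single_zero_eq (j : Fin m) :
    (Pi.single ((0 : Fin 2), j) 1 : Fin 2 × Fin m → F) = pr (Pi.single j 1) 0 := by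
  funext ⟨i, k⟩
  rcases TensUnit.fin2 i with rfl | rfl
  · rw [pr_zero]
    simp [Pi.single_apply]
  · rw [pr_one]
    simp [Pi.single_apply]

theorem single_one_eq (j : Fin m) :
    (Pi.single ((1 : Fin 2), j) 1 : Fin 2 × Fin m → F) = pr 0 (Pi.single j 1) := by
  funext ⟨i, k⟩
  rcases TensUnit.fin2 i with rfl | rfl
  · rw [pr_zero]
    simp [Pi.single_apply]
  · rw [pr_one]
    simp [Pi.single_apply]

theorem kron_pr (A : Matrix (Fin 2) (Fin 2) F) (B : Matrix (Fin m) (Fin m) F) (a b : Fin m → F) :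
    (A ⊗ₖ B) *ᵥ pr a b =
      pr (A 0 0 • (B *ᵥ a) + A 0 1 • (B *ᵥ b)) (A 1 0 • (B *ᵥ a) + A 1 1 • (B *ᵥ b)) := by
  funext ⟨i, j⟩
  have h : ((A ⊗ₖ B) *ᵥ pr a b) (i, j) =
      A i 0 * (B *ᵥ a) j + A i 1 * (B *ᵥ b) j := by
    show ∑ p, (A ⊗ₖ B) (i, j) p * pr a b p = _
    rw [Fintype.sum_prod_type, Fin.sum_univ_two]
    simp only [Matrix.kroneckerMap_apply, pr_zero, pr_one]
    unfold Matrix.mulVec dotProduct
    rw [Finset.mul_sum, Finset.mul_sum]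
    congr 1 <;> exact Finset.sum_congr rfl (fun k _ => mul_assoc _ _ _)
  rw [h]
  rcases TensUnit.fin2 i with rfl | rfl
  · rfl
  · rfl

/-- The quadratic form in coordinates. -/
def q0 (G : Matrix (Fin m) (Fin m) F) (x : Fin 2 × Fin m → F) : F :=
  (fun j => x (0, j)) ⬝ᵥ (G *ᵥ (fun j => x (1, j)))

theorem q0_pr (G : Matrix (Fin m) (Fin m) F) (a b : Fin m → F) :
    q0 G (pr a b) = a ⬝ᵥ (G *ᵥ b) := rfl

theorem ee (G : Matrix (Fin m) (Fin m) F) (a b : Fin m) :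
    (Pi.single a 1 : Fin m → F) ⬝ᵥ (G *ᵥ Pi.single b 1) = G a b := by
  simp

theorem bf_symm (G : Matrix (Fin m) (Fin m) F) (hsym : Gᵀ = G) (a b : Fin m → F) :
    a ⬝ᵥ (G *ᵥ b) = b ⬝ᵥ (G *ᵥ a) := by
  calc a ⬝ᵥ (G *ᵥ b) = (a ᵥ* G) ⬝ᵥ b := Matrix.dotProduct_mulVec _ _ _
    _ = (Gᵀ *ᵥ a) ⬝ᵥ b := by rw [Matrix.mulVec_transpose]
    _ = (G *ᵥ a) ⬝ᵥ b := by rw [hsym]
    _ = b ⬝ᵥ (G *ᵥ a) := dotProduct_comm _ _

end pairs

section elts

variable [Fintype F] {m : ℕ}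

theorem w_pr (hq : Fintype.card F = 2) (a b : Fin m → F) :
    ((TensTwo.w0 m hq : GL (Fin 2 × Fin m) F) : Matrix (Fin 2 × Fin m) (Fin 2 × Fin m) F) *ᵥ
      pr a b = pr b (a + b) := by
  show ((TensTwo.om : Matrix (Fin 2) (Fin 2) F) ⊗ₖ (1 : Matrix (Fin m) (Fin m) F)) *ᵥ pr a b = _
  rw [kron_pr]
  simp [TensTwo.om]

theorem winv_pr (hq : Fintype.card F = 2) (a b : Fin m → F) :
    (((TensTwo.w0 m hq)⁻¹ : GL (Fin 2 × Fin m) F) : Matrix (Fin 2 × Fin m) (Fin 2 × Fin m) F) *ᵥ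
      pr a b = pr (a + b) a := by
  show ((TensTwo.omi : Matrix (Fin 2) (Fin 2) F) ⊗ₖ (1 : Matrix (Fin m) (Fin m) F)) *ᵥ pr a b = _
  rw [kron_pr]
  simp [TensTwo.omi]

/-- The swap matrix. -/
def sw : Matrix (Fin 2) (Fin 2) F := !![0, 1; 1, 0]

omit [Fintype F] in
theorem sw_sq : (sw : Matrix (Fin 2) (Fin 2) F) * sw = 1 := by
  ext i j
  fin_cases i <;> fin_cases j <;> simp [sw, Matrix.mul_apply, Fin.sum_univ_two]

/-- The swap of the two halves. -/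
def s0 (F : Type*) [Field F] (m : ℕ) : GL (Fin 2 × Fin m) F :=
  ⟨(sw : Matrix (Fin 2) (Fin 2) F) ⊗ₖ (1 : Matrix (Fin m) (Fin m) F), sw ⊗ₖ 1,
    by rw [← Matrix.mul_kronecker_mul, sw_sq, one_mul, Matrix.one_kronecker_one],
    by rw [← Matrix.mul_kronecker_mul, sw_sq, one_mul, Matrix.one_kronecker_one]⟩

omit [Fintype F] in
theorem s0_sq : s0 F m * s0 F m = 1 := by
  apply Units.ext
  rw [Units.val_mul]
  show ((sw : Matrix (Fin 2) (Fin 2) F) ⊗ₖ (1 : Matrix (Fin m) (Fin m) F)) * (sw ⊗ₖ 1) = 1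
  rw [← Matrix.mul_kronecker_mul, sw_sq, one_mul, Matrix.one_kronecker_one]

omit [Fintype F] in
theorem s_pr (a b : Fin m → F) :
    ((s0 F m : GL (Fin 2 × Fin m) F) : Matrix (Fin 2 × Fin m) (Fin 2 × Fin m) F) *ᵥ
      pr a b = pr b a := by
  show ((sw : Matrix (Fin 2) (Fin 2) F) ⊗ₖ (1 : Matrix (Fin m) (Fin m) F)) *ᵥ pr a b = _
  rw [kron_pr]
  simp [sw]

variable (G : Matrix (Fin m) (Fin m) F) (j0 j1 : Fin m)

/-- The linear functional of the reflection. -/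
def bt (a b : Fin m → F) : F :=
  a ⬝ᵥ (G *ᵥ Pi.single j1 1) + (Pi.single j0 1 : Fin m → F) ⬝ᵥ (G *ᵥ b)

/-- The centre of the reflection. -/
def zv (F : Type*) [Field F] {m : ℕ} (j0 j1 : Fin m) : Fin 2 × Fin m → F :=
  pr (Pi.single j0 1) (Pi.single j1 1)

/-- The covector of the reflection. -/
def nu : Fin 2 × Fin m → F := pr (G *ᵥ Pi.single j1 1) ((Pi.single j0 1 : Fin m → F) ᵥ* G)

omit [Fintype F] in
theorem nu_dot (a b : Fin m → F) : nu G j0 j1 ⬝ᵥ pr a b = bt G j0 j1 a b := by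
  unfold nu bt
  rw [pr_dot, dotProduct_comm (G *ᵥ Pi.single j1 1) a, ← Matrix.dotProduct_mulVec]

omit [Fintype F] in
theorem nu_z (h2 : (1 : F) + 1 = 0) (h01 : G j0 j1 = 1) :
    1 + 1 + nu G j0 j1 ⬝ᵥ zv F j0 j1 = 0 := by
  unfold zv
  rw [nu_dot]
  unfold bt
  rw [ee, h01]
  linear_combination 2 * h2

/-- The reflection. -/
def r0 (h2 : (1 : F) + 1 = 0) (h01 : G j0 j1 = 1) : GL (Fin 2 × Fin m) F :=
  DecStab.rk (zv F j0 j1) (nu G j0 j1) (nu_z G j0 j1 h2 h01)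

omit [Fintype F] in
theorem r_pr (h2 : (1 : F) + 1 = 0) (h01 : G j0 j1 = 1) (a b : Fin m → F) :
    ((r0 G j0 j1 h2 h01 : GL (Fin 2 × Fin m) F) : Matrix (Fin 2 × Fin m) (Fin 2 × Fin m) F) *ᵥ
      pr a b = pr (a + bt G j0 j1 a b • Pi.single j0 1) (b + bt G j0 j1 a b • Pi.single j1 1) := by
  unfold r0
  rw [DecStab.rk_mulVec, nu_dot]
  unfold zv
  rw [pr_smul, pr_add]

omit [Fintype F] in
theorem r0_sq (h2 : (1 : F) + 1 = 0) (h01 : G j0 j1 = 1) :
    r0 G j0 j1 h2 h01 * r0 G j0 j1 h2 h01 = 1 :=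
  Units.ext (DecStab.rank_one_sq _ _ (nu_z G j0 j1 h2 h01))

/-- The isometry group in coordinates. -/
def X0 : Subgroup (GL (Fin 2 × Fin m) F) :=
  Cfsg.preserving (Units.coeHom (Matrix (Fin 2 × Fin m) (Fin 2 × Fin m) F)) (fun u _ => q0 G u)

omit [Fintype F] in
theorem mem_X0 (g : GL (Fin 2 × Fin m) F)
    (h : ∀ a b : Fin m → F,
      q0 G ((g : Matrix (Fin 2 × Fin m) (Fin 2 × Fin m) F) *ᵥ pr a b) = a ⬝ᵥ (G *ᵥ b)) :
    g ∈ X0 G := by
  intro u v
  show q0 G ((g : Matrix (Fin 2 × Fin m) (Fin 2 × Fin m) F) *ᵥ u) = q0 G u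
  obtain ⟨a, b, rfl⟩ : ∃ a b, u = pr a b := ⟨_, _, (pr_eta u).symm⟩
  rw [h, q0_pr]

theorem w_mem (hq : Fintype.card F = 2) (hsym : Gᵀ = G) (halt : ∀ a : Fin m → F, a ⬝ᵥ (G *ᵥ a) = 0) :
    TensTwo.w0 m hq ∈ X0 G := by
  apply mem_X0
  intro a b
  rw [w_pr, q0_pr, Matrix.mulVec_add, dotProduct_add, halt, add_zero, bf_symm G hsym]

omit [Fintype F] in
theorem s_mem (hsym : Gᵀ = G) : s0 F m ∈ X0 G := by
  apply mem_X0
  intro a b
  rw [s_pr, q0_pr, bf_symm G hsym]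

omit [Fintype F] in
theorem r_mem (h2 : (1 : F) + 1 = 0) (h01 : G j0 j1 = 1) : r0 G j0 j1 h2 h01 ∈ X0 G := by
  apply mem_X0
  intro a b
  rw [r_pr, q0_pr]
  have ht : bt G j0 j1 a b =
      a ⬝ᵥ (G *ᵥ Pi.single j1 1) + (Pi.single j0 1 : Fin m → F) ⬝ᵥ (G *ᵥ b) := rfl
  simp only [Matrix.mulVec_add, Matrix.mulVec_smul, dotProduct_add, add_dotProduct,
    smul_dotProduct, dotProduct_smul, smul_eq_mul, ee, h01]
  linear_combination (bt G j0 j1 a b) ^ 2 * h2 - (bt G j0 j1 a b) * ht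

end elts

section main

variable [Fintype F] {m : ℕ}

theorem coord_main (hq : Fintype.card F = 2) (G : Matrix (Fin m) (Fin m) F) (hsym : Gᵀ = G)
    (halt : ∀ a : Fin m → F, a ⬝ᵥ (G *ᵥ a) = 0) (j0 j1 j2 : Fin m) (h01 : G j0 j1 = 1)
    (h20 : j2 ≠ j0) (h21 : j2 ≠ j1) :
    ∃ K0 : Subgroup (GL (Fin 2 × Fin m) F),
      Cfsg.Geo.kroneckerSubgroup 2 m F ⊓ ⁅X0 G, X0 G⁆ < K0 ∧ K0 < ⁅X0 G, X0 G⁆ := by
  classical
  have h2 := TensTwo.two_eq_zero hq
  have hvv : ∀ v : Fin m → F, v + v = 0 := by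
    intro v
    funext j
    show v j + v j = 0
    linear_combination v j * h2
  have hdiag : ∀ j, G j j = 0 := by
    intro j
    rw [← ee G j j]
    exact halt _
  have hsym' : ∀ a b, G a b = G b a := by
    intro a b
    have h := congrFun (congrFun hsym b) a
    rw [Matrix.transpose_apply] at h
    exact h
  have h10 : G j1 j0 = 1 := by rw [hsym', h01]
  have hj01 : j0 ≠ j1 := by
    intro h
    rw [h, hdiag] at h01
    exact zero_ne_one h01
  obtain ⟨w, hw⟩ : ∃ w, w = TensTwo.w0 m hq := ⟨_, rfl⟩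
  obtain ⟨r, hr⟩ : ∃ r, r = r0 G j0 j1 h2 h01 := ⟨_, rfl⟩
  obtain ⟨s, hs⟩ : ∃ s, s = s0 F m := ⟨_, rfl⟩
  have hwX : w ∈ X0 G := by rw [hw]; exact w_mem G hq hsym halt
  have hrX : r ∈ X0 G := by rw [hr]; exact r_mem G j0 j1 h2 h01
  have hsX : s ∈ X0 G := by rw [hs]; exact s_mem G hsym
  have hrinv : r⁻¹ = r := by
    apply inv_eq_of_mul_eq_one_right
    rw [hr]
    exact r0_sq G j0 j1 h2 h01
  have hsinv : s⁻¹ = s := by
    apply inv_eq_of_mul_eq_one_right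
    rw [hs]
    exact s0_sq
  have wp : ∀ a b : Fin m → F,
      (w : Matrix (Fin 2 × Fin m) (Fin 2 × Fin m) F) *ᵥ pr a b = pr b (a + b) := by
    intro a b
    rw [hw]
    exact w_pr hq a b
  have wip : ∀ a b : Fin m → F,
      ((w⁻¹ : GL (Fin 2 × Fin m) F) : Matrix (Fin 2 × Fin m) (Fin 2 × Fin m) F) *ᵥ pr a b =
        pr (a + b) a := by
    intro a b
    rw [hw]
    exact winv_pr hq a b
  have sp : ∀ a b : Fin m → F,
      (s : Matrix (Fin 2 × Fin m) (Fin 2 × Fin m) F) *ᵥ pr a b = pr b a := by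
    intro a b
    rw [hs]
    exact s_pr a b
  have rp : ∀ a b : Fin m → F,
      (r : Matrix (Fin 2 × Fin m) (Fin 2 × Fin m) F) *ᵥ pr a b =
        pr (a + bt G j0 j1 a b • Pi.single j0 1) (b + bt G j0 j1 a b • Pi.single j1 1) := by
    intro a b
    rw [hr]
    exact r_pr G j0 j1 h2 h01 a b
  -- values of the functional
  have v1 : bt G j0 j1 (Pi.single j1 1) 0 = 0 := by
    unfold bt
    rw [ee, hdiag, Matrix.mulVec_zero, dotProduct_zero, add_zero]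
  have v2 : bt G j0 j1 0 (Pi.single j1 1) = 1 := by
    unfold bt
    rw [zero_dotProduct, ee, h01, zero_add]
  have v3 : bt G j0 j1 (Pi.single j1 1) (Pi.single j0 1 + Pi.single j1 1) = 1 := by
    unfold bt
    rw [Matrix.mulVec_add, dotProduct_add, ee, ee, ee, hdiag, hdiag, h01, zero_add, zero_add]
  have v4 : bt G j0 j1 (Pi.single j1 1) (Pi.single j0 1) = 0 := by
    unfold bt
    rw [ee, ee, hdiag, hdiag, add_zero]
  have v5 : bt G j0 j1 (Pi.single j0 1) (Pi.single j1 1) = 0 := by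
    unfold bt
    rw [ee, h01]
    exact h2
  have v6 : bt G j0 j1 (Pi.single j0 1 + Pi.single j1 1) (Pi.single j1 1) = 0 := by
    unfold bt
    rw [add_dotProduct, ee, ee, hdiag, h01, add_zero]
    exact h2
  -- the commutation identity
  have hWW : ∀ y : Fin 2 × Fin m → F,
      (w : Matrix (Fin 2 × Fin m) (Fin 2 × Fin m) F) *ᵥ
        ((w : Matrix (Fin 2 × Fin m) (Fin 2 × Fin m) F) *ᵥ y) =
        (w : Matrix (Fin 2 × Fin m) (Fin 2 × Fin m) F) *ᵥ y + y := by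
    intro y
    obtain ⟨a, b, rfl⟩ : ∃ a b, y = pr a b := ⟨_, _, (pr_eta y).symm⟩
    rw [wp, wp, pr_add]
    congr 1
    · exact add_comm a b
    · abel
  have hgrp : r * w * r * w = w * r * w * r := by
    apply Units.ext
    apply Matrix.mulVec_injective
    funext x
    simp only [Units.val_mul, ← Matrix.mulVec_mulVec]
    refine rwrw h2 (fun y => (w : Matrix (Fin 2 × Fin m) (Fin 2 × Fin m) F) *ᵥ y)
      (fun y => nu G j0 j1 ⬝ᵥ y) (zv F j0 j1)
      ((w : Matrix (Fin 2 × Fin m) (Fin 2 × Fin m) F) *ᵥ zv F j0 j1)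
      (fun x y => Matrix.mulVec_add _ _ _) (fun t x => Matrix.mulVec_smul _ _ _)
      (fun x y => dotProduct_add _ _ _) (fun t x => by rw [dotProduct_smul, smul_eq_mul])
      rfl ?_ hWW ?_ (fun y => (r : Matrix (Fin 2 × Fin m) (Fin 2 × Fin m) F) *ᵥ y) ?_ x
    · show (w : Matrix (Fin 2 × Fin m) (Fin 2 × Fin m) F) *ᵥ
        ((w : Matrix (Fin 2 × Fin m) (Fin 2 × Fin m) F) *ᵥ zv F j0 j1) = _
      rw [hWW, add_comm]
    · show nu G j0 j1 ⬝ᵥ ((w : Matrix (Fin 2 × Fin m) (Fin 2 × Fin m) F) *ᵥ zv F j0 j1) = 1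
      unfold zv
      rw [wp, nu_dot, v3]
    · intro y
      show (r : Matrix (Fin 2 × Fin m) (Fin 2 × Fin m) F) *ᵥ y = _
      rw [hr]
      exact DecStab.rk_mulVec _ _ _ _
  have hgw : ⁅r, w⁆ * w = w * ⁅r, w⁆ := by
    rw [commutatorElement_def, hrinv]
    calc r * w * r * w⁻¹ * w = r * w * r := by group
      _ = (r * w * r * w) * w⁻¹ := by group
      _ = (w * r * w * r) * w⁻¹ := by rw [hgrp]
      _ = w * (r * w * r * w⁻¹) := by group
  have gp : ∀ a b : Fin m → F,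
      ((⁅r, w⁆ : GL (Fin 2 × Fin m) F) : Matrix (Fin 2 × Fin m) (Fin 2 × Fin m) F) *ᵥ pr a b =
        (r : Matrix (Fin 2 × Fin m) (Fin 2 × Fin m) F) *ᵥ
          ((w : Matrix (Fin 2 × Fin m) (Fin 2 × Fin m) F) *ᵥ
            ((r : Matrix (Fin 2 × Fin m) (Fin 2 × Fin m) F) *ᵥ
              (((w⁻¹ : GL (Fin 2 × Fin m) F) : Matrix (Fin 2 × Fin m) (Fin 2 × Fin m) F) *ᵥ
                pr a b))) := by
    intro a b
    rw [commutatorElement_def, hrinv]
    simp only [Units.val_mul, ← Matrix.mulVec_mulVec]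
  have hp : ∀ a b : Fin m → F,
      ((⁅r, s⁆ : GL (Fin 2 × Fin m) F) : Matrix (Fin 2 × Fin m) (Fin 2 × Fin m) F) *ᵥ pr a b =
        (r : Matrix (Fin 2 × Fin m) (Fin 2 × Fin m) F) *ᵥ
          ((s : Matrix (Fin 2 × Fin m) (Fin 2 × Fin m) F) *ᵥ
            ((r : Matrix (Fin 2 × Fin m) (Fin 2 × Fin m) F) *ᵥ
              ((s : Matrix (Fin 2 × Fin m) (Fin 2 × Fin m) F) *ᵥ pr a b))) := by
    intro a b
    rw [commutatorElement_def, hrinv, hsinv]
    simp only [Units.val_mul, ← Matrix.mulVec_mulVec]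
  have h_fix : ∀ a b : Fin m → F, bt G j0 j1 b a = 0 → bt G j0 j1 a b = 0 →
      ((⁅r, s⁆ : GL (Fin 2 × Fin m) F) : Matrix (Fin 2 × Fin m) (Fin 2 × Fin m) F) *ᵥ pr a b =
        pr a b := by
    intro a b h₁ h₂
    rw [hp, sp, rp, h₁, zero_smul, zero_smul, add_zero, add_zero, sp, rp, h₂, zero_smul,
      zero_smul, add_zero, add_zero]
  have h_one : ∀ a b : Fin m → F, bt G j0 j1 b a = 0 → bt G j0 j1 a b = 1 →
      ((⁅r, s⁆ : GL (Fin 2 × Fin m) F) : Matrix (Fin 2 × Fin m) (Fin 2 × Fin m) F) *ᵥ pr a b =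
        pr (a + Pi.single j0 1) (b + Pi.single j1 1) := by
    intro a b h₁ h₂
    rw [hp, sp, rp, h₁, zero_smul, zero_smul, add_zero, add_zero, sp, rp, h₂, one_smul,
      one_smul]
  have hcol : ∀ (k : GL (Fin 2 × Fin m) F) (p q : Fin 2 × Fin m),
      (k : Matrix (Fin 2 × Fin m) (Fin 2 × Fin m) F) p q =
        ((k : Matrix (Fin 2 × Fin m) (Fin 2 × Fin m) F) *ᵥ Pi.single q 1) p := by
    intro k p q
    rw [Matrix.mulVec_single_one]
    rfl
  -- the first column computation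
  have hg1 : ((⁅r, w⁆ : GL (Fin 2 × Fin m) F) : Matrix (Fin 2 × Fin m) (Fin 2 × Fin m) F) *ᵥ
      pr 0 (Pi.single j1 1) = pr (Pi.single j0 1) 0 := by
    rw [gp, wip, zero_add, rp, v1, zero_smul, zero_smul, add_zero, add_zero, wp, add_zero, rp, v2,
      one_smul, one_smul, zero_add, hvv]
  have hg2 : (((⁅r, w⁆ : GL (Fin 2 × Fin m) F) : Matrix (Fin 2 × Fin m) (Fin 2 × Fin m) F) *ᵥ
      pr 0 (Pi.single j2 1)) (1, j2) = 1 := by
    rw [gp, wip, zero_add, rp, wp, rp, pr_one]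
    simp [Pi.single_apply, h20, h21]
  have hgK : ⁅r, w⁆ ∉ Cfsg.Geo.kroneckerSubgroup 2 m F := by
    rintro ⟨A, B, hAB⟩
    have e1 := hcol ⁅r, w⁆ (0, j0) (1, j1)
    have e2 := hcol ⁅r, w⁆ (1, j0) (1, j1)
    have e3 := hcol ⁅r, w⁆ (1, j2) (1, j2)
    rw [single_one_eq, hg1, pr_zero, hAB, Matrix.kroneckerMap_apply, Pi.single_eq_same] at e1
    rw [single_one_eq, hg1, pr_one, hAB, Matrix.kroneckerMap_apply, Pi.zero_apply] at e2
    rw [single_one_eq, hg2, hAB, Matrix.kroneckerMap_apply] at e3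
    have hB : (B : Matrix (Fin m) (Fin m) F) j0 j1 ≠ 0 := by
      intro h
      rw [h, mul_zero] at e1
      exact zero_ne_one e1
    have hA : (A : Matrix (Fin 2) (Fin 2) F) 1 1 = 0 := by
      rcases mul_eq_zero.1 e2 with h | h
      · exact h
      · exact absurd h hB
    rw [hA, zero_mul] at e3
    exact zero_ne_one e3
  -- the second element
  obtain ⟨c, hc⟩ : ∃ c : Fin m → F,
      c = Pi.single j2 1 + G j1 j2 • Pi.single j0 1 + G j0 j2 • Pi.single j1 1 := ⟨_, rfl⟩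
  have hc2 : c j2 = 1 := by
    rw [hc]
    simp [Pi.single_apply, h20, h21]
  have v7 : bt G j0 j1 c 0 = 0 := by
    unfold bt
    rw [hc, Matrix.mulVec_zero, dotProduct_zero, add_zero, add_dotProduct, add_dotProduct,
      smul_dotProduct, smul_dotProduct, ee, ee, ee, hdiag, h01, hsym' j2 j1, smul_eq_mul,
      smul_eq_mul]
    linear_combination G j1 j2 * h2
  have v8 : bt G j0 j1 0 c = 0 := by
    unfold bt
    rw [hc, zero_dotProduct, zero_add, Matrix.mulVec_add, Matrix.mulVec_add, Matrix.mulVec_smul,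
      Matrix.mulVec_smul, dotProduct_add, dotProduct_add, dotProduct_smul, dotProduct_smul, ee, ee,
      ee, hdiag, h01, smul_eq_mul, smul_eq_mul]
    linear_combination G j0 j2 * h2
  have hhN : ⁅r, s⁆ ∉ Subgroup.normalizer ({w, w⁻¹} : Set (GL (Fin 2 × Fin m) F)) := by
    intro hmem
    rcases TensTwo.of_mem_normalizer_pair _ _ hmem with hcm | hcm
    · have e := congrArg (fun k : GL (Fin 2 × Fin m) F =>
        (k : Matrix (Fin 2 × Fin m) (Fin 2 × Fin m) F) *ᵥ pr (Pi.single j0 1) (Pi.single j1 1)) hcm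
      simp only [Units.val_mul, ← Matrix.mulVec_mulVec] at e
      rw [wp, h_one _ _ v6 v3, h_fix _ _ v4 v5, wp] at e
      have e' := congrFun (pr_inj e).1 j0
      simp [Pi.single_apply, hj01] at e'
    · have e := congrArg (fun k : GL (Fin 2 × Fin m) F =>
        (k : Matrix (Fin 2 × Fin m) (Fin 2 × Fin m) F) *ᵥ pr c 0) hcm
      simp only [Units.val_mul, ← Matrix.mulVec_mulVec] at e
      rw [wp, add_zero, h_fix _ _ v7 v8, h_fix _ _ v8 v7, wip, add_zero] at e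
      have e' := congrFun (pr_inj e).1 j2
      rw [hc2] at e'
      exact zero_ne_one e'
  refine ⟨Subgroup.normalizer ({w, w⁻¹} : Set (GL (Fin 2 × Fin m) F)) ⊓ ⁅X0 G, X0 G⁆, ?_, ?_⟩
  · refine lt_of_le_of_ne (inf_le_inf_right _ ?_) ?_
    · rw [hw]
      exact TensTwo.kron_le m hq
    · intro h
      have hmem : ⁅r, w⁆ ∈ Subgroup.normalizer ({w, w⁻¹} : Set (GL (Fin 2 × Fin m) F)) ⊓
          ⁅X0 G, X0 G⁆ :=
        ⟨TensTwo.mem_normalizer_pair _ _ (Or.inl hgw), Subgroup.commutator_mem_commutator hrX hwX⟩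
      rw [← h] at hmem
      exact hgK hmem.1
  · refine lt_of_le_of_ne inf_le_right ?_
    intro h
    have hmem : ⁅r, s⁆ ∈ ⁅X0 G, X0 G⁆ := Subgroup.commutator_mem_commutator hrX hsX
    rw [← h] at hmem
    exact hhN hmem.1

end main

section final

variable [Fintype F]

theorem main (hq : Fintype.card F = 2) {ι : Type} [Fintype ι] [DecidableEq ι]
    (Q : (ι → F) → F) (n₂ : ℕ) (h2n : 2 < n₂)
    (e : ι ≃ Fin 2 × Fin n₂) (P : Matrix.GeneralLinearGroup ι F)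
    (f₁ : (Fin 2 → F) → (Fin 2 → F) → F) (f₂ : (Fin n₂ → F) → (Fin n₂ → F) → F)
    (hf₁ : Cfsg.Geo.IsSymplecticForm f₁) (hf₂ : Cfsg.Geo.IsSymplecticForm f₂)
    (hT : Cfsg.Geo.IsTensorFormStructure id (QuadraticMap.polar Q) f₁ f₂ e P)
    (hpure : ∀ (x₁ : Fin 2 → F) (x₂ : Fin n₂ → F),
      Q (Matrix.mulVec (P : Matrix ι ι F) ((fun a : Fin 2 × Fin n₂ => x₁ a.1 * x₂ a.2) ∘ e)) = 0) :
    ∃ K : Subgroup (Matrix.GeneralLinearGroup ι F),
      Cfsg.Geo.tensorProductSubgroup 2 n₂ e P ⊓ Cfsg.Geo.omegaGL Q < K ∧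
        K < Cfsg.Geo.omegaGL Q := by
  classical
  have h2 := TensTwo.two_eq_zero hq
  obtain ⟨c, hc0, hc⟩ := hT
  obtain ⟨M, M', h1, h2', hMv, hTeq⟩ := TensSymp.tens_eq e P (1 : Matrix (Fin 2) (Fin 2) F) 1
    (1 : Matrix (Fin n₂) (Fin n₂) F) 1 (Matrix.one_mul 1) (Matrix.one_mul 1) (Matrix.one_mul 1)
    (Matrix.one_mul 1)
  have hMv' : ∀ x : Fin 2 × Fin n₂ → F, M *ᵥ x = (P : Matrix ι ι F) *ᵥ (x ∘ e) := by
    intro x
    rw [hMv, Matrix.one_kronecker_one, Matrix.one_mulVec]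
  obtain ⟨G₁, hG₁⟩ : ∃ G₁, G₁ = Cfsg.Geo.gramMatrix f₁ := ⟨_, rfl⟩
  obtain ⟨G₂, hG₂⟩ : ∃ G₂, G₂ = Cfsg.Geo.gramMatrix f₂ := ⟨_, rfl⟩
  have hneg : ∀ t : F, -t = t := by
    intro t
    linear_combination (-t) * h2
  have hsym : G₂ᵀ = G₂ := by
    ext a b
    rw [Matrix.transpose_apply, hG₂]
    show f₂ _ _ = f₂ _ _
    rw [hf₂.skew, hneg]
  have halt : ∀ a : Fin n₂ → F, a ⬝ᵥ (G₂ *ᵥ a) = 0 := by
    intro a
    rw [← TensSymp.fog_dot, hG₂]
    exact (TensSymp.b_gram hf₂.bilinear a a).symm.trans (hf₂.alternating a)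
  have hp0 : ∀ a : Fin n₂ → F, Q (M *ᵥ pr a 0) = 0 := by
    intro a
    have e1 : pr a 0 = fun p : Fin 2 × Fin n₂ => (Pi.single 0 1 : Fin 2 → F) p.1 * a p.2 := by
      funext ⟨i, j⟩
      rcases TensUnit.fin2 i with rfl | rfl
      · show a j = (Pi.single 0 1 : Fin 2 → F) 0 * a j
        simp
      · show (0 : F) = (Pi.single 0 1 : Fin 2 → F) 1 * a j
        simp
    rw [hMv', e1]
    exact hpure _ _
  have hp1 : ∀ b : Fin n₂ → F, Q (M *ᵥ pr 0 b) = 0 := by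
    intro b
    have e1 : pr 0 b = fun p : Fin 2 × Fin n₂ => (Pi.single 1 1 : Fin 2 → F) p.1 * b p.2 := by
      funext ⟨i, j⟩
      rcases TensUnit.fin2 i with rfl | rfl
      · show (0 : F) = (Pi.single 1 1 : Fin 2 → F) 0 * b j
        simp
      · show b j = (Pi.single 1 1 : Fin 2 → F) 1 * b j
        simp
    rw [hMv', e1]
    exact hpure _ _
  have hQM : ∀ a b : Fin n₂ → F, Q (M *ᵥ pr a b) = (c * G₁ 0 1) * (a ⬝ᵥ (G₂ *ᵥ b)) := by
    intro a b
    have hsplit : pr a b = pr a 0 + pr 0 b := by rw [pr_add, add_zero, zero_add]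
    have hpol := hc (pr a 0) (pr 0 b)
    rw [← hMv', ← hMv'] at hpol
    unfold QuadraticMap.polar at hpol
    rw [← Matrix.mulVec_add, ← hsplit, hp0, hp1, sub_zero, sub_zero] at hpol
    rw [hpol, TensSymp.fog_dot, ← hG₁, ← hG₂, kron_pr, pr_dot]
    simp only [Matrix.mulVec_zero, smul_zero, zero_add, zero_dotProduct, add_zero,
      dotProduct_smul, smul_eq_mul]
    ring
  have hG01 : G₁ 0 1 ≠ 0 := by
    intro h0
    have hv : (Pi.single (0 : Fin 2) (1 : F) : Fin 2 → F) ≠ 0 := by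
      intro h
      have h' := congrFun h 0
      simp at h'
    obtain ⟨x, hx⟩ := (hf₁.nondegenerate _ hv).2
    apply hx
    rw [TensSymp.b_gram hf₁.bilinear, ← hG₁]
    have h00 : G₁ 0 0 = 0 := by
      rw [hG₁]
      exact hf₁.alternating _
    simp [Fin.sum_univ_two, h00, h0]
  have hn0 : 0 < n₂ := by omega
  obtain ⟨j1, hj1⟩ : ∃ j1, G₂ ⟨0, hn0⟩ j1 ≠ 0 := by
    by_contra hcon
    push Not at hcon
    have hv : (Pi.single (⟨0, hn0⟩ : Fin n₂) (1 : F) : Fin n₂ → F) ≠ 0 := by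
      intro h
      have h' := congrFun h ⟨0, hn0⟩
      simp at h'
    obtain ⟨x, hx⟩ := (hf₂.nondegenerate _ hv).2
    apply hx
    rw [TensSymp.b_gram hf₂.bilinear, ← hG₂]
    apply Finset.sum_eq_zero
    intro a _
    apply Finset.sum_eq_zero
    intro b _
    by_cases ha : a = ⟨0, hn0⟩
    · rw [ha, hcon b, mul_zero, zero_mul]
    · rw [Pi.single_apply, if_neg ha, zero_mul, zero_mul]
  have h01 : G₂ ⟨0, hn0⟩ j1 = 1 := by
    rcases TensTwo.zero_or_one hq (G₂ ⟨0, hn0⟩ j1) with h | h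
    · exact absurd h hj1
    · exact h
  obtain ⟨j2, hj2⟩ : ∃ j2 : Fin n₂, j2 ≠ ⟨0, hn0⟩ ∧ j2 ≠ j1 := by
    by_contra hcon
    push Not at hcon
    have hsub : (Finset.univ : Finset (Fin n₂)) ⊆ {⟨0, hn0⟩, j1} := by
      intro j _
      by_cases hj : j = ⟨0, hn0⟩
      · rw [hj]
        exact Finset.mem_insert_self _ _
      · rw [hcon j hj]
        exact Finset.mem_insert_of_mem (Finset.mem_singleton_self _)
    have h3 := Finset.card_le_card hsub
    rw [Finset.card_univ, Fintype.card_fin] at h3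
    have h4 := Finset.card_le_two (a := (⟨0, hn0⟩ : Fin n₂)) (b := j1)
    omega
  have hQM' : ∀ x : Fin 2 × Fin n₂ → F, Q (M *ᵥ x) = (c * G₁ 0 1) * q0 G₂ x := by
    intro x
    obtain ⟨a, b, rfl⟩ : ∃ a b, x = pr a b := ⟨_, _, (pr_eta x).symm⟩
    rw [hQM, q0_pr]
  have hXiff : ∀ g : GL (Fin 2 × Fin n₂) F, g ∈ X0 G₂ ↔
      DecStab.conjHom M M' h1 h2' g ∈ Cfsg.isometryGroup F Q := by
    intro g
    exact TensSymp.pres_iff M M' h1 h2' (fun u _ => Q u) (fun u _ => q0 G₂ u)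
      (c * G₁ 0 1) (mul_ne_zero hc0 hG01) (fun x _ => hQM' x) g
  obtain ⟨K0, hK0a, hK0b⟩ := coord_main hq G₂ hsym halt ⟨0, hn0⟩ j1 j2 h01 hj2.1 hj2.2
  rw [DiagOrth.omega_eq]
  refine TensUnit.transport_gen (DecStab.conjHom M M' h1 h2')
    (DecStab.conjHom_injective M M' h1 h2') (DecStab.conjHom_surjective M M' h1 h2')
    (Cfsg.Geo.kroneckerSubgroup 2 n₂ F) ⁅X0 G₂, X0 G₂⁆ K0 _ _ hTeq ?_ hK0a hK0b
  intro g
  exact DiagOrth.comm_transport _ (DecStab.conjHom_injective M M' h1 h2')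
    (DecStab.conjHom_surjective M M' h1 h2') _ _ hXiff g

end final

end Cfsg.Agent.Helper18.TensQuad
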